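import Mathlib
import Cfsg.Agent.Lib.Helper47.QuadDefs

/-!
# S2674 piece CLASSIFY (for helper47): classification of nondegenerate quadratic spaces of even
dimension over a finite field by their type (value counts), given the counting inputs as
hypotheses.
-/

set_option autoImplicit false

namespace Cfsg.Agent.Lib.Helper26.QuadClassify

open Cfsg.Agent.Lib.Helper47 Module

universe u

section split

variable {F : Type*} [Field F] {V : Type*} [AddCommGroup V] [Module F V]
  {Q : V → F} {B : V → V → F}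

/-- a hyperbolic partner of a singular vector -/
theorem exists_partner (hQ : IsQuad Q B) (hnd : Nondeg B) (e : V) (he : e ≠ 0) (hQe : Q e = 0) :
    ∃ f : V, Q f = 0 ∧ B e f = 1 := by
  have hB := hQ.form
  obtain ⟨y, hy⟩ : ∃ y, B e y ≠ 0 := by
    by_contra h
    exact he (hnd e (fun y => not_not.mp (fun hy => h ⟨y, hy⟩)))
  have h1 : B e ((B e y)⁻¹ • y) = 1 := by
    rw [hB.smul_right, RingHom.id_apply, inv_mul_cancel₀ hy]
  have h1' : B ((B e y)⁻¹ • y) e = 1 := by
    rw [sym_comm hB e ((B e y)⁻¹ • y)]; exact h1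
  refine ⟨(B e y)⁻¹ • y - Q ((B e y)⁻¹ • y) • e, ?_, ?_⟩
  · rw [hQ.sub, hQ.smul (Q ((B e y)⁻¹ • y)) e, hQe, hB.smul_right, RingHom.id_apply, h1']
    ring
  · rw [hB.sub_right, h1, hB.smul_right, RingHom.id_apply, hQ.self, hQe]
    ring

/-- splitting off a hyperbolic plane -/
theorem exists_split [FiniteDimensional F V] (hQ : IsQuad Q B) (hnd : Nondeg B) (e : V)
    (he : e ≠ 0) (hQe : Q e = 0) :
    ∃ (W : Submodule F V) (φ : V ≃ₗ[F] (F × F) × W),
      (∀ v, Q v = (φ v).1.1 * (φ v).1.2 + Q ((φ v).2 : V)) ∧ Nondeg (resForm B W) ∧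
        finrank F W + 2 = finrank F V := by
  have hB := hQ.form
  obtain ⟨f, hQf, hef⟩ := exists_partner hQ hnd e he hQe
  have hfe : B f e = 1 := by rw [sym_comm hB e f]; exact hef
  have hee : B e e = 0 := by rw [hQ.self, hQe, mul_zero]
  have hff : B f f = 0 := by rw [hQ.self, hQf, mul_zero]
  let W : Submodule F V := LinearMap.ker (hB.lin e) ⊓ LinearMap.ker (hB.lin f)
  have hW : ∀ w : V, w ∈ W ↔ B w e = 0 ∧ B w f = 0 := by
    intro w
    simp only [W, Submodule.mem_inf, LinearMap.mem_ker, IsSForm.lin_apply]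
  have hdec : ∀ v : V, v - B v f • e - B v e • f ∈ W := by
    intro v
    rw [hW]
    constructor
    · rw [hB.sub_left, hB.sub_left, hB.smul_left, hB.smul_left, hee, hfe]; ring
    · rw [hB.sub_left, hB.sub_left, hB.smul_left, hB.smul_left, hef, hff]; ring
  have key1 : ∀ (α β : F) (w : V), w ∈ W → B (α • e + β • f + w) f = α := by
    intro α β w hw
    rw [hB.add_left, hB.add_left, hB.smul_left, hB.smul_left, hef, hff, ((hW w).1 hw).2]; ring
  have key2 : ∀ (α β : F) (w : V), w ∈ W → B (α • e + β • f + w) e = β := by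
    intro α β w hw
    rw [hB.add_left, hB.add_left, hB.smul_left, hB.smul_left, hee, hfe, ((hW w).1 hw).1]; ring
  have hQsplit : ∀ (α β : F) (w : V), w ∈ W → Q (α • e + β • f + w) = α * β + Q w := by
    intro α β w hw
    obtain ⟨hwe, hwf⟩ := (hW w).1 hw
    have hew : B e w = 0 := by rw [sym_comm hB w e]; exact hwe
    have hfw : B f w = 0 := by rw [sym_comm hB w f]; exact hwf
    simp only [hQ.polar, hQ.smul, hB.smul_left, hB.smul_right, hB.add_left, RingHom.id_apply,
      hQe, hQf, hef, hew, hfw]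
    ring
  let φ : V ≃ₗ[F] (F × F) × W :=
    { toFun := fun v => ((B v f, B v e), ⟨v - B v f • e - B v e • f, hdec v⟩)
      map_add' := fun v v' => by
        apply Prod.ext
        · apply Prod.ext
          · exact hB.add_left v v' f
          · exact hB.add_left v v' e
        · apply Subtype.ext
          show v + v' - B (v + v') f • e - B (v + v') e • f
            = (v - B v f • e - B v e • f) + (v' - B v' f • e - B v' e • f)
          rw [hB.add_left, hB.add_left, add_smul, add_smul]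
          abel
      map_smul' := fun c v => by
        apply Prod.ext
        · apply Prod.ext
          · exact hB.smul_left c v f
          · exact hB.smul_left c v e
        · apply Subtype.ext
          show c • v - B (c • v) f • e - B (c • v) e • f
            = c • (v - B v f • e - B v e • f)
          rw [hB.smul_left, hB.smul_left, smul_sub, smul_sub, mul_smul, mul_smul]
      invFun := fun x => x.1.1 • e + x.1.2 • f + (x.2 : V)
      left_inv := fun v => by
        show B v f • e + B v e • f + (v - B v f • e - B v e • f) = v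
        abel
      right_inv := fun x => by
        obtain ⟨⟨α, β⟩, ⟨w, hw⟩⟩ := x
        apply Prod.ext
        · apply Prod.ext
          · exact key1 α β w hw
          · exact key2 α β w hw
        · apply Subtype.ext
          show α • e + β • f + w - B (α • e + β • f + w) f • e - B (α • e + β • f + w) e • f = w
          rw [key1 α β w hw, key2 α β w hw]
          abel }
  have hφ1 : ∀ v, (φ v).1.1 = B v f := fun v => rfl
  have hφ2 : ∀ v, (φ v).1.2 = B v e := fun v => rfl
  have hφ3 : ∀ v, ((φ v).2 : V) = v - B v f • e - B v e • f := fun v => rfl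
  refine ⟨W, φ, fun v => ?_, ?_, ?_⟩
  · rw [hφ1, hφ2, hφ3, ← hQsplit (B v f) (B v e) _ (hdec v)]
    congr 1
    abel
  · intro w hw
    apply Subtype.ext
    apply hnd
    intro v
    have hv : v = B v f • e + B v e • f + (v - B v f • e - B v e • f) := by abel
    obtain ⟨hwe, hwf⟩ := (hW w).1 w.2
    have h3 : B (w : V) (v - B v f • e - B v e • f) = 0 := hw ⟨_, hdec v⟩
    rw [hv, hB.add_right, hB.add_right, hB.smul_right, hB.smul_right, hwe, hwf, h3]
    simp
  · have h := φ.finrank_eq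
    rw [Module.finrank_prod, Module.finrank_prod, Module.finrank_self] at h
    omega

/-- a plane with a singular vector is hyperbolic -/
theorem plane_hyp [FiniteDimensional F V] (hQ : IsQuad Q B) (hnd : Nondeg B)
    (hdim : finrank F V = 2) (e : V) (he : e ≠ 0) (hQe : Q e = 0) :
    ∃ χ : V ≃ₗ[F] F × F, ∀ v, Q v = (χ v).1 * (χ v).2 := by
  obtain ⟨W, φ, hφ, -, hfr⟩ := exists_split hQ hnd e he hQe
  have hW0 : finrank F W = 0 := by omega
  have : Subsingleton W := Module.finrank_zero_iff.mp hW0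
  haveI : Unique W := uniqueOfSubsingleton 0
  refine ⟨φ.trans LinearEquiv.prodUnique, fun v => ?_⟩
  have h0 : ((φ v).2 : V) = 0 := by rw [Subsingleton.elim (φ v).2 0]; rfl
  rw [hφ v, h0, hQ.map_zero, add_zero]
  rfl

/-- `Q` in the coordinates of an isomorphism with `F × F` -/
theorem plane_coord (hQ : IsQuad Q B) (χ : V ≃ₗ[F] F × F) (v : V) :
    Q v = (χ v).1 ^ 2 * Q (χ.symm (1, 0))
      + (χ v).1 * (χ v).2 * B (χ.symm (1, 0)) (χ.symm (0, 1))
      + (χ v).2 ^ 2 * Q (χ.symm (0, 1)) := by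
  have hB := hQ.form
  have hv : v = (χ v).1 • χ.symm (1, 0) + (χ v).2 • χ.symm (0, 1) := by
    rw [← map_smul, ← map_smul, ← map_add, LinearEquiv.eq_symm_apply]
    apply Prod.ext <;> simp
  have h : Q ((χ v).1 • χ.symm (1, 0) + (χ v).2 • χ.symm (0, 1))
      = (χ v).1 ^ 2 * Q (χ.symm (1, 0))
      + (χ v).1 * (χ v).2 * B (χ.symm (1, 0)) (χ.symm (0, 1))
      + (χ v).2 ^ 2 * Q (χ.symm (0, 1)) := by
    rw [hQ.polar, hQ.smul, hQ.smul, hB.smul_left, hB.smul_right, RingHom.id_apply]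
    ring
  rw [← h, ← hv]

end split

section plane

variable {F : Type*} [Field F] [Fintype F] {V : Type*} [AddCommGroup V] [Module F V]
  [FiniteDimensional F V] {Q : V → F} {B : V → V → F}

/-- normal form of an anisotropic plane -/
theorem plane_aniso
    (haniso : ∀ a c : F, IsAniso a c →
      IsTyp (fun v : F × F => v.1 ^ 2 + a * v.1 * v.2 + c * v.2 ^ 2) 0 (-1))
    (hQ : IsQuad Q B) (hdim : finrank F V = 2) (hQ0 : ∀ v, Q v = 0 → v = 0) :
    ∃ (a c : F) (χ : V ≃ₗ[F] F × F), IsAniso a c ∧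
      ∀ v, Q v = (χ v).1 ^ 2 + a * (χ v).1 * (χ v).2 + c * (χ v).2 ^ 2 := by
  have hB := hQ.form
  obtain ⟨χ0⟩ : Nonempty (V ≃ₗ[F] F × F) :=
    ⟨(Module.finBasisOfFinrankEq F V hdim).equivFun.trans (LinearEquiv.finTwoArrow F F)⟩
  have hA : Q (χ0.symm (1, 0)) ≠ 0 := by
    intro h
    have h1 := hQ0 _ h
    rw [LinearEquiv.map_eq_zero_iff] at h1
    exact one_ne_zero (congrArg Prod.fst h1)
  obtain ⟨A, hAdef⟩ : ∃ A, A = Q (χ0.symm (1, 0)) := ⟨_, rfl⟩
  rw [← hAdef] at hA
  obtain ⟨a, ha⟩ : ∃ a, a = B (χ0.symm (1, 0)) (χ0.symm (0, 1)) / A := ⟨_, rfl⟩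
  obtain ⟨c, hc⟩ : ∃ c, c = Q (χ0.symm (0, 1)) / A := ⟨_, rfl⟩
  have hN : ∀ v, Q v = A * ((χ0 v).1 ^ 2 + a * (χ0 v).1 * (χ0 v).2 + c * (χ0 v).2 ^ 2) := by
    intro v
    rw [plane_coord hQ χ0 v, ← hAdef, ha, hc]
    field_simp
  have han : IsAniso a c := by
    intro z1 z2 h
    have h1 : Q (χ0.symm (z1, z2)) = 0 := by
      rw [hN, LinearEquiv.apply_symm_apply]
      show A * (z1 ^ 2 + a * z1 * z2 + c * z2 ^ 2) = 0
      rw [h, mul_zero]
    have h2 := hQ0 _ h1
    rw [LinearEquiv.map_eq_zero_iff] at h2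
    exact ⟨congrArg Prod.fst h2, congrArg Prod.snd h2⟩
  obtain ⟨w, hw⟩ : ∃ w : F × F, w.1 ^ 2 + a * w.1 * w.2 + c * w.2 ^ 2 = A := by
    have h := (haniso a c han).2 A hA
    have hq : (0 : ℤ) < (Fintype.card F : ℤ) := by exact_mod_cast Fintype.card_pos
    have hpos : (0 : ℤ) <
        (Nat.card {v : F × F // v.1 ^ 2 + a * v.1 * v.2 + c * v.2 ^ 2 = A} : ℤ) := by
      rw [h]
      simp only [mul_zero, zero_add, pow_one, pow_zero, mul_one, sub_neg_eq_add]
      linarith
    have hpos' : 0 < Nat.card {v : F × F // v.1 ^ 2 + a * v.1 * v.2 + c * v.2 ^ 2 = A} := by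
      exact_mod_cast hpos
    obtain ⟨⟨w, hw⟩⟩ := (Nat.card_pos_iff.mp hpos').1
    exact ⟨w, hw⟩
  let M : F × F →ₗ[F] F × F :=
    { toFun := fun z => (z.1 * w.1 - c * z.2 * w.2, z.1 * w.2 + z.2 * w.1 + a * z.2 * w.2)
      map_add' := fun z z' => by
        apply Prod.ext
        · show (z + z').1 * w.1 - c * (z + z').2 * w.2
            = (z.1 * w.1 - c * z.2 * w.2) + (z'.1 * w.1 - c * z'.2 * w.2)
          rw [Prod.fst_add, Prod.snd_add]; ring
        · show (z + z').1 * w.2 + (z + z').2 * w.1 + a * (z + z').2 * w.2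
            = (z.1 * w.2 + z.2 * w.1 + a * z.2 * w.2) + (z'.1 * w.2 + z'.2 * w.1 + a * z'.2 * w.2)
          rw [Prod.fst_add, Prod.snd_add]; ring
      map_smul' := fun t z => by
        apply Prod.ext
        · show (t • z).1 * w.1 - c * (t • z).2 * w.2 = t • (z.1 * w.1 - c * z.2 * w.2)
          rw [Prod.smul_fst, Prod.smul_snd, smul_eq_mul, smul_eq_mul, smul_eq_mul]; ring
        · show (t • z).1 * w.2 + (t • z).2 * w.1 + a * (t • z).2 * w.2
            = t • (z.1 * w.2 + z.2 * w.1 + a * z.2 * w.2)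
          rw [Prod.smul_fst, Prod.smul_snd, smul_eq_mul, smul_eq_mul, smul_eq_mul]; ring }
  have hM : ∀ z : F × F, (M z).1 ^ 2 + a * (M z).1 * (M z).2 + c * (M z).2 ^ 2
      = (z.1 ^ 2 + a * z.1 * z.2 + c * z.2 ^ 2) * A := by
    intro z
    rw [← hw]
    show (z.1 * w.1 - c * z.2 * w.2) ^ 2
        + a * (z.1 * w.1 - c * z.2 * w.2) * (z.1 * w.2 + z.2 * w.1 + a * z.2 * w.2)
        + c * (z.1 * w.2 + z.2 * w.1 + a * z.2 * w.2) ^ 2 = _
    ring
  have hMinj : Function.Injective M := by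
    rw [← LinearMap.ker_eq_bot, LinearMap.ker_eq_bot']
    intro z hz
    have h1 := hM z
    rw [hz] at h1
    have h2 : (z.1 ^ 2 + a * z.1 * z.2 + c * z.2 ^ 2) * A = 0 := by
      rw [← h1]
      simp
    have h3 : z.1 ^ 2 + a * z.1 * z.2 + c * z.2 ^ 2 = 0 := by
      rcases mul_eq_zero.mp h2 with h | h
      · exact h
      · exact absurd h hA
    obtain ⟨h4, h5⟩ := han _ _ h3
    exact Prod.ext h4 h5
  refine ⟨a, c, χ0.trans (LinearEquiv.ofInjectiveEndo M hMinj), han, fun v => ?_⟩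
  show Q v = (M (χ0 v)).1 ^ 2 + a * (M (χ0 v)).1 * (M (χ0 v)).2 + c * (M (χ0 v)).2 ^ 2
  rw [hM, hN]
  ring

/-- normal form of a nondegenerate plane -/
theorem plane_nf
    (hhyp : IsTyp (fun x : F × F => x.1 * x.2) 0 1)
    (haniso : ∀ a c : F, IsAniso a c →
      IsTyp (fun v : F × F => v.1 ^ 2 + a * v.1 * v.2 + c * v.2 ^ 2) 0 (-1))
    (hQ : IsQuad Q B) (hnd : Nondeg B) (hdim : finrank F V = 2) :
    (IsTyp Q 0 1 ∧ ∃ χ : V ≃ₗ[F] F × F, ∀ v, Q v = (χ v).1 * (χ v).2) ∨
    (IsTyp Q 0 (-1) ∧ ∃ (a c : F) (χ : V ≃ₗ[F] F × F), IsAniso a c ∧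
      ∀ v, Q v = (χ v).1 ^ 2 + a * (χ v).1 * (χ v).2 + c * (χ v).2 ^ 2) := by
  by_cases h : ∃ e : V, e ≠ 0 ∧ Q e = 0
  · obtain ⟨e, he, hQe⟩ := h
    obtain ⟨χ, hχ⟩ := plane_hyp hQ hnd hdim e he hQe
    refine Or.inl ⟨?_, χ, hχ⟩
    refine IsTyp.of_equiv χ.symm.toEquiv (fun x => ?_) hhyp
    show Q (χ.symm x) = x.1 * x.2
    rw [hχ, LinearEquiv.apply_symm_apply]
  · have hQ0 : ∀ v, Q v = 0 → v = 0 := by
      intro v hv
      by_contra hv0
      exact h ⟨v, hv0, hv⟩
    obtain ⟨a, c, χ, hac, hχ⟩ := plane_aniso haniso hQ hdim hQ0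
    refine Or.inr ⟨?_, a, c, χ, hac, hχ⟩
    refine IsTyp.of_equiv χ.symm.toEquiv (fun x => ?_) (haniso a c hac)
    show Q (χ.symm x) = x.1 ^ 2 + a * x.1 * x.2 + c * x.2 ^ 2
    rw [hχ, LinearEquiv.apply_symm_apply]

end plane

/-- PIECE CLASSIFY -/
theorem quad_classify {F : Type u} [Field F] [Fintype F]
    (hprod : ∀ {V₁ V₂ : Type u} [Finite V₁] [Finite V₂] (Q₁ : V₁ → F) (Q₂ : V₂ → F)
      {k₁ k₂ : ℕ} {ε₁ ε₂ : ℤ}, IsTyp Q₁ k₁ ε₁ → IsTyp Q₂ k₂ ε₂ →
      IsTyp (fun x : V₁ × V₂ => Q₁ x.1 + Q₂ x.2) (k₁ + k₂ + 1) (ε₁ * ε₂))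
    (hhyp : IsTyp (fun x : F × F => x.1 * x.2) 0 1)
    (haniso : ∀ a c : F, IsAniso a c →
      IsTyp (fun v : F × F => v.1 ^ 2 + a * v.1 * v.2 + c * v.2 ^ 2) 0 (-1))
    (hvec : ∀ a c a' c' : F, IsAniso a c → IsAniso a' c' →
      ∃ w₁ w₂ : F, 2 * w₁ + a * w₂ = a' ∧ w₁ ^ 2 + a * w₁ * w₂ + c * w₂ ^ 2 = c')
    (hcw : ∀ (V : Type u) [AddCommGroup V] [Module F V] [FiniteDimensional F V] (Q : V → F)
      (B : V → V → F), IsQuad Q B → 3 ≤ finrank F V → ∃ v : V, v ≠ 0 ∧ Q v = 0) :
    (∀ (k : ℕ) (V : Type u) [AddCommGroup V] [Module F V] [FiniteDimensional F V]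
      (Q : V → F) (B : V → V → F), IsQuad Q B → Nondeg B → finrank F V = 2 * k + 2 →
      IsTyp Q k 1 ∨ IsTyp Q k (-1)) ∧
    (∀ (k : ℕ) (ε : ℤ) (V V' : Type u) [AddCommGroup V] [Module F V]
      [FiniteDimensional F V] [AddCommGroup V'] [Module F V'] [FiniteDimensional F V']
      (Q : V → F) (B : V → V → F) (Q' : V' → F) (B' : V' → V' → F),
      IsQuad Q B → Nondeg B → finrank F V = 2 * k + 2 →
      IsQuad Q' B' → Nondeg B' → finrank F V' = 2 * k + 2 →
      IsTyp Q k ε → IsTyp Q' k ε → ∃ φ : V ≃ₗ[F] V', ∀ v, Q' (φ v) = Q v) := by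
  have key : ∀ k : ℕ,
      (∀ (V : Type u) [AddCommGroup V] [Module F V] [FiniteDimensional F V]
        (Q : V → F) (B : V → V → F), IsQuad Q B → Nondeg B → finrank F V = 2 * k + 2 →
        IsTyp Q k 1 ∨ IsTyp Q k (-1)) ∧
      (∀ (ε : ℤ) (V V' : Type u) [AddCommGroup V] [Module F V]
        [FiniteDimensional F V] [AddCommGroup V'] [Module F V'] [FiniteDimensional F V']
        (Q : V → F) (B : V → V → F) (Q' : V' → F) (B' : V' → V' → F),
        IsQuad Q B → Nondeg B → finrank F V = 2 * k + 2 →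
        IsQuad Q' B' → Nondeg B' → finrank F V' = 2 * k + 2 →
        IsTyp Q k ε → IsTyp Q' k ε → ∃ φ : V ≃ₗ[F] V', ∀ v, Q' (φ v) = Q v) := by
    intro k
    induction k with
    | zero =>
      have hnf : ∀ (V : Type u) [AddCommGroup V] [Module F V] [FiniteDimensional F V]
          (Q : V → F) (B : V → V → F), IsQuad Q B → Nondeg B → finrank F V = 2 * 0 + 2 →
          (IsTyp Q 0 1 ∧ ∃ χ : V ≃ₗ[F] F × F, ∀ v, Q v = (χ v).1 * (χ v).2) ∨
          (IsTyp Q 0 (-1) ∧ ∃ (a c : F) (χ : V ≃ₗ[F] F × F), IsAniso a c ∧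
            ∀ v, Q v = (χ v).1 ^ 2 + a * (χ v).1 * (χ v).2 + c * (χ v).2 ^ 2) :=
        fun V _ _ _ Q B hQ hnd hdim => plane_nf hhyp haniso hQ hnd (by omega)
      constructor
      · intro V _ _ _ Q B hQ hnd hdim
        rcases hnf V Q B hQ hnd hdim with ⟨h, -⟩ | ⟨h, -⟩
        · exact Or.inl h
        · exact Or.inr h
      · intro ε V V' _ _ _ _ _ _ Q B Q' B' hQ hnd hdim hQ' hnd' hdim' hT hT'
        rcases hnf V Q B hQ hnd hdim with ⟨h, χ, hχ⟩ | ⟨h, a, c, χ, hac, hχ⟩
        · rcases hnf V' Q' B' hQ' hnd' hdim' with ⟨h', χ', hχ'⟩ | ⟨h', a', c', χ', hac', hχ'⟩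
          · refine ⟨χ.trans χ'.symm, fun v => ?_⟩
            rw [LinearEquiv.trans_apply, hχ', LinearEquiv.apply_symm_apply, hχ]
          · exfalso
            have e1 : (1 : ℤ) = ε := IsTyp.unique h hT
            have e2 : (-1 : ℤ) = ε := IsTyp.unique h' hT'
            omega
        · rcases hnf V' Q' B' hQ' hnd' hdim' with ⟨h', χ', hχ'⟩ | ⟨h', a', c', χ', hac', hχ'⟩
          · exfalso
            have e1 : (-1 : ℤ) = ε := IsTyp.unique h hT
            have e2 : (1 : ℤ) = ε := IsTyp.unique h' hT'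
            omega
          · obtain ⟨w1, w2, hw1, hw2⟩ := hvec a' c' a c hac' hac
            let T : F × F →ₗ[F] F × F :=
              { toFun := fun z => (z.1 + z.2 * w1, z.2 * w2)
                map_add' := fun z z' => by
                  apply Prod.ext
                  · show (z + z').1 + (z + z').2 * w1 = (z.1 + z.2 * w1) + (z'.1 + z'.2 * w1)
                    rw [Prod.fst_add, Prod.snd_add]; ring
                  · show (z + z').2 * w2 = z.2 * w2 + z'.2 * w2
                    rw [Prod.snd_add]; ring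
                map_smul' := fun t z => by
                  apply Prod.ext
                  · show (t • z).1 + (t • z).2 * w1 = t • (z.1 + z.2 * w1)
                    rw [Prod.smul_fst, Prod.smul_snd, smul_eq_mul, smul_eq_mul, smul_eq_mul]; ring
                  · show (t • z).2 * w2 = t • (z.2 * w2)
                    rw [Prod.smul_snd, smul_eq_mul, smul_eq_mul]; ring }
            have hTN : ∀ z : F × F, (T z).1 ^ 2 + a' * (T z).1 * (T z).2 + c' * (T z).2 ^ 2
                = z.1 ^ 2 + a * z.1 * z.2 + c * z.2 ^ 2 := by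
              intro z
              show (z.1 + z.2 * w1) ^ 2 + a' * (z.1 + z.2 * w1) * (z.2 * w2)
                + c' * (z.2 * w2) ^ 2 = _
              rw [← hw1, ← hw2]
              ring
            have hTinj : Function.Injective T := by
              rw [← LinearMap.ker_eq_bot, LinearMap.ker_eq_bot']
              intro z hz
              have h1 := hTN z
              rw [hz] at h1
              have h3 : z.1 ^ 2 + a * z.1 * z.2 + c * z.2 ^ 2 = 0 := by
                rw [← h1]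
                simp
              obtain ⟨h4, h5⟩ := hac _ _ h3
              exact Prod.ext h4 h5
            refine ⟨(χ.trans (LinearEquiv.ofInjectiveEndo T hTinj)).trans χ'.symm, fun v => ?_⟩
            rw [LinearEquiv.trans_apply, hχ', LinearEquiv.apply_symm_apply,
              LinearEquiv.trans_apply]
            show (T (χ v)).1 ^ 2 + a' * (T (χ v)).1 * (T (χ v)).2 + c' * (T (χ v)).2 ^ 2 = Q v
            rw [hTN, hχ]
    | succ k ih =>
      obtain ⟨ihA, ihI⟩ := ih
      have hsplit : ∀ (V : Type u) [AddCommGroup V] [Module F V] [FiniteDimensional F V]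
          (Q : V → F) (B : V → V → F), IsQuad Q B → Nondeg B →
          finrank F V = 2 * (k + 1) + 2 →
          ∃ (W : Submodule F V) (φ : V ≃ₗ[F] (F × F) × W) (ε : ℤ),
            (∀ v, Q v = (φ v).1.1 * (φ v).1.2 + Q ((φ v).2 : V)) ∧ Nondeg (resForm B W) ∧
            finrank F W = 2 * k + 2 ∧ (ε = 1 ∨ ε = -1) ∧
            IsTyp (fun w : W => Q (w : V)) k ε ∧ IsTyp Q (k + 1) ε := by
        intro V _ _ _ Q B hQ hnd hdim
        obtain ⟨e, he, hQe⟩ := hcw V Q B hQ (by omega)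
        obtain ⟨W, φ, hφ, hndW, hfr⟩ := exists_split hQ hnd e he hQe
        have hfrW : finrank F W = 2 * k + 2 := by omega
        have : Finite W := Module.finite_of_finite F
        have hT : ∀ ε : ℤ, IsTyp (fun w : W => Q (w : V)) k ε → IsTyp Q (k + 1) ε := by
          intro ε hε
          have h1 := hprod (fun x : F × F => x.1 * x.2) (fun w : W => Q (w : V)) hhyp hε
          have e1 : 0 + k + 1 = k + 1 := by omega
          have e2 : (1 : ℤ) * ε = ε := one_mul ε
          rw [e1, e2] at h1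
          refine IsTyp.of_equiv φ.symm.toEquiv (fun x => ?_) h1
          show Q (φ.symm x) = x.1.1 * x.1.2 + Q (x.2 : V)
          rw [hφ (φ.symm x), LinearEquiv.apply_symm_apply]
        rcases ihA W (fun w : W => Q (w : V)) (resForm B W) (hQ.res W) hndW hfrW with h | h
        · exact ⟨W, φ, 1, hφ, hndW, hfrW, Or.inl rfl, h, hT 1 h⟩
        · exact ⟨W, φ, -1, hφ, hndW, hfrW, Or.inr rfl, h, hT (-1) h⟩
      constructor
      · intro V _ _ _ Q B hQ hnd hdim
        obtain ⟨W, φ, ε, -, -, -, hε, -, hT⟩ := hsplit V Q B hQ hnd hdim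
        rcases hε with rfl | rfl
        · exact Or.inl hT
        · exact Or.inr hT
      · intro ε V V' _ _ _ _ _ _ Q B Q' B' hQ hnd hdim hQ' hnd' hdim' hT hT'
        obtain ⟨W, φ, ε₁, hφ, hndW, hfrW, -, hTW, hT1⟩ := hsplit V Q B hQ hnd hdim
        obtain ⟨W', φ', ε₂, hφ', hndW', hfrW', -, hTW', hT2⟩ := hsplit V' Q' B' hQ' hnd' hdim'
        have h1 : ε₁ = ε := IsTyp.unique hT1 hT
        have h2 : ε₂ = ε := IsTyp.unique hT2 hT'
        rw [h1] at hTW
        rw [h2] at hTW'
        obtain ⟨ψ, hψ⟩ := ihI ε W W' (fun w : W => Q (w : V)) (resForm B W)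
          (fun w : W' => Q' (w : V')) (resForm B' W') (hQ.res W) hndW hfrW (hQ'.res W') hndW'
          hfrW' hTW hTW'
        refine ⟨(φ.trans ((LinearEquiv.refl F (F × F)).prodCongr ψ)).trans φ'.symm,
          fun v => ?_⟩
        have h3 := hφ' (φ'.symm (((LinearEquiv.refl F (F × F)).prodCongr ψ) (φ v)))
        rw [LinearEquiv.apply_symm_apply] at h3
        rw [LinearEquiv.trans_apply, LinearEquiv.trans_apply, h3, hφ v]
        simp only [LinearEquiv.prodCongr_apply, LinearEquiv.refl_apply]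
        rw [hψ]
  exact ⟨fun k => (key k).1, fun k => (key k).2⟩

end Cfsg.Agent.Lib.Helper26.QuadClassify
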