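import Mathlib
import Cfsg.Prelude.Def_Solvable

/-!
# Gross's theorem for `p = 2` (S3795): top-level statements

`σ` is a fixed-point-free automorphism of the finite solvable group `G` with
`σ ^ 2 ^ (n + 1) = 1`, and `ψ = σ ^ 2 ^ n`.

* `T2Stmt`: `[G, ψ] ≤ F₂(G)`, in the form: there is a normal `σ`-invariant subgroup `A ⊇ F(G)`
  with `A / F(G)` nilpotent containing all `g⁻¹ ψ(g)`.
* `Cent2Stmt`: the inductive step for a minimal `σ`-invariant normal subgroup `N`: the image of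
  `[G, ψ]` in `G / C_G(N)` is nilpotent.
* `Fit3Stmt`: an `s`-element of `F₂(K)` centralising all `s'`-elements of `F(K)` lies in `F(K)`.
* `Aut3Stmt`: the three-layer key proposition for automorphisms of an elementary abelian group.
-/

set_option autoImplicit false

namespace Cfsg.Agent.Lib.Helper26.Gross2

universe u

/-- `[G, σ ^ 2 ^ n] ≤ F₂(G)` for fixed-point-free `σ` with `σ ^ 2 ^ (n + 1) = 1` -/
def T2Stmt : Prop :=
  ∀ (G : Type u) [Group G] [Finite G], Group.IsSolvable G → ∀ (σ : MulAut G) (n : ℕ),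
    σ ^ 2 ^ (n + 1) = 1 → (∀ g : G, σ g = g → g = 1) →
    ∃ A : Subgroup G, A.Normal ∧ (∀ x ∈ A, σ x ∈ A) ∧ Cfsg.fittingSubgroup G ≤ A ∧
      (∃ k : ℕ, A.lowerCentralSeries k ≤ Cfsg.fittingSubgroup G) ∧
      ∀ g : G, g⁻¹ * (σ ^ 2 ^ n) g ∈ A

/-- the inductive step for a minimal `σ`-invariant normal subgroup `N` -/
def Cent2Stmt : Prop :=
  ∀ (G : Type u) [Group G] [Finite G], Group.IsSolvable G → ∀ (σ : MulAut G) (n : ℕ),
    σ ^ 2 ^ (n + 1) = 1 → (∀ g : G, σ g = g → g = 1) →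
    (∀ (H : Type u) [Group H] [Finite H], Nat.card H < Nat.card G → Group.IsSolvable H →
      ∀ (τ : MulAut H), τ ^ 2 ^ (n + 1) = 1 → (∀ h : H, τ h = h → h = 1) →
      ∃ A : Subgroup H, A.Normal ∧ (∀ x ∈ A, τ x ∈ A) ∧ Cfsg.fittingSubgroup H ≤ A ∧
        (∃ k : ℕ, A.lowerCentralSeries k ≤ Cfsg.fittingSubgroup H) ∧
        ∀ h : H, h⁻¹ * (τ ^ 2 ^ n) h ∈ A) →
    ∀ (N : Subgroup G), N.Normal → N ≠ ⊥ → (∀ x ∈ N, σ x ∈ N) →
      (∀ N₀ : Subgroup G, N₀.Normal → N₀ ≤ N → (∀ x ∈ N₀, σ x ∈ N₀) → N₀ = ⊥ ∨ N₀ = N) →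
      ∃ B : Subgroup G, B.Normal ∧ (∀ x ∈ B, σ x ∈ B) ∧
        (∃ k : ℕ, B.lowerCentralSeries k ≤ Subgroup.centralizer (N : Set G)) ∧
        ∀ g : G, g⁻¹ * (σ ^ 2 ^ n) g ∈ B

/-- an `s`-element of `F₂(K)` which centralises every element of prime power order of `F(K)` for
the primes `q ≠ s` lies in `F(K)` -/
def Fit3Stmt : Prop :=
  ∀ (K : Type u) [Group K] [Finite K] (A : Subgroup K), A.Normal →
    Cfsg.fittingSubgroup K ≤ A →
    (∃ k : ℕ, A.lowerCentralSeries k ≤ Cfsg.fittingSubgroup K) →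
    ∀ (s : ℕ), s.Prime → ∀ c ∈ A, (∃ j : ℕ, c ^ s ^ j = 1) →
      (∀ q : ℕ, q.Prime → q ≠ s → ∀ x ∈ Cfsg.fittingSubgroup K, (∃ j : ℕ, x ^ q ^ j = 1) →
        c * x = x * c) →
      c ∈ Cfsg.fittingSubgroup K

/-- the three-layer key proposition for automorphisms of an elementary abelian `r`-group `N`:
a `q`-group `Q` and an `s`-group `S` of automorphisms, `S` normalising `Q`, both normalised by
`φ` with `φ ^ 2 ^ (n + 1) = 1` acting fixed-point-freely on `N`, `Q`, `S`; then `[S, ψ]`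
centralises `Q` (`ψ = φ ^ 2 ^ n`) -/
def Aut3Stmt : Prop :=
  ∀ (N : Type u) [Group N] [Finite N], (∀ x y : N, x * y = y * x) →
    ∀ (r q s n : ℕ), r.Prime → (∀ x : N, x ^ r = 1) → q.Prime → s.Prime → r ≠ 2 → q ≠ 2 →
    s ≠ 2 → q ≠ r → q ≠ s →
    ∀ (Q S : Subgroup (MulAut N)) (φ : MulAut N), IsPGroup q Q → IsPGroup s S →
      φ ^ 2 ^ (n + 1) = 1 →
      (∀ x ∈ Q, φ * x * φ⁻¹ ∈ Q) → (∀ y ∈ S, φ * y * φ⁻¹ ∈ S) →
      (∀ y ∈ S, ∀ x ∈ Q, y * x * y⁻¹ ∈ Q) →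
      (∀ x ∈ Q, φ * x = x * φ → x = 1) → (∀ y ∈ S, φ * y = y * φ → y = 1) →
      (∀ v : N, φ v = v → v = 1) →
      ∀ y ∈ S, ∀ x ∈ Q, (y⁻¹ * (φ ^ 2 ^ n * y * (φ ^ 2 ^ n)⁻¹)) * x =
        x * (y⁻¹ * (φ ^ 2 ^ n * y * (φ ^ 2 ^ n)⁻¹))

end Cfsg.Agent.Lib.Helper26.Gross2
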