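import Mathlib
import Cfsg.Agent.Lib.Helper26.GrossLin

set_option autoImplicit false
set_option linter.style.haveILetI false
set_option linter.unusedSectionVars false

namespace Cfsg.Agent.Lib.Helper26

section grossHH1

variable {k : Type*} [Field k] {W : Type*} [AddCommGroup W] [Module k W]

/-- the commutant of a set of units of `End W` -/
def grossComm (S : Set (Module.End k W)ˣ) : Submodule k (Module.End k W) where
  carrier := {f | ∀ x ∈ S, (x : Module.End k W) * f = f * (x : Module.End k W)}
  add_mem' := by
    intro f g hf hg x hx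
    rw [mul_add, add_mul, hf x hx, hg x hx]
  zero_mem' := by
    intro x _
    rw [mul_zero, zero_mul]
  smul_mem' := by
    intro c f hf x hx
    rw [mul_smul_comm, smul_mul_assoc, hf x hx]

theorem mem_grossComm (S : Set (Module.End k W)ˣ) (f : Module.End k W) :
    f ∈ grossComm S ↔ ∀ x ∈ S, (x : Module.End k W) * f = f * (x : Module.End k W) := Iff.rfl

/-- nonvanishing of integers coprime to the order of a finite field -/
theorem gross_cast_ne_zero [Finite k] {n : ℕ} (h : n.Coprime (Nat.card k)) : (n : k) ≠ 0 := by
  classical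
  haveI : Fintype k := Fintype.ofFinite k
  intro h0
  have h1 : (Nat.card k : k) = 0 := by
    rw [Nat.card_eq_fintype_card]
    exact FiniteField.cast_card_eq_zero k
  have h2 : IsCoprime (n : ℤ) (Nat.card k : ℤ) := Nat.isCoprime_iff_coprime.mpr h
  obtain ⟨u, v, huv⟩ := h2
  have h3 : ((u * (n : ℤ) + v * (Nat.card k : ℤ) : ℤ) : k) = 1 := by
    rw [huv]
    simp
  push_cast at h3
  rw [h0, h1, mul_zero, mul_zero, add_zero] at h3
  exact zero_ne_one h3

/-- the cyclic action generated by a unit `t` with `t ^ a = 1` -/
noncomputable def grossCyc (t : (Module.End k W)ˣ) (a : ℕ) [NeZero a] (ht : t ^ a = 1) :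
    Multiplicative (ZMod a) →* Module.End k W where
  toFun i := ((t ^ (Multiplicative.toAdd i).val : (Module.End k W)ˣ) : Module.End k W)
  map_one' := by
    show ((t ^ (0 : ZMod a).val : (Module.End k W)ˣ) : Module.End k W) = 1
    rw [ZMod.val_zero, pow_zero, Units.val_one]
  map_mul' := by
    intro i j
    show ((t ^ (Multiplicative.toAdd i + Multiplicative.toAdd j).val : (Module.End k W)ˣ) :
      Module.End k W) = ((t ^ (Multiplicative.toAdd i).val : (Module.End k W)ˣ) : Module.End k W) *
        ((t ^ (Multiplicative.toAdd j).val : (Module.End k W)ˣ) : Module.End k W)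
    rw [← Units.val_mul, ← pow_add]
    congr 1
    rw [ZMod.val_add]
    exact (pow_eq_pow_mod _ ht).symm

theorem grossCyc_apply (t : (Module.End k W)ˣ) (a : ℕ) [NeZero a] (ht : t ^ a = 1)
    (i : Multiplicative (ZMod a)) :
    grossCyc t a ht i = ((t ^ (Multiplicative.toAdd i).val : (Module.End k W)ˣ) :
      Module.End k W) := rfl

end grossHH1

end Cfsg.Agent.Lib.Helper26
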