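import Mathlib
import Cfsg.Prelude.Def_Solvable
import Cfsg.Agent.Lib.Helper26.GrossHH1

set_option autoImplicit false
set_option linter.style.haveILetI false
set_option linter.unusedSectionVars false

namespace Cfsg.Agent.Lib.Helper26

section grossDefs

universe u v

/-- standing arithmetic data for the linear key proposition: `p` odd prime, `q ≠ p` prime,
`p ^ (n + 1) ∣ M₀`, `M₀` prime to `|k|` and `k` contains a primitive `M₀`-th root of unity -/
structure GrossData (k : Type*) [Field k] (p q n M₀ : ℕ) : Prop where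
  hp : p.Prime
  hp2 : p ≠ 2
  hq : q.Prime
  hqp : q ≠ p
  hM : p ^ (n + 1) ∣ M₀
  hM0 : 0 < M₀
  hcop : M₀.Coprime (Nat.card k)
  hroot : ∃ ζ : k, IsPrimitiveRoot ζ M₀

/-- hypotheses of the linear key proposition: a `q`-group `Q` of linear maps normalised by `φ`
with `φ ^ p ^ (n + 1) = 1`, `C_Q(φ) = 1` and `C_V(φ) = 0` -/
structure GrossKP (k : Type*) [Field k] (p q n M₀ : ℕ) (V : Type*) [AddCommGroup V] [Module k V]
    (Q : Subgroup (Module.End k V)ˣ) (φ : (Module.End k V)ˣ) : Prop where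
  hQ : IsPGroup q Q
  hcard : Nat.card Q ∣ M₀
  hφ : φ ^ p ^ (n + 1) = 1
  hnorm : ∀ x ∈ Q, φ * x * φ⁻¹ ∈ Q
  hCQ : ∀ x ∈ Q, φ * x = x * φ → x = 1
  hCV : ∀ v : V, (φ : Module.End k V) v = v → v = 0

/-- a minimal configuration in an abstract group: `ψ = φ ^ p ^ n` centralises every proper
`φ`-invariant subgroup of `Q` but not `Q` -/
structure GrossMin {Γ : Type*} [Group Γ] (p q n : ℕ) (Q : Subgroup Γ) (φ : Γ) : Prop where
  hp : p.Prime
  hq : q.Prime
  hqp : q ≠ p
  hfin : Finite Q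
  hQ : IsPGroup q Q
  hφ : φ ^ p ^ (n + 1) = 1
  hnorm : ∀ x ∈ Q, φ * x * φ⁻¹ ∈ Q
  hCQ : ∀ x ∈ Q, φ * x = x * φ → x = 1
  hsub : ∀ Q₀ : Subgroup Γ, Q₀ ≤ Q → Q₀ ≠ Q → (∀ x ∈ Q₀, φ * x * φ⁻¹ ∈ Q₀) →
    ∀ x ∈ Q₀, φ ^ p ^ n * x = x * φ ^ p ^ n
  hnot : ¬ ∀ x ∈ Q, φ ^ p ^ n * x = x * φ ^ p ^ n

/-- the linear key proposition, as a statement -/
def GrossKPStmt (p : ℕ) : Prop :=
  ∀ (k : Type v) [Field k] [Finite k] (q n M₀ : ℕ), GrossData k p q n M₀ →
    ∀ (V : Type u) [AddCommGroup V] [Module k V] [Module.Finite k V]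
      (Q : Subgroup (Module.End k V)ˣ) (φ : (Module.End k V)ˣ),
      GrossKP k p q n M₀ V Q φ → ∀ x ∈ Q, φ ^ p ^ n * x = x * φ ^ p ^ n

/-- the key proposition for automorphisms of elementary abelian groups, as a statement -/
def GrossAutStmt (p : ℕ) : Prop :=
  ∀ (N : Type u) [Group N] [Finite N], (∀ x y : N, x * y = y * x) →
    ∀ (r q n : ℕ), r.Prime → (∀ x : N, x ^ r = 1) → q.Prime → q ≠ p → q ≠ r → p ≠ r →
    ∀ (Q : Subgroup (MulAut N)) (φ : MulAut N), IsPGroup q Q → φ ^ p ^ (n + 1) = 1 →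
      (∀ x ∈ Q, φ * x * φ⁻¹ ∈ Q) → (∀ x ∈ Q, φ * x = x * φ → x = 1) →
      (∀ v : N, φ v = v → v = 1) → ∀ x ∈ Q, φ ^ p ^ n * x = x * φ ^ p ^ n

/-- `[G, σ ^ p ^ n] ≤ F(G)` for fixed-point-free `σ` with `σ ^ p ^ (n + 1) = 1`, as a statement -/
def GrossTStmt (p : ℕ) : Prop :=
  ∀ (G : Type u) [Group G] [Finite G], Group.IsSolvable G → ∀ (σ : MulAut G) (n : ℕ),
    σ ^ p ^ (n + 1) = 1 → (∀ g : G, σ g = g → g = 1) →
    ∀ g : G, g⁻¹ * (σ ^ p ^ n) g ∈ Cfsg.fittingSubgroup G

/-- the inductive step `[G, σ ^ p ^ n] ≤ C_G(N)` for a minimal `σ`-invariant normal subgroup `N`,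
as a statement -/
def GrossCentStmt (p : ℕ) : Prop :=
  ∀ (G : Type u) [Group G] [Finite G], Group.IsSolvable G → ∀ (σ : MulAut G) (n : ℕ),
    σ ^ p ^ (n + 1) = 1 → (∀ g : G, σ g = g → g = 1) →
    (∀ (H : Type u) [Group H] [Finite H], Nat.card H < Nat.card G → Group.IsSolvable H →
      ∀ (τ : MulAut H), τ ^ p ^ (n + 1) = 1 → (∀ h : H, τ h = h → h = 1) →
      ∀ h : H, h⁻¹ * (τ ^ p ^ n) h ∈ Cfsg.fittingSubgroup H) →
    ∀ (N : Subgroup G), N.Normal → N ≠ ⊥ → (∀ x ∈ N, σ x ∈ N) →
      (∀ N₀ : Subgroup G, N₀.Normal → N₀ ≤ N → (∀ x ∈ N₀, σ x ∈ N₀) → N₀ = ⊥ ∨ N₀ = N) →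
      ∀ g : G, g⁻¹ * (σ ^ p ^ n) g ∈ Subgroup.centralizer (N : Set G)

variable {k : Type*} [Field k] {V : Type*} [AddCommGroup V] [Module k V]

theorem gross_finite_end [Finite k] [Module.Finite k V] : Finite (Module.End k V) := by
  haveI : Finite V := Module.finite_of_finite k
  exact Finite.of_injective (fun f : Module.End k V => (f : V → V)) DFunLike.coe_injective

theorem gross_finite_units [Finite k] [Module.Finite k V] : Finite (Module.End k V)ˣ := by
  haveI : Finite (Module.End k V) := gross_finite_end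
  exact Finite.of_injective (fun u : (Module.End k V)ˣ => (u : Module.End k V)) Units.val_injective

end grossDefs

/-! ### restriction to an invariant subspace -/

section grossRes

variable {k : Type*} [Field k] {V : Type*} [AddCommGroup V] [Module k V]

/-- the stabiliser of a subspace in the unit group of `End V` -/
def grossStab (U : Submodule k V) : Subgroup (Module.End k V)ˣ where
  carrier := {x | (∀ u ∈ U, (x : Module.End k V) u ∈ U) ∧
    (∀ u ∈ U, ((x⁻¹ : (Module.End k V)ˣ) : Module.End k V) u ∈ U)}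
  mul_mem' := by
    intro x y hx hy
    refine ⟨fun u hu => ?_, fun u hu => ?_⟩
    · rw [Units.val_mul, Module.End.mul_apply]
      exact hx.1 _ (hy.1 u hu)
    · rw [mul_inv_rev, Units.val_mul, Module.End.mul_apply]
      exact hy.2 _ (hx.2 u hu)
  one_mem' := by
    refine ⟨fun u hu => ?_, fun u hu => ?_⟩
    · simpa using hu
    · simpa using hu
  inv_mem' := by
    intro x hx
    refine ⟨hx.2, ?_⟩
    rw [inv_inv]
    exact hx.1

theorem mem_grossStab (U : Submodule k V) (x : (Module.End k V)ˣ) :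
    x ∈ grossStab U ↔ (∀ u ∈ U, (x : Module.End k V) u ∈ U) ∧
      (∀ u ∈ U, ((x⁻¹ : (Module.End k V)ˣ) : Module.End k V) u ∈ U) := Iff.rfl

theorem gross_pow_mem (U : Submodule k V) {x : (Module.End k V)ˣ}
    (h : ∀ u ∈ U, (x : Module.End k V) u ∈ U) (i : ℕ) :
    ∀ u ∈ U, ((x ^ i : (Module.End k V)ˣ) : Module.End k V) u ∈ U := by
  induction i with
  | zero =>
    intro u hu
    simpa using hu
  | succ i ih =>
    intro u hu
    rw [pow_succ, Units.val_mul, Module.End.mul_apply]
    exact ih _ (h u hu)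

/-- an element of finite order preserving `U` lies in the stabiliser -/
theorem mem_grossStab_of_pow (U : Submodule k V) {x : (Module.End k V)ˣ} {m : ℕ} (hm : 0 < m)
    (hx : x ^ m = 1) (h : ∀ u ∈ U, (x : Module.End k V) u ∈ U) : x ∈ grossStab U := by
  refine ⟨h, ?_⟩
  have e : x⁻¹ = x ^ (m - 1) := by
    apply inv_eq_of_mul_eq_one_right
    rw [← pow_succ', Nat.sub_add_cancel hm, hx]
  rw [e]
  exact gross_pow_mem U h (m - 1)

/-- restriction of the stabiliser of `U` to `U` -/
def grossRes (U : Submodule k V) : ↥(grossStab U) →* (Module.End k ↥U)ˣ where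
  toFun x :=
    { val := ((x : (Module.End k V)ˣ) : Module.End k V).restrict x.2.1
      inv := (((x : (Module.End k V)ˣ)⁻¹ : (Module.End k V)ˣ) : Module.End k V).restrict x.2.2
      val_inv := by
        apply LinearMap.ext
        intro u
        apply Subtype.ext
        show ((x : (Module.End k V)ˣ) : Module.End k V)
          ((((x : (Module.End k V)ˣ)⁻¹ : (Module.End k V)ˣ) : Module.End k V) (u : V)) = (u : V)
        rw [← Module.End.mul_apply, ← Units.val_mul, mul_inv_cancel, Units.val_one,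
          Module.End.one_apply]
      inv_val := by
        apply LinearMap.ext
        intro u
        apply Subtype.ext
        show (((x : (Module.End k V)ˣ)⁻¹ : (Module.End k V)ˣ) : Module.End k V)
          (((x : (Module.End k V)ˣ) : Module.End k V) (u : V)) = (u : V)
        rw [← Module.End.mul_apply, ← Units.val_mul, inv_mul_cancel, Units.val_one,
          Module.End.one_apply] }
  map_one' := by
    apply Units.ext
    apply LinearMap.ext
    intro u
    apply Subtype.ext
    rfl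
  map_mul' := by
    intro x y
    apply Units.ext
    apply LinearMap.ext
    intro u
    apply Subtype.ext
    rfl

theorem grossRes_apply (U : Submodule k V) (x : ↥(grossStab U)) (u : ↥U) :
    ((((grossRes U x : (Module.End k ↥U)ˣ) : Module.End k ↥U) u : ↥U) : V) =
      ((x : (Module.End k V)ˣ) : Module.End k V) (u : V) := rfl

theorem grossRes_eq_one_iff (U : Submodule k V) (x : ↥(grossStab U)) :
    grossRes U x = 1 ↔ ∀ u ∈ U, ((x : (Module.End k V)ˣ) : Module.End k V) u = u := by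
  constructor
  · intro h u hu
    have h1 := grossRes_apply U x ⟨u, hu⟩
    rw [h] at h1
    exact h1.symm
  · intro h
    apply Units.ext
    apply LinearMap.ext
    intro u
    apply Subtype.ext
    rw [grossRes_apply]
    exact h u u.2

/-- the image in `GL(U)` of a group of units of `End V` (only the part stabilising `U` counts) -/
def grossResSub (U : Submodule k V) (Q : Subgroup (Module.End k V)ˣ) :
    Subgroup (Module.End k ↥U)ˣ :=
  (Q.subgroupOf (grossStab U)).map (grossRes U)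

theorem mem_grossResSub (U : Submodule k V) (Q : Subgroup (Module.End k V)ˣ)
    (y : (Module.End k ↥U)ˣ) :
    y ∈ grossResSub U Q ↔ ∃ x : ↥(grossStab U), (x : (Module.End k V)ˣ) ∈ Q ∧ grossRes U x = y := by
  constructor
  · rintro ⟨x, hx, rfl⟩
    exact ⟨x, Subgroup.mem_subgroupOf.mp hx, rfl⟩
  · rintro ⟨x, hx, rfl⟩
    exact ⟨x, Subgroup.mem_subgroupOf.mpr hx, rfl⟩

theorem card_grossResSub_dvd (U : Submodule k V) (Q : Subgroup (Module.End k V)ˣ) [Finite Q] :
    Nat.card ↥(grossResSub U Q) ∣ Nat.card Q := by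
  have h1 : Nat.card ↥(grossResSub U Q) ∣ Nat.card ↥(Q.subgroupOf (grossStab U)) :=
    Subgroup.card_map_dvd _ _
  have h2 : Nat.card ↥(Q.subgroupOf (grossStab U)) ∣ Nat.card Q := by
    apply Subgroup.card_dvd_of_injective ((grossStab U).subtype.subgroupComap Q)
    intro x y hxy
    apply Subtype.ext
    apply Subtype.ext
    exact congrArg (fun z : ↥Q => (z : (Module.End k V)ˣ)) hxy
  exact h1.trans h2

end grossRes

end Cfsg.Agent.Lib.Helper26
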