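import Mathlib
import Cfsg.Agent.Lib.Helper26.GrossDefs
import Cfsg.Agent.Lib.Helper26.GrossAux
import Cfsg.Agent.Lib.Helper1.Coprime

set_option autoImplicit false
set_option linter.style.haveILetI false
set_option linter.unusedSectionVars false
open scoped commutatorElement

namespace Cfsg.Agent.Lib.Helper26

section grossMinAux

variable {Γ : Type*} [Group Γ]

/-- elements of `zpowers g` are natural powers when `g` has finite order -/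
theorem gross_zpowers_nat {g s : Γ} {m : ℕ} (hm : 0 < m) (hg : g ^ m = 1)
    (hs : s ∈ Subgroup.zpowers g) : ∃ i : ℕ, s = g ^ i := by
  obtain ⟨j, rfl⟩ := Subgroup.mem_zpowers_iff.mp hs
  refine ⟨(j % (m : ℤ)).toNat, ?_⟩
  have h1 : g ^ j = g ^ (j % (m : ℤ)) := zpow_eq_zpow_emod' j hg
  have h2 : 0 ≤ j % (m : ℤ) := Int.emod_nonneg _ (by exact_mod_cast hm.ne')
  rw [h1, ← zpow_natCast, Int.toNat_of_nonneg h2]

/-- conjugation by natural powers preserves a subgroup closed under conjugation by `g` -/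
theorem gross_pow_conj_mem (K : Subgroup Γ) {g : Γ} (hg : ∀ x ∈ K, g * x * g⁻¹ ∈ K) (i : ℕ) :
    ∀ x ∈ K, g ^ i * x * (g ^ i)⁻¹ ∈ K := by
  induction i with
  | zero =>
    intro x hx
    simpa using hx
  | succ i ih =>
    intro x hx
    have h1 := hg _ (ih x hx)
    have e : g ^ (i + 1) * x * (g ^ (i + 1))⁻¹ = g * (g ^ i * x * (g ^ i)⁻¹) * g⁻¹ := by
      rw [pow_succ']
      group
    rw [e]
    exact h1

theorem gross_inv_conj_mem (K : Subgroup Γ) {g : Γ} {m : ℕ} (hm : 0 < m) (hg : g ^ m = 1)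
    (hK : ∀ x ∈ K, g * x * g⁻¹ ∈ K) : ∀ x ∈ K, g⁻¹ * x * g ∈ K := by
  intro x hx
  have e : g ^ (m - 1) = g⁻¹ := by
    apply eq_inv_of_mul_eq_one_left
    rw [← pow_succ, Nat.sub_add_cancel hm, hg]
  have h1 := gross_pow_conj_mem K hK (m - 1) x hx
  rw [e, inv_inv] at h1
  exact h1

/-- the subgroup lemma: `x⁻¹ a x a⁻¹ ∈ K` passes to powers of `a` when `a` normalises `K` -/
theorem gross_sl_pow (K : Subgroup Γ) {a x : Γ} (ha : ∀ y ∈ K, a * y * a⁻¹ ∈ K)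
    (hx : x⁻¹ * (a * x * a⁻¹) ∈ K) (l : ℕ) : x⁻¹ * (a ^ l * x * (a ^ l)⁻¹) ∈ K := by
  induction l with
  | zero => simp
  | succ l ih =>
    have e : x⁻¹ * (a ^ (l + 1) * x * (a ^ (l + 1))⁻¹) =
        (x⁻¹ * (a * x * a⁻¹)) * (a * (x⁻¹ * (a ^ l * x * (a ^ l)⁻¹)) * a⁻¹) := by
      rw [pow_succ']
      group
    rw [e]
    exact K.mul_mem hx (ha _ ih)

/-- the coprime trick -/
theorem gross_trick {ψ x : Γ} {p : ℕ} (hψ : ψ ^ p = 1)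
    (hcomm : ψ * (x⁻¹ * (ψ * x * ψ⁻¹)) = (x⁻¹ * (ψ * x * ψ⁻¹)) * ψ) :
    (x⁻¹ * (ψ * x * ψ⁻¹)) ^ p = 1 := by
  obtain ⟨c, hc⟩ : ∃ c : Γ, c = x⁻¹ * (ψ * x * ψ⁻¹) := ⟨_, rfl⟩
  rw [← hc] at hcomm ⊢
  have e4 : ψ * x * ψ⁻¹ = x * c := by
    rw [hc]
    group
  have h1 : ∀ i : ℕ, ψ ^ i * x * (ψ ^ i)⁻¹ = x * c ^ i := by
    intro i
    induction i with
    | zero => simp
    | succ i ih =>
      have e : ψ ^ (i + 1) * x * (ψ ^ (i + 1))⁻¹ = ψ * (ψ ^ i * x * (ψ ^ i)⁻¹) * ψ⁻¹ := by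
        rw [pow_succ']
        group
      rw [e, ih]
      have e2 : ψ * (x * c ^ i) * ψ⁻¹ = (ψ * x * ψ⁻¹) * (ψ * c ^ i * ψ⁻¹) := by group
      have e3 : ψ * c ^ i * ψ⁻¹ = c ^ i := by
        have hcm : Commute ψ (c ^ i) := (show Commute ψ c from hcomm).pow_right i
        rw [hcm.eq, mul_inv_cancel_right]
      rw [e2, e3, e4, pow_succ', mul_assoc]
  have h2 := h1 p
  rw [hψ, one_mul, inv_one, mul_one] at h2
  exact (mul_eq_left.mp h2.symm)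

end grossMinAux

namespace GrossMin

variable {Γ : Type*} [Group Γ] {p q n : ℕ} {Q : Subgroup Γ} {φ : Γ}

theorem pow_norm (h : GrossMin p q n Q φ) (i : ℕ) : ∀ x ∈ Q, φ ^ i * x * (φ ^ i)⁻¹ ∈ Q :=
  gross_pow_conj_mem Q h.hnorm i

theorem zpow_norm (h : GrossMin p q n Q φ) {s : Γ} (hs : s ∈ Subgroup.zpowers φ) :
    ∀ x ∈ Q, s * x * s⁻¹ ∈ Q := by
  obtain ⟨i, rfl⟩ := gross_zpowers_nat (pow_pos h.hp.pos (n + 1)) h.hφ hs
  exact h.pow_norm i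

theorem zpow_norm' (h : GrossMin p q n Q φ) {s : Γ} (hs : s ∈ Subgroup.zpowers φ) :
    ∀ x ∈ Q, s⁻¹ * x * s ∈ Q := by
  intro x hx
  have h1 := h.zpow_norm (Subgroup.inv_mem _ hs) x hx
  rwa [inv_inv] at h1

theorem psi_mem_zpowers (h : GrossMin p q n Q φ) : φ ^ p ^ n ∈ Subgroup.zpowers φ :=
  Subgroup.pow_mem _ (Subgroup.mem_zpowers φ) _

theorem psi_pow (h : GrossMin p q n Q φ) : (φ ^ p ^ n) ^ p = 1 := by
  rw [← pow_mul, ← pow_succ]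
  exact h.hφ

theorem psi_norm (h : GrossMin p q n Q φ) : ∀ x ∈ Q, φ ^ p ^ n * x * (φ ^ p ^ n)⁻¹ ∈ Q :=
  h.zpow_norm h.psi_mem_zpowers

theorem delta_mem (h : GrossMin p q n Q φ) {x : Γ} (hx : x ∈ Q) :
    x⁻¹ * (φ ^ p ^ n * x * (φ ^ p ^ n)⁻¹) ∈ Q :=
  Q.mul_mem (Q.inv_mem hx) (h.psi_norm x hx)

/-- if `ψ` commutes with `x⁻¹ ψ x ψ⁻¹` then `ψ` commutes with `x` -/
theorem trick (h : GrossMin p q n Q φ) {x : Γ} (hx : x ∈ Q)
    (hc : φ ^ p ^ n * (x⁻¹ * (φ ^ p ^ n * x * (φ ^ p ^ n)⁻¹)) =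
      (x⁻¹ * (φ ^ p ^ n * x * (φ ^ p ^ n)⁻¹)) * φ ^ p ^ n) :
    φ ^ p ^ n * x = x * φ ^ p ^ n := by
  have h2 := gross_trick h.psi_pow hc
  obtain ⟨j, hj⟩ := h.hQ ⟨_, h.delta_mem hx⟩
  have hj' : (x⁻¹ * (φ ^ p ^ n * x * (φ ^ p ^ n)⁻¹)) ^ q ^ j = 1 := by
    have := congrArg (fun z : ↥Q => (z : Γ)) hj
    simpa using this
  have h3 : orderOf (x⁻¹ * (φ ^ p ^ n * x * (φ ^ p ^ n)⁻¹)) ∣ p := orderOf_dvd_of_pow_eq_one h2
  have h4 : orderOf (x⁻¹ * (φ ^ p ^ n * x * (φ ^ p ^ n)⁻¹)) ∣ q ^ j :=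
    orderOf_dvd_of_pow_eq_one hj'
  have h5 : Nat.Coprime p (q ^ j) :=
    Nat.Coprime.pow_right _ ((Nat.coprime_primes h.hp h.hq).mpr (Ne.symm h.hqp))
  have h6 : orderOf (x⁻¹ * (φ ^ p ^ n * x * (φ ^ p ^ n)⁻¹)) = 1 :=
    Nat.dvd_one.mp (h5 ▸ Nat.dvd_gcd h3 h4)
  have h7 : x⁻¹ * (φ ^ p ^ n * x * (φ ^ p ^ n)⁻¹) = 1 := orderOf_eq_one_iff.mp h6
  have h8 : φ ^ p ^ n * x * (φ ^ p ^ n)⁻¹ = x := by
    have := congrArg (fun z => x * z) h7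
    simpa using this
  exact mul_inv_eq_iff_eq_mul.mp h8

theorem psi_ne_one (h : GrossMin p q n Q φ) : φ ^ p ^ n ≠ 1 := by
  intro h1
  apply h.hnot
  intro x _
  rw [h1, one_mul, mul_one]

theorem ne_bot (h : GrossMin p q n Q φ) : Q ≠ ⊥ := by
  intro hQ
  apply h.hnot
  intro x hx
  rw [hQ, Subgroup.mem_bot] at hx
  rw [hx, mul_one, one_mul]

theorem ord (h : GrossMin p q n Q φ) : orderOf φ = p ^ (n + 1) := by
  have h1 : orderOf φ ∣ p ^ (n + 1) := orderOf_dvd_of_pow_eq_one h.hφ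
  obtain ⟨j, hj, hj'⟩ := (Nat.dvd_prime_pow h.hp).mp h1
  rcases Nat.lt_or_ge j (n + 1) with hlt | hge
  · exfalso
    apply h.psi_ne_one
    have h2 : p ^ j ∣ p ^ n := pow_dvd_pow p (by omega)
    rw [← hj'] at h2
    exact orderOf_dvd_iff_pow_eq_one.mp h2
  · rw [hj', le_antisymm hj hge]

theorem psi_mem (h : GrossMin p q n Q φ) {s : Γ} (hs : s ∈ Subgroup.zpowers φ) (hs1 : s ≠ 1) :
    ∃ l : ℕ, φ ^ p ^ n = s ^ l := by
  obtain ⟨i, rfl⟩ := gross_zpowers_nat (pow_pos h.hp.pos (n + 1)) h.hφ hs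
  have hi0 : i ≠ 0 := by
    rintro rfl
    exact hs1 (pow_zero φ)
  obtain ⟨e, i', hi', rfl⟩ := Nat.exists_eq_pow_mul_and_not_dvd hi0 p h.hp.ne_one
  have he : e ≤ n := by
    by_contra hcon
    push_neg at hcon
    apply hs1
    have h1 : p ^ (n + 1) ∣ p ^ e * i' := Dvd.dvd.mul_right (pow_dvd_pow p hcon) i'
    obtain ⟨c, hc⟩ := h1
    rw [hc, pow_mul, h.hφ, one_pow]
  have hcop : Nat.Coprime i' p := ((Nat.Prime.coprime_iff_not_dvd h.hp).mpr hi').symm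
  obtain ⟨l, -, hl⟩ := Nat.exists_mul_mod_eq_one_of_coprime hcop h.hp.one_lt
  refine ⟨p ^ (n - e) * l, ?_⟩
  rw [← pow_mul]
  have e1 : p ^ e * i' * (p ^ (n - e) * l) = p ^ n * (i' * l) := by
    have h2 : p ^ n = p ^ e * p ^ (n - e) := by
      rw [← pow_add]
      congr 1
      omega
    rw [h2]
    ring
  rw [e1, pow_mul, pow_eq_pow_mod (i' * l) h.psi_pow, hl, pow_one]

theorem central (h : GrossMin p q n Q φ) (Q₀ : Subgroup Γ) (h1 : Q₀ ≤ Q) (h2 : Q₀ ≠ Q)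
    (h3 : ∀ x ∈ Q₀, φ * x * φ⁻¹ ∈ Q₀) (h4 : ∀ x ∈ Q, ∀ y ∈ Q₀, x * y * x⁻¹ ∈ Q₀) :
    ∀ y ∈ Q₀, ∀ x ∈ Q, x * y = y * x := by
  have hψ₀ := h.hsub Q₀ h1 h2 h3
  have hδ : ∀ x ∈ Q, x⁻¹ * (φ ^ p ^ n * x * (φ ^ p ^ n)⁻¹) ∈
      Q ⊓ Subgroup.centralizer (Q₀ : Set Γ) := by
    intro x hx
    refine Subgroup.mem_inf.mpr ⟨h.delta_mem hx, ?_⟩
    rw [Subgroup.mem_centralizer_iff]
    intro y hy
    have e1 : φ ^ p ^ n * y = y * φ ^ p ^ n := hψ₀ y hy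
    have e2 : φ ^ p ^ n * (x * y * x⁻¹) = (x * y * x⁻¹) * φ ^ p ^ n := hψ₀ _ (h4 x hx y hy)
    have E1 : (φ ^ p ^ n)⁻¹ * y * φ ^ p ^ n = y := by
      rw [mul_assoc, ← e1, inv_mul_cancel_left]
    have E2 : φ ^ p ^ n * (x * y * x⁻¹) * (φ ^ p ^ n)⁻¹ = x * y * x⁻¹ := by
      rw [e2, mul_inv_cancel_right]
    have e3 : (x⁻¹ * (φ ^ p ^ n * x * (φ ^ p ^ n)⁻¹)) * y *
        (x⁻¹ * (φ ^ p ^ n * x * (φ ^ p ^ n)⁻¹))⁻¹ = y := by
      calc (x⁻¹ * (φ ^ p ^ n * x * (φ ^ p ^ n)⁻¹)) * y *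
            (x⁻¹ * (φ ^ p ^ n * x * (φ ^ p ^ n)⁻¹))⁻¹
          = x⁻¹ * (φ ^ p ^ n * (x * ((φ ^ p ^ n)⁻¹ * y * φ ^ p ^ n) * x⁻¹) * (φ ^ p ^ n)⁻¹) * x := by
            group
        _ = x⁻¹ * (φ ^ p ^ n * (x * y * x⁻¹) * (φ ^ p ^ n)⁻¹) * x := by rw [E1]
        _ = x⁻¹ * (x * y * x⁻¹) * x := by rw [E2]
        _ = y := by group
    exact (mul_inv_eq_iff_eq_mul.mp e3).symm
  have hC₀φ : ∀ x ∈ Q ⊓ Subgroup.centralizer (Q₀ : Set Γ),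
      φ * x * φ⁻¹ ∈ Q ⊓ Subgroup.centralizer (Q₀ : Set Γ) := by
    intro x hx
    refine Subgroup.mem_inf.mpr ⟨h.hnorm x hx.1, ?_⟩
    rw [Subgroup.mem_centralizer_iff]
    intro y hy
    have hy' : φ⁻¹ * y * φ ∈ Q₀ :=
      gross_inv_conj_mem Q₀ (pow_pos h.hp.pos (n + 1)) h.hφ h3 y hy
    have e := (Subgroup.mem_centralizer_iff.mp hx.2) _ hy'
    calc y * (φ * x * φ⁻¹) = φ * ((φ⁻¹ * y * φ) * x) * φ⁻¹ := by group
      _ = φ * (x * (φ⁻¹ * y * φ)) * φ⁻¹ := by rw [e]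
      _ = φ * x * φ⁻¹ * y := by group
  by_cases hCQ : Q ⊓ Subgroup.centralizer (Q₀ : Set Γ) = Q
  · intro y hy x hx
    have hx' : x ∈ Q ⊓ Subgroup.centralizer (Q₀ : Set Γ) := by
      rw [hCQ]
      exact hx
    exact ((Subgroup.mem_centralizer_iff.mp hx'.2) y hy).symm
  · exfalso
    have hψC := h.hsub _ inf_le_left hCQ hC₀φ
    apply h.hnot
    intro x hx
    exact h.trick hx (hψC _ (hδ x hx))

/-- the subgroup generated by the `x⁻¹ ψ x ψ⁻¹` is `Q` -/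
theorem closure_delta (h : GrossMin p q n Q φ) :
    Subgroup.closure {c | ∃ x ∈ Q, x⁻¹ * (φ ^ p ^ n * x * (φ ^ p ^ n)⁻¹) = c} = Q := by
  by_contra hne
  have hle : Subgroup.closure {c | ∃ x ∈ Q, x⁻¹ * (φ ^ p ^ n * x * (φ ^ p ^ n)⁻¹) = c} ≤ Q := by
    rw [Subgroup.closure_le]
    rintro _ ⟨x, hx, rfl⟩
    exact h.delta_mem hx
  have hφK : ∀ x ∈ Subgroup.closure {c | ∃ x ∈ Q, x⁻¹ * (φ ^ p ^ n * x * (φ ^ p ^ n)⁻¹) = c},
      φ * x * φ⁻¹ ∈ Subgroup.closure {c | ∃ x ∈ Q, x⁻¹ * (φ ^ p ^ n * x * (φ ^ p ^ n)⁻¹) = c} := by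
    intro x hx
    have h1 : (Subgroup.closure {c | ∃ x ∈ Q, x⁻¹ * (φ ^ p ^ n * x * (φ ^ p ^ n)⁻¹) = c}).map
        (MulAut.conj φ).toMonoidHom ≤
        Subgroup.closure {c | ∃ x ∈ Q, x⁻¹ * (φ ^ p ^ n * x * (φ ^ p ^ n)⁻¹) = c} := by
      rw [MonoidHom.map_closure, Subgroup.closure_le]
      rintro _ ⟨_, ⟨x, hx, rfl⟩, rfl⟩
      apply Subgroup.subset_closure
      refine ⟨φ * x * φ⁻¹, h.hnorm x hx, ?_⟩
      show (φ * x * φ⁻¹)⁻¹ * (φ ^ p ^ n * (φ * x * φ⁻¹) * (φ ^ p ^ n)⁻¹) =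
        φ * (x⁻¹ * (φ ^ p ^ n * x * (φ ^ p ^ n)⁻¹)) * φ⁻¹
      group
    have h2 := h1 (Subgroup.mem_map_of_mem _ hx)
    simpa using h2
  have hψK := h.hsub _ hle hne hφK
  apply h.hnot
  intro x hx
  exact h.trick hx (hψK _ (Subgroup.subset_closure ⟨x, hx, rfl⟩))

theorem abelian_fpf (h : GrossMin p q n Q φ) (hab : ∀ x ∈ Q, ∀ y ∈ Q, x * y = y * x) {s : Γ}
    (hs : s ∈ Subgroup.zpowers φ) (hs1 : s ≠ 1) : ∀ x ∈ Q, s * x = x * s → x = 1 := by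
  haveI := h.hfin
  let δ : ↥Q →* ↥Q :=
    { toFun := fun x => ⟨(x : Γ)⁻¹ * (φ ^ p ^ n * x * (φ ^ p ^ n)⁻¹), h.delta_mem x.2⟩
      map_one' := by
        apply Subtype.ext
        simp
      map_mul' := by
        intro x y
        apply Subtype.ext
        show ((x * y : ↥Q) : Γ)⁻¹ * (φ ^ p ^ n * ((x * y : ↥Q) : Γ) * (φ ^ p ^ n)⁻¹) =
          ((x : Γ)⁻¹ * (φ ^ p ^ n * x * (φ ^ p ^ n)⁻¹)) *
            ((y : Γ)⁻¹ * (φ ^ p ^ n * y * (φ ^ p ^ n)⁻¹))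
        have e1 := hab _ (Q.inv_mem y.2) _ (h.delta_mem x.2)
        rw [Subgroup.coe_mul]
        calc ((x : Γ) * y)⁻¹ * (φ ^ p ^ n * ((x : Γ) * y) * (φ ^ p ^ n)⁻¹)
            = ((y : Γ)⁻¹ * ((x : Γ)⁻¹ * (φ ^ p ^ n * x * (φ ^ p ^ n)⁻¹))) *
                (φ ^ p ^ n * y * (φ ^ p ^ n)⁻¹) := by group
          _ = (((x : Γ)⁻¹ * (φ ^ p ^ n * x * (φ ^ p ^ n)⁻¹)) * (y : Γ)⁻¹) *
                (φ ^ p ^ n * y * (φ ^ p ^ n)⁻¹) := by rw [e1]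
          _ = _ := by group }
  have hδ : ∀ x : ↥Q, ((δ x : ↥Q) : Γ) = (x : Γ)⁻¹ * (φ ^ p ^ n * x * (φ ^ p ^ n)⁻¹) :=
    fun x => rfl
  have hsurj : Function.Surjective δ := by
    intro y
    have hy : (y : Γ) ∈ Subgroup.closure
        {c | ∃ x ∈ Q, x⁻¹ * (φ ^ p ^ n * x * (φ ^ p ^ n)⁻¹) = c} := by
      rw [h.closure_delta]
      exact y.2
    have hle : Subgroup.closure {c | ∃ x ∈ Q, x⁻¹ * (φ ^ p ^ n * x * (φ ^ p ^ n)⁻¹) = c} ≤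
        δ.range.map Q.subtype := by
      rw [Subgroup.closure_le]
      rintro _ ⟨x, hx, rfl⟩
      exact ⟨δ ⟨x, hx⟩, ⟨_, rfl⟩, rfl⟩
    obtain ⟨z, ⟨x, rfl⟩, hz⟩ := hle hy
    exact ⟨x, Subtype.ext hz⟩
  have hinj : Function.Injective δ := Finite.injective_iff_surjective.mpr hsurj
  intro x hx hsx
  obtain ⟨l, hl⟩ := h.psi_mem hs hs1
  have hψx : φ ^ p ^ n * x = x * φ ^ p ^ n := by
    rw [hl]
    exact ((show Commute s x from hsx).pow_left l).eq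
  have h1 : δ ⟨x, hx⟩ = δ 1 := by
    rw [map_one]
    apply Subtype.ext
    show x⁻¹ * (φ ^ p ^ n * x * (φ ^ p ^ n)⁻¹) = 1
    rw [hψx, mul_inv_cancel_right, inv_mul_cancel]
  have h2 := hinj h1
  exact congrArg (fun z : ↥Q => (z : Γ)) h2

theorem comm_sub_le (h : GrossMin p q n Q φ) : ⁅Q, Q⁆ ≤ Q :=
  Subgroup.commutator_le.mpr fun x hx y hy =>
    Q.mul_mem (Q.mul_mem (Q.mul_mem hx hy) (Q.inv_mem hx)) (Q.inv_mem hy)

theorem comm_sub_ne (h : GrossMin p q n Q φ) : ⁅Q, Q⁆ ≠ Q := by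
  haveI := h.hfin
  haveI : Fact q.Prime := ⟨h.hq⟩
  haveI : Group.IsNilpotent Q := h.hQ.isNilpotent
  exact (Cfsg.Agent.Lib.Helper1.commutator_lt_of_solvable h.ne_bot).ne

theorem comm_sub_conj (h : GrossMin p q n Q φ) {g : Γ} (hg : ∀ x ∈ Q, g * x * g⁻¹ ∈ Q) :
    ∀ x ∈ ⁅Q, Q⁆, g * x * g⁻¹ ∈ ⁅Q, Q⁆ := by
  intro x hx
  have h1 : (⁅Q, Q⁆).map (MulAut.conj g).toMonoidHom ≤ ⁅Q, Q⁆ := by
    rw [Subgroup.map_commutator]
    apply Subgroup.commutator_mono <;>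
    · rintro _ ⟨y, hy, rfl⟩
      exact hg y hy
  have h2 := h1 (Subgroup.mem_map_of_mem _ hx)
  simpa using h2

theorem comm_central (h : GrossMin p q n Q φ) :
    ∀ x ∈ Q, ∀ y ∈ Q, ∀ w ∈ Q, ⁅x, y⁆ * w = w * ⁅x, y⁆ := by
  intro x hx y hy w hw
  have h1 := h.central ⁅Q, Q⁆ h.comm_sub_le h.comm_sub_ne (h.comm_sub_conj h.hnorm)
    (fun g hg z hz => h.comm_sub_conj
      (fun u hu => Q.mul_mem (Q.mul_mem hg hu) (Q.inv_mem hg)) z hz)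
  exact (h1 _ (Subgroup.commutator_mem_commutator hx hy) w hw).symm

theorem comm_mem (h : GrossMin p q n Q φ) {x y : Γ} (hx : x ∈ Q) (hy : y ∈ Q) : ⁅x, y⁆ ∈ Q :=
  Q.mul_mem (Q.mul_mem (Q.mul_mem hx hy) (Q.inv_mem hx)) (Q.inv_mem hy)

theorem comm_mem_center (h : GrossMin p q n Q φ) {x y : Γ} (hx : x ∈ Q) (hy : y ∈ Q) :
    ⁅x, y⁆ ∈ Q ⊓ Subgroup.centralizer (Q : Set Γ) := by
  refine Subgroup.mem_inf.mpr ⟨h.comm_mem hx hy, ?_⟩
  rw [Subgroup.mem_centralizer_iff]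
  intro w hw
  exact (h.comm_central x hx y hy w hw).symm

theorem comm_mul_left (h : GrossMin p q n Q φ) {x x' y : Γ} (hx : x ∈ Q) (hx' : x' ∈ Q)
    (hy : y ∈ Q) : ⁅x * x', y⁆ = ⁅x, y⁆ * ⁅x', y⁆ := by
  have e1 : ⁅x * x', y⁆ = x * ⁅x', y⁆ * x⁻¹ * ⁅x, y⁆ := by
    simp only [commutatorElement_def]
    group
  have e2 : x * ⁅x', y⁆ * x⁻¹ = ⁅x', y⁆ := by
    rw [← h.comm_central x' hx' y hy x hx, mul_inv_cancel_right]
  rw [e1, e2]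
  exact h.comm_central x' hx' y hy _ (h.comm_mem hx hy)

theorem comm_mul_right (h : GrossMin p q n Q φ) {x y y' : Γ} (hx : x ∈ Q) (hy : y ∈ Q)
    (hy' : y' ∈ Q) : ⁅x, y * y'⁆ = ⁅x, y⁆ * ⁅x, y'⁆ := by
  have e1 : ⁅x, y * y'⁆ = ⁅x, y⁆ * (y * ⁅x, y'⁆ * y⁻¹) := by
    simp only [commutatorElement_def]
    group
  have e2 : y * ⁅x, y'⁆ * y⁻¹ = ⁅x, y'⁆ := by
    rw [← h.comm_central x hx y' hy' y hy, mul_inv_cancel_right]
  rw [e1, e2]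

theorem comm_pow_left (h : GrossMin p q n Q φ) {x y : Γ} (hx : x ∈ Q) (hy : y ∈ Q) (i : ℕ) :
    ⁅x ^ i, y⁆ = ⁅x, y⁆ ^ i := by
  induction i with
  | zero => rw [pow_zero, pow_zero, commutatorElement_one_left]
  | succ i ih =>
    rw [pow_succ, pow_succ, h.comm_mul_left (Q.pow_mem hx i) hx hy, ih]

theorem comm_inv_left (h : GrossMin p q n Q φ) {x y : Γ} (hx : x ∈ Q) (hy : y ∈ Q) :
    ⁅x⁻¹, y⁆ = ⁅x, y⁆⁻¹ := by
  have h1 := h.comm_mul_left hx (Q.inv_mem hx) hy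
  rw [mul_inv_cancel, commutatorElement_one_left] at h1
  exact eq_inv_of_mul_eq_one_right h1.symm

/-- `ψ` centralises all commutators of `Q` -/
theorem psi_comm_comm (h : GrossMin p q n Q φ) {x y : Γ} (hx : x ∈ Q) (hy : y ∈ Q) :
    φ ^ p ^ n * ⁅x, y⁆ = ⁅x, y⁆ * φ ^ p ^ n :=
  h.hsub ⁅Q, Q⁆ h.comm_sub_le h.comm_sub_ne (h.comm_sub_conj h.hnorm) _
    (Subgroup.commutator_mem_commutator hx hy)

theorem psi_fixed_central (h : GrossMin p q n Q φ) :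
    ∀ u ∈ Q, φ ^ p ^ n * u = u * φ ^ p ^ n → ∀ w ∈ Q, u * w = w * u := by
  intro u hu hψu w hw
  have hδ : ∀ x ∈ Q, u * (x⁻¹ * (φ ^ p ^ n * x * (φ ^ p ^ n)⁻¹)) =
      (x⁻¹ * (φ ^ p ^ n * x * (φ ^ p ^ n)⁻¹)) * u := by
    intro x hx
    have e1 : φ ^ p ^ n * ⁅x, u⁆ * (φ ^ p ^ n)⁻¹ = ⁅x, u⁆ := by
      rw [h.psi_comm_comm hx hu, mul_inv_cancel_right]
    have e2 : φ ^ p ^ n * u * (φ ^ p ^ n)⁻¹ = u := by
      rw [hψu, mul_inv_cancel_right]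
    have e3 : φ ^ p ^ n * ⁅x, u⁆ * (φ ^ p ^ n)⁻¹ =
        ⁅x * (x⁻¹ * (φ ^ p ^ n * x * (φ ^ p ^ n)⁻¹)), φ ^ p ^ n * u * (φ ^ p ^ n)⁻¹⁆ := by
      simp only [commutatorElement_def]
      group
    rw [e1, e2, h.comm_mul_left hx (h.delta_mem hx) hu] at e3
    have e4 : ⁅x⁻¹ * (φ ^ p ^ n * x * (φ ^ p ^ n)⁻¹), u⁆ = 1 := by
      have := e3.symm
      exact mul_eq_left.mp this
    exact (commutatorElement_eq_one_iff_mul_comm.mp e4).symm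
  have hle : Subgroup.closure {c | ∃ x ∈ Q, x⁻¹ * (φ ^ p ^ n * x * (φ ^ p ^ n)⁻¹) = c} ≤
      Subgroup.centralizer ({u} : Set Γ) := by
    rw [Subgroup.closure_le]
    rintro _ ⟨x, hx, rfl⟩
    show _ ∈ Subgroup.centralizer ({u} : Set Γ)
    rw [Subgroup.mem_centralizer_iff]
    intro v hv
    rw [Set.mem_singleton_iff.mp hv]
    exact hδ x hx
  rw [h.closure_delta] at hle
  have h1 := Subgroup.mem_centralizer_iff.mp (hle hw) u (Set.mem_singleton u)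
  exact h1

/-- elements of `zpowers φ` normalise the centre of `Q` -/
theorem zpow_norm_center (h : GrossMin p q n Q φ) {s : Γ} (hs : s ∈ Subgroup.zpowers φ) :
    ∀ z ∈ Q ⊓ Subgroup.centralizer (Q : Set Γ),
      s * z * s⁻¹ ∈ Q ⊓ Subgroup.centralizer (Q : Set Γ) := by
  intro z hz
  refine Subgroup.mem_inf.mpr ⟨h.zpow_norm hs z hz.1, ?_⟩
  rw [Subgroup.mem_centralizer_iff]
  intro w hw
  have hw' : s⁻¹ * w * s ∈ Q := h.zpow_norm' hs w hw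
  have e := (Subgroup.mem_centralizer_iff.mp hz.2) _ hw'
  calc w * (s * z * s⁻¹) = s * ((s⁻¹ * w * s) * z) * s⁻¹ := by group
    _ = s * (z * (s⁻¹ * w * s)) * s⁻¹ := by rw [e]
    _ = s * z * s⁻¹ * w := by group

theorem fpf_mod_center (h : GrossMin p q n Q φ) {s : Γ} (hs : s ∈ Subgroup.zpowers φ)
    (hs1 : s ≠ 1) : ∀ x ∈ Q,
      (∀ w ∈ Q, (x⁻¹ * (s * x * s⁻¹)) * w = w * (x⁻¹ * (s * x * s⁻¹))) →
      ∀ w ∈ Q, x * w = w * x := by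
  intro x hx hxs
  obtain ⟨l, hl⟩ := h.psi_mem hs hs1
  have hZ : x⁻¹ * (s * x * s⁻¹) ∈ Q ⊓ Subgroup.centralizer (Q : Set Γ) := by
    refine Subgroup.mem_inf.mpr ⟨Q.mul_mem (Q.inv_mem hx) (h.zpow_norm hs x hx), ?_⟩
    rw [Subgroup.mem_centralizer_iff]
    intro w hw
    exact (hxs w hw).symm
  have hδx : x⁻¹ * (φ ^ p ^ n * x * (φ ^ p ^ n)⁻¹) ∈ Q ⊓ Subgroup.centralizer (Q : Set Γ) := by
    rw [hl]
    exact gross_sl_pow _ (h.zpow_norm_center hs) hZ l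
  -- the subgroup `D`
  let D : Subgroup Γ :=
    { carrier := {y | y ∈ Q ∧ y⁻¹ * (φ ^ p ^ n * y * (φ ^ p ^ n)⁻¹) ∈
        Q ⊓ Subgroup.centralizer (Q : Set Γ)}
      mul_mem' := by
        intro a b ha hb
        refine ⟨Q.mul_mem ha.1 hb.1, ?_⟩
        have e1 : (a * b)⁻¹ * (φ ^ p ^ n * (a * b) * (φ ^ p ^ n)⁻¹) =
            b⁻¹ * (a⁻¹ * (φ ^ p ^ n * a * (φ ^ p ^ n)⁻¹)) * b *
              (b⁻¹ * (φ ^ p ^ n * b * (φ ^ p ^ n)⁻¹)) := by group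
        have e2 : b⁻¹ * (a⁻¹ * (φ ^ p ^ n * a * (φ ^ p ^ n)⁻¹)) * b =
            a⁻¹ * (φ ^ p ^ n * a * (φ ^ p ^ n)⁻¹) := by
          have := (Subgroup.mem_centralizer_iff.mp ha.2.2) b hb.1
          rw [mul_assoc, ← this, inv_mul_cancel_left]
        rw [e1, e2]
        exact Subgroup.mul_mem _ ha.2 hb.2
      one_mem' := by
        refine ⟨Q.one_mem, ?_⟩
        have e : (1 : Γ)⁻¹ * (φ ^ p ^ n * 1 * (φ ^ p ^ n)⁻¹) = 1 := by group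
        rw [e]
        exact Subgroup.one_mem _
      inv_mem' := by
        intro a ha
        refine ⟨Q.inv_mem ha.1, ?_⟩
        have e1 : a⁻¹⁻¹ * (φ ^ p ^ n * a⁻¹ * (φ ^ p ^ n)⁻¹) =
            a * (a⁻¹ * (φ ^ p ^ n * a * (φ ^ p ^ n)⁻¹))⁻¹ * a⁻¹ := by group
        have e2 : a * (a⁻¹ * (φ ^ p ^ n * a * (φ ^ p ^ n)⁻¹))⁻¹ * a⁻¹ =
            (a⁻¹ * (φ ^ p ^ n * a * (φ ^ p ^ n)⁻¹))⁻¹ := by
          have := (Subgroup.mem_centralizer_iff.mp (Subgroup.inv_mem _ ha.2).2) a ha.1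
          rw [this, mul_inv_cancel_right]
        rw [e1, e2]
        exact Subgroup.inv_mem _ ha.2 }
  have hDQ : D ≤ Q := fun y hy => hy.1
  have hDφ : ∀ y ∈ D, φ * y * φ⁻¹ ∈ D := by
    intro y hy
    refine ⟨h.hnorm y hy.1, ?_⟩
    have e : (φ * y * φ⁻¹)⁻¹ * (φ ^ p ^ n * (φ * y * φ⁻¹) * (φ ^ p ^ n)⁻¹) =
        φ * (y⁻¹ * (φ ^ p ^ n * y * (φ ^ p ^ n)⁻¹)) * φ⁻¹ := by group
    rw [e]
    exact h.zpow_norm_center (Subgroup.mem_zpowers φ) _ hy.2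
  have hxD : x ∈ D := ⟨hx, hδx⟩
  by_cases hD : D = Q
  · -- all `δ y` are central, so `Q` is abelian
    have hle : Subgroup.closure {c | ∃ x ∈ Q, x⁻¹ * (φ ^ p ^ n * x * (φ ^ p ^ n)⁻¹) = c} ≤
        Q ⊓ Subgroup.centralizer (Q : Set Γ) := by
      rw [Subgroup.closure_le]
      rintro _ ⟨y, hy, rfl⟩
      have hy' : y ∈ D := by
        rw [hD]
        exact hy
      exact hy'.2
    rw [h.closure_delta] at hle
    intro w hw
    exact ((Subgroup.mem_centralizer_iff.mp (hle hx).2) w hw).symm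
  · have hψD := h.hsub D hDQ hD hDφ
    exact h.psi_fixed_central x hx (hψD x hxD)

theorem comm_pow (h : GrossMin p q n Q φ) : ∀ x ∈ Q, ∀ y ∈ Q, ⁅x, y⁆ ^ q = 1 := by
  -- the subgroup `N`
  let N : Subgroup Γ :=
    { carrier := {x | x ∈ Q ∧ ∀ y ∈ Q, ⁅x, y⁆ ^ q = 1}
      mul_mem' := by
        intro a b ha hb
        refine ⟨Q.mul_mem ha.1 hb.1, fun y hy => ?_⟩
        rw [h.comm_mul_left ha.1 hb.1 hy]
        have hc : Commute ⁅a, y⁆ ⁅b, y⁆ := h.comm_central a ha.1 y hy _ (h.comm_mem hb.1 hy)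
        rw [hc.mul_pow, ha.2 y hy, hb.2 y hy, one_mul]
      one_mem' := by
        refine ⟨Q.one_mem, fun y _ => ?_⟩
        rw [commutatorElement_one_left, one_pow]
      inv_mem' := by
        intro a ha
        refine ⟨Q.inv_mem ha.1, fun y hy => ?_⟩
        rw [h.comm_inv_left ha.1 hy, inv_pow, ha.2 y hy, inv_one] }
  have hNQ : N ≤ Q := fun y hy => hy.1
  have hconj : ∀ g : Γ, (∀ x ∈ Q, g * x * g⁻¹ ∈ Q) → (∀ x ∈ Q, g⁻¹ * x * g ∈ Q) →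
      ∀ x ∈ N, g * x * g⁻¹ ∈ N := by
    intro g hg hg' x hx
    refine ⟨hg x hx.1, fun y hy => ?_⟩
    have e : ⁅g * x * g⁻¹, y⁆ = g * ⁅x, g⁻¹ * y * g⁆ * g⁻¹ := by
      simp only [commutatorElement_def]
      group
    rw [e, conj_pow, hx.2 _ (hg' y hy)]
    group
  have hNφ : ∀ x ∈ N, φ * x * φ⁻¹ ∈ N :=
    hconj φ h.hnorm (h.zpow_norm' (Subgroup.mem_zpowers φ))
  have hNn : ∀ g ∈ Q, ∀ x ∈ N, g * x * g⁻¹ ∈ N := by
    intro g hg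
    refine hconj g (fun x hx => Q.mul_mem (Q.mul_mem hg hx) (Q.inv_mem hg)) (fun x hx => ?_)
    exact Q.mul_mem (Q.mul_mem (Q.inv_mem hg) hx) hg
  by_cases hN : N = Q
  · intro x hx y hy
    have hx' : x ∈ N := by
      rw [hN]
      exact hx
    exact hx'.2 y hy
  · exfalso
    apply hN
    have hNc := h.central N hNQ hN hNφ hNn
    -- `x ^ q ^ j` central implies `x ^ q` central
    have key : ∀ j : ℕ, ∀ x ∈ Q, (∀ w ∈ Q, x ^ q ^ j * w = w * x ^ q ^ j) →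
        ∀ w ∈ Q, x ^ q * w = w * x ^ q := by
      intro j
      induction j with
      | zero =>
        intro x hx hc w hw
        rw [pow_zero, pow_one] at hc
        exact ((show Commute x w from hc w hw).pow_left q).eq
      | succ j ih =>
        intro x hx hc
        apply ih x hx
        have hx' : x ^ q ^ j ∈ N := by
          refine ⟨Q.pow_mem hx _, fun y hy => ?_⟩
          rw [← h.comm_pow_left (Q.pow_mem hx _) hy, ← pow_mul, ← pow_succ,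
            commutatorElement_eq_one_iff_mul_comm]
          exact hc y hy
        intro w hw
        exact (hNc _ hx' w hw).symm
    apply le_antisymm hNQ
    intro x hx
    refine ⟨hx, fun y hy => ?_⟩
    obtain ⟨j, hj⟩ := h.hQ ⟨x, hx⟩
    have hj' : x ^ q ^ j = 1 := by
      have := congrArg (fun z : ↥Q => (z : Γ)) hj
      simpa using this
    have h1 := key j x hx (fun w _ => by rw [hj', one_mul, mul_one]) y hy
    rw [← h.comm_pow_left hx hy, commutatorElement_eq_one_iff_mul_comm]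
    exact h1

theorem fpf_mod [Finite Γ] (h : GrossMin p q n Q φ) (R : Subgroup Γ) (hRQ : R ≤ Q)
    (hZR : ∀ z ∈ Q, (∀ w ∈ Q, z * w = w * z) → z ∈ R) {s : Γ} (hs : s ∈ Subgroup.zpowers φ)
    (hs1 : s ≠ 1) (hsR : ∀ x ∈ R, s * x * s⁻¹ ∈ R) :
    ∀ x ∈ Q, x⁻¹ * (s * x * s⁻¹) ∈ R → x ∈ R := by
  intro x hx hxs
  obtain ⟨l, hl⟩ := h.psi_mem hs hs1
  have hψR : ∀ y ∈ R, φ ^ p ^ n * y * (φ ^ p ^ n)⁻¹ ∈ R := by
    rw [hl]
    exact gross_pow_conj_mem R hsR l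
  have hψR' : ∀ y ∈ R, (φ ^ p ^ n)⁻¹ * y * φ ^ p ^ n ∈ R :=
    gross_inv_conj_mem R h.hp.pos h.psi_pow hψR
  have hδx : x⁻¹ * (φ ^ p ^ n * x * (φ ^ p ^ n)⁻¹) ∈ R := by
    rw [hl]
    exact gross_sl_pow R hsR hxs l
  have hAD : Subgroup.zpowers (φ ^ p ^ n) ≤ Subgroup.normalizer (R : Set Γ) := by
    rw [Subgroup.zpowers_le, Subgroup.mem_normalizer_iff]
    intro y
    constructor
    · exact hψR y
    · intro hy
      have := hψR' _ hy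
      have e : (φ ^ p ^ n)⁻¹ * (φ ^ p ^ n * y * (φ ^ p ^ n)⁻¹) * φ ^ p ^ n = y := by group
      rwa [e] at this
  haveI : Fact q.Prime := ⟨h.hq⟩
  have hcop : (Nat.card (Subgroup.zpowers (φ ^ p ^ n))).Coprime (Nat.card R) := by
    have h1 : Nat.card (Subgroup.zpowers (φ ^ p ^ n)) ∣ p := by
      rw [Nat.card_zpowers]
      exact orderOf_dvd_of_pow_eq_one h.psi_pow
    have hRp : IsPGroup q R := h.hQ.to_le hRQ
    obtain ⟨j, hj⟩ := hRp.exists_card_eq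
    rw [hj]
    exact Nat.Coprime.coprime_dvd_left h1
      (Nat.Coprime.pow_right _ ((Nat.coprime_primes h.hp h.hq).mpr (Ne.symm h.hqp)))
  have hsolv : Group.IsSolvable (Subgroup.zpowers (φ ^ p ^ n)) ∨ Group.IsSolvable R := by
    left
    apply Group.isSolvable_of_comm
    intro a b
    apply Subtype.ext
    obtain ⟨i, hi⟩ := Subgroup.mem_zpowers_iff.mp a.2
    obtain ⟨j, hj⟩ := Subgroup.mem_zpowers_iff.mp b.2
    show (a : Γ) * b = b * a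
    rw [← hi, ← hj]
    exact zpow_mul_comm _ _ _
  have hxA : ∀ a ∈ Subgroup.zpowers (φ ^ p ^ n), x⁻¹ * (a * x * a⁻¹) ∈ R := by
    intro a ha
    obtain ⟨i, rfl⟩ := gross_zpowers_nat h.hp.pos h.psi_pow ha
    exact gross_sl_pow R hψR hδx i
  obtain ⟨d, hd, hxd⟩ := Cfsg.Agent.Lib.Helper1.coprime_coset_fixed hAD hcop hsolv x hxA
  have hxdQ : x * d ∈ Q := Q.mul_mem hx (hRQ hd)
  have hψxd : φ ^ p ^ n * (x * d) = (x * d) * φ ^ p ^ n :=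
    (Subgroup.mem_centralizer_iff.mp hxd) _ (Subgroup.mem_zpowers _)
  have hxdR : x * d ∈ R := hZR _ hxdQ (h.psi_fixed_central _ hxdQ hψxd)
  have := R.mul_mem hxdR (R.inv_mem hd)
  rwa [mul_inv_cancel_right] at this

theorem card_center (h : GrossMin p q n Q φ) (hnab : ¬ ∀ x ∈ Q, ∀ y ∈ Q, x * y = y * x) :
    ∃ m : ℕ, 0 < m ∧
      Nat.card Q = q ^ m * Nat.card ↥(Q ⊓ Subgroup.centralizer (Q : Set Γ)) ∧
      p ^ (n + 1) ∣ q ^ m - 1 := by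
  haveI := h.hfin
  haveI : Fact q.Prime := ⟨h.hq⟩
  have hZQ : Q ⊓ Subgroup.centralizer (Q : Set Γ) ≤ Q := inf_le_left
  haveI : Finite ↥(Q ⊓ Subgroup.centralizer (Q : Set Γ)) :=
    Finite.of_injective (Subgroup.inclusion hZQ) (Subgroup.inclusion_injective hZQ)
  obtain ⟨e, he⟩ := h.hQ.exists_card_eq
  obtain ⟨f, hf⟩ := (h.hQ.to_le hZQ).exists_card_eq
  have hdvd : Nat.card ↥(Q ⊓ Subgroup.centralizer (Q : Set Γ)) ∣ Nat.card Q :=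
    Subgroup.card_dvd_of_le hZQ
  rw [he, hf] at hdvd
  have hfe : f ≤ e := (Nat.pow_dvd_pow_iff_le_right h.hq.one_lt).mp hdvd
  have hne : Q ⊓ Subgroup.centralizer (Q : Set Γ) ≠ Q := by
    intro heq
    apply hnab
    intro x hx y hy
    have hx' : x ∈ Q ⊓ Subgroup.centralizer (Q : Set Γ) := by
      rw [heq]
      exact hx
    exact ((Subgroup.mem_centralizer_iff.mp hx'.2) y hy).symm
  have hlt : f < e := by
    rcases Nat.lt_or_ge f e with hlt | hge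
    · exact hlt
    · exfalso
      apply hne
      apply Subgroup.eq_of_le_of_card_ge hZQ
      rw [he, hf]
      exact Nat.pow_le_pow_right h.hq.pos hge
  refine ⟨e - f, by omega, ?_, ?_⟩
  · rw [he, hf, ← pow_add]
    congr 1
    omega
  · -- free action on `Q \ Z`
    have hYfin : ((Q : Set Γ) \ ((Q ⊓ Subgroup.centralizer (Q : Set Γ) : Subgroup Γ) : Set Γ)).Finite :=
      (Set.toFinite (Q : Set Γ)).subset Set.diff_subset
    haveI : Finite ↥((Q : Set Γ) \ ((Q ⊓ Subgroup.centralizer (Q : Set Γ) : Subgroup Γ) : Set Γ)) :=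
      hYfin.to_subtype
    have h1 := gross_free_dvd (Subgroup.zpowers φ)
      ((Q : Set Γ) \ ((Q ⊓ Subgroup.centralizer (Q : Set Γ) : Subgroup Γ) : Set Γ))
      (by
        intro a ha y hy
        refine ⟨h.zpow_norm ha y hy.1, fun hc => hy.2 ?_⟩
        have := h.zpow_norm_center (Subgroup.inv_mem _ ha) _ hc
        rw [inv_inv] at this
        have e : a⁻¹ * (a * y * a⁻¹) * a = y := by group
        rwa [e] at this)
      (by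
        intro a ha y hy hay
        by_contra ha1
        apply hy.2
        refine Subgroup.mem_inf.mpr ⟨hy.1, ?_⟩
        rw [Subgroup.mem_centralizer_iff]
        intro w hw
        refine (h.fpf_mod_center ha ha1 y hy.1 ?_ w hw).symm
        intro w' _
        rw [hay, inv_mul_cancel, one_mul, mul_one])
    rw [Nat.card_zpowers, h.ord, Nat.card_coe_set_eq,
      Set.ncard_diff (fun x hx => hZQ hx) (Set.toFinite _)] at h1
    have e1 : (Q : Set Γ).ncard = Nat.card Q := (Nat.card_coe_set_eq _).symm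
    have e2 : ((Q ⊓ Subgroup.centralizer (Q : Set Γ) : Subgroup Γ) : Set Γ).ncard =
        Nat.card ↥(Q ⊓ Subgroup.centralizer (Q : Set Γ)) := (Nat.card_coe_set_eq _).symm
    rw [e1, e2, he, hf] at h1
    have e3 : q ^ e - q ^ f = (q ^ (e - f) - 1) * q ^ f := by
      rw [Nat.sub_mul, one_mul, ← pow_add]
      congr 2
      omega
    rw [e3] at h1
    have hcop : Nat.Coprime (p ^ (n + 1)) (q ^ f) :=
      Nat.Coprime.pow _ _ ((Nat.coprime_primes h.hp h.hq).mpr (Ne.symm h.hqp))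
    exact hcop.dvd_of_dvd_mul_right h1

end GrossMin

/-- a "character" `χ` of the centre of `Q` together with the radical `R` of the pairing
`(x, y) ↦ χ ⁅x, y⁆` -/
structure GrossChi {Γ : Type*} [Group Γ] {k : Type*} [Field k] (Q : Subgroup Γ) (χ : Γ → k)
    (R : Subgroup Γ) : Prop where
  h1 : χ 1 = 1
  hmul : ∀ z ∈ Q ⊓ Subgroup.centralizer (Q : Set Γ),
    ∀ z' ∈ Q ⊓ Subgroup.centralizer (Q : Set Γ), χ (z * z') = χ z * χ z'
  hR : ∀ x, x ∈ R ↔ x ∈ Q ∧ ∀ y ∈ Q, χ ⁅x, y⁆ = 1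

namespace GrossChi

variable {Γ : Type*} [Group Γ] {p q n : ℕ} {Q : Subgroup Γ} {φ : Γ} {k : Type*} [Field k]
  {χ : Γ → k} {R : Subgroup Γ}

theorem le (hχ : GrossChi Q χ R) : R ≤ Q := fun x hx => ((hχ.hR x).mp hx).1

theorem center_le (hχ : GrossChi Q χ R) :
    ∀ z ∈ Q, (∀ w ∈ Q, z * w = w * z) → z ∈ R := by
  intro z hz hc
  refine (hχ.hR z).mpr ⟨hz, fun y hy => ?_⟩
  rw [commutatorElement_eq_one_iff_mul_comm.mpr (hc y hy), hχ.h1]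

theorem norm (h : GrossMin p q n Q φ) (hχ : GrossChi Q χ R) {g : Γ}
    (hg : g ∈ Subgroup.zpowers φ)
    (hinv : ∀ z ∈ Q ⊓ Subgroup.centralizer (Q : Set Γ), χ (g * z * g⁻¹) = χ z) :
    ∀ x ∈ R, g * x * g⁻¹ ∈ R := by
  intro x hx
  obtain ⟨hxQ, hx'⟩ := (hχ.hR x).mp hx
  refine (hχ.hR _).mpr ⟨h.zpow_norm hg x hxQ, fun y hy => ?_⟩
  have hy' : g⁻¹ * y * g ∈ Q := h.zpow_norm' hg y hy
  have e : ⁅g * x * g⁻¹, y⁆ = g * ⁅x, g⁻¹ * y * g⁆ * g⁻¹ := by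
    simp only [commutatorElement_def]
    group
  rw [e, hinv _ (h.comm_mem_center hxQ hy'), hx' _ hy']

end GrossChi

end Cfsg.Agent.Lib.Helper26
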