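import Mathlib
import Cfsg.Agent.Lib.Helper26.GrossMinA

set_option autoImplicit false
set_option linter.style.haveILetI false
set_option linter.unusedSectionVars false
open scoped commutatorElement

namespace Cfsg.Agent.Lib.Helper26

section grossChar

variable {k : Type*} [Field k] {V : Type*} [AddCommGroup V] [Module k V]

theorem gross_act_mul (x y : (Module.End k V)ˣ) (v : V) : (x * y).1 v = x.1 (y.1 v) := rfl

theorem gross_act_one (v : V) : (1 : (Module.End k V)ˣ).1 v = v := rfl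

theorem gross_act_inv_act (x : (Module.End k V)ˣ) (v : V) : x⁻¹.1 (x.1 v) = v := by
  rw [← gross_act_mul, inv_mul_cancel]
  rfl

theorem gross_act_act_inv (x : (Module.End k V)ˣ) (v : V) : x.1 (x⁻¹.1 v) = v := by
  rw [← gross_act_mul, mul_inv_cancel]
  rfl

theorem gross_act_ne_zero (x : (Module.End k V)ˣ) {v : V} (hv : v ≠ 0) : x.1 v ≠ 0 := by
  intro h
  apply hv
  have h1 := congrArg (fun w => x⁻¹.1 w) h
  simp only [gross_act_inv_act, map_zero] at h1
  exact h1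

theorem gross_unit_ext {x y : (Module.End k V)ˣ} (h : ∀ v, x.1 v = y.1 v) : x = y :=
  Units.ext (LinearMap.ext h)

/-- conjugation formula for the action -/
theorem gross_act_conj (g x : (Module.End k V)ˣ) (v : V) :
    x.1 (g.1 v) = g.1 ((g⁻¹ * x * g).1 v) := by
  rw [← gross_act_mul, ← gross_act_mul]
  congr 2
  group

/-- the eigenvalue of `x` on `s` (or `0` if `s` is not an eigenvector) -/
noncomputable def grossChar (s : V) (x : (Module.End k V)ˣ) : k :=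
  Classical.epsilon (fun c : k => x.1 s = c • s)

theorem grossChar_spec {s : V} {x : (Module.End k V)ˣ} (hx : ∃ c : k, x.1 s = c • s) :
    x.1 s = grossChar s x • s :=
  Classical.epsilon_spec hx

theorem grossChar_eq {s : V} (hs : s ≠ 0) {x : (Module.End k V)ˣ} {c : k}
    (hx : x.1 s = c • s) : grossChar s x = c := by
  have h1 := grossChar_spec ⟨c, hx⟩
  rw [hx] at h1
  have h2 : (c - grossChar s x) • s = 0 := by rw [sub_smul, ← h1, sub_self]
  rcases smul_eq_zero.mp h2 with h3 | h3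
  · exact (sub_eq_zero.mp h3).symm
  · exact absurd h3 hs

theorem grossChar_one {s : V} (hs : s ≠ 0) : grossChar s (1 : (Module.End k V)ˣ) = 1 :=
  grossChar_eq hs (by rw [gross_act_one, one_smul])

theorem grossChar_mul {s : V} (hs : s ≠ 0) {x y : (Module.End k V)ˣ}
    (hx : ∃ c : k, x.1 s = c • s) (hy : ∃ c : k, y.1 s = c • s) :
    grossChar s (x * y) = grossChar s x * grossChar s y := by
  apply grossChar_eq hs
  rw [gross_act_mul, grossChar_spec hy, map_smul, grossChar_spec hx, smul_smul, mul_comm]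

theorem grossChar_ne_zero {s : V} (hs : s ≠ 0) {x : (Module.End k V)ˣ}
    (hx : ∃ c : k, x.1 s = c • s) : grossChar s x ≠ 0 := by
  intro h0
  have h1 := grossChar_spec hx
  rw [h0, zero_smul] at h1
  exact gross_act_ne_zero x hs h1

/-- joint eigenspace of a subgroup for a function -/
def grossEigSub (B : Subgroup (Module.End k V)ˣ) (χ : (Module.End k V)ˣ → k) : Submodule k V where
  carrier := {v | ∀ z ∈ B, z.1 v = χ z • v}
  add_mem' := by
    intro a b ha hb z hz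
    rw [map_add, ha z hz, hb z hz, smul_add]
  zero_mem' := by
    intro z _
    rw [map_zero, smul_zero]
  smul_mem' := by
    intro c v hv z hz
    rw [map_smul, hv z hz, smul_comm]

theorem mem_grossEigSub (B : Subgroup (Module.End k V)ˣ) (χ : (Module.End k V)ˣ → k) (v : V) :
    v ∈ grossEigSub B χ ↔ ∀ z ∈ B, z.1 v = χ z • v := Iff.rfl

end grossChar

section grossR

variable {Γ : Type*} [Group Γ] {p q n : ℕ} {Q : Subgroup Γ} {φ : Γ} {k : Type*} [Field k]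

/-- the radical of the pairing `(x, y) ↦ χ ⁅x, y⁆` is a subgroup -/
theorem gross_exists_R (hmin : GrossMin p q n Q φ) (χ : Γ → k) (h1 : χ 1 = 1)
    (hmul : ∀ z ∈ Q ⊓ Subgroup.centralizer (Q : Set Γ),
      ∀ z' ∈ Q ⊓ Subgroup.centralizer (Q : Set Γ), χ (z * z') = χ z * χ z') :
    ∃ R : Subgroup Γ, GrossChi Q χ R := by
  refine ⟨{ carrier := {x | x ∈ Q ∧ ∀ y ∈ Q, χ ⁅x, y⁆ = 1}
            mul_mem' := ?_
            one_mem' := ?_
            inv_mem' := ?_ }, h1, hmul, fun x => Iff.rfl⟩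
  · intro a b ha hb
    refine ⟨Q.mul_mem ha.1 hb.1, fun y hy => ?_⟩
    rw [hmin.comm_mul_left ha.1 hb.1 hy, hmul _ (hmin.comm_mem_center ha.1 hy) _
      (hmin.comm_mem_center hb.1 hy), ha.2 y hy, hb.2 y hy, mul_one]
  · refine ⟨Q.one_mem, fun y _ => ?_⟩
    rw [commutatorElement_one_left, h1]
  · intro a ha
    refine ⟨Q.inv_mem ha.1, fun y hy => ?_⟩
    have h2 := hmul _ (hmin.comm_mem_center ha.1 hy) _ (hmin.comm_mem_center (Q.inv_mem ha.1) hy)
    rw [← hmin.comm_mul_left ha.1 (Q.inv_mem ha.1) hy, mul_inv_cancel,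
      commutatorElement_one_left, h1, ha.2 y hy, one_mul] at h2
    exact h2.symm

end grossR

section grossIrr1

universe u

variable {k : Type*} [Field k] {V : Type*} [AddCommGroup V] [Module k V]

/-- the configuration produced in the irreducible nonabelian case -/
structure GrossW (Q : Subgroup (Module.End k V)ˣ) (χ θ : (Module.End k V)ˣ → k)
    (R : Subgroup (Module.End k V)ˣ) (W : Submodule k V) : Prop where
  hχ : GrossChi Q χ R
  hθmul : ∀ x ∈ R, ∀ y ∈ R, θ (x * y) = θ x * θ y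
  hθne : ∀ x ∈ R, θ x ≠ 0
  hθχ : ∀ z ∈ Q ⊓ Subgroup.centralizer (Q : Set (Module.End k V)ˣ), θ z = χ z
  hW : ∀ v, v ∈ W ↔ ∀ x ∈ R, x.1 v = θ x • v
  hWχ : ∀ v ∈ W, ∀ z ∈ Q ⊓ Subgroup.centralizer (Q : Set (Module.End k V)ˣ), z.1 v = χ z • v
  hWQ : ∀ x ∈ Q, ∀ v ∈ W, x.1 v ∈ W
  hW0 : W ≠ ⊥
  hRQ : R ≠ Q

variable [Finite k] [Module.Finite k V] {p q n M₀ : ℕ} {Q : Subgroup (Module.End k V)ˣ}
  {φ : (Module.End k V)ˣ}

theorem gross_root (hD : GrossData k p q n M₀) {m : ℕ} (hm : m ∣ M₀) :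
    ∃ ζ : k, IsPrimitiveRoot ζ m := by
  obtain ⟨ζ, hζ⟩ := hD.hroot
  obtain ⟨c, hc⟩ := hm
  exact ⟨ζ ^ c, hζ.pow hD.hM0 (by rw [hc, mul_comm])⟩

theorem gross_card_pos (hD : GrossData k p q n M₀) (h : GrossKP k p q n M₀ V Q φ) :
    0 < Nat.card Q :=
  Nat.pos_of_dvd_of_pos h.hcard hD.hM0

theorem gross_hroot (hD : GrossData k p q n M₀) (h : GrossKP k p q n M₀ V Q φ) :
    ∀ b ∈ Q, ∃ m : ℕ, 0 < m ∧ b ^ m = 1 ∧ ∃ ζ : k, IsPrimitiveRoot ζ m := by
  intro b hb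
  refine ⟨Nat.card Q, gross_card_pos hD h, ?_, gross_root hD h.hcard⟩
  have h1 : (⟨b, hb⟩ : ↥Q) ^ Nat.card Q = 1 := pow_card_eq_one'
  have h2 := congrArg (fun z : ↥Q => (z : (Module.End k V)ˣ)) h1
  exact h2

theorem gross_nontrivial_V (hmin : GrossMin p q n Q φ) : Nontrivial V := by
  by_contra hV
  rw [not_nontrivial_iff_subsingleton] at hV
  apply hmin.ne_bot
  rw [Subgroup.eq_bot_iff_forall]
  intro x _
  apply gross_unit_ext
  intro v
  exact Subsingleton.elim _ _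

/-- the sum of the `φ`-translates of a nonzero `Q`-invariant subspace is everything -/
theorem gross_span_top (hmin : GrossMin p q n Q φ)
    (hirr : ∀ U : Submodule k V, (∀ x ∈ Q, ∀ u ∈ U, x.1 u ∈ U) →
      (∀ u ∈ U, φ.1 u ∈ U) → U = ⊥ ∨ U = ⊤)
    (U₀ : Submodule k V) (hU₀ : U₀ ≠ ⊥) (hQU : ∀ x ∈ Q, ∀ u ∈ U₀, x.1 u ∈ U₀) :
    Submodule.span k {w | ∃ i : ℕ, ∃ v ∈ U₀, (φ ^ i).1 v = w} = ⊤ := by
  have hQinv : ∀ x ∈ Q, ∀ u ∈ Submodule.span k {w | ∃ i : ℕ, ∃ v ∈ U₀, (φ ^ i).1 v = w},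
      x.1 u ∈ Submodule.span k {w | ∃ i : ℕ, ∃ v ∈ U₀, (φ ^ i).1 v = w} := by
    intro x hx u hu
    have h2 : Submodule.span k {w | ∃ i : ℕ, ∃ v ∈ U₀, (φ ^ i).1 v = w} ≤
        (Submodule.span k {w | ∃ i : ℕ, ∃ v ∈ U₀, (φ ^ i).1 v = w}).comap x.1 := by
      rw [Submodule.span_le]
      rintro _ ⟨i, v, hv, rfl⟩
      rw [SetLike.mem_coe, Submodule.mem_comap, gross_act_conj (φ ^ i) x v]
      apply Submodule.subset_span
      exact ⟨i, _, hQU _ (hmin.zpow_norm' (Subgroup.pow_mem _ (Subgroup.mem_zpowers φ) i) x hx)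
        v hv, rfl⟩
    exact h2 hu
  have hφinv : ∀ u ∈ Submodule.span k {w | ∃ i : ℕ, ∃ v ∈ U₀, (φ ^ i).1 v = w},
      φ.1 u ∈ Submodule.span k {w | ∃ i : ℕ, ∃ v ∈ U₀, (φ ^ i).1 v = w} := by
    intro u hu
    have h2 : Submodule.span k {w | ∃ i : ℕ, ∃ v ∈ U₀, (φ ^ i).1 v = w} ≤
        (Submodule.span k {w | ∃ i : ℕ, ∃ v ∈ U₀, (φ ^ i).1 v = w}).comap φ.1 := by
      rw [Submodule.span_le]
      rintro _ ⟨i, v, hv, rfl⟩
      rw [SetLike.mem_coe, Submodule.mem_comap, ← gross_act_mul, ← pow_succ']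
      apply Submodule.subset_span
      exact ⟨i + 1, v, hv, rfl⟩
    exact h2 hu
  rcases hirr _ hQinv hφinv with h0 | h1
  · exfalso
    obtain ⟨u, hu, hu0⟩ := (Submodule.ne_bot_iff _).mp hU₀
    have h2 : u ∈ Submodule.span k {w | ∃ i : ℕ, ∃ v ∈ U₀, (φ ^ i).1 v = w} :=
      Submodule.subset_span ⟨0, u, hu, by rw [pow_zero]; rfl⟩
    rw [h0, Submodule.mem_bot] at h2
    exact hu0 h2
  · exact h1

/-- **Setup in the irreducible nonabelian case.** -/
theorem gross_irr_setup (hD : GrossData k p q n M₀) (h : GrossKP k p q n M₀ V Q φ)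
    (hmin : GrossMin p q n Q φ)
    (hirr : ∀ U : Submodule k V, (∀ x ∈ Q, ∀ u ∈ U, x.1 u ∈ U) →
      (∀ u ∈ U, φ.1 u ∈ U) → U = ⊥ ∨ U = ⊤)
    (hnab : ¬ ∀ x ∈ Q, ∀ y ∈ Q, x * y = y * x) :
    ∃ (χ θ : (Module.End k V)ˣ → k) (R : Subgroup (Module.End k V)ˣ) (W : Submodule k V),
      GrossW Q χ θ R W := by
  haveI : Nontrivial V := gross_nontrivial_V hmin
  have hZQ : Q ⊓ Subgroup.centralizer (Q : Set (Module.End k V)ˣ) ≤ Q := inf_le_left
  -- common eigenvector of the centre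
  obtain ⟨s₀, -, hs₀, hs₀'⟩ := gross_common_eig (Units.coeHom (Module.End k V))
    (Q ⊓ Subgroup.centralizer (Q : Set (Module.End k V)ˣ))
    (fun b hb => gross_hroot hD h b (hZQ hb)) _ ⊤ rfl top_ne_bot
    (fun _ _ _ _ => Submodule.mem_top)
    (fun b hb b' hb' u _ => by
      show b.1 (b'.1 u) = b'.1 (b.1 u)
      rw [← gross_act_mul, ← gross_act_mul, (Subgroup.mem_centralizer_iff.mp hb'.2) b hb.1])
  have hs₀Z : ∀ z ∈ Q ⊓ Subgroup.centralizer (Q : Set (Module.End k V)ˣ),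
      ∃ c : k, z.1 s₀ = c • s₀ := hs₀'
  obtain ⟨R, hχ⟩ := gross_exists_R hmin (grossChar s₀) (grossChar_one hs₀)
    (fun z hz z' hz' => grossChar_mul hs₀ (hs₀Z z hz) (hs₀Z z' hz'))
  -- the eigenspace of the centre
  have hs₀V : s₀ ∈ grossEigSub (Q ⊓ Subgroup.centralizer (Q : Set (Module.End k V)ˣ))
      (grossChar s₀) := fun z hz => grossChar_spec (hs₀Z z hz)
  have hVχ0 : grossEigSub (Q ⊓ Subgroup.centralizer (Q : Set (Module.End k V)ˣ))
      (grossChar s₀) ≠ ⊥ := by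
    intro h0
    rw [h0, Submodule.mem_bot] at hs₀V
    exact hs₀ hs₀V
  have hVχQ : ∀ x ∈ Q, ∀ v ∈ grossEigSub (Q ⊓ Subgroup.centralizer (Q : Set (Module.End k V)ˣ))
      (grossChar s₀), x.1 v ∈ grossEigSub
        (Q ⊓ Subgroup.centralizer (Q : Set (Module.End k V)ˣ)) (grossChar s₀) := by
    intro x hx v hv z hz
    rw [← gross_act_mul, ← (Subgroup.mem_centralizer_iff.mp hz.2) x hx, gross_act_mul, hv z hz,
      map_smul]
  -- `R ≠ Q`
  have hRQ : R ≠ Q := by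
    intro hRQ
    apply hnab
    intro x hx y hy
    rw [← commutatorElement_eq_one_iff_mul_comm]
    apply gross_unit_ext
    intro w
    have hw : w ∈ Submodule.span k {w | ∃ i : ℕ, ∃ v ∈ grossEigSub
        (Q ⊓ Subgroup.centralizer (Q : Set (Module.End k V)ˣ)) (grossChar s₀),
        (φ ^ i).1 v = w} := by
      rw [gross_span_top hmin hirr _ hVχ0 hVχQ]
      exact Submodule.mem_top
    have hle : Submodule.span k {w | ∃ i : ℕ, ∃ v ∈ grossEigSub
        (Q ⊓ Subgroup.centralizer (Q : Set (Module.End k V)ˣ)) (grossChar s₀),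
        (φ ^ i).1 v = w} ≤ LinearMap.eqLocus (⁅x, y⁆ : (Module.End k V)ˣ).1 LinearMap.id := by
      rw [Submodule.span_le]
      rintro _ ⟨i, v, hv, rfl⟩
      show (⁅x, y⁆ : (Module.End k V)ˣ).1 ((φ ^ i).1 v) = (φ ^ i).1 v
      have hx' : (φ ^ i)⁻¹ * x * φ ^ i ∈ Q :=
        hmin.zpow_norm' (Subgroup.pow_mem _ (Subgroup.mem_zpowers φ) i) x hx
      have hy' : (φ ^ i)⁻¹ * y * φ ^ i ∈ Q :=
        hmin.zpow_norm' (Subgroup.pow_mem _ (Subgroup.mem_zpowers φ) i) y hy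
      have e : (φ ^ i)⁻¹ * ⁅x, y⁆ * φ ^ i = ⁅(φ ^ i)⁻¹ * x * φ ^ i, (φ ^ i)⁻¹ * y * φ ^ i⁆ := by
        simp only [commutatorElement_def]
        group
      rw [gross_act_conj (φ ^ i) ⁅x, y⁆ v, e, hv _ (hmin.comm_mem_center hx' hy')]
      have hx'R : (φ ^ i)⁻¹ * x * φ ^ i ∈ R := by
        rw [hRQ]
        exact hx'
      rw [((hχ.hR _).mp hx'R).2 _ hy', one_smul]
    exact hle hw
  -- `R` acts on the eigenspace commuting with `Q`
  have hcomm : ∀ x ∈ R, ∀ y ∈ Q, ∀ v ∈ grossEigSub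
      (Q ⊓ Subgroup.centralizer (Q : Set (Module.End k V)ˣ)) (grossChar s₀),
      x.1 (y.1 v) = y.1 (x.1 v) := by
    intro x hx y hy v hv
    obtain ⟨hxQ, hx'⟩ := (hχ.hR x).mp hx
    have e : x * y = ⁅x, y⁆ * (y * x) := by
      rw [commutatorElement_def]
      group
    rw [← gross_act_mul, e, gross_act_mul, hVχQ _ (Q.mul_mem hy hxQ) v hv _
      (hmin.comm_mem_center hxQ hy), hx' y hy, one_smul, gross_act_mul]
  obtain ⟨s₁, hs₁V, hs₁, hs₁'⟩ := gross_common_eig (Units.coeHom (Module.End k V)) R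
    (fun b hb => gross_hroot hD h b (hχ.le hb)) _
    (grossEigSub (Q ⊓ Subgroup.centralizer (Q : Set (Module.End k V)ˣ)) (grossChar s₀)) rfl hVχ0
    (fun b hb u hu => hVχQ b (hχ.le hb) u hu)
    (fun b hb b' hb' u hu => hcomm b hb b' (hχ.le hb') u hu)
  have hs₁R : ∀ x ∈ R, ∃ c : k, x.1 s₁ = c • s₁ := hs₁'
  have hθχ : ∀ z ∈ Q ⊓ Subgroup.centralizer (Q : Set (Module.End k V)ˣ),
      grossChar s₁ z = grossChar s₀ z := fun z hz => grossChar_eq hs₁ (hs₁V z hz)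
  have hZR : Q ⊓ Subgroup.centralizer (Q : Set (Module.End k V)ˣ) ≤ R := by
    intro z hz
    refine hχ.center_le z hz.1 (fun w hw => ?_)
    exact ((Subgroup.mem_centralizer_iff.mp hz.2) w hw).symm
  have hWle : ∀ v ∈ grossEigSub R (grossChar s₁),
      v ∈ grossEigSub (Q ⊓ Subgroup.centralizer (Q : Set (Module.End k V)ˣ)) (grossChar s₀) := by
    intro v hv z hz
    rw [hv z (hZR hz), hθχ z hz]
  refine ⟨grossChar s₀, grossChar s₁, R, grossEigSub R (grossChar s₁),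
    { hχ := hχ
      hθmul := fun x hx y hy => grossChar_mul hs₁ (hs₁R x hx) (hs₁R y hy)
      hθne := fun x hx => grossChar_ne_zero hs₁ (hs₁R x hx)
      hθχ := hθχ
      hW := fun v => Iff.rfl
      hWχ := fun v hv z hz => hWle v hv z hz
      hWQ := ?_
      hW0 := ?_
      hRQ := hRQ }⟩
  · intro y hy v hv x hx
    rw [hcomm x hx y hy v (hWle v hv), hv x hx, map_smul]
  · intro h0
    have h1 : s₁ ∈ grossEigSub R (grossChar s₁) := fun x hx => grossChar_spec (hs₁R x hx)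
    rw [h0, Submodule.mem_bot] at h1
    exact hs₁ h1

end grossIrr1

end Cfsg.Agent.Lib.Helper26
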