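import Mathlib
import Cfsg.Agent.Lib.Helper26.GrossDefs
import Cfsg.Agent.Lib.Helper26.GrossMinA
import Cfsg.Agent.Lib.Helper26.GrossIrr1
import Cfsg.Agent.Lib.Helper26.Gross2DefsA
import Cfsg.Agent.Lib.Helper94.GrossKPAut

/-!
# Gross's theorem for `p = 2` (S3795): the linear level, statements

Throughout `ψ = φ ^ 2 ^ n` where `φ ^ 2 ^ (n + 1) = 1`, and `δ(x) = x⁻¹ * (ψ * x * ψ⁻¹)`.
-/

set_option autoImplicit false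
set_option linter.unusedSectionVars false
open scoped commutatorElement

namespace Cfsg.Agent.Lib.Helper26.Gross2

open Cfsg.Agent.Lib.Helper26

universe u

/-- standing arithmetic data: `M₀` is prime to `|k|` and `k` contains a primitive `M₀`-th root
of unity -/
structure GrossDat (k : Type*) [Field k] (M₀ : ℕ) : Prop where
  hM0 : 0 < M₀
  hcop : M₀.Coprime (Nat.card k)
  hroot : ∃ ζ : k, IsPrimitiveRoot ζ M₀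

/-- the linear three-layer key proposition -/
def Lin3Stmt : Prop :=
  ∀ (k : Type) [Field k] [Finite k] (q s n M₀ : ℕ), GrossDat k M₀ → q.Prime → s.Prime →
    q ≠ 2 → s ≠ 2 → q ≠ s →
    ∀ (V : Type u) [AddCommGroup V] [Module k V] [Module.Finite k V]
      (Q S : Subgroup (Module.End k V)ˣ) (φ : (Module.End k V)ˣ),
      IsPGroup q Q → IsPGroup s S → Nat.card Q * Nat.card S * 2 ^ (n + 1) ∣ M₀ →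
      φ ^ 2 ^ (n + 1) = 1 → (∀ x ∈ Q, φ * x * φ⁻¹ ∈ Q) → (∀ y ∈ S, φ * y * φ⁻¹ ∈ S) →
      (∀ y ∈ S, ∀ x ∈ Q, y * x * y⁻¹ ∈ Q) →
      (∀ x ∈ Q, φ * x = x * φ → x = 1) → (∀ y ∈ S, φ * y = y * φ → y = 1) →
      (∀ v : V, (φ : Module.End k V) v = v → v = 0) →
      ∀ y ∈ S, ∀ x ∈ Q, (y⁻¹ * (φ ^ 2 ^ n * y * (φ ^ 2 ^ n)⁻¹)) * x =
        x * (y⁻¹ * (φ ^ 2 ^ n * y * (φ ^ 2 ^ n)⁻¹))

/-- a tower `Q ← S ← φ` in an abstract group -/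
structure GrossTower {Γ : Type*} [Group Γ] (q s n : ℕ) (Q S : Subgroup Γ) (φ : Γ) : Prop where
  hq : q.Prime
  hs : s.Prime
  hq2 : q ≠ 2
  hs2 : s ≠ 2
  hqs : q ≠ s
  hfinQ : Finite Q
  hfinS : Finite S
  hQ : IsPGroup q Q
  hS : IsPGroup s S
  hφ : φ ^ 2 ^ (n + 1) = 1
  hnormQ : ∀ x ∈ Q, φ * x * φ⁻¹ ∈ Q
  hnormS : ∀ y ∈ S, φ * y * φ⁻¹ ∈ S
  hSQ : ∀ y ∈ S, ∀ x ∈ Q, y * x * y⁻¹ ∈ Q
  hCQ : ∀ x ∈ Q, φ * x = x * φ → x = 1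
  hCS : ∀ y ∈ S, φ * y = y * φ → y = 1

/-- a minimal tower in which `[S, ψ]` does not centralise `Q` -/
structure GrossTMin {Γ : Type*} [Group Γ] (q s n : ℕ) (Q S : Subgroup Γ) (φ : Γ) : Prop where
  tow : GrossTower q s n Q S φ
  hsubS : ∀ S₀ : Subgroup Γ, S₀ ≤ S → S₀ ≠ S → (∀ y ∈ S₀, φ * y * φ⁻¹ ∈ S₀) →
    ∀ y ∈ S₀, ∀ x ∈ Q, (y⁻¹ * (φ ^ 2 ^ n * y * (φ ^ 2 ^ n)⁻¹)) * x =
      x * (y⁻¹ * (φ ^ 2 ^ n * y * (φ ^ 2 ^ n)⁻¹))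
  hsubQ : ∀ Q₀ : Subgroup Γ, Q₀ ≤ Q → Q₀ ≠ Q → (∀ x ∈ Q₀, φ * x * φ⁻¹ ∈ Q₀) →
    (∀ y ∈ S, ∀ x ∈ Q₀, y * x * y⁻¹ ∈ Q₀) →
    ∀ y ∈ S, ∀ x ∈ Q₀, (y⁻¹ * (φ ^ 2 ^ n * y * (φ ^ 2 ^ n)⁻¹)) * x =
      x * (y⁻¹ * (φ ^ 2 ^ n * y * (φ ^ 2 ^ n)⁻¹))
  hnot : ¬ ∀ y ∈ S, ∀ x ∈ Q, (y⁻¹ * (φ ^ 2 ^ n * y * (φ ^ 2 ^ n)⁻¹)) * x =
    x * (y⁻¹ * (φ ^ 2 ^ n * y * (φ ^ 2 ^ n)⁻¹))

/-- structure of a minimal tower, given that `ψ` centralises the abelian `φ`-invariant subgroups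
of `Q`: `Q` has class two, `Q / Z(Q)` has exponent `q`, `ψ` does not centralise `Q / Z(Q)`,
`Q = [Q, S]`, and `S` centralises `Z(Q)` -/
def StructStmt : Prop :=
  ∀ (Γ : Type u) [Group Γ] (q s n : ℕ) (Q S : Subgroup Γ) (φ : Γ), GrossTMin q s n Q S φ →
    (∀ B : Subgroup Γ, B ≤ Q → (∀ x ∈ B, ∀ y ∈ B, x * y = y * x) →
      (∀ x ∈ B, φ * x * φ⁻¹ ∈ B) → ∀ x ∈ B, φ ^ 2 ^ n * x = x * φ ^ 2 ^ n) →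
    (∀ x ∈ Q, ∀ y ∈ Q, ∀ w ∈ Q, ⁅x, y⁆ * w = w * ⁅x, y⁆) ∧
    (∀ x ∈ Q, ∀ w ∈ Q, x ^ q * w = w * x ^ q) ∧
    (∃ x ∈ Q, ∃ w ∈ Q, (x⁻¹ * (φ ^ 2 ^ n * x * (φ ^ 2 ^ n)⁻¹)) * w ≠
      w * (x⁻¹ * (φ ^ 2 ^ n * x * (φ ^ 2 ^ n)⁻¹))) ∧
    (∀ x ∈ Q, x ∈ Subgroup.closure {c | ∃ u ∈ Q, ∃ y ∈ S, u⁻¹ * (y * u * y⁻¹) = c}) ∧
    (∀ y ∈ S, ∀ z ∈ Q, (∀ w ∈ Q, z * w = w * z) → y * z = z * y)

/-- the abelian lemma: if `P` acts commutatively on a `P`-invariant subspace `U`, then `y` and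
`ψ y ψ⁻¹` agree on `U` for all `y ∈ P` -/
def AbwStmt : Prop :=
  ∀ (k : Type) [Field k] [Finite k] (M₀ n : ℕ), GrossDat k M₀ →
    ∀ (V : Type u) [AddCommGroup V] [Module k V] [Module.Finite k V]
      (P : Subgroup (Module.End k V)ˣ) (φ : (Module.End k V)ˣ),
      Nat.card P ∣ M₀ → φ ^ 2 ^ (n + 1) = 1 → (∀ x ∈ P, φ * x * φ⁻¹ ∈ P) →
      (∀ v : V, (φ : Module.End k V) v = v → v = 0) →
      ∀ U : Submodule k V, (∀ x ∈ P, ∀ u ∈ U, (x : Module.End k V) u ∈ U) →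
        (∀ x ∈ P, ∀ y ∈ P, ∀ u ∈ U,
          (x : Module.End k V) ((y : Module.End k V) u) =
            (y : Module.End k V) ((x : Module.End k V) u)) →
        ∀ y ∈ P, ∀ u ∈ U,
          ((φ ^ 2 ^ n * y * (φ ^ 2 ^ n)⁻¹ : (Module.End k V)ˣ) : Module.End k V) u =
            (y : Module.End k V) u

/-- a nonabelian `ℓ`-group `P` of class two normalised by `φ`, whose centre is centralised by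
`ψ` and whose central quotient is inverted by `ψ` and has exponent `ℓ` -/
structure GrossInv {Γ : Type*} [Group Γ] (ℓ n : ℕ) (P : Subgroup Γ) (φ : Γ) : Prop where
  hℓ : ℓ.Prime
  hℓ2 : ℓ ≠ 2
  hfin : Finite P
  hP : IsPGroup ℓ P
  hφ : φ ^ 2 ^ (n + 1) = 1
  hnorm : ∀ x ∈ P, φ * x * φ⁻¹ ∈ P
  hc2 : ∀ x ∈ P, ∀ y ∈ P, ∀ w ∈ P, ⁅x, y⁆ * w = w * ⁅x, y⁆
  hZψ : ∀ z ∈ P, (∀ w ∈ P, z * w = w * z) → φ ^ 2 ^ n * z = z * φ ^ 2 ^ n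
  hinv : ∀ x ∈ P, ∀ w ∈ P, (x * (φ ^ 2 ^ n * x * (φ ^ 2 ^ n)⁻¹)) * w =
    w * (x * (φ ^ 2 ^ n * x * (φ ^ 2 ^ n)⁻¹))
  hexp : ∀ x ∈ P, ∀ w ∈ P, x ^ ℓ * w = w * x ^ ℓ
  hnab : ∃ x ∈ P, ∃ y ∈ P, x * y ≠ y * x

/-- the first layer: a `q`-group `Q` of class two of linear maps with `Q / Z(Q)` of exponent `q`
on which `ψ` acts nontrivially modulo the centre has a subgroup `R ⊇ Z(Q)`, invariant under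
everything normalising `Q` and centralising `Z(Q)`, with `|Q : R| = q ^ (2 m)` and
`|R [Q, ψ] : R| = q ^ 2` -/
def K1Stmt : Prop :=
  ∀ (k : Type) [Field k] [Finite k] (M₀ q n : ℕ), GrossDat k M₀ → q.Prime → q ≠ 2 →
    ∀ (V : Type u) [AddCommGroup V] [Module k V] [Module.Finite k V]
      (Q : Subgroup (Module.End k V)ˣ) (φ : (Module.End k V)ˣ),
      IsPGroup q Q → Nat.card Q * 2 ^ (n + 1) ∣ M₀ → φ ^ 2 ^ (n + 1) = 1 →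
      (∀ x ∈ Q, φ * x * φ⁻¹ ∈ Q) → (∀ v : V, (φ : Module.End k V) v = v → v = 0) →
      (∀ x ∈ Q, ∀ y ∈ Q, ∀ w ∈ Q, ⁅x, y⁆ * w = w * ⁅x, y⁆) →
      (∀ x ∈ Q, ∀ w ∈ Q, x ^ q * w = w * x ^ q) →
      (∃ x ∈ Q, ∃ w ∈ Q, (x⁻¹ * (φ ^ 2 ^ n * x * (φ ^ 2 ^ n)⁻¹)) * w ≠
        w * (x⁻¹ * (φ ^ 2 ^ n * x * (φ ^ 2 ^ n)⁻¹))) →
      ∃ (R : Subgroup (Module.End k V)ˣ) (m : ℕ), R ≤ Q ∧
        (∀ z ∈ Q, (∀ w ∈ Q, z * w = w * z) → z ∈ R) ∧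
        (∀ g : (Module.End k V)ˣ, (∀ x ∈ Q, g * x * g⁻¹ ∈ Q) →
          (∀ z ∈ Q, (∀ w ∈ Q, z * w = w * z) → g * z = z * g) → ∀ x ∈ R, g * x * g⁻¹ ∈ R) ∧
        Nat.card Q = q ^ (2 * m) * Nat.card R ∧
        Nat.card ↥(R ⊔ Subgroup.closure
          {c | ∃ x ∈ Q, x⁻¹ * (φ ^ 2 ^ n * x * (φ ^ 2 ^ n)⁻¹) = c}) = q ^ 2 * Nat.card R

/-- the second layer: in a minimal tower with `Q` of class two, `Q / Z(Q)` of exponent `q`,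
`Q = [Q, S]` and `S` centralising `Z(Q)`, every subgroup `R ⊇ Z(Q)` of `Q` normalised by `S`
and `ψ` satisfies `2 s e = (s + 1) d` where `|Q : R| = q ^ d` and `|R [Q, ψ] : R| = q ^ e` -/
def L2Stmt : Prop :=
  ∀ (Γ : Type u) [Group Γ] (q s n : ℕ) (Q S : Subgroup Γ) (φ : Γ), GrossTMin q s n Q S φ →
    (∀ x ∈ Q, ∀ y ∈ Q, ∀ w ∈ Q, ⁅x, y⁆ * w = w * ⁅x, y⁆) →
    (∀ x ∈ Q, ∀ w ∈ Q, x ^ q * w = w * x ^ q) →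
    (∀ x ∈ Q, x ∈ Subgroup.closure {c | ∃ u ∈ Q, ∃ y ∈ S, u⁻¹ * (y * u * y⁻¹) = c}) →
    (∀ y ∈ S, ∀ z ∈ Q, (∀ w ∈ Q, z * w = w * z) → y * z = z * y) →
    ∀ R : Subgroup Γ, R ≤ Q → (∀ z ∈ Q, (∀ w ∈ Q, z * w = w * z) → z ∈ R) →
      (∀ y ∈ S, ∀ x ∈ R, y * x * y⁻¹ ∈ R) →
      (∀ x ∈ R, φ ^ 2 ^ n * x * (φ ^ 2 ^ n)⁻¹ ∈ R) →
      ∀ d e : ℕ, Nat.card Q = q ^ d * Nat.card R →
        Nat.card ↥(R ⊔ Subgroup.closure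
          {c | ∃ x ∈ Q, x⁻¹ * (φ ^ 2 ^ n * x * (φ ^ 2 ^ n)⁻¹) = c}) = q ^ e * Nat.card R →
        2 * s * e = (s + 1) * d

end Cfsg.Agent.Lib.Helper26.Gross2
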