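import Mathlib
import Cfsg.Agent.Lib.Helper26.Gross2DefsB
import Cfsg.Agent.Lib.Helper26.GrossHH1

/-!
# Gross's theorem for `p = 2` (S3795): the component theory, statements

`ψ = φ ^ 2 ^ n`.  `P` satisfies `GrossInv ℓ n P φ`; `W` is a homogeneous component
(`GrossW P χ θ R W`, see `GrossIrr1.lean`): `R` is the radical of `(x, y) ↦ χ ⁅x, y⁆` on `P`,
`W` the `θ`-eigenspace of `R`, `R ≠ P`.
-/

set_option autoImplicit false
set_option linter.unusedSectionVars false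
open scoped commutatorElement

namespace Cfsg.Agent.Lib.Helper26.Gross2

open Cfsg.Agent.Lib.Helper26
open Cfsg.Agent.Lib.Helper94.GrossKPAut

universe u

/-- existence of a homogeneous component meeting a given invariant subspace `Y` on no nonzero
invariant subspace of which `P` acts commutatively -/
def SetupStmt : Prop :=
  ∀ (k : Type) [Field k] [Finite k] (M₀ ℓ n : ℕ), GrossDat k M₀ →
    ∀ (V : Type u) [AddCommGroup V] [Module k V] [Module.Finite k V]
      (P : Subgroup (Module.End k V)ˣ) (φ : (Module.End k V)ˣ),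
      GrossInv ℓ n P φ → Nat.card P ∣ M₀ →
      ∀ Y : Submodule k V, Y ≠ ⊥ → (∀ x ∈ P, ∀ u ∈ Y, (x : Module.End k V) u ∈ Y) →
        (∀ U : Submodule k V, U ≤ Y → U ≠ ⊥ →
          (∀ x ∈ P, ∀ u ∈ U, (x : Module.End k V) u ∈ U) →
          ¬ ∀ x ∈ P, ∀ y ∈ P, ∀ u ∈ U,
            (x : Module.End k V) ((y : Module.End k V) u) =
              (y : Module.End k V) ((x : Module.End k V) u)) →
        ∃ (χ θ : (Module.End k V)ˣ → k) (R : Subgroup (Module.End k V)ˣ) (W : Submodule k V),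
          GrossW P χ θ R W ∧ W ⊓ Y ≠ ⊥

/-- the stabiliser period `N` of a component `W` and fixed-point-freeness of `φ ^ N` on `W` -/
def N2Stmt : Prop :=
  ∀ (k : Type) [Field k] [Finite k] (M₀ ℓ n : ℕ), GrossDat k M₀ →
    ∀ (V : Type u) [AddCommGroup V] [Module k V] [Module.Finite k V]
      (P : Subgroup (Module.End k V)ˣ) (φ : (Module.End k V)ˣ),
      GrossInv ℓ n P φ → Nat.card P ∣ M₀ →
      (∀ v : V, (φ : Module.End k V) v = v → v = 0) →
      ∀ (χ θ : (Module.End k V)ˣ → k) (R : Subgroup (Module.End k V)ˣ) (W : Submodule k V),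
        GrossW P χ θ R W →
        ∃ N a : ℕ, N * a = 2 ^ (n + 1) ∧ 1 < a ∧
          (∀ v ∈ W, ((φ ^ N : (Module.End k V)ˣ) : Module.End k V) v ∈ W) ∧
          (∀ v ∈ W, ((φ ^ N : (Module.End k V)ˣ) : Module.End k V) v = v → v = 0) ∧
          (∀ z ∈ P ⊓ Subgroup.centralizer (P : Set (Module.End k V)ˣ),
            χ (φ ^ N * z * (φ ^ N)⁻¹) = χ z)

/-- the Hall–Higman inequality `|P| ≤ (a - 1) ^ 2 |R|` on a component, with the consequence of
equality for the commutant of `t = φ ^ N` restricted to `W` -/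
def Le2Stmt : Prop :=
  ∀ (k : Type) [Field k] [Finite k] (M₀ ℓ n : ℕ), GrossDat k M₀ →
    ∀ (V : Type u) [AddCommGroup V] [Module k V] [Module.Finite k V]
      (P : Subgroup (Module.End k V)ˣ) (φ : (Module.End k V)ˣ),
      GrossInv ℓ n P φ → Nat.card P * 2 ^ (n + 1) ∣ M₀ →
      ∀ (χ θ : (Module.End k V)ˣ → k) (R : Subgroup (Module.End k V)ˣ) (W : Submodule k V),
        GrossW P χ θ R W →
        ∀ N a : ℕ, N * a = 2 ^ (n + 1) → 1 < a →
          (∀ v ∈ W, ((φ ^ N : (Module.End k V)ˣ) : Module.End k V) v ∈ W) →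
          (∀ v ∈ W, ((φ ^ N : (Module.End k V)ˣ) : Module.End k V) v = v → v = 0) →
          (∀ z ∈ P ⊓ Subgroup.centralizer (P : Set (Module.End k V)ˣ),
            χ (φ ^ N * z * (φ ^ N)⁻¹) = χ z) →
          Nat.card P ≤ (a - 1) ^ 2 * Nat.card R ∧
          (Nat.card P = (a - 1) ^ 2 * Nat.card R → ∀ hS : φ ^ N ∈ grossStab W,
            (a - 1) * Module.finrank k
                ↥(grossComm ({grossRes W ⟨φ ^ N, hS⟩} : Set (Module.End k ↥W)ˣ)) =
              Module.finrank k ↥W ^ 2)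

/-- the arithmetic of a component (abstract group level): `|P : R| = ℓ ^ 2` and `a = ℓ + 1` -/
def Card2Stmt : Prop :=
  ∀ (Γ : Type u) [Group Γ] [Finite Γ] (ℓ n : ℕ) (P : Subgroup Γ) (φ : Γ), GrossInv ℓ n P φ →
    ∀ (k : Type) [Field k] (χ : Γ → k) (R : Subgroup Γ), GrossChi P χ R → R ≠ P →
      ∀ N a : ℕ, N * a = 2 ^ (n + 1) → 1 < a →
        (∀ z ∈ P ⊓ Subgroup.centralizer (P : Set Γ), χ (φ ^ N * z * (φ ^ N)⁻¹) = χ z) →
        Nat.card P ≤ (a - 1) ^ 2 * Nat.card R →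
        Nat.card P = ℓ ^ 2 * Nat.card R ∧ a = ℓ + 1

/-- the core of `Card2Stmt`: an automorphism `t` of `2`-power order `a` of a finite abelian
`ℓ`-group `A` (`ℓ` odd) all of whose nontrivial powers are fixed-point-free, preserving a
nondegenerate alternating bicharacter, with `|A| ≤ (a - 1) ^ 2`: then `|A| = ℓ ^ 2`, `a = ℓ + 1` -/
def Card2CoreStmt : Prop :=
  ∀ (A : Type u) [CommGroup A] [Finite A] [Nontrivial A] (ℓ a j : ℕ), ℓ.Prime → ℓ ≠ 2 →
    IsPGroup ℓ A → a = 2 ^ j → 1 < a → ∀ t : A ≃* A, t ^ a = 1 →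
    (∀ i : ℕ, 0 < i → i < a → ∀ x : A, (t ^ i) x = x → x = 1) →
    ∀ (k : Type) [Field k] (β : A → A → k),
      (∀ x x' y : A, β (x * x') y = β x y * β x' y) →
      (∀ x y y' : A, β x (y * y') = β x y * β x y') →
      (∀ x : A, β x x = 1) →
      (∀ x : A, (∀ y : A, β x y = 1) → x = 1) →
      (∀ x y : A, β (t x) (t y) = β x y) →
      Nat.card A ≤ (a - 1) ^ 2 →
      Nat.card A = ℓ ^ 2 ∧ a = ℓ + 1

/-- equality in the Hall–Higman count forces equal multiplicities of the eigenvalues of `t`: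
the fixed space of `t ^ (a / 2)` has dimension `(a - 2) / (2 (a - 1)) * dim W` -/
def G3EqStmt : Prop :=
  ∀ (k : Type) [Field k] (W : Type u) [AddCommGroup W] [Module k W] [Module.Finite k W]
    (t : (Module.End k W)ˣ) (a : ℕ), 1 < a → Even a → t ^ a = 1 →
    (∀ w : W, (t : Module.End k W) w = w → w = 0) →
    ∀ ζ : k, IsPrimitiveRoot ζ a → (a : k) ≠ 0 →
      (a - 1) * Module.finrank k ↥(grossComm ({t} : Set (Module.End k W)ˣ)) =
        Module.finrank k W ^ 2 →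
      2 * (a - 1) * Module.finrank k
          ↥(LinearMap.ker (((t ^ (a / 2) : (Module.End k W)ˣ) : Module.End k W) - 1)) =
        (a - 2) * Module.finrank k W

/-- the dihedral lemma: `x` of odd prime order `ℓ` inverted by the involution `ψ`, and `h`
conjugating `x` to `ζ • x` with `ζ ≠ 1`: then
`2 ℓ dim C(ψ) = 2 ℓ dim (C(ψ) ∩ C(x)) + (ℓ - 1) dim Y` -/
def DihStmt : Prop :=
  ∀ (k : Type) [Field k] (Y : Type u) [AddCommGroup Y] [Module k Y] [Module.Finite k Y]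
    (ℓ : ℕ), ℓ.Prime → ℓ ≠ 2 → (ℓ : k) ≠ 0 → (2 : k) ≠ 0 →
    ∀ (x ψ h : (Module.End k Y)ˣ) (ζ : k), x ^ ℓ = 1 → ψ ^ 2 = 1 → ψ * x * ψ⁻¹ = x⁻¹ →
      ζ ≠ 1 → ζ ^ ℓ = 1 →
      (∀ v : Y, ((h * x * h⁻¹ : (Module.End k Y)ˣ) : Module.End k Y) v =
        ζ • (x : Module.End k Y) v) →
      2 * ℓ * Module.finrank k ↥(LinearMap.ker ((ψ : Module.End k Y) - 1)) =
        2 * ℓ * Module.finrank k
            ↥(LinearMap.ker ((ψ : Module.End k Y) - 1) ⊓
              LinearMap.ker ((x : Module.End k Y) - 1)) +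
          (ℓ - 1) * Module.finrank k Y

/-- the component theorem: `|P : R| = ℓ ^ 2`, `W` is `ψ`-invariant and every `P`- and
`ψ`-invariant subspace `Y ≤ W` satisfies `2 ℓ dim C_Y(ψ) = (ℓ - 1) dim Y` -/
def CompStmt : Prop :=
  ∀ (k : Type) [Field k] [Finite k] (M₀ ℓ n : ℕ), GrossDat k M₀ →
    ∀ (V : Type u) [AddCommGroup V] [Module k V] [Module.Finite k V]
      (P : Subgroup (Module.End k V)ˣ) (φ : (Module.End k V)ˣ),
      GrossInv ℓ n P φ → Nat.card P * 2 ^ (n + 1) ∣ M₀ →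
      (∀ v : V, (φ : Module.End k V) v = v → v = 0) →
      ∀ (χ θ : (Module.End k V)ˣ → k) (R : Subgroup (Module.End k V)ˣ) (W : Submodule k V),
        GrossW P χ θ R W →
        Nat.card P = ℓ ^ 2 * Nat.card R ∧
        (∀ v ∈ W, ((φ ^ 2 ^ n : (Module.End k V)ˣ) : Module.End k V) v ∈ W) ∧
        ∀ Y : Submodule k V, Y ≤ W → (∀ x ∈ P, ∀ u ∈ Y, (x : Module.End k V) u ∈ Y) →
          (∀ u ∈ Y, ((φ ^ 2 ^ n : (Module.End k V)ˣ) : Module.End k V) u ∈ Y) →
          2 * ℓ * Module.finrank k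
              ↥(Y ⊓ LinearMap.ker (((φ ^ 2 ^ n : (Module.End k V)ˣ) : Module.End k V) - 1)) =
            (ℓ - 1) * Module.finrank k ↥Y

/-- the global fixed-point formula: if `P` acts commutatively on no nonzero invariant subspace,
then `2 ℓ dim C_Y(ψ) = (ℓ - 1) dim Y` for every `P`- and `ψ`-invariant subspace `Y` -/
def K2LStmt : Prop :=
  ∀ (k : Type) [Field k] [Finite k] (M₀ ℓ n : ℕ), GrossDat k M₀ →
    ∀ (V : Type u) [AddCommGroup V] [Module k V] [Module.Finite k V]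
      (P : Subgroup (Module.End k V)ˣ) (φ : (Module.End k V)ˣ),
      GrossInv ℓ n P φ → Nat.card P * 2 ^ (n + 1) ∣ M₀ →
      (∀ v : V, (φ : Module.End k V) v = v → v = 0) →
      (∀ U : Submodule k V, U ≠ ⊥ → (∀ x ∈ P, ∀ u ∈ U, (x : Module.End k V) u ∈ U) →
        ¬ ∀ x ∈ P, ∀ y ∈ P, ∀ u ∈ U,
          (x : Module.End k V) ((y : Module.End k V) u) =
            (y : Module.End k V) ((x : Module.End k V) u)) →
      ∀ Y : Submodule k V, (∀ x ∈ P, ∀ u ∈ Y, (x : Module.End k V) u ∈ Y) →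
        (∀ u ∈ Y, ((φ ^ 2 ^ n : (Module.End k V)ˣ) : Module.End k V) u ∈ Y) →
        2 * ℓ * Module.finrank k
            ↥(Y ⊓ LinearMap.ker (((φ ^ 2 ^ n : (Module.End k V)ˣ) : Module.End k V) - 1)) =
          (ℓ - 1) * Module.finrank k ↥Y

/-- a minimal configuration which is not abelian is a `GrossInv` configuration -/
def Min2InvStmt : Prop :=
  ∀ (Γ : Type u) [Group Γ] [Finite Γ] (s n : ℕ) (P : Subgroup Γ) (φ : Γ), GrossMin 2 s n P φ →
    (∃ x ∈ P, ∃ y ∈ P, x * y ≠ y * x) → GrossInv s n P φ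

/-! ### the second layer: additive maps on `Q` -/

/-- the additive maps `N → k` vanishing on a subgroup `M` -/
def annSub {N : Type*} [Group N] (k : Type*) [Field k] (M : Subgroup N) :
    Submodule k ↥(addMaps N k) where
  carrier := {f | ∀ x ∈ M, f.1 x = 0}
  add_mem' := by
    intro f g hf hg x hx
    show f.1 x + g.1 x = 0
    rw [hf x hx, hg x hx, add_zero]
  zero_mem' := fun _ _ => rfl
  smul_mem' := by
    intro c f hf x hx
    show c • f.1 x = 0
    rw [hf x hx, smul_zero]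

theorem mem_annSub {N : Type*} [Group N] (k : Type*) [Field k] (M : Subgroup N)
    (f : ↥(addMaps N k)) : f ∈ annSub k M ↔ ∀ x ∈ M, f.1 x = 0 := Iff.rfl

/-- the dimension of the space of additive maps vanishing on `M`, for `N / M` elementary abelian
of order `q ^ d` and `k` of characteristic `q` -/
def DimHomStmt : Prop :=
  ∀ (N : Type u) [Group N] [Finite N] (q : ℕ) [Fact q.Prime] (k : Type) [Field k]
    [Algebra (ZMod q) k] (M : Subgroup N) (d : ℕ), (∀ x y : N, ⁅x, y⁆ ∈ M) →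
    (∀ x : N, x ^ q ∈ M) → Nat.card N = q ^ d * Nat.card M →
    Module.finrank k ↥(annSub k M) = d

/-- conjugation action of the normaliser of `Q` on `Q` -/
def conjQ {Γ : Type*} [Group Γ] (Q : Subgroup Γ) :
    ↥(Subgroup.normalizer (Q : Set Γ)) →* MulAut ↥Q where
  toFun g :=
    { toFun := fun x => ⟨(g : Γ) * x * (g : Γ)⁻¹, (g.2 x).mp x.2⟩
      invFun := fun x => ⟨(g : Γ)⁻¹ * x * (g : Γ), by
        apply (g.2 ((g : Γ)⁻¹ * x * (g : Γ))).mpr
        have e : (g : Γ) * ((g : Γ)⁻¹ * x * (g : Γ)) * (g : Γ)⁻¹ = x := by group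
        rw [e]
        exact x.2⟩
      left_inv := fun x => Subtype.ext (by
        show (g : Γ)⁻¹ * ((g : Γ) * x * (g : Γ)⁻¹) * (g : Γ) = x
        group)
      right_inv := fun x => Subtype.ext (by
        show (g : Γ) * ((g : Γ)⁻¹ * x * (g : Γ)) * (g : Γ)⁻¹ = x
        group)
      map_mul' := fun x y => Subtype.ext (by
        show (g : Γ) * (x * y) * (g : Γ)⁻¹ = ((g : Γ) * x * (g : Γ)⁻¹) * ((g : Γ) * y * (g : Γ)⁻¹)
        group) }
  map_one' := by
    apply MulEquiv.ext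
    intro x
    apply Subtype.ext
    show (1 : Γ) * x * (1 : Γ)⁻¹ = x
    group
  map_mul' g h := by
    apply MulEquiv.ext
    intro x
    apply Subtype.ext
    show ((g : Γ) * (h : Γ)) * x * ((g : Γ) * (h : Γ))⁻¹ =
      (g : Γ) * ((h : Γ) * x * (h : Γ)⁻¹) * (g : Γ)⁻¹
    group

theorem conjQ_apply {Γ : Type*} [Group Γ] (Q : Subgroup Γ)
    (g : ↥(Subgroup.normalizer (Q : Set Γ))) (x : ↥Q) :
    ((conjQ Q g x : ↥Q) : Γ) = (g : Γ) * x * (g : Γ)⁻¹ := rfl

theorem conjQ_inv_apply {Γ : Type*} [Group Γ] (Q : Subgroup Γ)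
    (g : ↥(Subgroup.normalizer (Q : Set Γ))) (x : ↥Q) :
    ((((conjQ Q g)⁻¹ : MulAut ↥Q) x : ↥Q) : Γ) = (g : Γ)⁻¹ * x * (g : Γ) := rfl

/-- the action of the normaliser of `Q` on the additive maps `Q → k` -/
def lam {Γ : Type*} [Group Γ] (Q : Subgroup Γ) (k : Type*) [Field k] :
    ↥(Subgroup.normalizer (Q : Set Γ)) →* (Module.End k ↥(addMaps ↥Q k))ˣ :=
  (rho ↥Q k).comp (conjQ Q)

theorem lam_apply {Γ : Type*} [Group Γ] (Q : Subgroup Γ) (k : Type*) [Field k]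
    (g : ↥(Subgroup.normalizer (Q : Set Γ))) (f : ↥(addMaps ↥Q k)) (x : ↥Q) :
    (((lam Q k g : (Module.End k ↥(addMaps ↥Q k))ˣ) : Module.End k ↥(addMaps ↥Q k)) f).1 x =
      f.1 (((conjQ Q g)⁻¹ : MulAut ↥Q) x) := rfl

/-- the second layer set-up: the image of `S` in `GL(Hom(Q, k))` is a minimal configuration,
and neither `φ` nor `S` has nonzero fixed vectors -/
def TowerStmt : Prop :=
  ∀ (Γ : Type u) [Group Γ] (q s n : ℕ) (Q S : Subgroup Γ) (φ : Γ), GrossTMin q s n Q S φ →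
    (∀ x ∈ Q, ∀ y ∈ Q, ∀ w ∈ Q, ⁅x, y⁆ * w = w * ⁅x, y⁆) →
    (∀ x ∈ Q, ∀ w ∈ Q, x ^ q * w = w * x ^ q) →
    (∀ x ∈ Q, x ∈ Subgroup.closure {c | ∃ u ∈ Q, ∃ y ∈ S, u⁻¹ * (y * u * y⁻¹) = c}) →
    (∀ y ∈ S, ∀ z ∈ Q, (∀ w ∈ Q, z * w = w * z) → y * z = z * y) →
    ∀ (k : Type) [Field k] [Finite k] [Fact q.Prime] [Algebra (ZMod q) k]
      (hφN : φ ∈ Subgroup.normalizer (Q : Set Γ)) (hSN : S ≤ Subgroup.normalizer (Q : Set Γ)),
      GrossMin 2 s n ((S.subgroupOf (Subgroup.normalizer (Q : Set Γ))).map (lam Q k))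
        (lam Q k ⟨φ, hφN⟩) ∧
      (∀ f : ↥(addMaps ↥Q k),
        ((lam Q k ⟨φ, hφN⟩ : (Module.End k ↥(addMaps ↥Q k))ˣ) :
          Module.End k ↥(addMaps ↥Q k)) f = f → f = 0) ∧
      (∀ f : ↥(addMaps ↥Q k), (∀ (y : Γ) (hy : y ∈ S),
        ((lam Q k ⟨y, hSN hy⟩ : (Module.End k ↥(addMaps ↥Q k))ˣ) :
          Module.End k ↥(addMaps ↥Q k)) f = f) → f = 0)

end Cfsg.Agent.Lib.Helper26.Gross2
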