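import Cfsg.Agent.Lib.Helper24.EvalPre
import Cfsg.Prelude.Def_ChevF4

set_option autoImplicit false

/-! A checker for identities between words in root elements in characteristic two: the two
words are applied to the basis vectors over `ℤ[c, c⁻¹, t]` and the difference is required to have
even coefficients. -/

namespace Cfsg.Agent.Lib.Helper26.Chk2

open Cfsg.Lie Matrix Cfsg.Agent.Lib.Helper24

noncomputable section

/-- All coefficients of the sparse vector are even. -/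
def evenV (v : SVec) : Bool := v.all fun x => decide (x.2.1 % 2 = 0)

/-- The two words agree modulo two on the basis vector `e_j`. -/
def colEqChk2 (l : ℕ) (w₁ w₂ : List (RInfo × ℤ × Mono)) (j : ℕ) : Bool :=
  evenV (vsub (applyWord l w₁ (unitV j)) (applyWord l w₂ (unitV j)))

/-- The two words agree modulo two on all basis vectors. -/
def wordEqChk2 (D : ChevalleyDatum) (w₁ w₂ : List (RInfo × ℤ × Mono)) : Bool :=
  natAll (Nat.add D.rank D.nroots) (colEqChk2 D.rank w₁ w₂)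

/-- A word for the evaluator from a list of `(root, coefficient, monomial)`. -/
def mkW2 (D : ChevalleyDatum) (l : List (ℕ × ℤ × Mono)) : List (RInfo × ℤ × Mono) :=
  l.map fun x => (rinfo D x.1, x.2)

/-- All roots of the word are in range. -/
def ltAll2 (D : ChevalleyDatum) (l : List (ℕ × ℤ × Mono)) : Bool :=
  l.all fun x => Nat.blt x.1 D.nroots

/-- The check that two words have the same matrix in characteristic two. -/
def wEqChk2 (D : ChevalleyDatum) (l₁ l₂ : List (ℕ × ℤ × Mono)) : Bool :=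
  ltAll2 D l₁ && (ltAll2 D l₂ && wordEqChk2 D (mkW2 D l₁) (mkW2 D l₂))

variable {F : Type*} [Field F]

/-- The word in root elements denoted by a list of `(root, coefficient, monomial)`. -/
def wEval2 (c t : F) (l : List (ℕ × ℤ × Mono)) : List (ℕ × F) :=
  l.map fun x => (x.1, (x.2.1 : F) * evalM c t x.2.2)

theorem evalV_even [CharP F 2] (D : ChevalleyDatum) (c t : F) (v : SVec) (h : evenV v = true) :
    evalV D c t v = 0 := by
  induction v with
  | nil => rfl
  | cons x v ih =>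
    unfold evenV at h
    rw [List.all_cons, Bool.and_eq_true, decide_eq_true_eq] at h
    rw [evalV_cons, ih (by unfold evenV; exact h.2)]
    have h0 : ((x.2.1 : ℤ) : F) = 0 := by
      rw [CharP.intCast_eq_zero_iff F 2]
      exact_mod_cast Int.dvd_of_emod_eq_zero h.1
    rw [h0, zero_mul, zero_smul, add_zero]

theorem colEqChk2_sound [CharP F 2] (D : ChevalleyDatum) (c t : F) (hc : c ≠ 0)
    (w₁ w₂ : List (RInfo × ℤ × Mono))
    (hw₁ : ∀ x ∈ w₁, RValid D x.1) (hw₂ : ∀ x ∈ w₂, RValid D x.1) (j : ℕ)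
    (h : colEqChk2 D.rank w₁ w₂ j = true) :
    D.wordMat F (wordOf c t w₁) *ᵥ bvec F D j = D.wordMat F (wordOf c t w₂) *ᵥ bvec F D j := by
  unfold colEqChk2 at h
  have h2 := evalV_even D c t _ h
  rw [evalV_vsub, evalV_applyWord D c t hc w₁ hw₁, evalV_applyWord D c t hc w₂ hw₂,
    evalV_unitV, sub_eq_zero] at h2
  exact h2

theorem wordEqChk2_sound [CharP F 2] (D : ChevalleyDatum) (c t : F) (hc : c ≠ 0)
    (w₁ w₂ : List (RInfo × ℤ × Mono))
    (hw₁ : ∀ x ∈ w₁, RValid D x.1) (hw₂ : ∀ x ∈ w₂, RValid D x.1)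
    (h : wordEqChk2 D w₁ w₂ = true) :
    D.wordMat F (wordOf c t w₁) = D.wordMat F (wordOf c t w₂) := by
  unfold wordEqChk2 at h
  rw [natAll_iff] at h
  apply mat_ext
  · intro i hi
    have := colEqChk2_sound D c t hc w₁ w₂ hw₁ hw₂ i (h i (by show i < D.rank + D.nroots; omega))
    rwa [bvec_lt D i hi] at this
  · intro s hs
    have := colEqChk2_sound D c t hc w₁ w₂ hw₁ hw₂ (D.rank + s)
      (h (D.rank + s) (by show D.rank + s < D.rank + D.nroots; omega))
    rwa [bvec_add D s] at this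

theorem wordOf_mkW2 (D : ChevalleyDatum) (c t : F) (l : List (ℕ × ℤ × Mono)) :
    wordOf c t (mkW2 D l) = wEval2 c t l := by
  unfold wordOf mkW2 wEval2
  rw [List.map_map]
  rfl

theorem mkW2_valid (D : ChevalleyDatum) (h : preChk D = true) (l : List (ℕ × ℤ × Mono))
    (hl : ltAll2 D l = true) : ∀ x ∈ mkW2 D l, RValid D x.1 := by
  intro x hx
  unfold mkW2 at hx
  rw [List.mem_map] at hx
  obtain ⟨y, hy, rfl⟩ := hx
  unfold ltAll2 at hl
  rw [List.all_eq_true] at hl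
  exact rinfo_valid D h y.1 ((natBlt_iff _ _).1 (hl y hy))

/-- Soundness of the characteristic two word check. -/
theorem wEq2_sound [CharP F 2] (D : ChevalleyDatum) (h : preChk D = true)
    (l₁ l₂ : List (ℕ × ℤ × Mono)) (hchk : wEqChk2 D l₁ l₂ = true) (c t : F) (hc : c ≠ 0) :
    D.wordMat F (wEval2 c t l₁) = D.wordMat F (wEval2 c t l₂) := by
  unfold wEqChk2 at hchk
  simp only [Bool.and_eq_true] at hchk
  obtain ⟨h1, h2, h3⟩ := hchk
  have key := wordEqChk2_sound D c t hc (mkW2 D l₁) (mkW2 D l₂) (mkW2_valid D h l₁ h1)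
    (mkW2_valid D h l₂ h2) h3
  rwa [wordOf_mkW2, wordOf_mkW2] at key

set_option maxRecDepth 1000000 in
theorem preChk_F4 : preChk chevF4 = true := by decide +kernel

/-- `Y(1,0) X(0,1) Y(1,1) = n_{p₂} n_{p₃} n_{p₂} n_{p₃}` in characteristic two. -/
def n2L : List (ℕ × ℤ × Mono) :=
  [(20, 1, (0, 0)), (22, 1, (0, 0)), (19, 1, (0, 0)), (28, 1, (0, 0)), (30, 1, (0, 0)),
    (20, 1, (0, 0)), (22, 1, (0, 0)), (17, 1, (0, 0))]

def n2R : List (ℕ × ℤ × Mono) :=
  [(27, 1, (0, 0)), (20, -1, (0, 0)), (27, 1, (0, 0)), (25, 1, (0, 0)), (22, -1, (0, 0)),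
    (25, 1, (0, 0)), (27, 1, (0, 0)), (20, -1, (0, 0)), (27, 1, (0, 0)), (25, 1, (0, 0)),
    (22, -1, (0, 0)), (25, 1, (0, 0))]

set_option maxRecDepth 1000000 in
theorem f4_n2_chk : wEqChk2 chevF4 n2L n2R = true := by decide +kernel


/-- `x₂₅(t) x₂₇(c) = x₂₇(c) x₂₅(t) x₂₈(c t) x₃₀(c² t)` in characteristic two. -/
theorem f4_b2pos_chk : wEqChk2 chevF4 [(25, 1, (0, 1)), (27, 1, (1, 0))]
    [(27, 1, (1, 0)), (25, 1, (0, 1)), (28, 1, (1, 1)), (30, 1, (2, 1))] = true := by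
  decide +kernel

/-- `x₂₂(t) x₂₀(c) = x₂₀(c) x₂₂(t) x₁₉(c t) x₁₇(c² t)` in characteristic two. -/
theorem f4_b2neg_chk : wEqChk2 chevF4 [(22, 1, (0, 1)), (20, 1, (1, 0))]
    [(20, 1, (1, 0)), (22, 1, (0, 1)), (19, 1, (1, 1)), (17, 1, (2, 1))] = true := by
  decide +kernel

/-- `X₁(1) Y₁(1) X₁(1) = n_{p₁} n_{p₄}` in characteristic two. -/
theorem f4_n1_chk : wEqChk2 chevF4
    [(33, 1, (0, 0)), (24, 1, (0, 0)), (14, 1, (0, 0)), (23, 1, (0, 0)), (33, 1, (0, 0)),
      (24, 1, (0, 0))]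
    [(33, 1, (0, 0)), (14, -1, (0, 0)), (33, 1, (0, 0)), (24, 1, (0, 0)), (23, -1, (0, 0)),
      (24, 1, (0, 0))] = true := by
  decide +kernel

/-- `x₂₈` and `x₃₀` commute, `x₁₉` and `x₁₇` commute, `x₃₃` and `x₂₄` commute, `x₁₄` and `x₂₃`
commute (characteristic two). -/
theorem f4_comm_chk :
    wEqChk2 chevF4 [(28, 1, (1, 0)), (30, 1, (0, 1))] [(30, 1, (0, 1)), (28, 1, (1, 0))] = true ∧
    wEqChk2 chevF4 [(19, 1, (1, 0)), (17, 1, (0, 1))] [(17, 1, (0, 1)), (19, 1, (1, 0))] = true ∧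
    wEqChk2 chevF4 [(33, 1, (1, 0)), (24, 1, (0, 1))] [(24, 1, (0, 1)), (33, 1, (1, 0))] = true ∧
    wEqChk2 chevF4 [(14, 1, (1, 0)), (23, 1, (0, 1))] [(23, 1, (0, 1)), (14, 1, (1, 0))] = true := by
  decide +kernel

end

end Cfsg.Agent.Lib.Helper26.Chk2
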