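import Cfsg.Agent.Lib.Helper24.TwFil
import Cfsg.Agent.Lib.Helper24.GrF4
import Cfsg.Agent.Lib.Helper24.RkSig
import Cfsg.Prelude.Def_LieTwisted

set_option autoImplicit false

/-! Definitions for the weak order facts on `²F₄(q)`: the level function, the twisting
endomorphism as an abstract homomorphism, its fixed points, word forms and families. -/

namespace Cfsg.Agent.Lib.Helper26.TF4

open Cfsg.Lie Matrix Cfsg.Agent.Lib.Helper24

theorem hF4 : chevF4 ∈ chevList := by simp [chevList]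

/-- The level function of `F₄` adapted to the twist: `41 + 2 c₁ + 4 c₂ + 5 c₃ + 3 c₄` on the root
`c₁ p₁ + c₂ p₂ + c₃ p₃ + c₄ p₄`. The 24 positive roots have distinct levels and the partner of a
long positive root has smaller level. -/
def lvF4 (r : ℕ) : ℕ :=
  ([0, 3, 8, 12, 16, 21, 24, 14, 18, 23, 26, 27, 30, 35, 39, 20, 25, 28, 29, 32, 37, 33, 36, 38,
    44, 46, 49, 45, 50, 53, 54, 57, 62, 43, 47, 52, 55, 56, 59, 64, 68, 58, 61, 66, 70, 74, 79,
    82] : List ℕ).getD r 0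

/-- A fundamental coroot pairing `±1` with the root. -/
def iaF4 (r : ℕ) : ℕ :=
  ((List.range 4).find? fun i => chevF4.cartan i r == 1 || chevF4.cartan i r == -1).getD 0

/-- The root permutation of the graph automorphism. -/
def rho (r : ℕ) : ℕ := Gr.rhoF4.getD r 0

/-- The exponent of the twisting endomorphism on the root `r`: `2e` on short, `e` on long roots. -/
def pw (e r : ℕ) : ℕ := if Gr.shF4.contains r then 2 * e else e

/-- `σ` acts on the root elements as `x_r(t) ↦ x_{ρ r}(t ^ pw e r)`. -/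
def IsSig (K : Type*) [Field K] (e : ℕ) (σ : ↥(chevF4.group K) →* ↥(chevF4.group K)) : Prop :=
  ∀ r < chevF4.nroots, ∀ t : K, σ (xG chevF4 hF4 r t) = xG chevF4 hF4 (rho r) (t ^ pw e r)

/-- The fixed points of `σ`, as a subgroup of `GL`. -/
def sigFix {K : Type*} [Field K] (σ : ↥(chevF4.group K) →* ↥(chevF4.group K)) :
    Subgroup (GL chevF4.Idx K) :=
  (MonoidHom.eqLocus σ (MonoidHom.id _)).map (chevF4.group K).subtype

theorem mem_sigFix {K : Type*} [Field K] (σ : ↥(chevF4.group K) →* ↥(chevF4.group K))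
    (g : GL chevF4.Idx K) :
    g ∈ sigFix σ ↔ ∃ h : g ∈ chevF4.group K, σ ⟨g, h⟩ = ⟨g, h⟩ := by
  unfold sigFix
  constructor
  · rintro ⟨x, hx, rfl⟩
    exact ⟨x.2, hx⟩
  · rintro ⟨h, hx⟩
    exact ⟨⟨g, h⟩, hx, rfl⟩

/-- The elements of `G1 ∩ U` are fixed by "`x_r(t) ↦ x_{ρ r}(g_r(t))`", in terms of coordinates. -/
def WordFix {F : Type*} [Field F] (D : ChevalleyDatum) (hD : D ∈ chevList) (ρ : ℕ → ℕ)
    (g : ℕ → F → F) (G1 : Subgroup (GL D.Idx F)) : Prop :=
  ∀ u ∈ G1, ∀ t : ℕ → F, IsCoord D hD u t →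
    u = wGL D hD (D.posRoots.map fun r => (ρ r, g r (t r)))

theorem WordFix.mono {F : Type*} [Field F] {D : ChevalleyDatum} {hD : D ∈ chevList} {ρ : ℕ → ℕ}
    {g : ℕ → F → F} {G1 G2 : Subgroup (GL D.Idx F)} (h : G1 ≤ G2)
    (hf : WordFix D hD ρ g G2) : WordFix D hD ρ g G1 :=
  fun u hu t hco => hf u (h hu) t hco

/-- A family of elements of `G1 ∩ U` of level `c` with arbitrary coordinate at the root `s`. -/
def Fam {K : Type*} [Field K] (G1 : Subgroup (GL chevF4.Idx K)) (s c : ℕ) : Prop :=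
  ∃ hc1 : 1 ≤ c, ∃ X : K → GL chevF4.Idx K, ∀ y : K, X y ∈ G1 ∧ X y ∈ chevF4.posUnipotent K ∧
    X y ∈ utSubgroup (R := K) (wLev chevF4 lvF4 41) c hc1 ∧
    ent chevF4 (X y) s (iaF4 s) = -((chevF4.cartan (iaF4 s) s : ℤ) : K) * y

/-- The short positive roots with their levels (above `41`). -/
def shTab : List (ℕ × ℕ) :=
  [(33, 2), (27, 4), (34, 6), (28, 9), (35, 11), (29, 12), (36, 14), (37, 15), (38, 18), (39, 23),
    (40, 27), (44, 29)]

end Cfsg.Agent.Lib.Helper26.TF4
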