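import Cfsg.Agent.Lib.Helper26.TwF4Fil
import Cfsg.Agent.Lib.Helper24.TwUD4

set_option autoImplicit false
set_option linter.unusedVariables false

/-! The families of elements of `²F₄ ∩ U` at the 12 short positive roots, given the two
`n`-elements: conjugates of the generating words. -/

namespace Cfsg.Agent.Lib.Helper26.TF4

open Cfsg.Lie Matrix Cfsg.Agent.Lib.Helper24
open Cfsg.Agent.Lib.Helper25 (wPi wEta wEta_cases)

section

variable {K : Type*} [Field K]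

theorem eta_one [CharP K 2] (L : List ℕ) (s : ℕ) : ((wEta chevF4 L s : ℤ) : K) = 1 := by
  rcases wEta_cases chevF4 L s with h | h <;> rw [h]
  · simp
  · rw [Int.cast_neg, Int.cast_one]
    exact CharTwo.neg_eq 1

/-- A family obtained by conjugating a family of words of `G1` with a word of fundamental
reflections lying in `G1`. -/
theorem fam_of_conj [CharP K 2] (G1 : Subgroup (GL chevF4.Idx K)) (L : List ℕ)
    (hLr : ∀ i ∈ L, i < chevF4.rank) (hLm : nWordGL chevF4 hF4 L ∈ G1)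
    (W : K → List (ℕ × K)) (hWm : ∀ y, wGL chevF4 hF4 (W y) ∈ G1)
    (s c : ℕ) (hc1 : 1 ≤ c) (hs : chevF4.IsPosRoot s) (hlv : lvF4 s = 41 + c)
    (hlt : ∀ y, ∀ p ∈ W y, p.1 < chevF4.nroots)
    (hpos : ∀ y, ∀ p ∈ W y, chevF4.IsPosRoot (wPi chevF4 L p.1) ∧
      41 + c ≤ lvF4 (wPi chevF4 L p.1))
    (hsum : ∀ y, ((W y).map fun p => if wPi chevF4 L p.1 = s then p.2 else 0).sum = y) :
    Fam G1 s c := by
  refine ⟨hc1, fun y => nWordGL chevF4 hF4 L * wGL chevF4 hF4 (W y) *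
    (nWordGL chevF4 hF4 L)⁻¹, fun y => ?_⟩
  refine ⟨Subgroup.mul_mem _ (Subgroup.mul_mem _ hLm (hWm y)) (Subgroup.inv_mem _ hLm), ?_⟩
  show nWordGL chevF4 hF4 L * wGL chevF4 hF4 (W y) * (nWordGL chevF4 hF4 L)⁻¹ ∈ _ ∧
    nWordGL chevF4 hF4 L * wGL chevF4 hF4 (W y) * (nWordGL chevF4 hF4 L)⁻¹ ∈ _ ∧
    ent chevF4 (nWordGL chevF4 hF4 L * wGL chevF4 hF4 (W y) * (nWordGL chevF4 hF4 L)⁻¹) s
      (iaF4 s) = _
  rw [nWordGL_conj_wGL chevF4 hF4 L hLr _ (hlt y)]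
  refine word_family chevF4 hF4 lvF4 41 levF4 iaF4 posF4 _ s y c hc1 ?_ hs hlv ?_
  · intro p hp
    obtain ⟨p', hp', rfl⟩ := List.mem_map.1 hp
    exact hpos y p' hp'
  · rw [List.map_map]
    refine Eq.trans ?_ (hsum y)
    congr 1
    apply List.map_congr_left
    intro p hp
    show (if wPi chevF4 L p.1 = s then ((wEta chevF4 L p.1 : ℤ) : K) * p.2 else 0) = _
    rw [eta_one, one_mul]

theorem f4_lt : 24 < chevF4.nroots ∧ 25 < chevF4.nroots ∧ 27 < chevF4.nroots ∧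
    28 < chevF4.nroots ∧ 30 < chevF4.nroots ∧ 33 < chevF4.nroots := by decide

/-- Families from the pair word. -/
theorem famA [CharP K 2] (e : ℕ) (hF : ∀ x : K, (x ^ e) ^ (2 * e) = x) (L : List ℕ)
    (hLr : ∀ i ∈ L, i < chevF4.rank) (hLm : nWordGL chevF4 hF4 L ∈ twistedF4 K e) (s c : ℕ)
    (hc1 : 1 ≤ c) (hs : chevF4.IsPosRoot s) (hlv : lvF4 s = 41 + c)
    (h33 : wPi chevF4 L 33 = s)
    (h24 : chevF4.IsPosRoot (wPi chevF4 L 24) ∧ 41 + c ≤ lvF4 (wPi chevF4 L 24) ∧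
      wPi chevF4 L 24 ≠ s) :
    Fam (twistedF4 K e) s c := by
  refine fam_of_conj (twistedF4 K e) L hLr hLm (fun y => [(33, y), (24, y ^ (2 * e))]) ?_ s c hc1
    hs hlv ?_ ?_ ?_
  · intro y
    have e1 : (y ^ (2 * e)) ^ e = y := by rw [← pow_mul, mul_comm (2 * e) e, pow_mul, hF]
    have e2 : wGL chevF4 hF4 [(33, y), (24, y ^ (2 * e))] =
        wGL chevF4 hF4 (f4PairWord e f4p1 f4p4 (y ^ (2 * e))) := by
      unfold f4PairWord f4p1 f4p4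
      rw [e1]
    rw [e2]
    exact wGL_mem_gen chevF4 hF4 (f4Words K e) _ (Or.inl ⟨_, Or.inl rfl⟩)
  · intro y p hp
    simp only [List.mem_cons, List.not_mem_nil, or_false] at hp
    rcases hp with rfl | rfl
    · exact f4_lt.2.2.2.2.2
    · exact f4_lt.1
  · intro y p hp
    simp only [List.mem_cons, List.not_mem_nil, or_false] at hp
    rcases hp with rfl | rfl
    · show chevF4.IsPosRoot (wPi chevF4 L 33) ∧ 41 + c ≤ lvF4 (wPi chevF4 L 33)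
      rw [h33]
      exact ⟨hs, hlv.ge⟩
    · exact ⟨h24.1, h24.2.1⟩
  · intro y
    simp only [List.map_cons, List.map_nil, List.sum_cons, List.sum_nil, h33, if_true,
      if_neg h24.2.2, add_zero]

/-- Families from the `B₂` word with `u = 0`. -/
theorem famB [CharP K 2] (e : ℕ) (he : e ≠ 0) (hF : ∀ x : K, (x ^ e) ^ (2 * e) = x)
    (L : List ℕ) (hLr : ∀ i ∈ L, i < chevF4.rank)
    (hLm : nWordGL chevF4 hF4 L ∈ twistedF4 K e) (s c : ℕ)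
    (hc1 : 1 ≤ c) (hs : chevF4.IsPosRoot s) (hlv : lvF4 s = 41 + c)
    (h27 : wPi chevF4 L 27 = s)
    (h25 : chevF4.IsPosRoot (wPi chevF4 L 25) ∧ 41 + c ≤ lvF4 (wPi chevF4 L 25) ∧
      wPi chevF4 L 25 ≠ s)
    (h28 : chevF4.IsPosRoot (wPi chevF4 L 28) ∧ 41 + c ≤ lvF4 (wPi chevF4 L 28) ∧
      wPi chevF4 L 28 ≠ s) :
    Fam (twistedF4 K e) s c := by
  refine fam_of_conj (twistedF4 K e) L hLr hLm
    (fun y => [(27, y), (25, y ^ (2 * e)), (28, (y ^ (2 * e)) ^ (e + 1))]) ?_ s c hc1 hs hlv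
    ?_ ?_ ?_
  · intro y
    have e1 : (y ^ (2 * e)) ^ e = y := by rw [← pow_mul, mul_comm (2 * e) e, pow_mul, hF]
    have e2 : wGL chevF4 hF4 [(27, y), (25, y ^ (2 * e)), (28, (y ^ (2 * e)) ^ (e + 1))] =
        wGL chevF4 hF4 (b2ClassWord e f4a f4b f4ab f4aab (y ^ (2 * e)) 0) := by
      unfold b2ClassWord f4a f4b f4ab f4aab
      simp only [wGL_cons, wGL_nil]
      rw [e1, add_zero, zero_pow (by omega : 2 * e ≠ 0), xGL_zero, one_mul]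
    rw [e2]
    exact wGL_mem_gen chevF4 hF4 (f4Words K e) _ (Or.inr ⟨_, _, Or.inl rfl⟩)
  · intro y p hp
    simp only [List.mem_cons, List.not_mem_nil, or_false] at hp
    rcases hp with rfl | rfl | rfl
    · exact f4_lt.2.2.1
    · exact f4_lt.2.1
    · exact f4_lt.2.2.2.1
  · intro y p hp
    simp only [List.mem_cons, List.not_mem_nil, or_false] at hp
    rcases hp with rfl | rfl | rfl
    · show chevF4.IsPosRoot (wPi chevF4 L 27) ∧ 41 + c ≤ lvF4 (wPi chevF4 L 27)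
      rw [h27]
      exact ⟨hs, hlv.ge⟩
    · exact ⟨h25.1, h25.2.1⟩
    · exact ⟨h28.1, h28.2.1⟩
  · intro y
    simp only [List.map_cons, List.map_nil, List.sum_cons, List.sum_nil, h27, if_true,
      if_neg h25.2.2, if_neg h28.2.2, add_zero]

/-- Families from the `B₂` word with `t = 0`. -/
theorem famC [CharP K 2] (e : ℕ) (he : e ≠ 0)
    (L : List ℕ) (hLr : ∀ i ∈ L, i < chevF4.rank)
    (hLm : nWordGL chevF4 hF4 L ∈ twistedF4 K e) (s c : ℕ)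
    (hc1 : 1 ≤ c) (hs : chevF4.IsPosRoot s) (hlv : lvF4 s = 41 + c)
    (h28 : wPi chevF4 L 28 = s)
    (h30 : chevF4.IsPosRoot (wPi chevF4 L 30) ∧ 41 + c ≤ lvF4 (wPi chevF4 L 30) ∧
      wPi chevF4 L 30 ≠ s) :
    Fam (twistedF4 K e) s c := by
  refine fam_of_conj (twistedF4 K e) L hLr hLm (fun y => [(28, y), (30, y ^ (2 * e))]) ?_ s c hc1
    hs hlv ?_ ?_ ?_
  · intro y
    have e2 : wGL chevF4 hF4 [(28, y), (30, y ^ (2 * e))] =
        wGL chevF4 hF4 (b2ClassWord e f4a f4b f4ab f4aab 0 y) := by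
      unfold b2ClassWord f4a f4b f4ab f4aab
      simp only [wGL_cons, wGL_nil]
      rw [zero_pow he, zero_pow (by omega : e + 1 ≠ 0), zero_add, xGL_zero, xGL_zero, one_mul,
        one_mul]
    rw [e2]
    exact wGL_mem_gen chevF4 hF4 (f4Words K e) _ (Or.inr ⟨_, _, Or.inl rfl⟩)
  · intro y p hp
    simp only [List.mem_cons, List.not_mem_nil, or_false] at hp
    rcases hp with rfl | rfl
    · exact f4_lt.2.2.2.1
    · exact f4_lt.2.2.2.2.1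
  · intro y p hp
    simp only [List.mem_cons, List.not_mem_nil, or_false] at hp
    rcases hp with rfl | rfl
    · show chevF4.IsPosRoot (wPi chevF4 L 28) ∧ 41 + c ≤ lvF4 (wPi chevF4 L 28)
      rw [h28]
      exact ⟨hs, hlv.ge⟩
    · exact ⟨h30.1, h30.2.1⟩
  · intro y
    simp only [List.map_cons, List.map_nil, List.sum_cons, List.sum_nil, h28, if_true,
      if_neg h30.2.2, add_zero]

end

/-! ### The data -/

/-- The conjugating words: `(L, base roots, s, c)`. -/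
def famTab : List (List ℕ × List ℕ × ℕ × ℕ) :=
  [([], [33, 24], 33, 2), ([1, 2, 1, 2], [33, 24], 37, 15), ([0, 3, 1, 2, 1, 2], [33, 24], 38, 18),
    ([1, 2, 1, 2, 0, 3, 1, 2, 1, 2], [33, 24], 39, 23),
    ([], [27, 25, 28], 27, 4), ([0, 3], [27, 25, 28], 34, 6),
    ([1, 2, 1, 2, 0, 3], [27, 25, 28], 35, 11), ([0, 3, 1, 2, 1, 2, 0, 3], [27, 25, 28], 29, 12),
    ([], [28, 30], 28, 9), ([0, 3], [28, 30], 36, 14), ([1, 2, 1, 2, 0, 3], [28, 30], 40, 27),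
    ([0, 3, 1, 2, 1, 2, 0, 3], [28, 30], 44, 29)]

/-- The check of an entry of the table. -/
def famOk (q : List ℕ × List ℕ × ℕ × ℕ) : Prop :=
  (∀ i ∈ q.1, i < chevF4.rank) ∧ 1 ≤ q.2.2.2 ∧ chevF4.IsPosRoot q.2.2.1 ∧
    lvF4 q.2.2.1 = 41 + q.2.2.2 ∧ wPi chevF4 q.1 (q.2.1.headD 0) = q.2.2.1 ∧
    ∀ r ∈ q.2.1.tail, chevF4.IsPosRoot (wPi chevF4 q.1 r) ∧
      41 + q.2.2.2 ≤ lvF4 (wPi chevF4 q.1 r) ∧ wPi chevF4 q.1 r ≠ q.2.2.1

instance (q : List ℕ × List ℕ × ℕ × ℕ) : Decidable (famOk q) := by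
  unfold famOk
  infer_instance

set_option maxRecDepth 1000000 in
theorem famTab_chk : ∀ q ∈ famTab, famOk q := by decide +kernel

section

variable {K : Type*} [Field K] [CharP K 2]

theorem fam_A (e : ℕ) (he : e ≠ 0) (hF : ∀ x : K, (x ^ e) ^ (2 * e) = x)
    (hn1 : nWordGL chevF4 hF4 [0, 3] ∈ twistedF4 K e)
    (hn2 : nWordGL chevF4 hF4 [1, 2, 1, 2] ∈ twistedF4 K e) :
    Fam (twistedF4 K e) 33 2 ∧ Fam (twistedF4 K e) 37 15 ∧ Fam (twistedF4 K e) 38 18 ∧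
      Fam (twistedF4 K e) 39 23 := by
  have m0 : nWordGL chevF4 hF4 [] ∈ twistedF4 K e := Subgroup.one_mem _
  have m12 : nWordGL chevF4 hF4 [0, 3, 1, 2, 1, 2] ∈ twistedF4 K e := by
    have e1 : ([0, 3, 1, 2, 1, 2] : List ℕ) = [0, 3] ++ [1, 2, 1, 2] := rfl
    rw [e1, nWordGL_append]
    exact Subgroup.mul_mem _ hn1 hn2
  have m212 : nWordGL chevF4 hF4 [1, 2, 1, 2, 0, 3, 1, 2, 1, 2] ∈ twistedF4 K e := by
    have e1 : ([1, 2, 1, 2, 0, 3, 1, 2, 1, 2] : List ℕ) = [1, 2, 1, 2] ++ [0, 3, 1, 2, 1, 2] := rfl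
    rw [e1, nWordGL_append]
    exact Subgroup.mul_mem _ hn2 m12
  have k1 := famTab_chk ([], [33, 24], 33, 2) (by simp [famTab])
  have k2 := famTab_chk ([1, 2, 1, 2], [33, 24], 37, 15) (by simp [famTab])
  have k3 := famTab_chk ([0, 3, 1, 2, 1, 2], [33, 24], 38, 18) (by simp [famTab])
  have k4 := famTab_chk ([1, 2, 1, 2, 0, 3, 1, 2, 1, 2], [33, 24], 39, 23) (by simp [famTab])
  exact ⟨famA e hF _ k1.1 m0 _ _ k1.2.1 k1.2.2.1 k1.2.2.2.1 k1.2.2.2.2.1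
      (k1.2.2.2.2.2 24 (by simp)),
    famA e hF _ k2.1 hn2 _ _ k2.2.1 k2.2.2.1 k2.2.2.2.1 k2.2.2.2.2.1 (k2.2.2.2.2.2 24 (by simp)),
    famA e hF _ k3.1 m12 _ _ k3.2.1 k3.2.2.1 k3.2.2.2.1 k3.2.2.2.2.1 (k3.2.2.2.2.2 24 (by simp)),
    famA e hF _ k4.1 m212 _ _ k4.2.1 k4.2.2.1 k4.2.2.2.1 k4.2.2.2.2.1
      (k4.2.2.2.2.2 24 (by simp))⟩

theorem fam_B (e : ℕ) (he : e ≠ 0) (hF : ∀ x : K, (x ^ e) ^ (2 * e) = x)
    (hn1 : nWordGL chevF4 hF4 [0, 3] ∈ twistedF4 K e)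
    (hn2 : nWordGL chevF4 hF4 [1, 2, 1, 2] ∈ twistedF4 K e) :
    Fam (twistedF4 K e) 27 4 ∧ Fam (twistedF4 K e) 34 6 ∧ Fam (twistedF4 K e) 35 11 ∧
      Fam (twistedF4 K e) 29 12 := by
  have m0 : nWordGL chevF4 hF4 [] ∈ twistedF4 K e := Subgroup.one_mem _
  have m21 : nWordGL chevF4 hF4 [1, 2, 1, 2, 0, 3] ∈ twistedF4 K e := by
    have e1 : ([1, 2, 1, 2, 0, 3] : List ℕ) = [1, 2, 1, 2] ++ [0, 3] := rfl
    rw [e1, nWordGL_append]
    exact Subgroup.mul_mem _ hn2 hn1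
  have m121 : nWordGL chevF4 hF4 [0, 3, 1, 2, 1, 2, 0, 3] ∈ twistedF4 K e := by
    have e1 : ([0, 3, 1, 2, 1, 2, 0, 3] : List ℕ) = [0, 3] ++ [1, 2, 1, 2, 0, 3] := rfl
    rw [e1, nWordGL_append]
    exact Subgroup.mul_mem _ hn1 m21
  have k1 := famTab_chk ([], [27, 25, 28], 27, 4) (by simp [famTab])
  have k2 := famTab_chk ([0, 3], [27, 25, 28], 34, 6) (by simp [famTab])
  have k3 := famTab_chk ([1, 2, 1, 2, 0, 3], [27, 25, 28], 35, 11) (by simp [famTab])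
  have k4 := famTab_chk ([0, 3, 1, 2, 1, 2, 0, 3], [27, 25, 28], 29, 12) (by simp [famTab])
  exact ⟨famB e he hF _ k1.1 m0 _ _ k1.2.1 k1.2.2.1 k1.2.2.2.1 k1.2.2.2.2.1
      (k1.2.2.2.2.2 25 (by simp)) (k1.2.2.2.2.2 28 (by simp)),
    famB e he hF _ k2.1 hn1 _ _ k2.2.1 k2.2.2.1 k2.2.2.2.1 k2.2.2.2.2.1
      (k2.2.2.2.2.2 25 (by simp)) (k2.2.2.2.2.2 28 (by simp)),
    famB e he hF _ k3.1 m21 _ _ k3.2.1 k3.2.2.1 k3.2.2.2.1 k3.2.2.2.2.1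
      (k3.2.2.2.2.2 25 (by simp)) (k3.2.2.2.2.2 28 (by simp)),
    famB e he hF _ k4.1 m121 _ _ k4.2.1 k4.2.2.1 k4.2.2.2.1 k4.2.2.2.2.1
      (k4.2.2.2.2.2 25 (by simp)) (k4.2.2.2.2.2 28 (by simp))⟩

theorem fam_C (e : ℕ) (he : e ≠ 0) (hF : ∀ x : K, (x ^ e) ^ (2 * e) = x)
    (hn1 : nWordGL chevF4 hF4 [0, 3] ∈ twistedF4 K e)
    (hn2 : nWordGL chevF4 hF4 [1, 2, 1, 2] ∈ twistedF4 K e) :
    Fam (twistedF4 K e) 28 9 ∧ Fam (twistedF4 K e) 36 14 ∧ Fam (twistedF4 K e) 40 27 ∧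
      Fam (twistedF4 K e) 44 29 := by
  have m0 : nWordGL chevF4 hF4 [] ∈ twistedF4 K e := Subgroup.one_mem _
  have m21 : nWordGL chevF4 hF4 [1, 2, 1, 2, 0, 3] ∈ twistedF4 K e := by
    have e1 : ([1, 2, 1, 2, 0, 3] : List ℕ) = [1, 2, 1, 2] ++ [0, 3] := rfl
    rw [e1, nWordGL_append]
    exact Subgroup.mul_mem _ hn2 hn1
  have m121 : nWordGL chevF4 hF4 [0, 3, 1, 2, 1, 2, 0, 3] ∈ twistedF4 K e := by
    have e1 : ([0, 3, 1, 2, 1, 2, 0, 3] : List ℕ) = [0, 3] ++ [1, 2, 1, 2, 0, 3] := rfl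
    rw [e1, nWordGL_append]
    exact Subgroup.mul_mem _ hn1 m21
  have k1 := famTab_chk ([], [28, 30], 28, 9) (by simp [famTab])
  have k2 := famTab_chk ([0, 3], [28, 30], 36, 14) (by simp [famTab])
  have k3 := famTab_chk ([1, 2, 1, 2, 0, 3], [28, 30], 40, 27) (by simp [famTab])
  have k4 := famTab_chk ([0, 3, 1, 2, 1, 2, 0, 3], [28, 30], 44, 29) (by simp [famTab])
  exact ⟨famC e he _ k1.1 m0 _ _ k1.2.1 k1.2.2.1 k1.2.2.2.1 k1.2.2.2.2.1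
      (k1.2.2.2.2.2 30 (by simp)),
    famC e he _ k2.1 hn1 _ _ k2.2.1 k2.2.2.1 k2.2.2.2.1 k2.2.2.2.2.1 (k2.2.2.2.2.2 30 (by simp)),
    famC e he _ k3.1 m21 _ _ k3.2.1 k3.2.2.1 k3.2.2.2.1 k3.2.2.2.2.1 (k3.2.2.2.2.2 30 (by simp)),
    famC e he _ k4.1 m121 _ _ k4.2.1 k4.2.2.1 k4.2.2.2.1 k4.2.2.2.2.1
      (k4.2.2.2.2.2 30 (by simp))⟩

end

end Cfsg.Agent.Lib.Helper26.TF4
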