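import Cfsg.Agent.Lib.Helper26.TwF4Sig
import Cfsg.Agent.Lib.Helper26.Chk2

set_option autoImplicit false

/-! The generators of `²F₄` are fixed by the twisting endomorphism. -/

namespace Cfsg.Agent.Lib.Helper26.TF4

open Cfsg.Lie Matrix Cfsg.Agent.Lib.Helper24
open Cfsg.Agent.Lib.Helper26.Chk2

section

variable {K : Type*} [Field K] [CharP K 2]

local notation "X" => xGL chevF4 hF4

/-- Commuting root elements from a characteristic two check. -/
theorem commute_of_chk2 (a b : ℕ)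
    (h : wEqChk2 chevF4 [(a, 1, (1, 0)), (b, 1, (0, 1))] [(b, 1, (0, 1)), (a, 1, (1, 0))] = true)
    (s t : K) : Commute (X a s) (X b t) := by
  by_cases hs : s = 0
  · rw [hs, xGL_zero]
    exact Commute.one_left _
  · have key := wEq2_sound (F := K) chevF4 Chk2.preChk_F4 _ _ h s t hs
    simp only [wEval2, List.map_cons, List.map_nil, evalM, wmat_cons, wmat_nil,
      Int.cast_one, one_mul, zpow_one, zpow_zero, pow_zero, pow_one, mul_one] at key
    apply Units.ext
    rw [Units.val_mul, Units.val_mul, xGL_val, xGL_val]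
    exact key

/-- The commutator relation of a `B₂` class from a characteristic two check. -/
theorem b2_rel (a b ab aab : ℕ)
    (h : wEqChk2 chevF4 [(b, 1, (0, 1)), (a, 1, (1, 0))]
      [(a, 1, (1, 0)), (b, 1, (0, 1)), (ab, 1, (1, 1)), (aab, 1, (2, 1))] = true)
    (s t : K) : X b t * X a s = X a s * (X b t * (X ab (s * t) * X aab (s ^ 2 * t))) := by
  by_cases hs : s = 0
  · rw [hs]
    simp only [zero_mul, ne_eq, OfNat.ofNat_ne_zero, not_false_eq_true, zero_pow, xGL_zero,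
      mul_one, one_mul]
  · have key := wEq2_sound (F := K) chevF4 Chk2.preChk_F4 _ _ h s t hs
    simp only [wEval2, List.map_cons, List.map_nil, evalM, wmat_cons, wmat_nil,
      Int.cast_one, one_mul, zpow_one, zpow_zero, pow_zero, pow_one, mul_one] at key
    apply Units.ext
    simp only [Units.val_mul, xGL_val]
    rw [key]
    norm_cast

/-- The rearrangement behind the fixed `B₂` words. -/
theorem b2_fix_aux (a b ab aab : ℕ) (hab : ab < chevF4.nroots) (haab : aab < chevF4.nroots)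
    (hrel : ∀ s t : K, X b t * X a s = X a s * (X b t * (X ab (s * t) * X aab (s ^ 2 * t))))
    (hcomm : ∀ s t : K, Commute (X ab s) (X aab t)) (s t u v : K) :
    X b t * (X a s * (X aab (s ^ 2 * t + v) * (X ab u * 1))) =
      X a s * (X b t * (X ab (s * t + u) * (X aab v * 1))) := by
  have h1 : X aab (s ^ 2 * t) * X aab (s ^ 2 * t + v) = X aab v := by
    rw [← xGL_add chevF4 hF4 aab haab]
    congr 1
    rw [← add_assoc, CharTwo.add_self_eq_zero, zero_add]
  have h2 : X ab (s * t) * X ab u = X ab (s * t + u) := (xGL_add chevF4 hF4 ab hab _ _).symm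
  calc X b t * (X a s * (X aab (s ^ 2 * t + v) * (X ab u * 1)))
      = (X b t * X a s) * (X aab (s ^ 2 * t + v) * X ab u) := by simp only [mul_assoc, mul_one]
    _ = X a s * (X b t * (X ab (s * t) * ((X aab (s ^ 2 * t) * X aab (s ^ 2 * t + v)) *
          X ab u))) := by
        rw [hrel s t]
        simp only [mul_assoc]
    _ = X a s * (X b t * (X ab (s * t) * (X ab u * X aab v))) := by rw [h1, (hcomm u v).eq]
    _ = X a s * (X b t * ((X ab (s * t) * X ab u) * X aab v)) := by simp only [mul_assoc]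
    _ = X a s * (X b t * (X ab (s * t + u) * (X aab v * 1))) := by rw [h2, mul_one]

variable {e : ℕ} {σ : ↥(chevF4.group K) →* ↥(chevF4.group K)}

omit [CharP K 2] in
/-- A word equal to its image word is fixed. -/
theorem fix_of_word (hσ : IsSig K e σ) (w : List (ℕ × K)) (hw : ∀ p ∈ w, p.1 < chevF4.nroots)
    (h : wGL chevF4 hF4 (w.map fun p => (rho p.1, p.2 ^ pw e p.1)) = wGL chevF4 hF4 w) :
    wGL chevF4 hF4 w ∈ sigFix σ := by
  rw [mem_sigFix]
  refine ⟨rk_wGL_mem_group chevF4 hF4 w, ?_⟩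
  apply Subtype.ext
  show (σ (wG chevF4 hF4 w) : GL chevF4.Idx K) = wGL chevF4 hF4 w
  rw [sig_wG hσ w hw, h]

theorem f4_lt12 : 33 < chevF4.nroots ∧ 24 < chevF4.nroots ∧ 14 < chevF4.nroots ∧
    23 < chevF4.nroots ∧ 27 < chevF4.nroots ∧ 25 < chevF4.nroots ∧ 28 < chevF4.nroots ∧
    30 < chevF4.nroots ∧ 20 < chevF4.nroots ∧ 22 < chevF4.nroots ∧ 19 < chevF4.nroots ∧
    17 < chevF4.nroots := by decide

/-- The generators of `²F₄` are fixed by `σ`. -/
theorem tw_le_sigFix (hσ : IsSig K e σ) (hF : ∀ x : K, (x ^ e) ^ (2 * e) = x)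
    (hadd : ∀ x y : K, (x + y) ^ (2 * e) = x ^ (2 * e) + y ^ (2 * e)) :
    twistedF4 K e ≤ sigFix σ := by
  have hF' : ∀ x : K, (x ^ (2 * e)) ^ e = x := by
    intro x
    rw [← pow_mul, mul_comm (2 * e) e, pow_mul, hF]
  have hpar : ∀ t u : K, (t ^ (e + 1) + u) ^ (2 * e) = (t ^ e) ^ 2 * t + u ^ (2 * e) := by
    intro t u
    rw [hadd, pow_succ, mul_pow, hF, ← pow_mul, mul_comm e 2, mul_comm t]
  unfold twistedF4 ChevalleyDatum.genSubgroup
  rw [Subgroup.closure_le]
  rintro g ⟨w, hw, hg⟩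
  have eg : g = wGL chevF4 hF4 w := rk_eq_wGL chevF4 hF4 g w hg
  rw [SetLike.mem_coe, eg]
  rcases hw with ⟨t, rfl | rfl⟩ | ⟨t, u, rfl | rfl⟩
  · apply fix_of_word hσ
    · intro p hp
      simp only [f4PairWord, f4p1, f4p4, List.mem_cons, List.not_mem_nil, or_false] at hp
      rcases hp with rfl | rfl
      · exact f4_lt12.1
      · exact f4_lt12.2.1
    · simp only [f4PairWord, f4p1, f4p4, List.map_cons, List.map_nil, wGL_cons, wGL_nil, mul_one]
      show X 24 ((t ^ e) ^ (2 * e)) * X 33 (t ^ e) = X 33 (t ^ e) * X 24 t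
      rw [hF]
      exact ((commute_of_chk2 33 24 f4_comm_chk.2.2.1 (t ^ e) t).eq).symm
  · apply fix_of_word hσ
    · intro p hp
      simp only [f4PairWord, f4m1, f4m4, List.mem_cons, List.not_mem_nil, or_false] at hp
      rcases hp with rfl | rfl
      · exact f4_lt12.2.2.1
      · exact f4_lt12.2.2.2.1
    · simp only [f4PairWord, f4m1, f4m4, List.map_cons, List.map_nil, wGL_cons, wGL_nil, mul_one]
      show X 23 ((t ^ e) ^ (2 * e)) * X 14 (t ^ e) = X 14 (t ^ e) * X 23 t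
      rw [hF]
      exact ((commute_of_chk2 14 23 f4_comm_chk.2.2.2 (t ^ e) t).eq).symm
  · apply fix_of_word hσ
    · intro p hp
      simp only [b2ClassWord, f4a, f4b, f4ab, f4aab, List.mem_cons, List.not_mem_nil,
        or_false] at hp
      rcases hp with rfl | rfl | rfl | rfl
      · exact f4_lt12.2.2.2.2.1
      · exact f4_lt12.2.2.2.2.2.1
      · exact f4_lt12.2.2.2.2.2.2.1
      · exact f4_lt12.2.2.2.2.2.2.2.1
    · simp only [b2ClassWord, f4a, f4b, f4ab, f4aab, List.map_cons, List.map_nil, wGL_cons,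
        wGL_nil]
      show X 25 ((t ^ e) ^ (2 * e)) * (X 27 (t ^ e) * (X 30 ((t ^ (e + 1) + u) ^ (2 * e)) *
          (X 28 ((u ^ (2 * e)) ^ e) * 1))) =
        X 27 (t ^ e) * (X 25 t * (X 28 (t ^ (e + 1) + u) * (X 30 (u ^ (2 * e)) * 1)))
      rw [hF, hF', hpar]
      have h := b2_fix_aux 27 25 28 30 f4_lt12.2.2.2.2.2.2.1 f4_lt12.2.2.2.2.2.2.2.1
        (b2_rel 27 25 28 30 f4_b2pos_chk) (commute_of_chk2 28 30 f4_comm_chk.1) (t ^ e) t u
        (u ^ (2 * e))
      rw [h, pow_succ]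
  · apply fix_of_word hσ
    · intro p hp
      simp only [b2ClassWord, f4ma, f4mb, f4mab, f4maab, List.mem_cons, List.not_mem_nil,
        or_false] at hp
      rcases hp with rfl | rfl | rfl | rfl
      · exact f4_lt12.2.2.2.2.2.2.2.2.1
      · exact f4_lt12.2.2.2.2.2.2.2.2.2.1
      · exact f4_lt12.2.2.2.2.2.2.2.2.2.2.1
      · exact f4_lt12.2.2.2.2.2.2.2.2.2.2.2
    · simp only [b2ClassWord, f4ma, f4mb, f4mab, f4maab, List.map_cons, List.map_nil, wGL_cons,
        wGL_nil]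
      show X 22 ((t ^ e) ^ (2 * e)) * (X 20 (t ^ e) * (X 17 ((t ^ (e + 1) + u) ^ (2 * e)) *
          (X 19 ((u ^ (2 * e)) ^ e) * 1))) =
        X 20 (t ^ e) * (X 22 t * (X 19 (t ^ (e + 1) + u) * (X 17 (u ^ (2 * e)) * 1)))
      rw [hF, hF', hpar]
      have h := b2_fix_aux 20 22 19 17 f4_lt12.2.2.2.2.2.2.2.2.2.2.1
        f4_lt12.2.2.2.2.2.2.2.2.2.2.2
        (b2_rel 20 22 19 17 f4_b2neg_chk) (commute_of_chk2 19 17 f4_comm_chk.2.1) (t ^ e) t u
        (u ^ (2 * e))
      rw [h, pow_succ]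

end

end Cfsg.Agent.Lib.Helper26.TF4
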