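import Cfsg.Agent.Lib.Helper26.TwF4Fil

set_option autoImplicit false

/-! The twisting endomorphism of `F₄(K)` as an abstract twisting endomorphism (`ASig`), and the
word form of its fixed points in `U`. -/

namespace Cfsg.Agent.Lib.Helper26.TF4

open Cfsg.Lie Matrix Cfsg.Agent.Lib.Helper24

set_option maxRecDepth 1000000 in
theorem rho_tab : (∀ r < chevF4.nroots, rho (rho r) = r) ∧
    (∀ r < chevF4.nroots, rho r < chevF4.nroots) ∧
    (∀ r < chevF4.nroots, Gr.shF4.contains (rho r) = !Gr.shF4.contains r) ∧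
    (∀ r < chevF4.nroots, Gr.shF4.contains (chevF4.neg r) = Gr.shF4.contains r) ∧
    (∀ r < chevF4.nroots, rho (chevF4.neg r) = chevF4.neg (rho r)) ∧
    (∀ r < chevF4.nroots, chevF4.IsNegRoot r → chevF4.IsNegRoot (rho r)) := by decide +kernel

theorem pw_cases (e r : ℕ) : pw e r = 2 * e ∨ pw e r = e := by
  unfold pw
  split_ifs
  · exact Or.inl rfl
  · exact Or.inr rfl

theorem pw_mul (e r : ℕ) (hr : r < chevF4.nroots) : pw e r * pw e (rho r) = e * (2 * e) := by
  have h := rho_tab.2.2.1 r hr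
  unfold pw
  rw [h]
  cases Gr.shF4.contains r
  · simp
  · simp
    ring

theorem pw_neg (e r : ℕ) (hr : r < chevF4.nroots) : pw e (chevF4.neg r) = pw e r := by
  unfold pw
  rw [rho_tab.2.2.2.1 r hr]

section

variable {K : Type*} [Field K]

/-- Two endomorphisms of `F₄(K)` agreeing on the root elements are equal. -/
theorem hom_ext_f4 (φ ψ : ↥(chevF4.group K) →* ↥(chevF4.group K))
    (h : ∀ r < chevF4.nroots, ∀ t : K, φ (xG chevF4 hF4 r t) = ψ (xG chevF4 hF4 r t)) :
    φ = ψ := by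
  have hle : chevF4.group K ≤ (φ.eqLocus ψ).map (chevF4.group K).subtype := by
    unfold ChevalleyDatum.group
    rw [Subgroup.closure_le]
    rintro g ⟨r, t, hg⟩
    refine ⟨xG chevF4 hF4 r.val t, h r.val r.2 t, ?_⟩
    apply Units.ext
    show chevF4.x K r.val t = _
    rw [hg, x_eq_xMat chevF4 r.val r.2 t]
  apply MonoidHom.ext
  intro g
  obtain ⟨y, hy, e⟩ := hle g.2
  have e' : y = g := Subtype.ext e
  rw [← e']
  exact hy

variable {e : ℕ} {σ : ↥(chevF4.group K) →* ↥(chevF4.group K)}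

theorem sig_wG (hσ : IsSig K e σ) (w : List (ℕ × K)) (hw : ∀ p ∈ w, p.1 < chevF4.nroots) :
    (σ (wG chevF4 hF4 w) : GL chevF4.Idx K) =
      wGL chevF4 hF4 (w.map fun p => (rho p.1, p.2 ^ pw e p.1)) := by
  induction w with
  | nil =>
    have e1 : wG (F := K) chevF4 hF4 [] = 1 := Subtype.ext (wGL_nil chevF4 hF4)
    rw [e1, map_one, List.map_nil, wGL_nil]
    rfl
  | cons p w ih =>
    have e1 : wG chevF4 hF4 (p :: w) = xG chevF4 hF4 p.1 p.2 * wG chevF4 hF4 w :=
      Subtype.ext (wGL_cons chevF4 hF4 p w)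
    rw [e1, map_mul, Subgroup.coe_mul, hσ p.1 (hw p List.mem_cons_self) p.2,
      ih (fun p' hp' => hw p' (List.mem_cons_of_mem _ hp')), List.map_cons, wGL_cons]
    rfl

/-- The word form of the fixed points of `σ` in `U`. -/
theorem wordFix_sigFix (hσ : IsSig K e σ) :
    WordFix chevF4 hF4 rho (fun r y => y ^ pw e r) (sigFix σ) := by
  intro u hu t hco
  obtain ⟨h, hfix⟩ := (mem_sigFix σ u).1 hu
  have e1 : (⟨u, h⟩ : ↥(chevF4.group K)) =
      wG chevF4 hF4 (chevF4.posRoots.map fun r => (r, t r)) := Subtype.ext hco.2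
  have e2 := sig_wG hσ (chevF4.posRoots.map fun r => (r, t r)) (by
    intro p hp
    obtain ⟨r, hr, rfl⟩ := List.mem_map.1 hp
    exact ((mem_posRoots chevF4 r).1 hr).1)
  rw [← e1, hfix, List.map_map] at e2
  exact e2

theorem sig_sig (hσ : IsSig K e σ) (hF : ∀ x : K, (x ^ e) ^ (2 * e) = x)
    (g : ↥(chevF4.group K)) : σ (σ g) = g := by
  have h : σ.comp σ = MonoidHom.id _ := by
    apply hom_ext_f4
    intro r hr t
    show σ (σ (xG chevF4 hF4 r t)) = xG chevF4 hF4 r t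
    rw [hσ r hr t, hσ _ (rho_tab.2.1 r hr), rho_tab.1 r hr, ← pow_mul, pw_mul e r hr, pow_mul, hF]
  exact congrArg (fun φ : ↥(chevF4.group K) →* ↥(chevF4.group K) => φ g) h

/-- The twisting endomorphism of `²F₄` as an abstract twisting endomorphism. -/
noncomputable def f4Sig [CharP K 2] (hσ : IsSig K e σ) (hF : ∀ x : K, (x ^ e) ^ (2 * e) = x) :
    ASig K chevF4 hF4 where
  sig := σ
  π := rho
  c := fun s t => t ^ pw e s
  hπ := rho_tab.2.1
  hx := by
    intro s hs t g hg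
    have e1 : g = xG chevF4 hF4 s t := Subtype.ext hg
    rw [e1, hσ s hs t]
    rfl
  hinj := by
    intro a b hab
    rw [← sig_sig hσ hF a, ← sig_sig hσ hF b, hab]
  hsurj := by
    intro s hs y
    rcases pw_cases e s with h | h
    · refine ⟨y ^ e, ?_⟩
      show (y ^ e) ^ pw e s = y
      rw [h, hF]
    · refine ⟨y ^ (2 * e), ?_⟩
      show (y ^ (2 * e)) ^ pw e s = y
      rw [h, ← pow_mul, mul_comm, pow_mul, hF]
  hc0 := fun s _ t ht => pow_ne_zero _ ht
  hc1 := fun s _ => one_pow _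
  hcm1 := by
    intro s hs
    show (-1 : K) ^ pw e s = -1
    rw [CharTwo.neg_eq, one_pow]
  hcneg := by
    intro s hs t _
    show (-t⁻¹) ^ pw e (chevF4.neg s) = -(t ^ pw e s)⁻¹
    rw [pw_neg e s hs, CharTwo.neg_eq, CharTwo.neg_eq, inv_pow]
  hpos := fun r hr => rho_pos r hr
  hneg := fun r hr => rho_tab.2.2.2.2.2 r hr.1 hr
  hπneg := rho_tab.2.2.2.2.1

theorem f4Sig_sig [CharP K 2] (hσ : IsSig K e σ) (hF : ∀ x : K, (x ^ e) ^ (2 * e) = x) :
    (f4Sig hσ hF).sig = σ := rfl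

end

end Cfsg.Agent.Lib.Helper26.TF4
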