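import Cfsg.Agent.Lib.Helper26.TwF4Sig
import Cfsg.Agent.S1080

set_option autoImplicit false

/-! Existence of the twisting endomorphism of `F₄(K)` for `|K| = 2^(2m+1)`: the exceptional graph
automorphism composed with the field automorphism `t ↦ t^(2^m)`. -/

namespace Cfsg.Agent.Lib.Helper26.TF4

open Cfsg.Lie Matrix Cfsg.Agent.Lib.Helper24

theorem charP_two (K : Type*) [Field K] [Fintype K] (n : ℕ) (hK : Fintype.card K = 2 ^ n) :
    CharP K 2 := by
  obtain ⟨p', hchar, k, hp', hk⟩ := FiniteField.card' K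
  have hpp : p' = 2 := by
    have hd : p' ∣ 2 ^ n := by
      rw [← hK, hk]
      exact dvd_pow_self _ k.ne_zero
    exact (Nat.prime_dvd_prime_iff_eq hp' Nat.prime_two).1 (hp'.dvd_of_dvd_pow hd)
  subst hpp
  exact hchar

theorem exists_sig (K : Type*) [Field K] [Fintype K] (m : ℕ)
    (hK : Fintype.card K = 2 ^ (2 * m + 1)) :
    ∃ σ : ↥(chevF4.group K) →* ↥(chevF4.group K), IsSig K (2 ^ m) σ := by
  have : CharP K 2 := charP_two K (2 * m + 1) hK
  have : Fact (Nat.Prime 2) := ⟨Nat.prime_two⟩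
  have hperf : ∀ x : K, ∃ y : K, y ^ 2 = x := by
    intro x
    obtain ⟨y, hy⟩ := (Finite.injective_iff_surjective.1 (frobenius K 2).injective) x
    exact ⟨y, by rw [← hy, frobenius_def]⟩
  obtain ⟨α, hα⟩ := Gr.graph_aut_F4 hperf
  let f : K ≃+* K := RingEquiv.ofBijective (iterateFrobenius K 2 m)
    (Finite.injective_iff_bijective.1 (iterateFrobenius K 2 m).injective)
  have hf : ∀ t, f t = t ^ 2 ^ m := fun t => rfl
  obtain ⟨β, hβ⟩ := Cfsg.Agent.S1080.result chevF4 (by simp) f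
  refine ⟨(α.trans β).toMonoidHom, fun r hr t => ?_⟩
  have h1 := hα (xG chevF4 hF4 r t) r t hr (xGL_val chevF4 hF4 r t)
  have h2 := hβ (α (xG chevF4 hF4 r t)) (Gr.rhoF4.getD r 0)
    (t ^ (if Gr.shF4.contains r then 2 else 1)) (rho_tab.2.1 r hr) h1
  apply Subtype.ext
  apply Units.ext
  show ((β (α (xG chevF4 hF4 r t)) : GL chevF4.Idx K) : Matrix chevF4.Idx chevF4.Idx K) = _
  rw [h2, hf, ← pow_mul]
  have e : (if Gr.shF4.contains r then 2 else 1) * 2 ^ m = pw (2 ^ m) r := by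
    unfold pw
    split_ifs <;> ring
  rw [e]
  exact (xGL_val chevF4 hF4 (rho r) (t ^ pw (2 ^ m) r)).symm

end Cfsg.Agent.Lib.Helper26.TF4
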