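import Cfsg.Agent.Lib.Helper26.TwF4Defs
import Cfsg.Agent.Lib.Helper24.RkSigB

/-!
TF4 piece UPPER (helper58 for helper26): the crude count of the fixed points of the twisting
endomorphism from the fixed Bruhat decomposition.
-/

set_option autoImplicit false

namespace Cfsg.Agent.Lib.Helper26.TF4

open Cfsg.Lie Matrix Cfsg.Agent.Lib.Helper24

theorem card_fix_le {K : Type*} [Field K] [Finite K] (A : ASig K chevF4 hF4) :
    Nat.card ↥(sigFix A.sig) ≤
      Nat.card ↥(sigFix A.sig ⊓ chevF4.posUnipotent K) ^ 2 *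
        Nat.card ↥(chevF4.monomialSubgroup K) := by
  classical
  have key : ∀ g : ↥(sigFix A.sig),
      ∃ t : ↥(sigFix A.sig ⊓ chevF4.posUnipotent K) × ↥(chevF4.monomialSubgroup K) ×
          ↥(sigFix A.sig ⊓ chevF4.posUnipotent K),
        (g : GL chevF4.Idx K) =
          (t.1 : GL chevF4.Idx K) * (t.2.1 : GL chevF4.Idx K) * (t.2.2 : GL chevF4.Idx K) := by
    rintro ⟨g, hg⟩
    obtain ⟨h, hfix⟩ := (mem_sigFix A.sig g).mp hg
    obtain ⟨u₁, m, u, hu₁, hm, hu, h1, h2, h3, e⟩ := A.fixed_bruhat ⟨g, h⟩ hfix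
    refine ⟨(⟨(u₁ : GL chevF4.Idx K), (mem_sigFix A.sig _).mpr ⟨u₁.2, h1⟩, hu₁⟩,
      ⟨(m : GL chevF4.Idx K), hm⟩,
      ⟨(u : GL chevF4.Idx K), (mem_sigFix A.sig _).mpr ⟨u.2, h3⟩, rk_uNeg_le chevF4 _ hu⟩), ?_⟩
    exact congrArg Subtype.val e
  choose f hf using key
  have hinj : Function.Injective f := by
    intro g g' hgg
    apply Subtype.ext
    rw [hf g, hf g', hgg]
  have hfinGL : Finite (GL chevF4.Idx K) := inferInstance
  have h1 := Nat.card_le_card_of_injective f hinj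
  rw [Nat.card_prod, Nat.card_prod] at h1
  calc Nat.card ↥(sigFix A.sig) ≤ _ := h1
    _ = _ := by ring

end Cfsg.Agent.Lib.Helper26.TF4

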