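import Cfsg.Agent.Lib.Helper26.TwF4Fil
import Cfsg.Agent.Lib.Helper26.TwF4Fam
import Cfsg.Agent.Lib.Helper26.TwF4Sig
import Cfsg.Agent.Lib.Helper26.TwF4SigEx
import Cfsg.Agent.Lib.Helper26.TwF4SFix
import Cfsg.Agent.Lib.Helper26.TwF4Upper
import Cfsg.Agent.Lib.Helper60.TF4NCARD
import Cfsg.Agent.Lib.Helper24.TwF4C
import Cfsg.Agent.Lib.Lead.LTBDefs

set_option autoImplicit false

/-! The weak order facts on `²F₄(q)`: `|U¹| = q^12` and `|²F₄(q)| < q^32`. -/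

namespace Cfsg.Agent.Lib.Helper26.TF4

open Cfsg.Lie Matrix Cfsg.Agent.Lib.Helper24

theorem Fam.mono {K : Type*} [Field K] {G1 G2 : Subgroup (GL chevF4.Idx K)} (h : G1 ≤ G2)
    {s c : ℕ} (hf : Fam G1 s c) : Fam G2 s c := by
  obtain ⟨hc1, X, hX⟩ := hf
  exact ⟨hc1, X, fun y => ⟨h (hX y).1, (hX y).2⟩⟩

theorem field_facts (K : Type*) [Field K] [Fintype K] [CharP K 2] (m : ℕ)
    (hK : Fintype.card K = 2 ^ (2 * m + 1)) :
    (∀ x : K, (x ^ 2 ^ m) ^ (2 * 2 ^ m) = x) ∧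
    (∀ x y : K, (x + y) ^ (2 * 2 ^ m) = x ^ (2 * 2 ^ m) + y ^ (2 * 2 ^ m)) := by
  have : Fact (Nat.Prime 2) := ⟨Nat.prime_two⟩
  refine ⟨fun x => ?_, fun x y => ?_⟩
  · have h := FiniteField.pow_card x
    rw [hK] at h
    rw [← pow_mul]
    have e : 2 ^ m * (2 * 2 ^ m) = 2 ^ (2 * m + 1) := by ring
    rw [e]
    exact h
  · have e : 2 * 2 ^ m = 2 ^ (m + 1) := by ring
    rw [e]
    exact add_pow_char_pow x y 2 (m + 1)

theorem fam_all {K : Type*} [Field K] [CharP K 2] (e : ℕ) (he : e ≠ 0)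
    (hF : ∀ x : K, (x ^ e) ^ (2 * e) = x) : ∀ p ∈ shTab, Fam (twistedF4 K e) p.1 p.2 := by
  have hn1 := TwF4C.n1_mem (K := K) e
  have hn2 := TwF4C.n2_mem (K := K) e he
  obtain ⟨a1, a2, a3, a4⟩ := fam_A e he hF hn1 hn2
  obtain ⟨b1, b2, b3, b4⟩ := fam_B e he hF hn1 hn2
  obtain ⟨c1, c2, c3, c4⟩ := fam_C e he hF hn1 hn2
  intro p hp
  simp only [shTab, List.mem_cons, List.not_mem_nil, or_false] at hp
  rcases hp with rfl | rfl | rfl | rfl | rfl | rfl | rfl | rfl | rfl | rfl | rfl | rfl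
  · exact a1
  · exact b1
  · exact b2
  · exact c1
  · exact b3
  · exact b4
  · exact c2
  · exact a2
  · exact a3
  · exact a4
  · exact c3
  · exact c4

/-- The twisting endomorphism, the inclusion `²F₄ ≤ Fix σ`, and the orders of the two unipotent
groups. -/
theorem main_U (K : Type*) [Field K] [Fintype K] (m : ℕ)
    (hK : Fintype.card K = 2 ^ (2 * m + 1)) :
    ∃ A : ASig K chevF4 hF4, twistedF4 K (2 ^ m) ≤ sigFix A.sig ∧
      Nat.card ↥(twistedF4 K (2 ^ m) ⊓ chevF4.posUnipotent K) = Fintype.card K ^ 12 ∧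
      Nat.card ↥(sigFix A.sig ⊓ chevF4.posUnipotent K) = Fintype.card K ^ 12 := by
  have := charP_two K (2 * m + 1) hK
  obtain ⟨hF, hadd⟩ := field_facts K m hK
  have he : 2 ^ m ≠ 0 := by positivity
  obtain ⟨σ, hσ⟩ := exists_sig K m hK
  have hle := tw_le_sigFix hσ hF hadd
  have hWF := wordFix_sigFix hσ
  have hfam := fam_all (K := K) (2 ^ m) he hF
  refine ⟨f4Sig hσ hF, ?_, ?_, ?_⟩
  · rw [f4Sig_sig hσ hF]
    exact hle
  · rw [card_U (2 ^ m) he _ (hWF.mono hle) hfam, Nat.card_eq_fintype_card]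
  · rw [f4Sig_sig hσ hF, card_U (2 ^ m) he _ hWF (fun p hp => (hfam p hp).mono hle),
      Nat.card_eq_fintype_card]

/-- `|U¹| = q^12`. -/
theorem card_U1 (K : Type*) [Field K] [Fintype K] (m : ℕ)
    (hK : Fintype.card K = 2 ^ (2 * m + 1)) :
    Nat.card ↥(chevF4.posUnipotent K ⊓ twistedF4 K (2 ^ m)) = (2 ^ (2 * m + 1)) ^ 12 := by
  obtain ⟨A, -, hU, -⟩ := main_U K m hK
  rw [inf_comm, hU, hK]

end Cfsg.Agent.Lib.Helper26.TF4

namespace Cfsg.Agent.Lib.Lead.LTB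

open Cfsg.Lie Matrix Cfsg.Agent.Lib.Helper24 Cfsg.Agent.Lib.Helper26.TF4

theorem twf4_fact : TwF4Fact := by
  intro K _ _ m hm hK
  obtain ⟨A, hle, hU, hUs⟩ := main_U K m hK
  constructor
  · rw [← hK, ← hU]
    exact Subgroup.card_dvd_of_le inf_le_left
  · have h1 : Nat.card ↥(twistedF4 K (2 ^ m)) ≤ Nat.card ↥(sigFix A.sig) :=
      Subgroup.card_le_of_le hle
    have h2 := card_fix_le A
    rw [hUs] at h2
    have h3 := card_N_le K
    rw [hK] at h2 h3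
    have hq8 : 8 ≤ 2 ^ (2 * m + 1) := by
      calc 8 = 2 ^ 3 := by norm_num
        _ ≤ 2 ^ (2 * m + 1) := Nat.pow_le_pow_right (by norm_num) (by omega)
    generalize 2 ^ (2 * m + 1) = q at h2 h3 hq8 ⊢
    have ha : 1152 < q ^ 4 := by
      calc 1152 < 8 ^ 4 := by norm_num
        _ ≤ q ^ 4 := Nat.pow_le_pow_left hq8 4
    have hb : (q - 1) ^ 4 ≤ q ^ 4 := Nat.pow_le_pow_left (Nat.sub_le q 1) 4
    have hpos : 0 < q ^ 4 := by positivity
    have h4 : 1152 * (q - 1) ^ 4 < q ^ 4 * q ^ 4 :=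
      calc 1152 * (q - 1) ^ 4 ≤ 1152 * q ^ 4 := Nat.mul_le_mul_left _ hb
        _ < q ^ 4 * q ^ 4 := Nat.mul_lt_mul_of_pos_right ha hpos
    have hpos24 : 0 < (q ^ 12) ^ 2 := by positivity
    calc Nat.card ↥(twistedF4 K (2 ^ m)) ≤ (q ^ 12) ^ 2 * Nat.card ↥(chevF4.monomialSubgroup K) :=
          h1.trans h2
      _ ≤ (q ^ 12) ^ 2 * (1152 * (q - 1) ^ 4) := Nat.mul_le_mul_left _ h3
      _ < (q ^ 12) ^ 2 * (q ^ 4 * q ^ 4) := Nat.mul_lt_mul_of_pos_left h4 hpos24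
      _ = q ^ 32 := by ring

end Cfsg.Agent.Lib.Lead.LTB
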