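import Cfsg.Agent.Lib.Helper26.TwF4Fact
import Cfsg.Agent.Lib.Helper24.TwF4P
import Cfsg.Agent.Lib.Helper24.ChevTorus

set_option autoImplicit false

/-! The torus `H¹ = H ∩ ²F₄(q)` has order `(q - 1)²`. -/

namespace Cfsg.Agent.Lib.Helper26.TF4

open Cfsg.Lie Matrix Cfsg.Agent.Lib.Helper24
open Cfsg.Agent.Lib.Helper25 (wPi wEta)

theorem h1_tab : 24 < chevF4.nroots ∧ 25 < chevF4.nroots ∧ 27 < chevF4.nroots ∧
    33 < chevF4.nroots ∧ 22 < chevF4.nroots ∧ 32 < chevF4.nroots ∧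
    rho 24 = 33 ∧ rho 25 = 27 ∧ Gr.shF4.contains 24 = false ∧ Gr.shF4.contains 25 = false ∧
    wPi chevF4 [1, 2, 1, 2] 22 = 25 ∧ wPi chevF4 [1, 2, 1, 2] 32 = 24 ∧
    W chevF4 33 25 = 0 ∧ W chevF4 24 25 = -1 ∧ W chevF4 33 22 = 0 ∧ W chevF4 24 22 = 1 ∧
    W chevF4 33 24 = 0 ∧ W chevF4 24 24 = 2 ∧ W chevF4 33 32 = -2 ∧ W chevF4 24 32 = 0 := by
  decide +kernel

section

variable {K : Type*} [Field K]

/-- the character of an element of `H¹` -/
theorem h1_char {e : ℕ} {σ : ↥(chevF4.group K) →* ↥(chevF4.group K)} (hσ : IsSig K e σ)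
    (hle : twistedF4 K e ≤ sigFix σ) (x : GL chevF4.Idx K)
    (hxH : x ∈ chevF4.diagonalSubgroup K) (hxG : x ∈ twistedF4 K e) :
    ∃ d : ℕ → K, MulGraded chevF4 d ∧
      (x : Matrix chevF4.Idx chevF4.Idx K) = torus K chevF4 d ∧
      d 33 = d 24 ^ e ∧ d 27 = d 25 ^ e := by
  obtain ⟨d, hd, hx⟩ := diagonalSubgroup_le_gradedTorus chevF4 hF4 hxH
  obtain ⟨h, hfix⟩ := (mem_sigFix σ x).1 (hle hxG)
  obtain ⟨l24, l25, l27, l33, -, -, r24, r25, s24, s25, -⟩ := h1_tab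
  have p24 : pw e 24 = e := by unfold pw; rw [s24]; rfl
  have p25 : pw e 25 = e := by unfold pw; rw [s25]; rfl
  have key : ∀ r < chevF4.nroots, ∀ t : K,
      (⟨x, h⟩ : ↥(chevF4.group K)) * xG chevF4 hF4 r t =
        xG chevF4 hF4 r (d r * t) * ⟨x, h⟩ := by
    intro r hr t
    apply Subtype.ext
    apply Units.ext
    show (x : Matrix chevF4.Idx chevF4.Idx K) * chevF4.x K r t =
      chevF4.x K r (d r * t) * (x : Matrix chevF4.Idx chevF4.Idx K)
    rw [hx]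
    exact torus_mul_x chevF4 d hd r hr t
  have aux : ∀ a b : ℕ, a < chevF4.nroots → b < chevF4.nroots → rho a = b → pw e a = e →
      d b = d a ^ e := by
    intro a b ha hb hab hpa
    have e2 := congrArg σ (key a ha 1)
    rw [map_mul, map_mul, hfix, hσ a ha, hσ a ha, hab, hpa, key b hb] at e2
    have e3 := congrArg (fun g : ↥(chevF4.group K) =>
      ((g : GL chevF4.Idx K) : Matrix chevF4.Idx chevF4.Idx K)) (mul_right_cancel e2)
    have e4 : chevF4.x K b (d b * 1 ^ e) = chevF4.x K b ((d a * 1) ^ e) := e3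
    have e5 := Cfsg.Agent.Lib.Helper24.x_inj chevF4 hF4 b hb _ _ e4
    rw [one_pow, mul_one, mul_one] at e5
    exact e5
  exact ⟨d, hd, hx, aux 24 33 l24 l33 r24 p24, aux 25 27 l25 l27 r25 p25⟩

/-- an element of `H¹` is determined by its diagonal entries at the roots `24` and `25` -/
theorem h1_inj {e : ℕ} {σ : ↥(chevF4.group K) →* ↥(chevF4.group K)} (hσ : IsSig K e σ)
    (hle : twistedF4 K e ≤ sigFix σ) (x y : GL chevF4.Idx K)
    (hxH : x ∈ chevF4.diagonalSubgroup K) (hxG : x ∈ twistedF4 K e)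
    (hyH : y ∈ chevF4.diagonalSubgroup K) (hyG : y ∈ twistedF4 K e)
    (h24 : (x : Matrix chevF4.Idx chevF4.Idx K) (Sum.inr ⟨24, h1_tab.1⟩) (Sum.inr ⟨24, h1_tab.1⟩) =
      (y : Matrix chevF4.Idx chevF4.Idx K) (Sum.inr ⟨24, h1_tab.1⟩) (Sum.inr ⟨24, h1_tab.1⟩))
    (h25 : (x : Matrix chevF4.Idx chevF4.Idx K) (Sum.inr ⟨25, h1_tab.2.1⟩)
        (Sum.inr ⟨25, h1_tab.2.1⟩) =
      (y : Matrix chevF4.Idx chevF4.Idx K) (Sum.inr ⟨25, h1_tab.2.1⟩)
        (Sum.inr ⟨25, h1_tab.2.1⟩)) : x = y := by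
  obtain ⟨dx, hdx, hx, x33, x27⟩ := h1_char hσ hle x hxH hxG
  obtain ⟨dy, hdy, hy, y33, y27⟩ := h1_char hσ hle y hyH hyG
  obtain ⟨l24, l25, l27, l33, -⟩ := h1_tab
  rw [hx, hy, torus_apply_rv, torus_apply_rv] at h24 h25
  have h33 : dx 33 = dy 33 := by rw [x33, y33, h24]
  have h27 : dx 27 = dy 27 := by rw [x27, y27, h25]
  have hzH : x⁻¹ * y ∈ chevF4.diagonalSubgroup K :=
    Subgroup.mul_mem _ (Subgroup.inv_mem _ hxH) hyH
  obtain ⟨dz, hdz, hz⟩ := diagonalSubgroup_le_gradedTorus chevF4 hF4 hzH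
  have hmul : torus K chevF4 dy = torus K chevF4 (fun s => dx s * dz s) := by
    rw [← torus_mul_torus, ← hx, ← hz, ← hy, ← Units.val_mul, mul_inv_cancel_left]
  have hent : ∀ r < chevF4.nroots, dy r = dx r * dz r := by
    intro r hr
    have := congrFun (congrFun hmul (Sum.inr ⟨r, hr⟩)) (Sum.inr ⟨r, hr⟩)
    rwa [torus_apply_rv, torus_apply_rv] at this
  have hone : ∀ r < chevF4.nroots, dx r = dy r → dz r = 1 := by
    intro r hr h
    have e := hent r hr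
    rw [← h] at e
    have h0 : dx r ≠ 0 := right_ne_zero_of_mul_eq_one (hdx.neg r hr)
    have : dx r * 1 = dx r * dz r := by rw [mul_one]; exact e
    exact (mul_left_cancel₀ h0 this).symm
  have hz1 : x⁻¹ * y = 1 := by
    apply torus_eq_one_of_simple chevF4 hF4 _ dz hdz hz
    intro i hi
    rw [TwF4C.f4_rank] at hi
    obtain ⟨s0, s1, s2, s3⟩ := TwF4C.f4_simple
    interval_cases i
    · rw [s0]; exact hone 33 l33 h33
    · rw [s1]; exact hone 27 l27 h27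
    · rw [s2]; exact hone 25 l25 h25
    · rw [s3]; exact hone 24 l24 h24
  exact inv_mul_eq_one.1 hz1

/-- conjugation of a root element by `h(y)` -/
theorem hy_conj_X (e : ℕ) (y : K) (hy0 : y ≠ 0) (r : ℕ) (hr : r < chevF4.nroots) (t : K) :
    TwF4P.hy e y * xGL chevF4 hF4 r t * (TwF4P.hy e y)⁻¹ =
      xGL chevF4 hF4 r ((y ^ e) ^ W chevF4 33 r * y ^ W chevF4 24 r * t) := by
  obtain ⟨d, hd, hx⟩ := diagonalSubgroup_le_gradedTorus chevF4 hF4 (TwF4P.hy_diag e y hy0)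
  have hv := TwF4P.hy_val e y hy0
  have key : d r = (y ^ e) ^ W chevF4 33 r * y ^ W chevF4 24 r := by
    have h1 := torus_apply_rv (F := K) chevF4 d r hr
    rw [← hx, hv, torus_apply_rv] at h1
    exact h1.symm
  have h2 := TwF4P.torus_conj (TwF4P.hy e y) d hd hx [(r, t)] (by
    intro p hp
    simp only [List.mem_singleton] at hp
    subst hp
    exact hr)
  rw [List.map_cons, List.map_nil, wGL_cons, wGL_nil, mul_one, wGL_cons, wGL_nil, mul_one,
    key] at h2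
  exact h2

/-- conjugation of a root element by `n₂` -/
theorem n2_conj_X [CharP K 2] (r s : ℕ) (hs : s < chevF4.nroots)
    (hws : wPi chevF4 [1, 2, 1, 2] s = r) (t : K) :
    nWordGL chevF4 hF4 [1, 2, 1, 2] * xGL chevF4 hF4 s t *
      (nWordGL chevF4 hF4 [1, 2, 1, 2])⁻¹ = xGL chevF4 hF4 r t := by
  have h := nWordGL_conj_wGL (F := K) chevF4 hF4 [1, 2, 1, 2] (by
    rw [TwF4C.f4_rank]
    intro i hi
    simp only [List.mem_cons, List.not_mem_nil, or_false] at hi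
    omega) [(s, t)] (by
    intro p hp
    simp only [List.mem_singleton] at hp
    subst hp
    exact hs)
  rw [List.map_cons, List.map_nil, wGL_cons, wGL_nil, mul_one, wGL_cons, wGL_nil, mul_one,
    TwF4P.eta_one, one_mul, hws] at h
  exact h

/-- the second family of torus elements of `²F₄` -/
noncomputable def psiH (e : ℕ) (y z : K) : GL chevF4.Idx K :=
  TwF4P.hy e y * (nWordGL chevF4 hF4 [1, 2, 1, 2] * TwF4P.hy e z *
    (nWordGL chevF4 hF4 [1, 2, 1, 2])⁻¹)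

theorem psiH_mem [CharP K 2] (e : ℕ) (he : e ≠ 0) (y z : K) : psiH e y z ∈ twistedF4 K e := by
  unfold psiH
  have hn := TwF4C.n2_mem (K := K) e he
  exact Subgroup.mul_mem _ (TwF4P.hy_mem e y)
    (Subgroup.mul_mem _ (Subgroup.mul_mem _ hn (TwF4P.hy_mem e z)) (Subgroup.inv_mem _ hn))

theorem psiH_diag (e : ℕ) (y z : K) (hy0 : y ≠ 0) (hz0 : z ≠ 0) :
    psiH e y z ∈ chevF4.diagonalSubgroup K := by
  unfold psiH
  have hn : nWordGL (F := K) chevF4 hF4 [1, 2, 1, 2] ∈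
      Subgroup.normalizer (chevF4.diagonalSubgroup K : Set (GL chevF4.Idx K)) :=
    monomial_le_normalizer_diagonal chevF4 hF4 (nWordGL_mem_monomial chevF4 hF4 [1, 2, 1, 2] (by
      rw [TwF4C.f4_rank]
      intro i hi
      simp only [List.mem_cons, List.not_mem_nil, or_false] at hi
      omega))
  exact Subgroup.mul_mem _ (TwF4P.hy_diag e y hy0)
    ((Subgroup.mem_normalizer_iff.1 hn _).1 (TwF4P.hy_diag e z hz0))

theorem psiH_conj [CharP K 2] (e : ℕ) (y z : K) (hy0 : y ≠ 0) (hz0 : z ≠ 0) (r s : ℕ)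
    (hr : r < chevF4.nroots) (hs : s < chevF4.nroots)
    (hws : wPi chevF4 [1, 2, 1, 2] s = r) (t : K) :
    psiH e y z * xGL chevF4 hF4 r t * (psiH e y z)⁻¹ =
      xGL chevF4 hF4 r ((y ^ e) ^ W chevF4 33 r * y ^ W chevF4 24 r *
        ((z ^ e) ^ W chevF4 33 s * z ^ W chevF4 24 s * t)) := by
  have h1 := n2_conj_X (K := K) r s hs hws t
  have h2 := hy_conj_X e z hz0 s hs t
  have h3 := n2_conj_X (K := K) r s hs hws ((z ^ e) ^ W chevF4 33 s * z ^ W chevF4 24 s * t)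
  have h4 := hy_conj_X e y hy0 r hr ((z ^ e) ^ W chevF4 33 s * z ^ W chevF4 24 s * t)
  rw [← h4, ← h3, ← h2, ← h1]
  unfold psiH
  group

theorem h1_alg [CharP K 2] (e : ℕ) (hF : ∀ x : K, (x ^ e) ^ (2 * e) = x) (y z y' z' : K)
    (hy : y ≠ 0) (hz : z ≠ 0) (hy' : y' ≠ 0) (hz' : z' ≠ 0)
    (h25 : y⁻¹ * z = y'⁻¹ * z')
    (h24 : y ^ 2 * ((z ^ e) ^ 2)⁻¹ = y' ^ 2 * ((z' ^ e) ^ 2)⁻¹) : y = y' ∧ z = z' := by
  have hu0 : y * y'⁻¹ ≠ 0 := mul_ne_zero hy (inv_ne_zero hy')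
  have hzu : z = y * y'⁻¹ * z' := by
    have : y * (y⁻¹ * z) = y * (y'⁻¹ * z') := by rw [h25]
    rw [mul_inv_cancel_left₀ hy] at this
    rw [this, mul_assoc]
  have hyu : y = y * y'⁻¹ * y' := by rw [inv_mul_cancel_right₀ hy']
  generalize y * y'⁻¹ = u at hu0 hzu hyu
  subst hzu
  rw [hyu] at h24
  have hze : z' ^ e ≠ 0 := pow_ne_zero _ hz'
  have hue : u ^ e ≠ 0 := pow_ne_zero _ hu0
  have h1 : u ^ 2 = (u ^ e) ^ 2 := by
    rw [mul_pow, mul_pow] at h24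
    field_simp at h24
    exact h24
  have h2 : u = u ^ e := by
    have h3 : (u - u ^ e) * (u + u ^ e) = 0 := by
      linear_combination h1
    rcases mul_eq_zero.1 h3 with h | h
    · exact sub_eq_zero.1 h
    · have h4 : u = -(u ^ e) := eq_neg_of_add_eq_zero_left h
      rw [CharTwo.neg_eq] at h4
      exact h4
  have h5 : u ^ 2 = u := by
    have h6 := hF u
    rw [← h2, mul_comm, pow_mul, ← h2] at h6
    exact h6
  have h7 : u = 1 := by
    have h8 : u * u = u * 1 := by rw [mul_one, ← sq]; exact h5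
    exact mul_left_cancel₀ hu0 h8
  subst h7
  rw [one_mul] at hyu
  rw [one_mul]
  exact ⟨hyu, rfl⟩

theorem psiH_inj [CharP K 2] (e : ℕ) (hF : ∀ x : K, (x ^ e) ^ (2 * e) = x) (y z y' z' : K)
    (hy : y ≠ 0) (hz : z ≠ 0) (hy' : y' ≠ 0) (hz' : z' ≠ 0)
    (h : psiH e y z = psiH e y' z') : y = y' ∧ z = z' := by
  obtain ⟨l24, l25, -, -, l22, l32, -, -, -, -, w22, w32, a1, a2, a3, a4, a5, a6, a7, a8⟩ :=
    h1_tab
  have c25 := psiH_conj e y z hy hz 25 22 l25 l22 w22 1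
  have c25' := psiH_conj e y' z' hy' hz' 25 22 l25 l22 w22 1
  have c24 := psiH_conj e y z hy hz 24 32 l24 l32 w32 1
  have c24' := psiH_conj e y' z' hy' hz' 24 32 l24 l32 w32 1
  rw [h, c25'] at c25
  rw [h, c24'] at c24
  have e25 := Cfsg.Agent.Lib.Helper24.x_inj chevF4 hF4 25 l25 _ _
    (congrArg (fun g : GL chevF4.Idx K => (g : Matrix chevF4.Idx chevF4.Idx K)) c25)
  have e24 := Cfsg.Agent.Lib.Helper24.x_inj chevF4 hF4 24 l24 _ _
    (congrArg (fun g : GL chevF4.Idx K => (g : Matrix chevF4.Idx chevF4.Idx K)) c24)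
  rw [a1, a2, a3, a4] at e25
  rw [a5, a6, a7, a8] at e24
  simp only [_root_.zpow_neg, zpow_ofNat, pow_zero, pow_one, one_mul, mul_one] at e25 e24
  exact h1_alg e hF y z y' z' hy hz hy' hz' e25.symm e24.symm

end

/-- `|H¹| = (q - 1)²`. -/
theorem card_H1 (K : Type*) [Field K] [Fintype K] (m : ℕ)
    (hK : Fintype.card K = 2 ^ (2 * m + 1)) :
    Nat.card ↥(chevF4.diagonalSubgroup K ⊓ twistedF4 K (2 ^ m)) = (2 ^ (2 * m + 1) - 1) ^ 2 := by
  have := charP_two K (2 * m + 1) hK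
  obtain ⟨hF, hadd⟩ := field_facts K m hK
  have he : 2 ^ m ≠ 0 := by positivity
  obtain ⟨σ, hσ⟩ := exists_sig K m hK
  have hle := tw_le_sigFix hσ hF hadd
  have hcard : Nat.card (Kˣ × Kˣ) = (2 ^ (2 * m + 1) - 1) ^ 2 := by
    rw [Nat.card_prod, Nat.card_units, Nat.card_eq_fintype_card, hK, sq]
  rw [← hcard]
  apply le_antisymm
  · -- the entries at the roots `24` and `25`
    have hne : ∀ (x : ↥(chevF4.diagonalSubgroup K ⊓ twistedF4 K (2 ^ m))) (r : ℕ)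
        (hr : r < chevF4.nroots),
        ((x : GL chevF4.Idx K) : Matrix chevF4.Idx chevF4.Idx K) (Sum.inr ⟨r, hr⟩)
          (Sum.inr ⟨r, hr⟩) ≠ 0 := by
      intro x r hr
      obtain ⟨d, hd, hx⟩ := diagonalSubgroup_le_gradedTorus chevF4 hF4 x.2.1
      rw [hx, torus_apply_rv]
      exact right_ne_zero_of_mul_eq_one (hd.neg r hr)
    let f : ↥(chevF4.diagonalSubgroup K ⊓ twistedF4 K (2 ^ m)) → Kˣ × Kˣ := fun x =>
      (Units.mk0 _ (hne x 24 h1_tab.1), Units.mk0 _ (hne x 25 h1_tab.2.1))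
    apply Nat.card_le_card_of_injective f
    intro x y hxy
    have h24 := congrArg (fun p : Kˣ × Kˣ => (p.1 : K)) hxy
    have h25 := congrArg (fun p : Kˣ × Kˣ => (p.2 : K)) hxy
    exact Subtype.ext (h1_inj hσ hle _ _ x.2.1 x.2.2 y.2.1 y.2.2 h24 h25)
  · let g : Kˣ × Kˣ → ↥(chevF4.diagonalSubgroup K ⊓ twistedF4 K (2 ^ m)) := fun p =>
      ⟨psiH (2 ^ m) (p.1 : K) (p.2 : K),
        psiH_diag (2 ^ m) _ _ p.1.ne_zero p.2.ne_zero, psiH_mem (2 ^ m) he _ _⟩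
    apply Nat.card_le_card_of_injective g
    rintro ⟨y, z⟩ ⟨y', z'⟩ hxy
    have h := congrArg
      (fun x : ↥(chevF4.diagonalSubgroup K ⊓ twistedF4 K (2 ^ m)) => (x : GL chevF4.Idx K)) hxy
    obtain ⟨h1, h2⟩ := psiH_inj (2 ^ m) hF (y : K) (z : K) (y' : K) (z' : K) y.ne_zero z.ne_zero
      y'.ne_zero z'.ne_zero h
    rw [Units.ext h1, Units.ext h2]

end Cfsg.Agent.Lib.Helper26.TF4
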