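import Cfsg.Agent.Lib.Helper26.TwF4H
import Cfsg.Agent.Lib.Helper24.TwF4W
import Cfsg.Agent.Lib.Helper25.ChevBruhat

set_option autoImplicit false

/-! The fixed points of the twisting endomorphism in `X₃₃ X₂₄ = U_{n₁}⁻`: there are `|K|`. -/

namespace Cfsg.Agent.Lib.Helper26.TF4

open Cfsg.Lie Matrix Cfsg.Agent.Lib.Helper24
open Cfsg.Agent.Lib.Helper25 (wPi wEta uMinus)

set_option maxRecDepth 1000000 in
theorem j1_tab : (∀ r < 48, chevF4.IsPosRoot r → chevF4.IsNegRoot (wPi chevF4 [0, 3] r) →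
      r = 33 ∨ r = 24) ∧
    chevF4.IsPosRoot 33 ∧ chevF4.IsPosRoot 24 ∧ chevF4.IsNegRoot (wPi chevF4 [0, 3] 33) ∧
    chevF4.IsNegRoot (wPi chevF4 [0, 3] 24) ∧ chevF4.nroots = 48 ∧
    rho 33 = 24 ∧ rho 24 = 33 ∧ Gr.shF4.contains 33 = true ∧ Gr.shF4.contains 24 = false ∧
    33 < chevF4.nroots ∧ 24 < chevF4.nroots := by decide +kernel

section

variable {K : Type*} [Field K]

local notation "X" => xGL chevF4 hF4

/-- the elements of `U_{n₁}⁻` -/
theorem j1_form (u : GL chevF4.Idx K) (hu : u ∈ uMinus K chevF4 [0, 3]) :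
    ∃ a b : K, u = X 33 a * X 24 b := by
  obtain ⟨htab, -, -, -, -, hn, -, -, -, -, l33, l24⟩ := j1_tab
  unfold uMinus at hu
  induction hu using Subgroup.closure_induction with
  | mem g hg =>
    obtain ⟨r, t, hr, hneg, hx⟩ := hg
    have hr48 : r < 48 := by rw [← hn]; exact hr.1
    have hg' : g = X r t := rk_eq_xGL chevF4 hF4 g r t hx
    rcases htab r hr48 hr hneg with rfl | rfl
    · exact ⟨t, 0, by rw [hg', xGL_zero, mul_one]⟩
    · exact ⟨0, t, by rw [hg', xGL_zero, one_mul]⟩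
  | one => exact ⟨0, 0, by rw [xGL_zero, xGL_zero, mul_one]⟩
  | mul x y _ _ hx hy =>
    obtain ⟨a, b, rfl⟩ := hx
    obtain ⟨a', b', rfl⟩ := hy
    refine ⟨a + a', b + b', ?_⟩
    rw [xGL_add chevF4 hF4 33 l33, xGL_add chevF4 hF4 24 l24]
    have hc := (TwF4P.c24_33 (K := K) b a').eq
    calc X 33 a * X 24 b * (X 33 a' * X 24 b') = X 33 a * (X 24 b * X 33 a') * X 24 b' := by group
      _ = X 33 a * (X 33 a' * X 24 b) * X 24 b' := by rw [hc]
      _ = X 33 a * X 33 a' * (X 24 b * X 24 b') := by group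
  | inv x _ hx =>
    obtain ⟨a, b, rfl⟩ := hx
    refine ⟨-a, -b, ?_⟩
    rw [_root_.mul_inv_rev, xGL_inv, xGL_inv]
    exact (TwF4P.c24_33 (K := K) (-b) (-a)).eq

theorem j1_sep (p q : K) (h : X 33 p = X 24 q) : p = 0 ∧ q = 0 := by
  obtain ⟨-, -, -, -, -, -, -, -, -, -, l33, l24⟩ := j1_tab
  have hv : chevF4.x K 33 p = chevF4.x K 24 q := by
    rw [← xGL_val chevF4 hF4, ← xGL_val chevF4 hF4, h]
  have hp : p = 0 := by
    by_contra hp
    have := TwF4W.x_root_inj2 chevF4 hF4 33 24 l33 l24 p q hp hv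
    omega
  have hq : q = 0 := by
    by_contra hq
    have := TwF4W.x_root_inj2 chevF4 hF4 24 33 l24 l33 q p hq hv.symm
    omega
  exact ⟨hp, hq⟩

theorem j1_inj (a b a' b' : K) (h : X 33 a * X 24 b = X 33 a' * X 24 b') : a = a' ∧ b = b' := by
  obtain ⟨-, -, -, -, -, -, -, -, -, -, l33, l24⟩ := j1_tab
  have h1 : X 33 (a - a') = X 24 (b' - b) := by
    rw [sub_eq_add_neg, sub_eq_add_neg, xGL_add chevF4 hF4 33 l33, xGL_add chevF4 hF4 24 l24,
      ← xGL_inv, ← xGL_inv]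
    have e1 : X 33 a = X 33 a' * X 24 b' * (X 24 b)⁻¹ := by rw [← h]; group
    have hc := (TwF4P.c24_33 (K := K) b' a').eq
    calc X 33 a * (X 33 a')⁻¹ = X 33 a' * X 24 b' * (X 24 b)⁻¹ * (X 33 a')⁻¹ := by rw [← e1]
      _ = (X 33 a')⁻¹⁻¹ * X 24 b' * (X 24 b)⁻¹ * (X 33 a')⁻¹ := by rw [inv_inv]
      _ = X 24 b' * (X 24 b)⁻¹ := by
        have c1 : Commute (X 24 b' * (X 24 b)⁻¹) ((X 33 a')⁻¹) := by
          rw [xGL_inv, xGL_inv]
          exact (TwF4P.c24_33 (K := K) b' (-a')).mul_left (TwF4P.c24_33 (K := K) (-b) (-a'))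
        rw [inv_inv, mul_assoc (X 33 a'), mul_assoc (X 33 a'), c1.eq]
        group
  obtain ⟨h2, h3⟩ := j1_sep _ _ h1
  exact ⟨sub_eq_zero.1 h2, (sub_eq_zero.1 h3).symm⟩

/-- `|(U_{n₁}⁻)^σ| = |K|`. -/
theorem card_J1 [Fintype K] [CharP K 2] {e : ℕ} {σ : ↥(chevF4.group K) →* ↥(chevF4.group K)}
    (hσ : IsSig K e σ) (hF : ∀ x : K, (x ^ e) ^ (2 * e) = x) :
    Nat.card ↥(uMinus K chevF4 [0, 3] ⊓ sigFix σ) = Fintype.card K := by
  obtain ⟨-, p33, p24, n33, n24, -, r33, r24, s33, s24, l33, l24⟩ := j1_tab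
  have pw33 : pw e 33 = 2 * e := by unfold pw; rw [s33]; rfl
  have pw24 : pw e 24 = e := by unfold pw; rw [s24]; rfl
  have hsig : ∀ a b : K, ∀ h : X 33 a * X 24 b ∈ chevF4.group K,
      ((σ ⟨X 33 a * X 24 b, h⟩ : ↥(chevF4.group K)) : GL chevF4.Idx K) =
        X 33 (b ^ e) * X 24 (a ^ (2 * e)) := by
    intro a b h
    have e1 : (⟨X 33 a * X 24 b, h⟩ : ↥(chevF4.group K)) =
        xG chevF4 hF4 33 a * xG chevF4 hF4 24 b := Subtype.ext rfl
    rw [e1, map_mul, hσ 33 l33, hσ 24 l24, r33, r24, pw33, pw24]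
    exact (TwF4P.c24_33 (K := K) (a ^ (2 * e)) (b ^ e)).eq
  have hmemA : ∀ a b : K, X 33 a * X 24 b ∈ uMinus K chevF4 [0, 3] := by
    intro a b
    unfold uMinus
    exact Subgroup.mul_mem _
      (Subgroup.subset_closure ⟨33, a, p33, n33, xGL_val chevF4 hF4 33 a⟩)
      (Subgroup.subset_closure ⟨24, b, p24, n24, xGL_val chevF4 hF4 24 b⟩)
  have hgrp : ∀ a b : K, X 33 a * X 24 b ∈ chevF4.group K := fun a b =>
    Subgroup.mul_mem _ (xGL_mem_group chevF4 hF4 33 a) (xGL_mem_group chevF4 hF4 24 b)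
  have hfixmem : ∀ t : K, X 33 (t ^ e) * X 24 t ∈ sigFix σ := by
    intro t
    rw [mem_sigFix]
    refine ⟨hgrp _ _, Subtype.ext ?_⟩
    rw [hsig, hF]
  let φ : K → ↥(uMinus K chevF4 [0, 3] ⊓ sigFix σ) := fun t =>
    ⟨X 33 (t ^ e) * X 24 t, hmemA _ _, hfixmem t⟩
  have hbij : Function.Bijective φ := by
    constructor
    · intro t t' h
      have h' : X 33 (t ^ e) * X 24 t = X 33 (t' ^ e) * X 24 t' :=
        congrArg (fun x : ↥(uMinus K chevF4 [0, 3] ⊓ sigFix σ) => (x : GL chevF4.Idx K)) h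
      exact (j1_inj _ _ _ _ h').2
    · rintro ⟨u, huA, huF⟩
      obtain ⟨a, b, rfl⟩ := j1_form u huA
      obtain ⟨h, hfix⟩ := (mem_sigFix σ _).1 huF
      have h1 := congrArg (fun x : ↥(chevF4.group K) => (x : GL chevF4.Idx K)) hfix
      have h2 : X 33 (b ^ e) * X 24 (a ^ (2 * e)) = X 33 a * X 24 b := by
        rw [← hsig a b h]
        exact h1
      obtain ⟨h3, -⟩ := j1_inj _ _ _ _ h2
      refine ⟨b, Subtype.ext ?_⟩
      show X 33 (b ^ e) * X 24 b = X 33 a * X 24 b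
      rw [h3]
  rw [← Nat.card_congr (Equiv.ofBijective φ hbij), Nat.card_eq_fintype_card]

end

end Cfsg.Agent.Lib.Helper26.TF4
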