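import Mathlib
import Cfsg.Agent.Lib.Helper26.FpfConj

set_option autoImplicit false
set_option linter.style.haveILetI false
open scoped commutatorElement

namespace Cfsg.Agent.Lib.Helper26


section frobCount

theorem frob_card_map_ker {G G' : Type*} [Group G] [Group G'] (f : G →* G') (K : Subgroup G) :
    Nat.card (K.map f) * Nat.card (K ⊓ f.ker : Subgroup G) = Nat.card K := by
  have e := QuotientGroup.quotientKerEquivOfSurjective (f.subgroupMap K)
    (f.subgroupMap_surjective K)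
  have h1 : Nat.card (↥K ⧸ (f.subgroupMap K).ker) = Nat.card (K.map f) :=
    Nat.card_congr e.toEquiv
  have h2 := Subgroup.card_eq_card_quotient_mul_card_subgroup (f.subgroupMap K).ker
  have h3 : Nat.card (f.subgroupMap K).ker = Nat.card (K ⊓ f.ker : Subgroup G) := by
    apply Nat.card_congr
    exact
      { toFun := fun x => ⟨x.1.1, ⟨x.1.2, by
          have h := x.2
          rw [MonoidHom.mem_ker] at h
          show (x.1.1 : G) ∈ f.ker
          rw [MonoidHom.mem_ker]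
          exact congrArg Subtype.val h⟩⟩
        invFun := fun y => ⟨⟨y.1, y.2.1⟩, by
          rw [MonoidHom.mem_ker]
          apply Subtype.ext
          exact (MonoidHom.mem_ker).mp y.2.2⟩
        left_inv := fun x => rfl
        right_inv := fun y => rfl }
  rw [h2, h1, h3]

theorem frob_card_map_ker_add {G G' : Type*} [AddGroup G] [AddGroup G'] (f : G →+ G')
    (K : AddSubgroup G) :
    Nat.card (K.map f) * Nat.card (K ⊓ f.ker : AddSubgroup G) = Nat.card K := by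
  have e := QuotientAddGroup.quotientKerEquivOfSurjective (f.addSubgroupMap K)
    (f.addSubgroupMap_surjective K)
  have h1 : Nat.card (↥K ⧸ (f.addSubgroupMap K).ker) = Nat.card (K.map f) :=
    Nat.card_congr e.toEquiv
  have h2 := AddSubgroup.card_eq_card_quotient_mul_card_addSubgroup (f.addSubgroupMap K).ker
  have h3 : Nat.card (f.addSubgroupMap K).ker = Nat.card (K ⊓ f.ker : AddSubgroup G) := by
    apply Nat.card_congr
    exact
      { toFun := fun x => ⟨x.1.1, ⟨x.1.2, by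
          have h := x.2
          rw [AddMonoidHom.mem_ker] at h
          show (x.1.1 : G) ∈ f.ker
          rw [AddMonoidHom.mem_ker]
          exact congrArg Subtype.val h⟩⟩
        invFun := fun y => ⟨⟨y.1, y.2.1⟩, by
          rw [AddMonoidHom.mem_ker]
          apply Subtype.ext
          exact (AddMonoidHom.mem_ker).mp y.2.2⟩
        left_inv := fun x => rfl
        right_inv := fun y => rfl }
  rw [h2, h1, h3]

/-- if `f` is fixed-point-free on `U` (by conjugation) and `U₀ ≤ U` is `f`-invariant, then an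
element of `U` that commutes with `f` modulo `U₀` lies in `U₀`. -/
theorem frob_mem_of_comm_mem {G : Type*} [Group G] (U U₀ : Subgroup G) [Finite U₀] (f : G)
    (hf0 : ∀ u ∈ U₀, f * u * f⁻¹ ∈ U₀) (hU₀ : U₀ ≤ U)
    (hfpf : ∀ u ∈ U, f * u = u * f → u = 1) {a : G} (ha : a ∈ U)
    (h : a⁻¹ * (f * a * f⁻¹) ∈ U₀) : a ∈ U₀ := by
  have key : ∀ x ∈ U, ∀ y ∈ U, x⁻¹ * (f * x * f⁻¹) = y⁻¹ * (f * y * f⁻¹) → x = y := by
    intro x hx y hy hxy
    have h1 : f * (y * x⁻¹) = (y * x⁻¹) * f := by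
      have : y * x⁻¹ = f * (y * x⁻¹) * f⁻¹ := by
        have e1 : f * (y * x⁻¹) * f⁻¹ = (f * y * f⁻¹) * (f * x * f⁻¹)⁻¹ := by group
        have e2 : f * y * f⁻¹ = y * (x⁻¹ * (f * x * f⁻¹)) := by rw [hxy]; group
        rw [e1, e2]; group
      calc f * (y * x⁻¹) = (f * (y * x⁻¹) * f⁻¹) * f := by group
        _ = (y * x⁻¹) * f := by rw [← this]
    have h2 := hfpf _ (U.mul_mem hy (U.inv_mem hx)) h1
    exact (mul_inv_eq_one.mp h2).symm
  let φ : ↥U₀ → ↥U₀ := fun n => ⟨(n : G)⁻¹ * (f * n * f⁻¹), U₀.mul_mem (U₀.inv_mem n.2) (hf0 n n.2)⟩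
  have hinj : Function.Injective φ := by
    intro x y hxy
    exact Subtype.ext (key x (hU₀ x.2) y (hU₀ y.2) (congrArg Subtype.val hxy))
  obtain ⟨n, hn⟩ := (Finite.injective_iff_surjective.mp hinj) ⟨_, h⟩
  have := key n (hU₀ n.2) a ha (congrArg Subtype.val hn)
  rw [← this]; exact n.2

/-- in a nilpotent group `U`, a proper subgroup `U₀` admits an element outside `U₀` that is
central modulo `U₀`. -/
theorem frob_exists_central_mod {G : Type*} [Group G] (U U₀ : Subgroup G)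
    (hnil : Group.IsNilpotent U) (hne : ¬ U ≤ U₀) :
    ∃ a ∈ U, a ∉ U₀ ∧ ∀ u ∈ U, a * u * a⁻¹ * u⁻¹ ∈ U₀ := by
  classical
  obtain ⟨n, hn⟩ := (Subgroup.isNilpotent_iff_lowerCentralSeries U).mp hnil
  have hex : ∃ k, U.lowerCentralSeries k ≤ U₀ := ⟨n, by rw [hn]; exact bot_le⟩
  have hk0 : Nat.find hex ≠ 0 := by
    intro h0
    have h1 := Nat.find_spec hex
    rw [h0, Subgroup.lowerCentralSeries_zero] at h1
    exact hne h1
  obtain ⟨j, hj⟩ := Nat.exists_eq_succ_of_ne_zero hk0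
  have h2 : ¬ U.lowerCentralSeries j ≤ U₀ :=
    Nat.find_min hex (by rw [hj]; exact Nat.lt_succ_self j)
  obtain ⟨a, haj, ha0⟩ := SetLike.not_le_iff_exists.mp h2
  have haU : a ∈ U := by
    have := Subgroup.lowerCentralSeries_antitone U (Nat.zero_le j) haj
    rwa [Subgroup.lowerCentralSeries_zero] at this
  refine ⟨a, haU, ha0, ?_⟩
  intro u hu
  have h3 : ⁅a, u⁆ ∈ U.lowerCentralSeries (j + 1) := by
    rw [Subgroup.lowerCentralSeries_succ]
    exact Subgroup.commutator_mem_commutator haj hu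
  have h4 := Nat.find_spec hex
  rw [hj] at h4
  have h5 := h4 h3
  rwa [commutatorElement_def] at h5

end frobCount



section frobFix

variable {Γ : Type*} [Group Γ] (V : Type*) [AddCommGroup V] [DistribMulAction Γ V]

/-- vectors fixed by a set of group elements -/
def frobFix (S : Set Γ) : AddSubgroup V where
  carrier := {v | ∀ g ∈ S, g • v = v}
  add_mem' := fun ha hb g hg => by rw [smul_add, ha g hg, hb g hg]
  zero_mem' := fun g _ => smul_zero g
  neg_mem' := fun ha g hg => by rw [smul_neg, ha g hg]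

variable {V}

theorem mem_frobFix {S : Set Γ} {v : V} : v ∈ frobFix V S ↔ ∀ g ∈ S, g • v = v := Iff.rfl

theorem frob_nsmul_eq_zero {W : AddSubgroup V} [Finite W] {n : ℕ}
    (hn : n.Coprime (Nat.card W)) {w : V} (hw : w ∈ W) (h : n • w = 0) : w = 0 := by
  have h1 : addOrderOf w ∣ n := addOrderOf_dvd_of_nsmul_eq_zero h
  have h2 : addOrderOf w ∣ Nat.card W := by
    have := addOrderOf_dvd_natCard (⟨w, hw⟩ : ↥W)
    rwa [← AddSubgroup.addOrderOf_mk] 
  have h3 : addOrderOf w ∣ 1 := by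
    have := Nat.dvd_gcd h1 h2
    rwa [Nat.Coprime.gcd_eq_one hn] at this
  exact AddMonoid.addOrderOf_eq_one_iff.mp (Nat.dvd_one.mp h3)

theorem frob_mem_of_nsmul_mem {X W : AddSubgroup V} [Finite W] (hXW : X ≤ W) {n : ℕ}
    (hn : n.Coprime (Nat.card W)) {w : V} (hw : w ∈ W) (h : n • w ∈ X) : w ∈ X := by
  have : Finite ↥X := Finite.of_injective _ (AddSubgroup.inclusion_injective hXW)
  let φ : ↥X → ↥X := fun x => ⟨n • (x : V), X.nsmul_mem x.2 n⟩
  have hinj : Function.Injective φ := by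
    intro x y hxy
    have h1 : n • (x : V) = n • (y : V) := congrArg Subtype.val hxy
    have h2 : n • ((x : V) - y) = 0 := by rw [smul_sub, h1, sub_self]
    have h3 := frob_nsmul_eq_zero hn (W.sub_mem (hXW x.2) (hXW y.2)) h2
    exact Subtype.ext (sub_eq_zero.mp h3)
  obtain ⟨x, hx⟩ := (Finite.injective_iff_surjective.mp hinj) ⟨_, h⟩
  have h1 : n • (x : V) = n • w := congrArg Subtype.val hx
  have h2 : n • (w - (x : V)) = 0 := by rw [smul_sub, h1, sub_self]
  have h3 := frob_nsmul_eq_zero hn (W.sub_mem hw (hXW x.2)) h2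
  rw [sub_eq_zero.mp h3]; exact x.2

theorem frob_card_sup_of_disjoint (W₁ W₂ : AddSubgroup V) (h : W₁ ⊓ W₂ = ⊥) :
    Nat.card ↥(W₁ ⊔ W₂) = Nat.card W₁ * Nat.card W₂ := by
  rw [← Nat.card_prod]
  symm
  apply Nat.card_congr
  refine Equiv.ofBijective
    (fun p : ↥W₁ × ↥W₂ => (⟨(p.1 : V) + p.2,
      add_mem (AddSubgroup.mem_sup_left p.1.2) (AddSubgroup.mem_sup_right p.2.2)⟩ : ↥(W₁ ⊔ W₂)))
    ⟨?_, ?_⟩
  · rintro ⟨x1, y1⟩ ⟨x2, y2⟩ hxy
    have h1 : (x1 : V) + y1 = x2 + y2 := congrArg Subtype.val hxy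
    have h2 : (x1 : V) - x2 = y2 - y1 := by
      rw [sub_eq_sub_iff_add_eq_add, h1, add_comm]
    have h3 : (x1 : V) - x2 ∈ W₁ ⊓ W₂ :=
      ⟨W₁.sub_mem x1.2 x2.2, by rw [h2]; exact W₂.sub_mem y2.2 y1.2⟩
    rw [h] at h3
    have h4 : (x1 : V) = x2 := sub_eq_zero.mp ((AddSubgroup.mem_bot).mp h3)
    have h5 : (y1 : V) = y2 := by
      rw [h4] at h1; exact add_left_cancel h1
    exact Prod.ext (Subtype.ext h4) (Subtype.ext h5)
  · rintro ⟨z, hz⟩
    obtain ⟨x, hx, y, hy, rfl⟩ := AddSubgroup.mem_sup.mp hz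
    exact ⟨(⟨x, hx⟩, ⟨y, hy⟩), rfl⟩

theorem frob_fix_sup_of_disjoint (W₁ W₂ : AddSubgroup V) (h : W₁ ⊓ W₂ = ⊥) (S : Set Γ)
    (h1 : ∀ g ∈ S, ∀ w ∈ W₁, g • w ∈ W₁) (h2 : ∀ g ∈ S, ∀ w ∈ W₂, g • w ∈ W₂) :
    Nat.card ↥((W₁ ⊔ W₂) ⊓ frobFix V S) =
      Nat.card ↥(W₁ ⊓ frobFix V S) * Nat.card ↥(W₂ ⊓ frobFix V S) := by
  have e : (W₁ ⊔ W₂) ⊓ frobFix V S = (W₁ ⊓ frobFix V S) ⊔ (W₂ ⊓ frobFix V S) := by
    apply le_antisymm
    · rintro z ⟨hz, hzf⟩
      obtain ⟨x, hx, y, hy, rfl⟩ := AddSubgroup.mem_sup.mp hz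
      have key : ∀ g ∈ S, g • x = x ∧ g • y = y := by
        intro g hg
        have h3 : g • x + g • y = x + y := by rw [← smul_add]; exact hzf g hg
        have h4 : g • x - x = y - g • y := by
          rw [sub_eq_sub_iff_add_eq_add, h3, add_comm]
        have h5 : g • x - x ∈ W₁ ⊓ W₂ :=
          ⟨W₁.sub_mem (h1 g hg x hx) hx, by rw [h4]; exact W₂.sub_mem hy (h2 g hg y hy)⟩
        rw [h] at h5
        have h6 : g • x = x := sub_eq_zero.mp ((AddSubgroup.mem_bot).mp h5)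
        refine ⟨h6, ?_⟩
        rw [h6] at h3; exact add_left_cancel h3
      exact add_mem (AddSubgroup.mem_sup_left ⟨hx, fun g hg => (key g hg).1⟩)
        (AddSubgroup.mem_sup_right ⟨hy, fun g hg => (key g hg).2⟩)
    · exact sup_le (inf_le_inf_right _ le_sup_left) (inf_le_inf_right _ le_sup_right)
  rw [e]
  apply frob_card_sup_of_disjoint
  rw [eq_bot_iff, ← h]
  exact inf_le_inf inf_le_left inf_le_left

end frobFix



section frobTr

variable {Γ : Type*} [Group Γ] [Finite Γ] {V : Type*} [AddCommGroup V] [DistribMulAction Γ V]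

/-- the trace (sum over a subgroup) as an additive endomorphism -/
noncomputable def frobTr (B : Subgroup Γ) : V →+ V :=
  letI : Fintype ↥B := Fintype.ofFinite ↥B
  ∑ b : ↥B, DistribSMul.toAddMonoidHom V (b : Γ)

theorem frobTr_apply (B : Subgroup Γ) [Fintype ↥B] (v : V) :
    frobTr B v = ∑ b : ↥B, (b : Γ) • v := by
  have h : (Fintype.ofFinite ↥B) = ‹Fintype ↥B› := Subsingleton.elim _ _
  unfold frobTr
  rw [h, AddMonoidHom.finsetSum_apply]
  rfl

theorem frobTr_smul {B : Subgroup Γ} {b : Γ} (hb : b ∈ B) (v : V) :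
    b • frobTr B v = frobTr B v := by
  classical
  letI : Fintype ↥B := Fintype.ofFinite ↥B
  rw [frobTr_apply, Finset.smul_sum]
  exact Fintype.sum_equiv (Equiv.mulLeft (⟨b, hb⟩ : ↥B)) _ _ (fun x => by
    show b • (x : Γ) • v = ((⟨b, hb⟩ * x : ↥B) : Γ) • v
    rw [Subgroup.coe_mul, mul_smul])

theorem frobTr_of_fixed {B : Subgroup Γ} {v : V} (h : ∀ b ∈ B, b • v = v) :
    frobTr B v = Nat.card B • v := by
  classical
  letI : Fintype ↥B := Fintype.ofFinite ↥B
  rw [frobTr_apply, Finset.sum_congr rfl (fun (b : ↥B) _ => h b b.2), Finset.sum_const,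
    Finset.card_univ, Nat.card_eq_fintype_card]

theorem frobTr_comm {B : Subgroup Γ} (g : Γ) (v : V) (h : ∀ b ∈ B, g • b • v = b • g • v) :
    g • frobTr B v = frobTr B (g • v) := by
  classical
  letI : Fintype ↥B := Fintype.ofFinite ↥B
  rw [frobTr_apply, frobTr_apply, Finset.smul_sum]
  exact Finset.sum_congr rfl (fun b _ => h b b.2)

theorem frobTr_normalizer {B : Subgroup Γ} {g : Γ} (hg : g ∈ Subgroup.normalizer (B : Set Γ))
    (v : V) : g • frobTr B v = frobTr B (g • v) := by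
  classical
  letI : Fintype ↥B := Fintype.ofFinite ↥B
  rw [frobTr_apply, frobTr_apply, Finset.smul_sum]
  have hg' := Subgroup.mem_normalizer_iff.mp hg
  let σ : ↥B ≃ ↥B :=
    { toFun := fun b => ⟨g * b * g⁻¹, (hg' b).mp b.2⟩
      invFun := fun b => ⟨g⁻¹ * b * g, (hg' _).mpr (by
        have : g * (g⁻¹ * (b : Γ) * g) * g⁻¹ = b := by group
        rw [this]; exact b.2)⟩
      left_inv := fun b => Subtype.ext (by show g⁻¹ * (g * (b : Γ) * g⁻¹) * g = b; group)
      right_inv := fun b => Subtype.ext (by show g * (g⁻¹ * (b : Γ) * g) * g⁻¹ = b; group) }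
  exact Fintype.sum_equiv σ _ _ (fun b => by
    show g • (b : Γ) • v = (g * (b : Γ) * g⁻¹) • g • v
    rw [mul_smul, mul_smul, inv_smul_smul])

theorem frobTr_mem {B : Subgroup Γ} (W : AddSubgroup V) (hW : ∀ b ∈ B, ∀ w ∈ W, b • w ∈ W)
    {v : V} (hv : v ∈ W) : frobTr B v ∈ W := by
  classical
  letI : Fintype ↥B := Fintype.ofFinite ↥B
  rw [frobTr_apply]
  exact sum_mem (fun b _ => hW b b.2 v hv)

/-- the sum of the conjugates of the trace -/
noncomputable def frobP (E B : Subgroup Γ) : V →+ V :=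
  letI : Fintype ↥E := Fintype.ofFinite ↥E
  ∑ e : ↥E, (DistribSMul.toAddMonoidHom V (e : Γ)).comp
    ((frobTr B).comp (DistribSMul.toAddMonoidHom V ((e : Γ)⁻¹)))

theorem frobP_apply (E B : Subgroup Γ) [Fintype ↥E] (v : V) :
    frobP E B v = ∑ e : ↥E, (e : Γ) • frobTr B ((e : Γ)⁻¹ • v) := by
  have h : (Fintype.ofFinite ↥E) = ‹Fintype ↥E› := Subsingleton.elim _ _
  unfold frobP
  rw [h, AddMonoidHom.finsetSum_apply]
  rfl

theorem frobP_smul {E B : Subgroup Γ} {f : Γ} (hf : f ∈ E) (v : V) :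
    f • frobP E B v = frobP E B (f • v) := by
  classical
  letI : Fintype ↥E := Fintype.ofFinite ↥E
  rw [frobP_apply, frobP_apply, Finset.smul_sum]
  exact Fintype.sum_equiv (Equiv.mulLeft (⟨f, hf⟩ : ↥E)) _ _ (fun x => by
    show f • (x : Γ) • frobTr B ((x : Γ)⁻¹ • v) =
      ((⟨f, hf⟩ * x : ↥E) : Γ) • frobTr B ((((⟨f, hf⟩ * x : ↥E) : Γ))⁻¹ • f • v)
    rw [Subgroup.coe_mul, mul_smul, mul_inv_rev, mul_smul, inv_smul_smul])

theorem frobP_mem {E B : Subgroup Γ} (W : AddSubgroup V) (hE : ∀ e ∈ E, ∀ w ∈ W, e • w ∈ W)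
    (hB : ∀ b ∈ B, ∀ w ∈ W, b • w ∈ W) {v : V} (hv : v ∈ W) : frobP E B v ∈ W := by
  classical
  letI : Fintype ↥E := Fintype.ofFinite ↥E
  rw [frobP_apply]
  exact sum_mem (fun e _ => hE e e.2 _ (frobTr_mem W hB (hE _ (E.inv_mem e.2) v hv)))

/-- the trace over `E` of a vector -/
theorem frobTr_fixed_mem {E : Subgroup Γ} (v : V) : frobTr E v ∈ frobFix V (E : Set Γ) := by
  intro g hg
  exact frobTr_smul hg v

end frobTr

end Cfsg.Agent.Lib.Helper26
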