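import Mathlib
import Cfsg.Agent.Lib.Helper26.FrobBasic

set_option autoImplicit false
set_option linter.style.haveILetI false

namespace Cfsg.Agent.Lib.Helper26

section frobVand

theorem frob_adj {R : Type*} [CommRing R] {W : Type*} [AddCommGroup W] [Module R W]
    {n : Type*} [Fintype n] [DecidableEq n]
    (M : Matrix n n R) (v : n → W) (h : ∀ i, ∑ j, M i j • v j = 0) (k : n) :
    M.det • v k = 0 := by
  have h1 : ∑ i, M.adjugate k i • ∑ j, M i j • v j = 0 :=
    Finset.sum_eq_zero (fun i _ => by rw [h i, smul_zero])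
  rw [← h1]
  simp_rw [Finset.smul_sum, smul_smul]
  rw [Finset.sum_comm]
  have h2 : ∀ j, ∑ i, (M.adjugate k i * M i j) • v j =
      ((M.det • (1 : Matrix n n R)) k j) • v j := by
    intro j
    rw [← Finset.sum_smul, ← Matrix.adjugate_mul, Matrix.mul_apply]
  simp_rw [h2]
  simp [Matrix.smul_apply, Matrix.one_apply, ite_smul]

theorem frob_det_inj {R : Type*} [CommRing R] {W : Type*} [AddCommGroup W] [Module R W]
    {m : ℕ} (x : Fin m → R)
    (hinj : ∀ i j, i ≠ j → ∀ w : W, (x j - x i) • w = 0 → w = 0) :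
    ∀ w : W, (Matrix.vandermonde x).det • w = 0 → w = 0 := by
  rw [Matrix.det_vandermonde]
  let p : R → Prop := fun r => ∀ w : W, r • w = 0 → w = 0
  have hmul : ∀ a b, p a → p b → p (a * b) :=
    fun a b ha hb w hw => hb w (ha _ (by rwa [mul_smul] at hw))
  have hone : p 1 := fun w hw => by simpa using hw
  exact Finset.prod_induction _ p hmul hone (fun i _ =>
    Finset.prod_induction _ p hmul hone (fun j hj =>
      hinj i j (ne_of_lt (Finset.mem_Ioi.mp hj))))

theorem frob_vand {W : Type*} [AddCommGroup W] {m : ℕ} (ρ : Fin m → AddMonoid.End W)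
    (hcomm : ∀ i j, ρ i * ρ j = ρ j * ρ i)
    (hinj : ∀ i j, i ≠ j → ∀ w, ρ i w = ρ j w → w = 0) :
    (∀ v : Fin m → W, (∀ j : Fin m, ∑ i, (ρ i ^ (j : ℕ)) (v i) = 0) → ∀ i, v i = 0) ∧
    (∀ w : Fin m → W, (∀ i : Fin m, ∑ j : Fin m, (ρ i ^ (j : ℕ)) (w j) = 0) → ∀ j, w j = 0) := by
  classical
  let S : Set (AddMonoid.End W) := Set.range ρ
  let R₁ := Subring.centralizer S
  have hmem1 : ∀ i, ρ i ∈ R₁ := fun i => by
    rw [Subring.mem_centralizer_iff]
    rintro g ⟨j, rfl⟩
    exact hcomm j i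
  let R := Subring.center ↥R₁
  have hmem2 : ∀ i, (⟨ρ i, hmem1 i⟩ : ↥R₁) ∈ R := fun i => by
    rw [Subring.mem_center_iff]
    intro g
    apply Subtype.ext
    show (g : AddMonoid.End W) * ρ i = ρ i * g
    have h := g.2
    rw [Subring.mem_centralizer_iff] at h
    exact (h (ρ i) ⟨i, rfl⟩).symm
  let x : Fin m → ↥R := fun i => ⟨⟨ρ i, hmem1 i⟩, hmem2 i⟩
  let φ : ↥R →+* AddMonoid.End W := (R₁.subtype).comp R.subtype
  letI : Module ↥R W := Module.compHom W φ
  have hsmul : ∀ (r : ↥R) (w : W), r • w = (φ r) w := fun r w => rfl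
  have hx : ∀ i (k : ℕ) (w : W), (x i ^ k) • w = (ρ i ^ k) w := by
    intro i k w
    rw [hsmul, map_pow]
    rfl
  have hxinj : ∀ i j, i ≠ j → ∀ w : W, (x j - x i) • w = 0 → w = 0 := by
    intro i j hij w hw
    rw [sub_smul, sub_eq_zero] at hw
    exact hinj j i hij.symm w hw
  have hdet := frob_det_inj x hxinj
  constructor
  · intro v hv i
    apply hdet
    have h1 := frob_adj (Matrix.vandermonde x).transpose v (fun j => by
      simp only [Matrix.transpose_apply, Matrix.vandermonde_apply]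
      rw [← hv j]
      exact Finset.sum_congr rfl (fun i _ => hx i j (v i))) i
    rwa [Matrix.det_transpose] at h1
  · intro w hw j
    apply hdet
    exact frob_adj (Matrix.vandermonde x) w (fun i => by
      simp only [Matrix.vandermonde_apply]
      rw [← hw i]
      exact Finset.sum_congr rfl (fun j _ => hx i j (w j))) j

end frobVand

section frobFinal

variable {Γ : Type*} [Group Γ] [Finite Γ] {V : Type*} [AddCommGroup V] [Finite V]
  [DistribMulAction Γ V]

/-- the "Galois descent" base case: if the `E`-conjugates of `a` commute on `W` and pairwise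
differ by fixed-point-free operators, then `|W| = |C_W(E)|^|E|`. -/
theorem frob_final (W : AddSubgroup V) (E : Subgroup Γ) (a : Γ)
    (hEW : ∀ e ∈ E, ∀ w ∈ W, e • w ∈ W) (haW : ∀ w ∈ W, a • w ∈ W)
    (hcomm : ∀ e ∈ E, ∀ e' ∈ E, ∀ w ∈ W,
      (e * a * e⁻¹) • (e' * a * e'⁻¹) • w = (e' * a * e'⁻¹) • (e * a * e⁻¹) • w)
    (hinj : ∀ e ∈ E, ∀ e' ∈ E, e ≠ e' → ∀ w ∈ W,
      (e * a * e⁻¹) • w = (e' * a * e'⁻¹) • w → w = 0) :
    Nat.card W = Nat.card ↥(W ⊓ frobFix V (E : Set Γ)) ^ Nat.card E := by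
  classical
  let m := Nat.card E
  let eq : Fin m ≃ ↥E := (Finite.equivFin ↥E).symm
  let y : Fin m → Γ := fun i => (eq i : Γ) * a * (eq i : Γ)⁻¹
  have hapow : ∀ (k : ℕ), ∀ w ∈ W, a ^ k • w ∈ W := by
    intro k
    induction k with
    | zero => intro w hw; simpa using hw
    | succ k ih => intro w hw; rw [pow_succ, mul_smul]; exact ih _ (haW w hw)
  have hyW : ∀ i, ∀ w ∈ W, y i • w ∈ W := by
    intro i w hw
    show ((eq i : Γ) * a * (eq i : Γ)⁻¹) • w ∈ W
    rw [mul_smul, mul_smul]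
    exact hEW _ (eq i).2 _ (haW _ (hEW _ (E.inv_mem (eq i).2) _ hw))
  let ρ : Fin m → AddMonoid.End ↥W := fun i =>
    AddMonoidHom.mk' (fun w => ⟨y i • (w : V), hyW i w w.2⟩)
      (fun w w' => Subtype.ext (by simp [smul_add]))
  have hρ : ∀ i (w : ↥W), ((ρ i w : ↥W) : V) = y i • (w : V) := fun i w => rfl
  have hρpow : ∀ i (k : ℕ) (w : ↥W), (((ρ i ^ k) w : ↥W) : V) = (y i ^ k) • (w : V) := by
    intro i k
    induction k with
    | zero => intro w; simp
    | succ k ih =>
      intro w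
      have e1 : (ρ i ^ (k + 1)) w = (ρ i ^ k) (ρ i w) := by rw [pow_succ]; rfl
      rw [e1, ih, hρ, pow_succ]
      exact (mul_smul _ _ _).symm
  have hpowy : ∀ i (k : ℕ), y i ^ k = (eq i : Γ) * a ^ k * (eq i : Γ)⁻¹ := fun i k => conj_pow
  obtain ⟨hV1, hV2⟩ := frob_vand ρ
    (by
      intro i j
      ext w
      show y i • y j • (w : V) = y j • y i • (w : V)
      exact hcomm _ (eq i).2 _ (eq j).2 w w.2)
    (by
      intro i j hij w hw
      have h1 : y i • (w : V) = y j • (w : V) := congrArg Subtype.val hw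
      have h2 := hinj _ (eq i).2 _ (eq j).2
        (fun h => hij (eq.injective (Subtype.ext h))) w w.2 h1
      exact Subtype.ext h2)
  let C : AddSubgroup V := W ⊓ frobFix V (E : Set Γ)
  letI : Fintype ↥E := Fintype.ofFinite ↥E
  have hΘmem : ∀ (j : ℕ) (v : ↥W), frobTr E (a ^ j • (v : V)) ∈ C := fun j v =>
    ⟨frobTr_mem W hEW (hapow j v v.2), frobTr_fixed_mem _⟩
  let Θ : ↥W → (Fin m → ↥C) := fun v j => ⟨frobTr E (a ^ (j : ℕ) • (v : V)), hΘmem j v⟩
  have hΘ : Function.Injective Θ := by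
    intro v v' hvv
    have hd : ∀ j : Fin m, frobTr E (a ^ (j : ℕ) • ((v : V) - v')) = 0 := by
      intro j
      have h1 : frobTr E (a ^ (j : ℕ) • (v : V)) = frobTr E (a ^ (j : ℕ) • (v' : V)) :=
        congrArg (fun f => ((f j : ↥C) : V)) hvv
      rw [smul_sub, map_sub, h1, sub_self]
    have hdW : (v : V) - v' ∈ W := W.sub_mem v.2 v'.2
    have key := hV1 (fun i => ⟨(eq i : Γ) • ((v : V) - v'), hEW _ (eq i).2 _ hdW⟩) (by
      intro j
      apply Subtype.ext
      rw [AddSubmonoidClass.coe_finsetSum]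
      simp only [hρpow, hpowy]
      rw [ZeroMemClass.coe_zero, ← hd j, frobTr_apply]
      refine Fintype.sum_equiv eq _ _ (fun i => ?_)
      rw [mul_smul, mul_smul, inv_smul_smul])
    have h0 := key (eq.symm 1)
    have h1 : ((eq (eq.symm 1) : ↥E) : Γ) • ((v : V) - v') = 0 := congrArg Subtype.val h0
    rw [Equiv.apply_symm_apply, Subgroup.coe_one, one_smul, sub_eq_zero] at h1
    exact Subtype.ext h1
  let Ξ : (Fin m → ↥C) → ↥W := fun w =>
    ⟨∑ j : Fin m, a ^ (j : ℕ) • ((w j : ↥C) : V), sum_mem (fun j _ => hapow _ _ (w j).2.1)⟩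
  have hΞ : Function.Injective Ξ := by
    intro w w' hww
    have h0 : ∑ j : Fin m, a ^ (j : ℕ) • (((w j : ↥C) : V) - (w' j : ↥C)) = 0 := by
      have h1 : ∑ j : Fin m, a ^ (j : ℕ) • ((w j : ↥C) : V) =
          ∑ j : Fin m, a ^ (j : ℕ) • ((w' j : ↥C) : V) := congrArg Subtype.val hww
      simp_rw [smul_sub]
      rw [Finset.sum_sub_distrib, h1, sub_self]
    have key := hV2 (fun j => ⟨((w j : ↥C) : V) - (w' j : ↥C),
        W.sub_mem (w j).2.1 (w' j).2.1⟩) (by
      intro i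
      apply Subtype.ext
      rw [AddSubmonoidClass.coe_finsetSum]
      simp only [hρpow, hpowy]
      have h2 : ∀ j : Fin m, ((eq i : Γ) * a ^ (j : ℕ) * (eq i : Γ)⁻¹) •
          (((w j : ↥C) : V) - (w' j : ↥C)) =
          (eq i : Γ) • a ^ (j : ℕ) • (((w j : ↥C) : V) - (w' j : ↥C)) := by
        intro j
        have hfix : ((w j : ↥C) : V) - (w' j : ↥C) ∈ frobFix V (E : Set Γ) :=
          sub_mem (w j).2.2 (w' j).2.2
        rw [mul_smul, mul_smul, hfix _ (E.inv_mem (eq i).2)]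
      simp_rw [h2]
      rw [← Finset.smul_sum, h0, smul_zero]
      rfl)
    funext j
    have h3 : ((w j : ↥C) : V) - (w' j : ↥C) = 0 := congrArg Subtype.val (key j)
    exact Subtype.ext (sub_eq_zero.mp h3)
  have h1 := Nat.card_le_card_of_injective Θ hΘ
  have h2 := Nat.card_le_card_of_injective Ξ hΞ
  have h3 : Nat.card (Fin m → ↥C) = Nat.card ↥C ^ m := by rw [Nat.card_fun, Nat.card_fin]
  rw [h3] at h1 h2
  exact le_antisymm h1 h2

end frobFinal

end Cfsg.Agent.Lib.Helper26
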