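import Mathlib
import Cfsg.Agent.Lib.Helper26.FrobBasic
import Cfsg.Agent.Lib.Helper26.FrobVand

set_option autoImplicit false
set_option linter.style.haveILetI false
set_option linter.unusedSectionVars false

namespace Cfsg.Agent.Lib.Helper26

section frobK

variable {Γ : Type*} [Group Γ] [Finite Γ] {V : Type*} [AddCommGroup V] [Finite V]
  [DistribMulAction Γ V]

/-- the hypotheses of the Frobenius fixed-point lemma -/
structure FrobSetup (U E : Subgroup Γ) (W : AddSubgroup V) : Prop where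
  hEU : ∀ e ∈ E, ∀ u ∈ U, e * u * e⁻¹ ∈ U
  hfpf : ∀ e ∈ E, e ≠ 1 → ∀ u ∈ U, e * u = u * e → u = 1
  hUW : ∀ u ∈ U, ∀ w ∈ W, u • w ∈ W
  hEW : ∀ e ∈ E, ∀ w ∈ W, e • w ∈ W
  hcU : (Nat.card U).Coprime (Nat.card W)
  hcE : (Nat.card E).Coprime (Nat.card W)
  hCU : ∀ w ∈ W, (∀ u ∈ U, u • w = w) → w = 0

/-- elements acting trivially on `W` -/
def frobKer (W : AddSubgroup V) : Subgroup Γ where
  carrier := {g | ∀ w ∈ W, g • w = w}
  mul_mem' := fun {a b} ha hb w hw => by rw [mul_smul, hb w hw, ha w hw]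
  one_mem' := fun w _ => one_smul _ w
  inv_mem' := fun {a} ha w hw => by
    have h := ha w hw
    calc a⁻¹ • w = a⁻¹ • a • w := by rw [h]
      _ = w := inv_smul_smul a w

/-- elements of `U` that are central in the action on `W` -/
def frobA (U : Subgroup Γ) (W : AddSubgroup V) (hUW : ∀ u ∈ U, ∀ w ∈ W, u • w ∈ W) :
    Subgroup Γ where
  carrier := {a | a ∈ U ∧ ∀ u ∈ U, ∀ w ∈ W, (a * u) • w = (u * a) • w}
  mul_mem' := by
    rintro a a' ⟨ha, hac⟩ ⟨ha', hac'⟩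
    refine ⟨U.mul_mem ha ha', fun u hu w hw => ?_⟩
    calc (a * a' * u) • w = a • ((a' * u) • w) := by rw [← mul_smul, mul_assoc]
      _ = a • ((u * a') • w) := by rw [hac' u hu w hw]
      _ = (a * u) • (a' • w) := by rw [← mul_smul, ← mul_smul, mul_assoc]
      _ = (u * a) • (a' • w) := hac u hu _ (hUW a' ha' w hw)
      _ = (u * (a * a')) • w := by rw [← mul_smul, mul_assoc]
  one_mem' := ⟨U.one_mem, fun u hu w hw => by rw [one_mul, mul_one]⟩
  inv_mem' := by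
    rintro a ⟨ha, hac⟩
    refine ⟨U.inv_mem ha, fun u hu w hw => ?_⟩
    have h1 := hac u hu (a⁻¹ • w) (hUW _ (U.inv_mem ha) w hw)
    have h2 : (u * a) • a⁻¹ • w = u • w := by rw [mul_smul, smul_inv_smul]
    rw [h2] at h1
    rw [mul_smul, mul_smul, ← h1, mul_smul, inv_smul_smul]

theorem frobA_conj {U E : Subgroup Γ} {W : AddSubgroup V}
    (hUW : ∀ u ∈ U, ∀ w ∈ W, u • w ∈ W) (hEW : ∀ e ∈ E, ∀ w ∈ W, e • w ∈ W)
    (hEU : ∀ e ∈ E, ∀ u ∈ U, e * u * e⁻¹ ∈ U) {e a : Γ} (he : e ∈ E)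
    (ha : a ∈ frobA U W hUW) : e * a * e⁻¹ ∈ frobA U W hUW := by
  obtain ⟨haU, hac⟩ := ha
  refine ⟨hEU e he a haU, fun u hu w hw => ?_⟩
  have hu' : e⁻¹ * u * e ∈ U := by simpa using hEU e⁻¹ (E.inv_mem he) u hu
  have hw' : e⁻¹ • w ∈ W := hEW _ (E.inv_mem he) w hw
  have h1 := hac _ hu' _ hw'
  have e1 : (e * a * e⁻¹ * u) • w = e • ((a * (e⁻¹ * u * e)) • e⁻¹ • w) := by
    rw [← mul_smul, ← mul_smul]; congr 1; group
  have e2 : (u * (e * a * e⁻¹)) • w = e • (((e⁻¹ * u * e) * a) • e⁻¹ • w) := by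
    rw [← mul_smul, ← mul_smul]; congr 1; group
  rw [e1, e2, h1]

/-- a subgroup `B` of `U`, central on `W`, of maximal order with nonzero fixed points in `W` -/
structure FrobMax (U : Subgroup Γ) (W : AddSubgroup V) (B : Subgroup Γ) : Prop where
  hBU : B ≤ U
  hBc : ∀ b ∈ B, ∀ u ∈ U, ∀ w ∈ W, (b * u) • w = (u * b) • w
  hWB : W ⊓ frobFix V (B : Set Γ) ≠ ⊥
  hmax : ∀ D : Subgroup Γ, D ≤ U → (∀ d ∈ D, ∀ u ∈ U, ∀ w ∈ W, (d * u) • w = (u * d) • w) →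
    W ⊓ frobFix V (D : Set Γ) ≠ ⊥ → Nat.card D ≤ Nat.card B

theorem frobMax_exists (U : Subgroup Γ) (W : AddSubgroup V) (hW : W ≠ ⊥) :
    ∃ B, FrobMax U W B := by
  let s : Set (Subgroup Γ) := {D | D ≤ U ∧
    (∀ d ∈ D, ∀ u ∈ U, ∀ w ∈ W, (d * u) • w = (u * d) • w) ∧
    W ⊓ frobFix V (D : Set Γ) ≠ ⊥}
  have hs : s.Nonempty := by
    refine ⟨⊥, bot_le, ?_, ?_⟩
    · intro d hd u _ w _
      rw [Subgroup.mem_bot.mp hd, one_mul, mul_one]
    · have : W ⊓ frobFix V ((⊥ : Subgroup Γ) : Set Γ) = W := by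
        apply inf_eq_left.mpr
        intro w _ g hg
        rw [Subgroup.mem_bot.mp hg, one_smul]
      rw [this]; exact hW
  obtain ⟨B, hB, hmax⟩ := Set.exists_max_image s (fun D => Nat.card D) (Set.toFinite s) hs
  exact ⟨B, hB.1, hB.2.1, hB.2.2, fun D h1 h2 h3 => hmax D ⟨h1, h2, h3⟩⟩

theorem frobMax_T2 {U E : Subgroup Γ} {W : AddSubgroup V} (h : FrobSetup U E W)
    {B : Subgroup Γ} (hB : FrobMax U W B) {g : Γ} (hg : g ∈ E)
    (hgn : g ∉ Subgroup.normalizer (B : Set Γ)) {x : V}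
    (hx : x ∈ W ⊓ frobFix V (B : Set Γ)) : frobTr B (g • x) = 0 := by
  by_contra hz
  have hBW : ∀ b ∈ B, ∀ w ∈ W, b • w ∈ W := fun b hb => h.hUW b (hB.hBU hb)
  have hgx : g • x ∈ W := h.hEW g hg x hx.1
  have hzW : frobTr B (g • x) ∈ W := frobTr_mem W hBW hgx
  have hBA : B ≤ frobA U W h.hUW := fun b hb => ⟨hB.hBU hb, hB.hBc b hb⟩
  have hB'A : B.map (MulAut.conj g).toMonoidHom ≤ frobA U W h.hUW := by
    rintro _ ⟨b, hb, rfl⟩
    exact frobA_conj h.hUW h.hEW h.hEU hg (hBA hb)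
  have hDA : B ⊔ B.map (MulAut.conj g).toMonoidHom ≤ frobA U W h.hUW := sup_le hBA hB'A
  have hstab : B ⊔ B.map (MulAut.conj g).toMonoidHom ≤
      MulAction.stabilizer Γ (frobTr B (g • x)) := by
    apply sup_le
    · intro b hb
      exact frobTr_smul hb _
    · rintro _ ⟨b, hb, rfl⟩
      show (g * b * g⁻¹) • frobTr B (g • x) = frobTr B (g • x)
      have hb'A : g * b * g⁻¹ ∈ frobA U W h.hUW := hB'A ⟨b, hb, rfl⟩
      rw [frobTr_comm (g * b * g⁻¹) (g • x) (fun b₁ hb₁ =>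
        (mul_smul _ _ _).symm.trans ((hb'A.2 b₁ (hB.hBU hb₁) _ hgx).trans (mul_smul _ _ _)))]
      congr 1
      rw [mul_smul, mul_smul, inv_smul_smul, hx.2 b hb]
  have hzD : frobTr B (g • x) ∈
      W ⊓ frobFix V ((B ⊔ B.map (MulAut.conj g).toMonoidHom : Subgroup Γ) : Set Γ) :=
    ⟨hzW, fun d hd => hstab hd⟩
  have hne : W ⊓ frobFix V ((B ⊔ B.map (MulAut.conj g).toMonoidHom : Subgroup Γ) : Set Γ) ≠ ⊥ :=
    fun h0 => hz (by rw [h0] at hzD; exact (AddSubgroup.mem_bot).mp hzD)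
  have hcard := hB.hmax _ (hDA.trans (fun a ha => ha.1)) (fun d hd => (hDA hd).2) hne
  have hDB : B = B ⊔ B.map (MulAut.conj g).toMonoidHom :=
    Subgroup.eq_of_le_of_card_ge le_sup_left hcard
  have hsub : ∀ b ∈ B, g * b * g⁻¹ ∈ B := fun b hb => by
    have : g * b * g⁻¹ ∈ B ⊔ B.map (MulAut.conj g).toMonoidHom :=
      Subgroup.mem_sup_right ⟨b, hb, rfl⟩
    exact hDB.ge this
  apply hgn
  rw [Subgroup.mem_normalizer_iff]
  intro k
  constructor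
  · exact hsub k
  · intro hk
    let φ : ↥B → ↥B := fun b => ⟨g * b * g⁻¹, hsub b b.2⟩
    have hinj : Function.Injective φ := fun b b' hbb => Subtype.ext (by
      have : g * (b : Γ) * g⁻¹ = g * (b' : Γ) * g⁻¹ := congrArg Subtype.val hbb
      simpa using this)
    obtain ⟨b, hb⟩ := (Finite.injective_iff_surjective.mp hinj) ⟨_, hk⟩
    have h3 : g * (b : Γ) * g⁻¹ = g * k * g⁻¹ := congrArg Subtype.val hb
    have hbk : (b : Γ) = k := by simpa using h3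
    rw [← hbk]; exact b.2

theorem frobMax_T1 {E : Subgroup Γ} {W : AddSubgroup V} (hEW : ∀ e ∈ E, ∀ w ∈ W, e • w ∈ W)
    {B : Subgroup Γ} {g : Γ} (hg : g ∈ E ⊓ Subgroup.normalizer (B : Set Γ)) {x : V}
    (hx : x ∈ W ⊓ frobFix V (B : Set Γ)) : g • x ∈ W ⊓ frobFix V (B : Set Γ) := by
  refine ⟨hEW g hg.1 x hx.1, fun b hb => ?_⟩
  have hn := Subgroup.mem_normalizer_iff.mp hg.2
  have hb' : g⁻¹ * b * g ∈ B := by
    rw [hn]
    have : g * (g⁻¹ * b * g) * g⁻¹ = b := by group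
    rw [this]; exact hb
  have e1 : b • g • x = g • ((g⁻¹ * b * g) • x) := by
    rw [← mul_smul, ← mul_smul]; congr 1; group
  rw [e1, hx.2 _ hb']

theorem frobMax_trU {U : Subgroup Γ} {W : AddSubgroup V} {B : Subgroup Γ} (hB : FrobMax U W B)
    {u : Γ} (hu : u ∈ U) {w : V} (hw : w ∈ W) : u • frobTr B w = frobTr B (u • w) :=
  frobTr_comm u w (fun b hb => by
    rw [← mul_smul, ← mul_smul]
    exact (hB.hBc b hb u hu w hw).symm)

theorem frob_count (E N : Subgroup Γ) (y : V) [Fintype ↥E] [DecidablePred (· ∈ N)] :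
    ∑ e : ↥E, (if (e : Γ) ∈ N then y else 0) = Nat.card ↥(E ⊓ N) • y := by
  classical
  rw [Finset.sum_ite, Finset.sum_const_zero, add_zero, Finset.sum_const]
  congr 1
  have e : ↥(E ⊓ N) ≃ {e : ↥E // (e : Γ) ∈ N} :=
    { toFun := fun x => ⟨⟨x.1, x.2.1⟩, x.2.2⟩
      invFun := fun y => ⟨y.1.1, ⟨y.1.2, y.2⟩⟩
      left_inv := fun x => rfl
      right_inv := fun y => rfl }
  rw [Nat.card_congr e, Nat.card_eq_fintype_card, Fintype.card_subtype]

end frobK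

end Cfsg.Agent.Lib.Helper26
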