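import Mathlib
import Cfsg.Agent.Lib.Helper26.FrobBasic
import Cfsg.Agent.Lib.Helper26.FrobVand
import Cfsg.Agent.Lib.Helper26.FrobK1

set_option autoImplicit false
set_option linter.style.haveILetI false
set_option linter.unusedSectionVars false

namespace Cfsg.Agent.Lib.Helper26

section frobK2

variable {Γ : Type*} [Group Γ] [Finite Γ] {V : Type*} [AddCommGroup V] [Finite V]
  [DistribMulAction Γ V]

theorem frobMax_P4 {U E : Subgroup Γ} {W : AddSubgroup V} (h : FrobSetup U E W)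
    {B : Subgroup Γ} (hB : FrobMax U W B) {x : V} (hx : x ∈ W ⊓ frobFix V (B : Set Γ)) :
    frobP E B x = (Nat.card ↥(E ⊓ Subgroup.normalizer (B : Set Γ)) * Nat.card B) • x := by
  classical
  letI : Fintype ↥E := Fintype.ofFinite ↥E
  rw [frobP_apply, mul_nsmul', ← frob_count E (Subgroup.normalizer (B : Set Γ)) (Nat.card B • x)]
  apply Finset.sum_congr rfl
  intro e _
  by_cases he : (e : Γ) ∈ Subgroup.normalizer (B : Set Γ)
  · rw [if_pos he]
    have h1 : (e : Γ)⁻¹ • x ∈ W ⊓ frobFix V (B : Set Γ) :=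
      frobMax_T1 h.hEW ⟨E.inv_mem e.2, Subgroup.inv_mem _ he⟩ hx
    rw [frobTr_of_fixed h1.2, smul_comm, smul_inv_smul]
  · rw [if_neg he, frobMax_T2 h hB (E.inv_mem e.2)
      (fun hn => he (by simpa using Subgroup.inv_mem _ hn)) hx, smul_zero]

theorem frobMax_PU {U E : Subgroup Γ} {W : AddSubgroup V} (h : FrobSetup U E W)
    {B : Subgroup Γ} (hB : FrobMax U W B) {u : Γ} (hu : u ∈ U) {w : V} (hw : w ∈ W) :
    u • frobP E B w = frobP E B (u • w) := by
  classical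
  letI : Fintype ↥E := Fintype.ofFinite ↥E
  rw [frobP_apply, frobP_apply, Finset.smul_sum]
  apply Finset.sum_congr rfl
  intro e _
  have hu' : (e : Γ)⁻¹ * u * e ∈ U := by simpa using h.hEU _ (E.inv_mem e.2) u hu
  have hw' : (e : Γ)⁻¹ • w ∈ W := h.hEW _ (E.inv_mem e.2) w hw
  have e1 : u • (e : Γ) • frobTr B ((e : Γ)⁻¹ • w) =
      (e : Γ) • ((e : Γ)⁻¹ * u * e) • frobTr B ((e : Γ)⁻¹ • w) := by
    rw [← mul_smul, ← mul_smul]; congr 1; group
  have e2 : ((e : Γ)⁻¹ * u * e) • (e : Γ)⁻¹ • w = (e : Γ)⁻¹ • u • w := by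
    rw [← mul_smul, ← mul_smul]; congr 1; group
  rw [e1, frobMax_trU hB hu' hw', e2]

theorem frobMax_P3 {U E : Subgroup Γ} {W : AddSubgroup V} (h : FrobSetup U E W)
    {B : Subgroup Γ} (hB : FrobMax U W B) {w : V} (hw : w ∈ W) :
    frobP E B (frobP E B w) =
      (Nat.card ↥(E ⊓ Subgroup.normalizer (B : Set Γ)) * Nat.card B) • frobP E B w := by
  classical
  letI : Fintype ↥E := Fintype.ofFinite ↥E
  have hBW : ∀ b ∈ B, ∀ w ∈ W, b • w ∈ W := fun b hb => h.hUW b (hB.hBU hb)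
  have e0 := frobP_apply E B w
  rw [e0, map_sum, Finset.smul_sum]
  apply Finset.sum_congr rfl
  intro e _
  have h1 : frobTr B ((e : Γ)⁻¹ • w) ∈ W ⊓ frobFix V (B : Set Γ) :=
    ⟨frobTr_mem W hBW (h.hEW _ (E.inv_mem e.2) w hw), fun b hb => frobTr_smul hb _⟩
  rw [← frobP_smul e.2, frobMax_P4 h hB h1, smul_comm]

theorem frob_split {U E : Subgroup Γ} {W : AddSubgroup V} (h : FrobSetup U E W)
    {B : Subgroup Γ} (hB : FrobMax U W B) (hker : W ⊓ (frobP E B : V →+ V).ker ≠ ⊥) :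
    ∃ W₁ W₂ : AddSubgroup V, W₁ ≠ ⊥ ∧ W₂ ≠ ⊥ ∧ W₁ ⊓ W₂ = ⊥ ∧ W₁ ⊔ W₂ = W ∧
      FrobSetup U E W₁ ∧ FrobSetup U E W₂ := by
  classical
  have hBW : ∀ b ∈ B, ∀ w ∈ W, b • w ∈ W := fun b hb => h.hUW b (hB.hBU hb)
  have hPW : ∀ w ∈ W, frobP E B w ∈ W := fun w hw => frobP_mem W h.hEW hBW hw
  have hc : (Nat.card ↥(E ⊓ Subgroup.normalizer (B : Set Γ)) * Nat.card B).Coprime
      (Nat.card W) :=
    Nat.Coprime.mul_left (Nat.Coprime.coprime_dvd_left (Subgroup.card_dvd_of_le inf_le_left) h.hcE)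
      (Nat.Coprime.coprime_dvd_left (Subgroup.card_dvd_of_le hB.hBU) h.hcU)
  have hle1 : W.map (frobP E B : V →+ V) ≤ W := by
    rintro _ ⟨w, hw, rfl⟩
    exact hPW w hw
  have hle2 : W ⊓ (frobP E B : V →+ V).ker ≤ W := inf_le_left
  refine ⟨W.map (frobP E B : V →+ V), W ⊓ (frobP E B : V →+ V).ker, ?_, hker, ?_, ?_, ?_, ?_⟩
  · intro h0
    obtain ⟨x, hx⟩ := (AddSubgroup.ne_bot_iff_exists_ne_zero).mp hB.hWB
    apply hx
    have h1 : frobP E B (x : V) ∈ W.map (frobP E B : V →+ V) := ⟨x, x.2.1, rfl⟩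
    rw [h0, AddSubgroup.mem_bot, frobMax_P4 h hB x.2] at h1
    exact Subtype.ext (frob_nsmul_eq_zero hc x.2.1 h1)
  · rw [eq_bot_iff]
    rintro v ⟨⟨w, hw, rfl⟩, -, hv⟩
    have hv' : frobP E B (frobP E B w) = 0 := hv
    rw [frobMax_P3 h hB hw] at hv'
    exact (AddSubgroup.mem_bot).mpr (frob_nsmul_eq_zero hc (hPW w hw) hv')
  · apply le_antisymm (sup_le hle1 hle2)
    intro w hw
    apply frob_mem_of_nsmul_mem (sup_le hle1 hle2) hc hw
    have e1 : (Nat.card ↥(E ⊓ Subgroup.normalizer (B : Set Γ)) * Nat.card B) • w =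
        frobP E B w + ((Nat.card ↥(E ⊓ Subgroup.normalizer (B : Set Γ)) * Nat.card B) • w
          - frobP E B w) := by abel
    rw [e1]
    refine add_mem (AddSubgroup.mem_sup_left ⟨w, hw, rfl⟩) (AddSubgroup.mem_sup_right
      ⟨W.sub_mem (W.nsmul_mem hw _) (hPW w hw), ?_⟩)
    show frobP E B _ = 0
    rw [map_sub, map_nsmul, frobMax_P3 h hB hw, sub_self]
  · exact
      { hEU := h.hEU
        hfpf := h.hfpf
        hUW := by
          rintro u hu _ ⟨w, hw, rfl⟩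
          exact ⟨u • w, h.hUW u hu w hw, (frobMax_PU h hB hu hw).symm⟩
        hEW := by
          rintro e he _ ⟨w, hw, rfl⟩
          exact ⟨e • w, h.hEW e he w hw, (frobP_smul he w).symm⟩
        hcU := Nat.Coprime.coprime_dvd_right (AddSubgroup.card_dvd_of_le hle1) h.hcU
        hcE := Nat.Coprime.coprime_dvd_right (AddSubgroup.card_dvd_of_le hle1) h.hcE
        hCU := fun w hw => h.hCU w (hle1 hw) }
  · exact
      { hEU := h.hEU
        hfpf := h.hfpf
        hUW := fun u hu w hw => ⟨h.hUW u hu w hw.1, by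
          show frobP E B (u • w) = 0
          rw [← frobMax_PU h hB hu hw.1, (AddMonoidHom.mem_ker.mp hw.2), smul_zero]⟩
        hEW := fun e he w hw => ⟨h.hEW e he w hw.1, by
          show frobP E B (e • w) = 0
          rw [← frobP_smul he, (AddMonoidHom.mem_ker.mp hw.2), smul_zero]⟩
        hcU := Nat.Coprime.coprime_dvd_right (AddSubgroup.card_dvd_of_le hle2) h.hcU
        hcE := Nat.Coprime.coprime_dvd_right (AddSubgroup.card_dvd_of_le hle2) h.hcE
        hCU := fun w hw => h.hCU w (hle2 hw) }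

end frobK2

end Cfsg.Agent.Lib.Helper26
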