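import Mathlib
import Cfsg.Agent.Lib.Helper26.FrobBasic
import Cfsg.Agent.Lib.Helper26.FrobVand
import Cfsg.Agent.Lib.Helper26.FrobK1
import Cfsg.Agent.Lib.Helper26.FrobK2

set_option autoImplicit false
set_option linter.style.haveILetI false
set_option linter.unusedSectionVars false

namespace Cfsg.Agent.Lib.Helper26

section frobK3

variable {Γ : Type*} [Group Γ] [Finite Γ] {V : Type*} [AddCommGroup V] [Finite V]
  [DistribMulAction Γ V]

theorem frob_induced {U E : Subgroup Γ} {W : AddSubgroup V} (h : FrobSetup U E W)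
    {B : Subgroup Γ} (hB : FrobMax U W B) (hker : W ⊓ (frobP E B : V →+ V).ker = ⊥) :
    Nat.card W = Nat.card ↥(W ⊓ frobFix V (B : Set Γ)) ^
        ((E ⊓ Subgroup.normalizer (B : Set Γ)).subgroupOf E).index ∧
    Nat.card ↥(W ⊓ frobFix V (E : Set Γ)) =
      Nat.card ↥((W ⊓ frobFix V (B : Set Γ)) ⊓
        frobFix V ((E ⊓ Subgroup.normalizer (B : Set Γ) : Subgroup Γ) : Set Γ)) ∧
    FrobSetup U (E ⊓ Subgroup.normalizer (B : Set Γ)) (W ⊓ frobFix V (B : Set Γ)) := by
  classical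
  letI : Fintype ↥E := Fintype.ofFinite ↥E
  have hBW : ∀ b ∈ B, ∀ w ∈ W, b • w ∈ W := fun b hb => h.hUW b (hB.hBU hb)
  have hτW : ∀ w ∈ W, frobTr B w ∈ W ⊓ frobFix V (B : Set Γ) := fun w hw =>
    ⟨frobTr_mem W hBW hw, fun b hb => frobTr_smul hb _⟩
  have hcB : (Nat.card B).Coprime (Nat.card W) :=
    Nat.Coprime.coprime_dvd_left (Subgroup.card_dvd_of_le hB.hBU) h.hcU
  have hcE₀ : (Nat.card ↥(E ⊓ Subgroup.normalizer (B : Set Γ))).Coprime (Nat.card W) :=
    Nat.Coprime.coprime_dvd_left (Subgroup.card_dvd_of_le inf_le_left) h.hcE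
  have hzero : ∀ d ∈ W, (∀ e ∈ E, frobTr B (e⁻¹ • d) = 0) → d = 0 := by
    intro d hd hall
    have h1 : frobP E B d = 0 := by
      rw [frobP_apply]
      exact Finset.sum_eq_zero (fun e _ => by rw [hall e e.2, smul_zero])
    have h2 : d ∈ W ⊓ (frobP E B : V →+ V).ker := ⟨hd, h1⟩
    rw [hker] at h2
    exact (AddSubgroup.mem_bot).mp h2
  refine ⟨?_, ?_, ?_⟩
  · -- (β)
    letI : Fintype (↥E ⧸ (E ⊓ Subgroup.normalizer (B : Set Γ)).subgroupOf E) := Fintype.ofFinite _
    let Φ : ↥W → ((↥E ⧸ (E ⊓ Subgroup.normalizer (B : Set Γ)).subgroupOf E) →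
        ↥(W ⊓ frobFix V (B : Set Γ))) := fun w q =>
      ⟨frobTr B (((q.out : ↥E) : Γ)⁻¹ • (w : V)),
        hτW _ (h.hEW _ (E.inv_mem (q.out).2) w w.2)⟩
    have hΦ : Function.Injective Φ := by
      intro w w' hww
      have hd : ∀ q : ↥E ⧸ (E ⊓ Subgroup.normalizer (B : Set Γ)).subgroupOf E,
          frobTr B (((q.out : ↥E) : Γ)⁻¹ • ((w : V) - w')) = 0 := by
        intro q
        have h1 : frobTr B (((q.out : ↥E) : Γ)⁻¹ • (w : V)) =
            frobTr B (((q.out : ↥E) : Γ)⁻¹ • (w' : V)) :=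
          congrArg (fun f => ((f q : ↥(W ⊓ frobFix V (B : Set Γ))) : V)) hww
        rw [smul_sub, map_sub, h1, sub_self]
      have h2 := hzero _ (W.sub_mem w.2 w'.2) (by
        intro e he
        obtain ⟨f, hf⟩ := QuotientGroup.mk_out_eq_mul
          ((E ⊓ Subgroup.normalizer (B : Set Γ)).subgroupOf E) (⟨e, he⟩ : ↥E)
        have hfN : ((f : ↥E) : Γ) ∈ Subgroup.normalizer (B : Set Γ) :=
          (Subgroup.mem_subgroupOf.mp f.2).2
        have hf' : (((QuotientGroup.mk (⟨e, he⟩ : ↥E) :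
            ↥E ⧸ (E ⊓ Subgroup.normalizer (B : Set Γ)).subgroupOf E).out : ↥E) : Γ) =
            e * ((f : ↥E) : Γ) := congrArg Subtype.val hf
        have e1 : e⁻¹ • ((w : V) - w') = ((f : ↥E) : Γ) •
            ((((QuotientGroup.mk (⟨e, he⟩ : ↥E) :
            ↥E ⧸ (E ⊓ Subgroup.normalizer (B : Set Γ)).subgroupOf E).out : ↥E) : Γ)⁻¹ •
              ((w : V) - w')) := by
          rw [hf', ← mul_smul]; congr 1; group
        rw [e1, ← frobTr_normalizer hfN, hd, smul_zero])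
      exact Subtype.ext (sub_eq_zero.mp h2)
    let Ψ : ((↥E ⧸ (E ⊓ Subgroup.normalizer (B : Set Γ)).subgroupOf E) →
        ↥(W ⊓ frobFix V (B : Set Γ))) → ↥W := fun v =>
      ⟨∑ q : ↥E ⧸ (E ⊓ Subgroup.normalizer (B : Set Γ)).subgroupOf E,
          ((q.out : ↥E) : Γ) • ((v q : ↥(W ⊓ frobFix V (B : Set Γ))) : V),
        sum_mem (fun q _ => h.hEW _ (q.out).2 _ (v q).2.1)⟩
    have hΨ : Function.Injective Ψ := by
      intro v v' hvv
      funext q'
      have h0 : ∑ q : ↥E ⧸ (E ⊓ Subgroup.normalizer (B : Set Γ)).subgroupOf E,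
          ((q.out : ↥E) : Γ) • (((v q : ↥(W ⊓ frobFix V (B : Set Γ))) : V) - (v' q)) = 0 := by
        simp_rw [smul_sub]
        rw [Finset.sum_sub_distrib, sub_eq_zero]
        exact congrArg Subtype.val hvv
      have h1 : frobTr B (((q'.out : ↥E) : Γ)⁻¹ •
          ∑ q : ↥E ⧸ (E ⊓ Subgroup.normalizer (B : Set Γ)).subgroupOf E,
          ((q.out : ↥E) : Γ) • (((v q : ↥(W ⊓ frobFix V (B : Set Γ))) : V) - (v' q))) = 0 := by
        rw [h0, smul_zero, map_zero]
      rw [Finset.smul_sum, map_sum, Finset.sum_eq_single q'] at h1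
      · have hfix : ((v q' : ↥(W ⊓ frobFix V (B : Set Γ))) : V) - (v' q') ∈
            W ⊓ frobFix V (B : Set Γ) := sub_mem (v q').2 (v' q').2
        rw [inv_smul_smul, frobTr_of_fixed hfix.2] at h1
        exact Subtype.ext (sub_eq_zero.mp (frob_nsmul_eq_zero hcB hfix.1 h1))
      · intro q _ hq
        rw [← mul_smul]
        refine frobMax_T2 h hB (E.mul_mem (E.inv_mem (q'.out).2) (q.out).2) (fun hn => hq ?_)
          (sub_mem (v q).2 (v' q).2)
        have h3 : (q'.out)⁻¹ * q.out ∈ (E ⊓ Subgroup.normalizer (B : Set Γ)).subgroupOf E :=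
          Subgroup.mem_subgroupOf.mpr ⟨E.mul_mem (E.inv_mem (q'.out).2) (q.out).2, hn⟩
        have h4 := QuotientGroup.eq.mpr h3
        rw [QuotientGroup.out_eq', QuotientGroup.out_eq'] at h4
        exact h4.symm
      · intro hq
        exact absurd (Finset.mem_univ _) hq
    have h1 := Nat.card_le_card_of_injective Φ hΦ
    have h2 := Nat.card_le_card_of_injective Ψ hΨ
    have h3 : Nat.card ((↥E ⧸ (E ⊓ Subgroup.normalizer (B : Set Γ)).subgroupOf E) →
        ↥(W ⊓ frobFix V (B : Set Γ))) = Nat.card ↥(W ⊓ frobFix V (B : Set Γ)) ^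
        ((E ⊓ Subgroup.normalizer (B : Set Γ)).subgroupOf E).index := by
      rw [Nat.card_fun]; rfl
    rw [h3] at h1 h2
    exact le_antisymm h1 h2
  · -- (α)
    let τ' : ↥(W ⊓ frobFix V (E : Set Γ)) → ↥((W ⊓ frobFix V (B : Set Γ)) ⊓
        frobFix V ((E ⊓ Subgroup.normalizer (B : Set Γ) : Subgroup Γ) : Set Γ)) := fun w =>
      ⟨frobTr B (w : V), ⟨hτW _ w.2.1, fun f hf => by
        rw [frobTr_normalizer hf.2, w.2.2 f hf.1]⟩⟩
    have hτ' : Function.Injective τ' := by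
      intro w w' hww
      have h1 : frobTr B (w : V) = frobTr B (w' : V) := congrArg Subtype.val hww
      have h2 := hzero _ (W.sub_mem w.2.1 w'.2.1) (by
        intro e he
        have hfix : (w : V) - w' ∈ frobFix V (E : Set Γ) := sub_mem w.2.2 w'.2.2
        rw [hfix _ (E.inv_mem he), map_sub, h1, sub_self])
      exact Subtype.ext (sub_eq_zero.mp h2)
    let σ : ↥((W ⊓ frobFix V (B : Set Γ)) ⊓
        frobFix V ((E ⊓ Subgroup.normalizer (B : Set Γ) : Subgroup Γ) : Set Γ)) →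
        ↥(W ⊓ frobFix V (E : Set Γ)) := fun x =>
      ⟨frobTr E (x : V), ⟨frobTr_mem W h.hEW x.2.1.1, frobTr_fixed_mem _⟩⟩
    have hσ : Function.Injective σ := by
      intro x x' hxx
      have h1 : frobTr E (x : V) = frobTr E (x' : V) := congrArg Subtype.val hxx
      have hd : (x : V) - x' ∈ (W ⊓ frobFix V (B : Set Γ)) ⊓
          frobFix V ((E ⊓ Subgroup.normalizer (B : Set Γ) : Subgroup Γ) : Set Γ) :=
        sub_mem x.2 x'.2
      have h2 : frobTr B (frobTr E ((x : V) - x')) = 0 := by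
        rw [map_sub, h1, sub_self, map_zero]
      rw [frobTr_apply E, map_sum] at h2
      have h3 : ∀ e : ↥E, frobTr B ((e : Γ) • ((x : V) - x')) =
          if (e : Γ) ∈ Subgroup.normalizer (B : Set Γ) then Nat.card B • ((x : V) - x')
          else 0 := by
        intro e
        by_cases he : (e : Γ) ∈ Subgroup.normalizer (B : Set Γ)
        · rw [if_pos he, hd.2 _ ⟨e.2, he⟩, frobTr_of_fixed hd.1.2]
        · rw [if_neg he, frobMax_T2 h hB e.2 he hd.1]
      simp_rw [h3] at h2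
      rw [frob_count] at h2
      have h4 := frob_nsmul_eq_zero hcE₀ (W.nsmul_mem hd.1.1 _) h2
      exact Subtype.ext (sub_eq_zero.mp (frob_nsmul_eq_zero hcB hd.1.1 h4))
    exact le_antisymm (Nat.card_le_card_of_injective τ' hτ')
      (Nat.card_le_card_of_injective σ hσ)
  · exact
      { hEU := fun e he => h.hEU e he.1
        hfpf := fun e he => h.hfpf e he.1
        hUW := fun u hu x hx => ⟨h.hUW u hu x hx.1, fun b hb => by
          rw [← mul_smul, hB.hBc b hb u hu x hx.1, mul_smul, hx.2 b hb]⟩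
        hEW := fun e he x hx => frobMax_T1 h.hEW he hx
        hcU := Nat.Coprime.coprime_dvd_right (AddSubgroup.card_dvd_of_le inf_le_left) h.hcU
        hcE := Nat.Coprime.coprime_dvd_right (AddSubgroup.card_dvd_of_le inf_le_left) hcE₀
        hCU := fun w hw => h.hCU w hw.1 }

end frobK3

end Cfsg.Agent.Lib.Helper26
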