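import Mathlib
import Cfsg.Agent.Lib.Helper26.FrobBasic
import Cfsg.Agent.Lib.Helper26.FrobVand
import Cfsg.Agent.Lib.Helper26.FrobK1
import Cfsg.Agent.Lib.Helper26.FrobK2
import Cfsg.Agent.Lib.Helper26.FrobK3

set_option autoImplicit false
set_option linter.style.haveILetI false
set_option linter.unusedSectionVars false

namespace Cfsg.Agent.Lib.Helper26

section frobK4

universe u

variable {Γ : Type u} [Group Γ] [Finite Γ] {V : Type*} [AddCommGroup V] [Finite V]
  [DistribMulAction Γ V]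

theorem frob_nilpotent {U E : Subgroup Γ} (hEU : ∀ e ∈ E, ∀ u ∈ U, e * u * e⁻¹ ∈ U)
    (hfpf : ∀ e ∈ E, e ≠ 1 → ∀ u ∈ U, e * u = u * e → u = 1) (hE : E ≠ ⊥) :
    Group.IsNilpotent ↥U := by
  have hcard : Nat.card E ≠ 1 := fun h1 => hE (Subgroup.eq_bot_of_card_eq E h1)
  obtain ⟨p, hp, hpd⟩ := Nat.exists_prime_and_dvd hcard
  haveI : Fact p.Prime := ⟨hp⟩
  obtain ⟨e₀, he₀⟩ := exists_prime_orderOf_dvd_card' p hpd
  have he₀' : orderOf (e₀ : Γ) = p := by rw [Subgroup.orderOf_coe, he₀]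
  have he₀1 : (e₀ : Γ) ≠ 1 := by
    intro h1
    rw [h1, orderOf_one] at he₀'
    exact hp.one_lt.ne he₀'
  exact nilpotent_of_conj_fpf U (e₀ : Γ) p hp (by rw [← he₀']; exact pow_orderOf_eq_one _)
    (fun x hx => hEU _ e₀.2 x hx)
    (fun x hx => by simpa using hEU _ (E.inv_mem e₀.2) x hx)
    (fun x hx hc => hfpf _ e₀.2 he₀1 x hx hc)

theorem frob_last {U E : Subgroup Γ} {W : AddSubgroup V} (h : FrobSetup U E W) (hW : W ≠ ⊥)
    (hE : E ≠ ⊥) {B : Subgroup Γ} (hB : FrobMax U W B)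
    (hker : W ⊓ (frobP E B : V →+ V).ker = ⊥) (hN : E ≤ Subgroup.normalizer (B : Set Γ)) :
    Nat.card W = Nat.card ↥(W ⊓ frobFix V (E : Set Γ)) ^ Nat.card E := by
  classical
  have hBW : ∀ b ∈ B, ∀ w ∈ W, b • w ∈ W := fun b hb => h.hUW b (hB.hBU hb)
  have hcB : (Nat.card B).Coprime (Nat.card W) :=
    Nat.Coprime.coprime_dvd_left (Subgroup.card_dvd_of_le hB.hBU) h.hcU
  have hBtriv : ∀ b ∈ B, ∀ w ∈ W, b • w = w := by
    intro b hb w hw
    have hτw : frobTr B w ∈ W ⊓ frobFix V (B : Set Γ) :=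
      ⟨frobTr_mem W hBW hw, fun b hb => frobTr_smul hb _⟩
    have hd : Nat.card B • w - frobTr B w ∈ W := W.sub_mem (W.nsmul_mem hw _) hτw.1
    have hτd : frobTr B (Nat.card B • w - frobTr B w) = 0 := by
      rw [map_sub, map_nsmul, frobTr_of_fixed hτw.2, sub_self]
    have hPd : frobP E B (Nat.card B • w - frobTr B w) = 0 := by
      letI : Fintype ↥E := Fintype.ofFinite ↥E
      rw [frobP_apply]
      apply Finset.sum_eq_zero
      intro e _
      rw [← frobTr_normalizer (hN (E.inv_mem e.2)), hτd, smul_zero, smul_zero]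
    have hd0 : Nat.card B • w - frobTr B w = 0 := by
      have h2 : Nat.card B • w - frobTr B w ∈ W ⊓ (frobP E B : V →+ V).ker := ⟨hd, hPd⟩
      rw [hker] at h2
      exact (AddSubgroup.mem_bot).mp h2
    have hw' : w ∈ W ⊓ frobFix V (B : Set Γ) :=
      frob_mem_of_nsmul_mem inf_le_left hcB hw (by rw [sub_eq_zero.mp hd0]; exact hτw)
    exact hw'.2 b hb
  have hfix : ∀ d ∈ frobA U W h.hUW, d ∉ frobKer W → ∀ w ∈ W, d • w = w → w = 0 := by
    intro d hd hdk w hw hdw
    by_contra hw0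
    have hDA : B ⊔ Subgroup.zpowers d ≤ frobA U W h.hUW :=
      sup_le (fun b hb => ⟨hB.hBU hb, hB.hBc b hb⟩) ((Subgroup.zpowers_le).mpr hd)
    have hstab : B ⊔ Subgroup.zpowers d ≤ MulAction.stabilizer Γ w :=
      sup_le (fun b hb => hBtriv b hb w hw) ((Subgroup.zpowers_le).mpr hdw)
    have hne : W ⊓ frobFix V ((B ⊔ Subgroup.zpowers d : Subgroup Γ) : Set Γ) ≠ ⊥ := fun h0 =>
      hw0 (by
        have h2 : w ∈ W ⊓ frobFix V ((B ⊔ Subgroup.zpowers d : Subgroup Γ) : Set Γ) :=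
          ⟨hw, fun g hg => hstab hg⟩
        rw [h0] at h2
        exact (AddSubgroup.mem_bot).mp h2)
    have hcard := hB.hmax _ (hDA.trans (fun a ha => ha.1)) (fun d hd => (hDA hd).2) hne
    have hDB : B = B ⊔ Subgroup.zpowers d := Subgroup.eq_of_le_of_card_ge le_sup_left hcard
    apply hdk
    have hdB : d ∈ B := hDB.ge (Subgroup.mem_sup_right (Subgroup.mem_zpowers d))
    exact fun w hw => hBtriv d hdB w hw
  have hnil : Group.IsNilpotent ↥U := frob_nilpotent h.hEU h.hfpf hE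
  have hne : ¬ U ≤ U ⊓ frobKer W := by
    intro hle
    apply hW
    rw [eq_bot_iff]
    intro w hw
    exact (AddSubgroup.mem_bot).mpr (h.hCU w hw (fun u hu => (hle hu).2 w hw))
  obtain ⟨a, haU, ha0, hacent⟩ := frob_exists_central_mod U (U ⊓ frobKer W) hnil hne
  have haA : a ∈ frobA U W h.hUW := ⟨haU, fun u hu w hw => by
    have hc := (hacent u hu).2 ((u * a) • w) (h.hUW _ (U.mul_mem hu haU) w hw)
    rw [← mul_smul] at hc
    have e1 : a * u * a⁻¹ * u⁻¹ * (u * a) = a * u := by group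
    rw [e1] at hc
    exact hc⟩
  apply frob_final W E a h.hEW (h.hUW a haU)
  · intro e he e' he' w hw
    have h1 := frobA_conj h.hUW h.hEW h.hEU he haA
    have h2 := frobA_conj h.hUW h.hEW h.hEU he' haA
    exact (mul_smul _ _ _).symm.trans ((h1.2 _ h2.1 w hw).trans (mul_smul _ _ _))
  · intro e he e' he' hee' w hw hw2
    have h1 := frobA_conj h.hUW h.hEW h.hEU he haA
    have h2 := frobA_conj h.hUW h.hEW h.hEU he' haA
    have hcA : (e' * a * e'⁻¹)⁻¹ * (e * a * e⁻¹) ∈ frobA U W h.hUW :=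
      Subgroup.mul_mem _ (Subgroup.inv_mem _ h2) h1
    refine hfix _ hcA ?_ w hw (by rw [mul_smul, hw2, inv_smul_smul])
    intro hck
    have hf : e'⁻¹ * e ∈ E := E.mul_mem (E.inv_mem he') he
    have hf1 : e'⁻¹ * e ≠ 1 := fun h1 => hee' (inv_mul_eq_one.mp h1).symm
    have hmem : a⁻¹ * ((e'⁻¹ * e) * a * (e'⁻¹ * e)⁻¹) ∈ U ⊓ frobKer W := by
      have e3 : a⁻¹ * ((e'⁻¹ * e) * a * (e'⁻¹ * e)⁻¹) =
          e'⁻¹ * ((e' * a * e'⁻¹)⁻¹ * (e * a * e⁻¹)) * e' := by group
      rw [e3]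
      refine ⟨?_, ?_⟩
      · have := h.hEU e'⁻¹ (E.inv_mem he') _ hcA.1
        simpa using this
      · intro w hw
        rw [mul_smul, mul_smul, hck (e' • w) (h.hEW e' he' w hw), inv_smul_smul]
    have hf0 : ∀ u ∈ U ⊓ frobKer W, (e'⁻¹ * e) * u * (e'⁻¹ * e)⁻¹ ∈ U ⊓ frobKer W := by
      intro u hu
      refine ⟨h.hEU _ hf u hu.1, fun w hw => ?_⟩
      rw [mul_smul, mul_smul, hu.2 _ (h.hEW _ (E.inv_mem hf) w hw), smul_inv_smul]
    exact ha0 (frob_mem_of_comm_mem U (U ⊓ frobKer W) (e'⁻¹ * e) hf0 inf_le_left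
      (h.hfpf _ hf hf1) haU hmem)

/-- **Frobenius fixed-point lemma.** If `U E` is a Frobenius group (kernel `U`, complement `E`)
acting coprimely on the finite abelian group `W` with `C_W(U) = 0`, then
`|W| = |C_W(E)|^|E|`. -/
theorem frob_K : ∀ (n : ℕ) (U E : Subgroup Γ) (W : AddSubgroup V), Nat.card W = n →
    FrobSetup U E W →
    Nat.card W = Nat.card ↥(W ⊓ frobFix V (E : Set Γ)) ^ Nat.card E := by
  intro n
  induction n using Nat.strong_induction_on with
  | _ n ih =>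
    intro U E W hn h
    by_cases hW : W = ⊥
    · subst hW
      simp
    by_cases hE : E = ⊥
    · subst hE
      have e1 : W ⊓ frobFix V ((⊥ : Subgroup Γ) : Set Γ) = W := by
        apply inf_eq_left.mpr
        intro w _ g hg
        rw [Subgroup.mem_bot.mp hg, one_smul]
      rw [e1, Subgroup.card_bot, pow_one]
    obtain ⟨B, hB⟩ := frobMax_exists U W hW
    by_cases hker : W ⊓ (frobP E B : V →+ V).ker = ⊥
    · by_cases hN : E ≤ Subgroup.normalizer (B : Set Γ)
      · exact frob_last h hW hE hB hker hN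
      · obtain ⟨hβ, hα, hS⟩ := frob_induced h hB hker
        have hidx : 2 ≤ ((E ⊓ Subgroup.normalizer (B : Set Γ)).subgroupOf E).index := by
          have h0 : ((E ⊓ Subgroup.normalizer (B : Set Γ)).subgroupOf E).index ≠ 0 :=
            Subgroup.index_ne_zero_of_finite
          have h1 : ((E ⊓ Subgroup.normalizer (B : Set Γ)).subgroupOf E).index ≠ 1 := by
            intro h1
            rw [Subgroup.index_eq_one, Subgroup.subgroupOf_eq_top] at h1
            exact hN (h1.trans inf_le_right)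
          omega
        have hWB2 : 2 ≤ Nat.card ↥(W ⊓ frobFix V (B : Set Γ)) :=
          (AddSubgroup.one_lt_card_iff_ne_bot _).mpr hB.hWB
        have hlt : Nat.card ↥(W ⊓ frobFix V (B : Set Γ)) < n := by
          rw [← hn, hβ]
          calc Nat.card ↥(W ⊓ frobFix V (B : Set Γ))
              < Nat.card ↥(W ⊓ frobFix V (B : Set Γ)) ^ 2 := by nlinarith
            _ ≤ _ := Nat.pow_le_pow_right (by omega) hidx
        have hIH := ih _ hlt U _ _ rfl hS
        have hmul : Nat.card ↥(E ⊓ Subgroup.normalizer (B : Set Γ)) *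
            ((E ⊓ Subgroup.normalizer (B : Set Γ)).subgroupOf E).index = Nat.card E := by
          rw [← Subgroup.card_mul_index ((E ⊓ Subgroup.normalizer (B : Set Γ)).subgroupOf E)]
          congr 1
          exact (Nat.card_congr (Subgroup.subgroupOfEquivOfLe inf_le_left).toEquiv).symm
        rw [hβ, hIH, ← pow_mul, hmul, hα]
    · obtain ⟨W₁, W₂, h1, h2, hdisj, hsup, hS1, hS2⟩ := frob_split h hB hker
      have hc := frob_card_sup_of_disjoint W₁ W₂ hdisj
      rw [hsup] at hc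
      have h12 : 2 ≤ Nat.card W₁ := (AddSubgroup.one_lt_card_iff_ne_bot _).mpr h1
      have h22 : 2 ≤ Nat.card W₂ := (AddSubgroup.one_lt_card_iff_ne_bot _).mpr h2
      have hlt1 : Nat.card W₁ < n := by rw [← hn, hc]; nlinarith
      have hlt2 : Nat.card W₂ < n := by rw [← hn, hc]; nlinarith
      have hI1 := ih _ hlt1 U E W₁ rfl hS1
      have hI2 := ih _ hlt2 U E W₂ rfl hS2
      have hf := frob_fix_sup_of_disjoint W₁ W₂ hdisj (E : Set Γ) hS1.hEW hS2.hEW
      rw [hsup] at hf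
      rw [hc, hf, mul_pow, ← hI1, ← hI2]

end frobK4

end Cfsg.Agent.Lib.Helper26
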