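import Mathlib
import Cfsg.Agent.Lib.Helper26.FrobK4

set_option autoImplicit false
set_option linter.style.haveILetI false
set_option linter.unusedSectionVars false

namespace Cfsg.Agent.Lib.Helper26

section frobMod

universe u

variable {Γ : Type u} [Group Γ] [Finite Γ] {V : Type*} [AddCommGroup V] [Finite V]
  [DistribMulAction Γ V]

theorem frob_mem_normalizer {U E : Subgroup Γ} (hEU : ∀ e ∈ E, ∀ u ∈ U, e * u * e⁻¹ ∈ U)
    {e : Γ} (he : e ∈ E) : e ∈ Subgroup.normalizer (U : Set Γ) := by
  rw [Subgroup.mem_normalizer_iff]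
  intro u
  constructor
  · exact hEU e he u
  · intro hu
    have h1 := hEU e⁻¹ (E.inv_mem he) _ hu
    have e1 : e⁻¹ * (e * u * e⁻¹) * e⁻¹⁻¹ = u := by group
    rwa [e1] at h1

/-- **Fixed-point formula for a Frobenius group acting on a finite abelian group.** -/
theorem frob_mod (U E : Subgroup Γ) (hEU : ∀ e ∈ E, ∀ u ∈ U, e * u * e⁻¹ ∈ U)
    (hfpf : ∀ e ∈ E, e ≠ 1 → ∀ u ∈ U, e * u = u * e → u = 1)
    (hcU : (Nat.card U).Coprime (Nat.card V)) (hcE : (Nat.card E).Coprime (Nat.card V)) :
    Nat.card ↥(frobFix V ((U ⊔ E : Subgroup Γ) : Set Γ)) ^ Nat.card E * Nat.card V =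
      Nat.card ↥(frobFix V (E : Set Γ)) ^ Nat.card E * Nat.card ↥(frobFix V (U : Set Γ)) := by
  classical
  have htop : Nat.card ↥(⊤ : AddSubgroup V) = Nat.card V := AddSubgroup.card_top
  have hcU' : (Nat.card U).Coprime (Nat.card ↥(⊤ : AddSubgroup V)) := by rw [htop]; exact hcU
  have hτU : ∀ u ∈ U, ∀ v : V, frobTr U (u • v) = u • frobTr U v := fun u hu v =>
    (frobTr_normalizer (Subgroup.le_normalizer hu) v).symm
  have hτE : ∀ e ∈ E, ∀ v : V, frobTr U (e • v) = e • frobTr U v := fun e he v =>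
    (frobTr_normalizer (frob_mem_normalizer hEU he) v).symm
  -- (1)
  have h1 : (⊤ : AddSubgroup V).map (frobTr U : V →+ V) = frobFix V (U : Set Γ) := by
    apply le_antisymm
    · rintro _ ⟨v, -, rfl⟩
      exact fun g hg => frobTr_smul hg v
    · intro v hv
      apply frob_mem_of_nsmul_mem (W := ⊤) le_top hcU' (AddSubgroup.mem_top v)
      rw [← frobTr_of_fixed hv]
      exact ⟨v, AddSubgroup.mem_top v, rfl⟩
  have c1 := frob_card_map_ker_add (frobTr U : V →+ V) ⊤
  rw [h1, htop, top_inf_eq] at c1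
  -- (2)
  have h2 : (frobFix V (E : Set Γ)).map (frobTr U : V →+ V) =
      frobFix V ((U ⊔ E : Subgroup Γ) : Set Γ) := by
    apply le_antisymm
    · rintro _ ⟨v, hv, rfl⟩
      have hstab : U ⊔ E ≤ MulAction.stabilizer Γ (frobTr U v) := by
        apply sup_le
        · intro u hu
          exact frobTr_smul hu v
        · intro e he
          show e • frobTr U v = frobTr U v
          rw [← hτE e he, hv e he]
      exact fun g hg => hstab hg
    · intro v hv
      have hvU : v ∈ frobFix V (U : Set Γ) := fun g hg => hv g (Subgroup.mem_sup_left hg)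
      have hvE : v ∈ frobFix V (E : Set Γ) := fun g hg => hv g (Subgroup.mem_sup_right hg)
      apply frob_mem_of_nsmul_mem (W := ⊤) le_top hcU' (AddSubgroup.mem_top v)
      rw [← frobTr_of_fixed hvU]
      exact ⟨v, hvE, rfl⟩
  have c2 := frob_card_map_ker_add (frobTr U : V →+ V) (frobFix V (E : Set Γ))
  rw [h2] at c2
  -- (3)
  have hS : FrobSetup U E (frobTr U : V →+ V).ker :=
    { hEU := hEU
      hfpf := hfpf
      hUW := fun u hu w hw => by
        show frobTr U (u • w) = 0
        rw [hτU u hu, (AddMonoidHom.mem_ker.mp hw), smul_zero]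
      hEW := fun e he w hw => by
        show frobTr U (e • w) = 0
        rw [hτE e he, (AddMonoidHom.mem_ker.mp hw), smul_zero]
      hcU := Nat.Coprime.coprime_dvd_right (AddSubgroup.card_addSubgroup_dvd_card _) hcU
      hcE := Nat.Coprime.coprime_dvd_right (AddSubgroup.card_addSubgroup_dvd_card _) hcE
      hCU := fun w hw hfix => by
        have h3 : frobTr U w = 0 := AddMonoidHom.mem_ker.mp hw
        rw [frobTr_of_fixed hfix] at h3
        exact frob_nsmul_eq_zero hcU' (AddSubgroup.mem_top w) h3 }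
  have c3 := frob_K _ U E _ rfl hS
  rw [inf_comm] at c3
  rw [← c1, ← c2, c3, mul_pow]
  ring

end frobMod

end Cfsg.Agent.Lib.Helper26
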