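import Mathlib
import Cfsg.Agent.Lib.Helper26.FrobMod
import Cfsg.Agent.Lib.Helper26.FpfTrace

set_option autoImplicit false
set_option linter.style.haveILetI false
set_option linter.unusedSectionVars false

namespace Cfsg.Agent.Lib.Helper26

section frobRed

universe u

variable {X : Type u} [Group X] [Finite X]

/-- the fixed-point formula when `H` is abelian and normal -/
theorem frob_abelian (U E H : Subgroup X) [hHn : H.Normal]
    (hcomm : ∀ a ∈ H, ∀ b ∈ H, a * b = b * a)
    (hUn : ∀ e ∈ E, ∀ u ∈ U, e * u * e⁻¹ ∈ U)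
    (hfpf : ∀ e ∈ E, e ≠ 1 → ∀ u ∈ U, e * u = u * e → u = 1)
    (hcop : Nat.Coprime (Nat.card H) (Nat.card ↥(U ⊔ E))) :
    Nat.card ↥(H ⊓ Subgroup.centralizer ((U ⊔ E : Subgroup X) : Set X)) ^ Nat.card E *
        Nat.card H =
      Nat.card ↥(H ⊓ Subgroup.centralizer (E : Set X)) ^ Nat.card E *
        Nat.card ↥(H ⊓ Subgroup.centralizer (U : Set X)) := by
  letI : CommGroup ↥H := commGroupOfComm H hcomm
  letI : DistribMulAction X (Additive ↥H) :=
    { smul := fun g v => Additive.ofMul
        ⟨g * ((Additive.toMul v : ↥H) : X) * g⁻¹, hHn.conj_mem _ (Additive.toMul v).2 g⟩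
      one_smul := fun v => by
        show Additive.ofMul (⟨1 * ((Additive.toMul v : ↥H) : X) * 1⁻¹, _⟩ : ↥H) = v
        simp
      mul_smul := fun g g' v => by
        apply congrArg Additive.ofMul
        apply Subtype.ext
        show g * g' * ((Additive.toMul v : ↥H) : X) * (g * g')⁻¹ =
          g * (g' * ((Additive.toMul v : ↥H) : X) * g'⁻¹) * g⁻¹
        group
      smul_zero := fun g => by
        apply congrArg Additive.ofMul
        apply Subtype.ext
        show g * ((1 : ↥H) : X) * g⁻¹ = ((1 : ↥H) : X)
        simp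
      smul_add := fun g v w => by
        apply congrArg Additive.ofMul
        apply Subtype.ext
        show g * (((Additive.toMul v : ↥H) : X) * ((Additive.toMul w : ↥H) : X)) * g⁻¹ =
          (g * ((Additive.toMul v : ↥H) : X) * g⁻¹) * (g * ((Additive.toMul w : ↥H) : X) * g⁻¹)
        group }
  have hsmul : ∀ (g : X) (v : Additive ↥H),
      (((Additive.toMul (g • v) : ↥H)) : X) = g * ((Additive.toMul v : ↥H) : X) * g⁻¹ :=
    fun g v => rfl
  have key : ∀ S : Set X, Nat.card ↥(frobFix (Additive ↥H) S) =
      Nat.card ↥(H ⊓ Subgroup.centralizer S) := by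
    intro S
    apply Nat.card_congr
    exact
      { toFun := fun v => ⟨((Additive.toMul v.1 : ↥H) : X), ⟨(Additive.toMul v.1).2, by
          show ((Additive.toMul v.1 : ↥H) : X) ∈ Subgroup.centralizer S
          rw [Subgroup.mem_centralizer_iff]
          intro g hg
          have h1 := v.2 g hg
          have h2 : g * ((Additive.toMul v.1 : ↥H) : X) * g⁻¹ = ((Additive.toMul v.1 : ↥H) : X) := by
            rw [← hsmul, h1]
          calc g * ((Additive.toMul v.1 : ↥H) : X)
              = (g * ((Additive.toMul v.1 : ↥H) : X) * g⁻¹) * g := by group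
            _ = ((Additive.toMul v.1 : ↥H) : X) * g := by rw [h2]⟩⟩
        invFun := fun y => ⟨Additive.ofMul ⟨y.1, y.2.1⟩, fun g hg => by
          have h1 := (Subgroup.mem_centralizer_iff.mp y.2.2) g hg
          apply congrArg Additive.ofMul
          apply Subtype.ext
          show g * (y : X) * g⁻¹ = y
          rw [h1]; group⟩
        left_inv := fun v => rfl
        right_inv := fun y => rfl }
  have hc : Nat.card (Additive ↥H) = Nat.card ↥H := rfl
  have hcU : (Nat.card U).Coprime (Nat.card (Additive ↥H)) := by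
    rw [hc]
    exact (Nat.Coprime.coprime_dvd_right (Subgroup.card_dvd_of_le le_sup_left) hcop).symm
  have hcE : (Nat.card E).Coprime (Nat.card (Additive ↥H)) := by
    rw [hc]
    exact (Nat.Coprime.coprime_dvd_right (Subgroup.card_dvd_of_le le_sup_right) hcop).symm
  have main := frob_mod (V := Additive ↥H) U E hUn hfpf hcU hcE
  rw [key, key, key, hc] at main
  exact main

end frobRed

end Cfsg.Agent.Lib.Helper26
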