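import Mathlib
import Cfsg.Agent.Lib.Helper26.FrobK4

set_option autoImplicit false
set_option linter.style.haveILetI false
set_option linter.unusedSectionVars false

namespace Cfsg.Agent.Lib.Helper26

section frobCyc

universe u

variable {Γ : Type u} [Group Γ] [Finite Γ] {V : Type*} [AddCommGroup V] [Finite V]
  [DistribMulAction Γ V]

theorem frob_last_data {U E : Subgroup Γ} {W : AddSubgroup V} (h : FrobSetup U E W)
    (hW : W ≠ ⊥) (hE : E ≠ ⊥) {B : Subgroup Γ} (hB : FrobMax U W B)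
    (hker : W ⊓ (frobP E B : V →+ V).ker = ⊥) (hN : E ≤ Subgroup.normalizer (B : Set Γ)) :
    (∃ a ∈ frobA U W h.hUW, a ∉ frobKer W) ∧
      (∀ d ∈ frobA U W h.hUW, d ∉ frobKer W → ∀ w ∈ W, d • w = w → w = 0) := by
  classical
  have hBW : ∀ b ∈ B, ∀ w ∈ W, b • w ∈ W := fun b hb => h.hUW b (hB.hBU hb)
  have hcB : (Nat.card B).Coprime (Nat.card W) :=
    Nat.Coprime.coprime_dvd_left (Subgroup.card_dvd_of_le hB.hBU) h.hcU
  have hBtriv : ∀ b ∈ B, ∀ w ∈ W, b • w = w := by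
    intro b hb w hw
    have hτw : frobTr B w ∈ W ⊓ frobFix V (B : Set Γ) :=
      ⟨frobTr_mem W hBW hw, fun b hb => frobTr_smul hb _⟩
    have hd : Nat.card B • w - frobTr B w ∈ W := W.sub_mem (W.nsmul_mem hw _) hτw.1
    have hτd : frobTr B (Nat.card B • w - frobTr B w) = 0 := by
      rw [map_sub, map_nsmul, frobTr_of_fixed hτw.2, sub_self]
    have hPd : frobP E B (Nat.card B • w - frobTr B w) = 0 := by
      letI : Fintype ↥E := Fintype.ofFinite ↥E
      rw [frobP_apply]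
      apply Finset.sum_eq_zero
      intro e _
      rw [← frobTr_normalizer (hN (E.inv_mem e.2)), hτd, smul_zero, smul_zero]
    have hd0 : Nat.card B • w - frobTr B w = 0 := by
      have h2 : Nat.card B • w - frobTr B w ∈ W ⊓ (frobP E B : V →+ V).ker := ⟨hd, hPd⟩
      rw [hker] at h2
      exact (AddSubgroup.mem_bot).mp h2
    have hw' : w ∈ W ⊓ frobFix V (B : Set Γ) :=
      frob_mem_of_nsmul_mem inf_le_left hcB hw (by rw [sub_eq_zero.mp hd0]; exact hτw)
    exact hw'.2 b hb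
  refine ⟨?_, ?_⟩
  · have hnil : Group.IsNilpotent ↥U := frob_nilpotent h.hEU h.hfpf hE
    have hne : ¬ U ≤ U ⊓ frobKer W := by
      intro hle
      apply hW
      rw [eq_bot_iff]
      intro w hw
      exact (AddSubgroup.mem_bot).mpr (h.hCU w hw (fun u hu => (hle hu).2 w hw))
    obtain ⟨a, haU, ha0, hacent⟩ := frob_exists_central_mod U (U ⊓ frobKer W) hnil hne
    refine ⟨a, ⟨haU, fun u hu w hw => ?_⟩, fun hk => ha0 ⟨haU, hk⟩⟩
    have hc := (hacent u hu).2 ((u * a) • w) (h.hUW _ (U.mul_mem hu haU) w hw)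
    rw [← mul_smul] at hc
    have e1 : a * u * a⁻¹ * u⁻¹ * (u * a) = a * u := by group
    rw [e1] at hc
    exact hc
  · intro d hd hdk w hw hdw
    by_contra hw0
    have hDA : B ⊔ Subgroup.zpowers d ≤ frobA U W h.hUW :=
      sup_le (fun b hb => ⟨hB.hBU hb, hB.hBc b hb⟩) ((Subgroup.zpowers_le).mpr hd)
    have hstab : B ⊔ Subgroup.zpowers d ≤ MulAction.stabilizer Γ w :=
      sup_le (fun b hb => hBtriv b hb w hw) ((Subgroup.zpowers_le).mpr hdw)
    have hne : W ⊓ frobFix V ((B ⊔ Subgroup.zpowers d : Subgroup Γ) : Set Γ) ≠ ⊥ := fun h0 =>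
      hw0 (by
        have h2 : w ∈ W ⊓ frobFix V ((B ⊔ Subgroup.zpowers d : Subgroup Γ) : Set Γ) :=
          ⟨hw, fun g hg => hstab hg⟩
        rw [h0] at h2
        exact (AddSubgroup.mem_bot).mp h2)
    have hcard := hB.hmax _ (hDA.trans (fun a ha => ha.1)) (fun d hd => (hDA hd).2) hne
    have hDB : B = B ⊔ Subgroup.zpowers d := Subgroup.eq_of_le_of_card_ge le_sup_left hcard
    apply hdk
    have hdB : d ∈ B := hDB.ge (Subgroup.mem_sup_right (Subgroup.mem_zpowers d))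
    exact fun w hw => hBtriv d hdB w hw

theorem frob_trE_inj {U E : Subgroup Γ} {W : AddSubgroup V} (h : FrobSetup U E W)
    {B : Subgroup Γ} (hB : FrobMax U W B) {d : V}
    (hd : d ∈ (W ⊓ frobFix V (B : Set Γ)) ⊓
      frobFix V ((E ⊓ Subgroup.normalizer (B : Set Γ) : Subgroup Γ) : Set Γ))
    (h0 : frobTr E d = 0) : d = 0 := by
  classical
  letI : Fintype ↥E := Fintype.ofFinite ↥E
  have hcB : (Nat.card B).Coprime (Nat.card W) :=
    Nat.Coprime.coprime_dvd_left (Subgroup.card_dvd_of_le hB.hBU) h.hcU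
  have hcE₀ : (Nat.card ↥(E ⊓ Subgroup.normalizer (B : Set Γ))).Coprime (Nat.card W) :=
    Nat.Coprime.coprime_dvd_left (Subgroup.card_dvd_of_le inf_le_left) h.hcE
  have h2 : frobTr B (frobTr E d) = 0 := by rw [h0, map_zero]
  rw [frobTr_apply E, map_sum] at h2
  have h3 : ∀ e : ↥E, frobTr B ((e : Γ) • d) =
      if (e : Γ) ∈ Subgroup.normalizer (B : Set Γ) then Nat.card B • d else 0 := by
    intro e
    by_cases he : (e : Γ) ∈ Subgroup.normalizer (B : Set Γ)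
    · rw [if_pos he, hd.2 _ ⟨e.2, he⟩, frobTr_of_fixed hd.1.2]
    · rw [if_neg he, frobMax_T2 h hB e.2 he hd.1]
  simp_rw [h3] at h2
  rw [frob_count] at h2
  have h4 := frob_nsmul_eq_zero hcE₀ (W.nsmul_mem hd.1.1 _) h2
  exact frob_nsmul_eq_zero hcB hd.1.1 h4

theorem frob_P_surj {U E : Subgroup Γ} {W : AddSubgroup V} (h : FrobSetup U E W)
    {B : Subgroup Γ} (hB : FrobMax U W B) (hker : W ⊓ (frobP E B : V →+ V).ker = ⊥)
    {w : V} (hw : w ∈ W) : ∃ w' ∈ W, frobP E B w' = w := by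
  have hBW : ∀ b ∈ B, ∀ w ∈ W, b • w ∈ W := fun b hb => h.hUW b (hB.hBU hb)
  let φ : ↥W → ↥W := fun x => ⟨frobP E B (x : V), frobP_mem W h.hEW hBW x.2⟩
  have hinj : Function.Injective φ := by
    intro x y hxy
    have h1 : frobP E B (x : V) = frobP E B (y : V) := congrArg Subtype.val hxy
    have h2 : (x : V) - y ∈ W ⊓ (frobP E B : V →+ V).ker :=
      ⟨W.sub_mem x.2 y.2, by
        show frobP E B ((x : V) - y) = 0
        rw [map_sub, h1, sub_self]⟩
    rw [hker] at h2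
    exact Subtype.ext (sub_eq_zero.mp ((AddSubgroup.mem_bot).mp h2))
  obtain ⟨x, hx⟩ := (Finite.injective_iff_surjective.mp hinj) ⟨w, hw⟩
  exact ⟨x, x.2, congrArg Subtype.val hx⟩

/-- the restriction of the action of an element to an invariant subgroup -/
def frobRes (W : AddSubgroup V) (g : Γ) (hg : ∀ w ∈ W, g • w ∈ W) : AddMonoid.End ↥W :=
  AddMonoidHom.mk' (fun w => ⟨g • (w : V), hg w w.2⟩) (fun w w' => Subtype.ext (smul_add g _ _))

theorem frob_dc {W' : Type*} [AddCommGroup W'] (S : Set (AddMonoid.End W'))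
    (hS : ∀ s ∈ S, ∀ s' ∈ S, s * s' = s' * s) (v₀ : W')
    (hgen : ∀ y : W', ∃ t ∈ Subring.centralizer
      (Subring.centralizer S : Set (AddMonoid.End W')), t v₀ = y) :
    ∀ ψ₁ ∈ Subring.centralizer S, ∀ ψ₂ ∈ Subring.centralizer S, ψ₁ * ψ₂ = ψ₂ * ψ₁ := by
  intro ψ₁ h1 ψ₂ h2
  have hCC : ∀ t ∈ Subring.centralizer (Subring.centralizer S : Set (AddMonoid.End W')),
      ∀ ψ ∈ Subring.centralizer S, ∀ x : W', ψ (t x) = t (ψ x) := by
    intro t ht ψ hψ x
    have h3 := (Subring.mem_centralizer_iff.mp ht) ψ hψ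
    exact congrArg (fun f : AddMonoid.End W' => f x) h3
  have hCCS : Subring.centralizer (Subring.centralizer S : Set (AddMonoid.End W')) ≤
      Subring.centralizer S := by
    intro t ht
    rw [Subring.mem_centralizer_iff]
    intro s hs
    have hsC : s ∈ Subring.centralizer S := by
      rw [Subring.mem_centralizer_iff]
      intro s' hs'
      exact hS s' hs' s hs
    exact (Subring.mem_centralizer_iff.mp ht) s hsC
  ext w
  obtain ⟨t, ht, rfl⟩ := hgen w
  obtain ⟨t₁, ht₁, e1⟩ := hgen (ψ₁ v₀)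
  obtain ⟨t₂, ht₂, e2⟩ := hgen (ψ₂ v₀)
  show ψ₁ (ψ₂ (t v₀)) = ψ₂ (ψ₁ (t v₀))
  rw [hCC t ht ψ₂ h2, hCC t ht ψ₁ h1, hCC t ht ψ₁ h1, hCC t ht ψ₂ h2]
  congr 1
  rw [← e2, ← e1, hCC t₂ ht₂ ψ₁ h1, hCC t₁ ht₁ ψ₂ h2, ← e1, ← e2]
  exact (hCC t₂ ht₂ t₁ (hCCS ht₁) v₀).symm

end frobCyc

end Cfsg.Agent.Lib.Helper26
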