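import Mathlib
import Cfsg.Agent.Lib.Helper26.FrobCyc1

set_option autoImplicit false
set_option linter.style.haveILetI false
set_option linter.unusedSectionVars false

namespace Cfsg.Agent.Lib.Helper26

section frobCyc2

universe u

variable {Γ : Type u} [Group Γ] [Finite Γ] {V : Type*} [AddCommGroup V] [Finite V]
  [DistribMulAction Γ V]

/-- a cyclic invariant subgroup is acted on commutatively -/
theorem frob_cyclic_comm {U : Subgroup Γ} {W : AddSubgroup V} (hUW : ∀ u ∈ U, ∀ w ∈ W, u • w ∈ W)
    (hcyc : IsAddCyclic ↥W) {g k : Γ} (hg : g ∈ U) (hk : k ∈ U) {w : V} (hw : w ∈ W) :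
    (g * k) • w = (k * g) • w := by
  obtain ⟨x₀, hx₀⟩ := hcyc.exists_generator
  have hgen : ∀ y ∈ W, ∃ n : ℤ, y = n • (x₀ : V) := by
    intro y hy
    obtain ⟨n, hn⟩ := AddSubgroup.mem_zmultiples_iff.mp (hx₀ ⟨y, hy⟩)
    exact ⟨n, (congrArg Subtype.val hn).symm⟩
  obtain ⟨m, hm⟩ := hgen _ (hUW g hg _ x₀.2)
  obtain ⟨n, hn⟩ := hgen _ (hUW k hk _ x₀.2)
  obtain ⟨j, hj⟩ := hgen w hw
  have e1 : ∀ (a : Γ) (i : ℤ) (y : V), a • (i • y) = i • (a • y) := fun a i y =>
    map_zsmul (DistribSMul.toAddMonoidHom V a) i y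
  rw [hj, mul_smul, mul_smul, e1, e1, e1, e1, hn, hm, e1, e1, hn, hm, smul_comm n m]

theorem frob_cyc_mod : ∀ (n : ℕ) (U E : Subgroup Γ) (W : AddSubgroup V), Nat.card W = n →
    FrobSetup U E W → (Nat.card E).Prime → IsAddCyclic ↥(W ⊓ frobFix V (E : Set Γ)) →
    ∀ g ∈ U, ∀ k ∈ U, ∀ w ∈ W, (g * k) • w = (k * g) • w := by
  intro n
  induction n using Nat.strong_induction_on with
  | _ n ih =>
    intro U E W hn h hp hcyc
    by_cases hW : W = ⊥
    · subst hW
      intro g _ k _ w hw
      rw [(AddSubgroup.mem_bot).mp hw, smul_zero, smul_zero]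
    have hE : E ≠ ⊥ := by
      intro h0
      rw [h0, Subgroup.card_bot] at hp
      exact Nat.not_prime_one hp
    obtain ⟨B, hB⟩ := frobMax_exists U W hW
    have hBW : ∀ b ∈ B, ∀ w ∈ W, b • w ∈ W := fun b hb => h.hUW b (hB.hBU hb)
    by_cases hker : W ⊓ (frobP E B : V →+ V).ker = ⊥
    · by_cases hN : E ≤ Subgroup.normalizer (B : Set Γ)
      · -- final case
        obtain ⟨⟨a, haA, hak⟩, hfix⟩ := frob_last_data h hW hE hB hker hN
        obtain ⟨v₀, hv₀gen⟩ := hcyc.exists_generator
        have hV₀W : AddSubgroup.closure {y | ∃ b ∈ frobA U W h.hUW, y = b • (v₀ : V)} ≤ W :=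
          (AddSubgroup.closure_le _).mpr (by
            rintro _ ⟨b, hb, rfl⟩
            exact h.hUW b hb.1 _ v₀.2.1)
        have hv₀V₀ : (v₀ : V) ∈ AddSubgroup.closure
            {y | ∃ b ∈ frobA U W h.hUW, y = b • (v₀ : V)} :=
          AddSubgroup.subset_closure ⟨1, Subgroup.one_mem _, (one_smul _ _).symm⟩
        have hS : FrobSetup (frobA U W h.hUW) E
            (AddSubgroup.closure {y | ∃ b ∈ frobA U W h.hUW, y = b • (v₀ : V)}) :=
          { hEU := fun e he u hu => frobA_conj h.hUW h.hEW h.hEU he hu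
            hfpf := fun e he hne u hu hc => h.hfpf e he hne u hu.1 hc
            hUW := fun u hu w hw => by
              refine AddSubgroup.closure_induction
                (p := fun y _ => u • y ∈ AddSubgroup.closure
                  {y | ∃ b ∈ frobA U W h.hUW, y = b • (v₀ : V)}) ?_ ?_ ?_ ?_ hw
              · rintro _ ⟨b, hb, rfl⟩
                exact AddSubgroup.subset_closure
                  ⟨u * b, Subgroup.mul_mem _ hu hb, (mul_smul _ _ _).symm⟩
              · rw [smul_zero]; exact AddSubgroup.zero_mem _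
              · intro x y _ _ hx hy
                rw [smul_add]; exact AddSubgroup.add_mem _ hx hy
              · intro x _ hx
                rw [smul_neg]; exact AddSubgroup.neg_mem _ hx
            hEW := fun e he w hw => by
              refine AddSubgroup.closure_induction
                (p := fun y _ => e • y ∈ AddSubgroup.closure
                  {y | ∃ b ∈ frobA U W h.hUW, y = b • (v₀ : V)}) ?_ ?_ ?_ ?_ hw
              · rintro _ ⟨b, hb, rfl⟩
                refine AddSubgroup.subset_closure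
                  ⟨e * b * e⁻¹, frobA_conj h.hUW h.hEW h.hEU he hb, ?_⟩
                have e1 : (e * b * e⁻¹) • (v₀ : V) = e • b • (e⁻¹ • (v₀ : V)) := by
                  rw [mul_smul, mul_smul]
                rw [e1, v₀.2.2 _ (E.inv_mem he)]
              · rw [smul_zero]; exact AddSubgroup.zero_mem _
              · intro x y _ _ hx hy
                rw [smul_add]; exact AddSubgroup.add_mem _ hx hy
              · intro x _ hx
                rw [smul_neg]; exact AddSubgroup.neg_mem _ hx
            hcU := Nat.Coprime.coprime_dvd_left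
              (Subgroup.card_dvd_of_le (fun a ha => ha.1))
              (Nat.Coprime.coprime_dvd_right (AddSubgroup.card_dvd_of_le hV₀W) h.hcU)
            hcE := Nat.Coprime.coprime_dvd_right (AddSubgroup.card_dvd_of_le hV₀W) h.hcE
            hCU := fun w hw hfx => hfix a haA hak w (hV₀W hw) (hfx a haA) }
        have hK := frob_K _ _ E _ rfl hS
        have hKW := frob_K _ U E W rfl h
        have hfixeq : AddSubgroup.closure {y | ∃ b ∈ frobA U W h.hUW, y = b • (v₀ : V)} ⊓
            frobFix V (E : Set Γ) = W ⊓ frobFix V (E : Set Γ) := by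
          apply le_antisymm (inf_le_inf_right _ hV₀W)
          intro x hx
          refine ⟨?_, hx.2⟩
          obtain ⟨m, hm⟩ := AddSubgroup.mem_zmultiples_iff.mp (hv₀gen ⟨x, hx⟩)
          have e1 : x = m • (v₀ : V) := (congrArg Subtype.val hm).symm
          rw [e1]
          exact AddSubgroup.zsmul_mem _ hv₀V₀ m
        have hV₀eq : AddSubgroup.closure {y | ∃ b ∈ frobA U W h.hUW, y = b • (v₀ : V)} = W :=
          AddSubgroup.eq_of_le_of_card_ge hV₀W (by rw [hK, hKW, hfixeq])
        have hScomm : ∀ s ∈ {t : AddMonoid.End ↥W | ∃ b, ∃ hb : b ∈ frobA U W h.hUW,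
            t = frobRes W b (h.hUW b hb.1)},
            ∀ s' ∈ {t : AddMonoid.End ↥W | ∃ b, ∃ hb : b ∈ frobA U W h.hUW,
            t = frobRes W b (h.hUW b hb.1)}, s * s' = s' * s := by
          rintro _ ⟨b, hb, rfl⟩ _ ⟨b', hb', rfl⟩
          ext w
          show b • b' • (w : V) = b' • b • (w : V)
          exact (mul_smul _ _ _).symm.trans ((hb.2 b' hb'.1 w w.2).trans (mul_smul _ _ _))
        have hgen : ∀ y : ↥W, ∃ t ∈ Subring.centralizer
            (Subring.centralizer {t : AddMonoid.End ↥W | ∃ b, ∃ hb : b ∈ frobA U W h.hUW,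
            t = frobRes W b (h.hUW b hb.1)} : Set (AddMonoid.End ↥W)),
            t ⟨v₀, v₀.2.1⟩ = y := by
          intro y
          have hy : (y : V) ∈ AddSubgroup.closure
              {y | ∃ b ∈ frobA U W h.hUW, y = b • (v₀ : V)} := by rw [hV₀eq]; exact y.2
          have h1 := AddSubgroup.closure_induction
            (p := fun z _ => ∃ (hz : z ∈ W), ∃ t ∈ Subring.centralizer
              (Subring.centralizer {t : AddMonoid.End ↥W | ∃ b, ∃ hb : b ∈ frobA U W h.hUW,
              t = frobRes W b (h.hUW b hb.1)} : Set (AddMonoid.End ↥W)),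
              t ⟨v₀, v₀.2.1⟩ = ⟨z, hz⟩) ?_ ?_ ?_ ?_ hy
          · obtain ⟨hz, t, ht, htv⟩ := h1
            exact ⟨t, ht, htv⟩
          · rintro _ ⟨b, hb, rfl⟩
            refine ⟨h.hUW b hb.1 _ v₀.2.1, frobRes W b (h.hUW b hb.1), ?_, rfl⟩
            rw [Subring.mem_centralizer_iff]
            intro g hg
            exact ((Subring.mem_centralizer_iff.mp hg) _ ⟨b, hb, rfl⟩).symm
          · exact ⟨W.zero_mem, 0, Subring.zero_mem _, rfl⟩
          · rintro z z' _ _ ⟨hz, t, ht, htv⟩ ⟨hz', t', ht', htv'⟩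
            refine ⟨W.add_mem hz hz', t + t', Subring.add_mem _ ht ht', ?_⟩
            show t ⟨v₀, v₀.2.1⟩ + t' ⟨v₀, v₀.2.1⟩ = _
            rw [htv, htv']
            rfl
          · rintro z _ ⟨hz, t, ht, htv⟩
            refine ⟨W.neg_mem hz, -t, Subring.neg_mem _ ht, ?_⟩
            show -(t ⟨v₀, v₀.2.1⟩) = _
            rw [htv]
            rfl
        have hdc := frob_dc _ hScomm ⟨v₀, v₀.2.1⟩ hgen
        intro g hg k hk w hw
        have hmemS : ∀ g (hg : g ∈ U), frobRes W g (h.hUW g hg) ∈ Subring.centralizer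
            {t : AddMonoid.End ↥W | ∃ b, ∃ hb : b ∈ frobA U W h.hUW,
            t = frobRes W b (h.hUW b hb.1)} := by
          intro g hg
          rw [Subring.mem_centralizer_iff]
          rintro _ ⟨b, hb, rfl⟩
          ext w'
          show b • g • (w' : V) = g • b • (w' : V)
          exact (mul_smul _ _ _).symm.trans ((hb.2 g hg w' w'.2).trans (mul_smul _ _ _))
        have h2 := hdc _ (hmemS g hg) _ (hmemS k hk)
        have h3 := congrArg (fun f : AddMonoid.End ↥W => ((f ⟨w, hw⟩ : ↥W) : V)) h2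
        exact (mul_smul _ _ _).trans (h3.trans (mul_smul _ _ _).symm)
      · -- induced case
        obtain ⟨hβ, hα, hS'⟩ := frob_induced h hB hker
        have hE₀ : E ⊓ Subgroup.normalizer (B : Set Γ) = ⊥ := by
          haveI : Fact (Nat.card E).Prime := ⟨hp⟩
          rcases Subgroup.eq_bot_or_eq_top_of_prime_card
            ((E ⊓ Subgroup.normalizer (B : Set Γ)).subgroupOf E) with h0 | h0
          · rw [Subgroup.subgroupOf_eq_bot] at h0
            rw [eq_bot_iff]
            exact h0 (le_refl _) inf_le_left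
          · rw [Subgroup.subgroupOf_eq_top] at h0
            exact absurd (h0.trans inf_le_right) hN
        have hcycB : IsAddCyclic ↥(W ⊓ frobFix V (B : Set Γ)) := by
          haveI := hcyc
          let σ : ↥(W ⊓ frobFix V (B : Set Γ)) →+ ↥(W ⊓ frobFix V (E : Set Γ)) :=
            AddMonoidHom.mk' (fun x => ⟨frobTr E (x : V),
              ⟨frobTr_mem W h.hEW x.2.1, frobTr_fixed_mem _⟩⟩)
              (fun x y => Subtype.ext (map_add (frobTr E) _ _))
          refine isAddCyclic_of_injective σ ?_
          intro x y hxy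
          have h1 : frobTr E (x : V) = frobTr E (y : V) := congrArg Subtype.val hxy
          have h2 : frobTr E ((x : V) - y) = 0 := by rw [map_sub, h1, sub_self]
          have hxy' : (x : V) - y ∈ W ⊓ frobFix V (B : Set Γ) := AddSubgroup.sub_mem _ x.2 y.2
          have h3 := frob_trE_inj h hB (d := (x : V) - y)
            ⟨hxy', fun g hg => by
              rw [hE₀] at hg
              rw [Subgroup.mem_bot.mp hg, one_smul]⟩ h2
          exact Subtype.ext (sub_eq_zero.mp h3)
        have hcommB : ∀ g ∈ U, ∀ k ∈ U, ∀ x ∈ W ⊓ frobFix V (B : Set Γ),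
            (g * k) • x = (k * g) • x := fun g hg k hk x hx =>
          frob_cyclic_comm hS'.hUW hcycB hg hk hx
        have hcommE : ∀ e ∈ E, ∀ g ∈ U, ∀ k ∈ U, ∀ x ∈ W ⊓ frobFix V (B : Set Γ),
            (g * k) • e • x = (k * g) • e • x := by
          intro e he g hg k hk x hx
          have hg' : e⁻¹ * g * e ∈ U := by simpa using h.hEU _ (E.inv_mem he) g hg
          have hk' : e⁻¹ * k * e ∈ U := by simpa using h.hEU _ (E.inv_mem he) k hk
          have e1 : (g * k) • e • x = e • (((e⁻¹ * g * e) * (e⁻¹ * k * e)) • x) := by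
            rw [← mul_smul, ← mul_smul]; congr 1; group
          have e2 : (k * g) • e • x = e • (((e⁻¹ * k * e) * (e⁻¹ * g * e)) • x) := by
            rw [← mul_smul, ← mul_smul]; congr 1; group
          rw [e1, e2, hcommB _ hg' _ hk' x hx]
        intro g hg k hk w hw
        obtain ⟨w', hw', rfl⟩ := frob_P_surj h hB hker hw
        letI : Fintype ↥E := Fintype.ofFinite ↥E
        rw [frobP_apply, Finset.smul_sum, Finset.smul_sum]
        apply Finset.sum_congr rfl
        intro e _
        exact hcommE e e.2 g hg k hk _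
          ⟨frobTr_mem W hBW (h.hEW _ (E.inv_mem e.2) w' hw'), fun b hb => frobTr_smul hb _⟩
    · -- split case
      obtain ⟨W₁, W₂, h1, h2, hdisj, hsup, hS1, hS2⟩ := frob_split h hB hker
      have hc := frob_card_sup_of_disjoint W₁ W₂ hdisj
      rw [hsup] at hc
      have h12 : 2 ≤ Nat.card W₁ := (AddSubgroup.one_lt_card_iff_ne_bot _).mpr h1
      have h22 : 2 ≤ Nat.card W₂ := (AddSubgroup.one_lt_card_iff_ne_bot _).mpr h2
      have hlt1 : Nat.card W₁ < n := by rw [← hn, hc]; nlinarith
      have hlt2 : Nat.card W₂ < n := by rw [← hn, hc]; nlinarith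
      have hle1 : W₁ ≤ W := by rw [← hsup]; exact le_sup_left
      have hle2 : W₂ ≤ W := by rw [← hsup]; exact le_sup_right
      haveI := hcyc
      have hcyc1 : IsAddCyclic ↥(W₁ ⊓ frobFix V (E : Set Γ)) :=
        isAddCyclic_of_injective (AddSubgroup.inclusion (inf_le_inf_right _ hle1))
          (AddSubgroup.inclusion_injective _)
      have hcyc2 : IsAddCyclic ↥(W₂ ⊓ frobFix V (E : Set Γ)) :=
        isAddCyclic_of_injective (AddSubgroup.inclusion (inf_le_inf_right _ hle2))
          (AddSubgroup.inclusion_injective _)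
      have hI1 := ih _ hlt1 U E W₁ rfl hS1 hp hcyc1
      have hI2 := ih _ hlt2 U E W₂ rfl hS2 hp hcyc2
      intro g hg k hk w hw
      rw [← hsup] at hw
      obtain ⟨x, hx, y, hy, rfl⟩ := AddSubgroup.mem_sup.mp hw
      rw [smul_add, smul_add, hI1 g hg k hk x hx, hI2 g hg k hk y hy]

end frobCyc2

end Cfsg.Agent.Lib.Helper26
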