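import Mathlib
import Cfsg.Agent.Lib.Helper26.FrobAb
import Cfsg.Agent.Lib.Helper1.Coprime

set_option autoImplicit false
set_option linter.style.haveILetI false
set_option linter.unusedSectionVars false

namespace Cfsg.Agent.Lib.Helper26

section frobQuot

universe u

variable {X : Type u} [Group X] [Finite X]

/-- hypotheses of the fixed-point formula -/
structure FrobHyp (U E H : Subgroup X) : Prop where
  hUn : ∀ e ∈ E, ∀ u ∈ U, e * u * e⁻¹ ∈ U
  hfpf : ∀ e ∈ E, e ≠ 1 → ∀ u ∈ U, e * u = u * e → u = 1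
  hHn : ∀ x ∈ U ⊔ E, ∀ h ∈ H, x * h * x⁻¹ ∈ H
  hsolv : Group.IsSolvable ↥H
  hcop : Nat.Coprime (Nat.card H) (Nat.card ↥(U ⊔ E))

/-- the fixed-point formula -/
def FrobFormula (U E H : Subgroup X) : Prop :=
  Nat.card ↥(H ⊓ Subgroup.centralizer ((U ⊔ E : Subgroup X) : Set X)) ^ Nat.card E *
      Nat.card H =
    Nat.card ↥(H ⊓ Subgroup.centralizer (E : Set X)) ^ Nat.card E *
      Nat.card ↥(H ⊓ Subgroup.centralizer (U : Set X))

theorem frob_quot_hyp {U E H : Subgroup X} (N : Subgroup X) [N.Normal] (h : FrobHyp U E H)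
    (hNH : N ≤ H) :
    FrobHyp (U.map (QuotientGroup.mk' N)) (E.map (QuotientGroup.mk' N))
      (H.map (QuotientGroup.mk' N)) := by
  have hNY : N ⊓ (U ⊔ E) = ⊥ :=
    (Subgroup.disjoint_of_coprime_natCard
      (Nat.Coprime.coprime_dvd_left (Subgroup.card_dvd_of_le hNH) h.hcop)).eq_bot
  refine ⟨?_, ?_, ?_, ?_, ?_⟩
  · rintro _ ⟨e, he, rfl⟩ _ ⟨u, hu, rfl⟩
    exact ⟨e * u * e⁻¹, h.hUn e he u hu, by simp⟩
  · rintro _ ⟨e, he, rfl⟩ hne _ ⟨u, hu, rfl⟩ hc
    have h1 : (u * e)⁻¹ * (e * u) ∈ N := by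
      rw [← QuotientGroup.eq_one_iff]
      have h2 : ((e * u : X) : X ⧸ N) = ((u * e : X) : X ⧸ N) := hc
      rw [QuotientGroup.mk_mul, QuotientGroup.mk_inv, h2]
      exact inv_mul_cancel _
    have h3 : (u * e)⁻¹ * (e * u) ∈ N ⊓ (U ⊔ E) :=
      ⟨h1, Subgroup.mul_mem _ (Subgroup.inv_mem _ (Subgroup.mul_mem _
        (Subgroup.mem_sup_left hu) (Subgroup.mem_sup_right he)))
        (Subgroup.mul_mem _ (Subgroup.mem_sup_right he) (Subgroup.mem_sup_left hu))⟩
    rw [hNY, Subgroup.mem_bot] at h3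
    have h4 : e * u = u * e := (inv_mul_eq_one.mp h3).symm
    have he1 : e ≠ 1 := fun h1 => hne (by rw [h1]; exact map_one _)
    rw [h.hfpf e he he1 u hu h4]
    exact map_one _
  · intro x hx
    rw [← Subgroup.map_sup] at hx
    obtain ⟨y, hy, rfl⟩ := hx
    rintro _ ⟨k, hk, rfl⟩
    exact ⟨y * k * y⁻¹, h.hHn y hy k hk, by simp⟩
  · haveI := h.hsolv
    exact Group.isSolvable_of_surjective
      ((QuotientGroup.mk' N).subgroupMap_surjective H)
  · rw [← Subgroup.map_sup]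
    exact Nat.Coprime.coprime_dvd_left (Subgroup.card_map_dvd _ _)
      (Nat.Coprime.coprime_dvd_right (Subgroup.card_map_dvd _ _) h.hcop)

theorem frob_quot_card {U E H : Subgroup X} (N : Subgroup X) [N.Normal] (h : FrobHyp U E H)
    (hNH : N ≤ H) (B : Subgroup X) (hB : B ≤ U ⊔ E) :
    Nat.card ↥(H.map (QuotientGroup.mk' N) ⊓
        Subgroup.centralizer ((B.map (QuotientGroup.mk' N) : Subgroup (X ⧸ N)) : Set (X ⧸ N))) *
      Nat.card ↥(N ⊓ Subgroup.centralizer (B : Set X)) =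
    Nat.card ↥(H ⊓ Subgroup.centralizer (B : Set X)) := by
  have hcop : (Nat.card B).Coprime (Nat.card N) :=
    (Nat.Coprime.coprime_dvd_left (Subgroup.card_dvd_of_le hNH)
      (Nat.Coprime.coprime_dvd_right (Subgroup.card_dvd_of_le hB) h.hcop)).symm
  have hsolvN : Group.IsSolvable ↥N := Cfsg.Agent.Lib.Helper1.isSolvable_of_le' hNH h.hsolv
  have e1 : H.map (QuotientGroup.mk' N) ⊓
      Subgroup.centralizer ((B.map (QuotientGroup.mk' N) : Subgroup (X ⧸ N)) : Set (X ⧸ N)) =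
      (H ⊓ Subgroup.centralizer (B : Set X)).map (QuotientGroup.mk' N) := by
    apply le_antisymm
    · rintro _ ⟨⟨k, hk, rfl⟩, hC0⟩
      have hC := Subgroup.mem_centralizer_iff.mp hC0
      have hx : ∀ a ∈ B, k⁻¹ * (a * k * a⁻¹) ∈ N := by
        intro a ha
        have h1 := hC (QuotientGroup.mk' N a) ⟨a, ha, rfl⟩
        rw [← QuotientGroup.eq_one_iff]
        have h2 : ((a * k : X) : X ⧸ N) = ((k * a : X) : X ⧸ N) := h1
        have e2 : k⁻¹ * (a * k * a⁻¹) = k⁻¹ * ((a * k) * a⁻¹) := by group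
        rw [e2, QuotientGroup.mk_mul, QuotientGroup.mk_mul, h2, QuotientGroup.mk_mul,
          QuotientGroup.mk_inv, QuotientGroup.mk_inv]
        group
      obtain ⟨d, hd, hkd⟩ := Cfsg.Agent.Lib.Helper1.coprime_coset_fixed
        (A := B) (D := N) (by rw [Subgroup.normalizer_eq_top]; exact le_top) hcop
        (Or.inr hsolvN) k hx
      refine ⟨k * d, ⟨H.mul_mem hk (hNH hd), hkd⟩, ?_⟩
      show ((k * d : X) : X ⧸ N) = ((k : X) : X ⧸ N)
      rw [QuotientGroup.mk_mul, (QuotientGroup.eq_one_iff d).mpr hd, mul_one]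
    · rintro _ ⟨k, ⟨hk, hC⟩, rfl⟩
      refine ⟨⟨k, hk, rfl⟩, Subgroup.mem_centralizer_iff.mpr ?_⟩
      rintro _ ⟨a, ha, rfl⟩
      have h1 := (Subgroup.mem_centralizer_iff.mp hC) a ha
      show ((a : X) : X ⧸ N) * ((k : X) : X ⧸ N) = ((k : X) : X ⧸ N) * ((a : X) : X ⧸ N)
      rw [← QuotientGroup.mk_mul, ← QuotientGroup.mk_mul, h1]
  rw [e1]
  have h2 := frob_card_map_ker (QuotientGroup.mk' N) (H ⊓ Subgroup.centralizer (B : Set X))
  rw [QuotientGroup.ker_mk'] at h2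
  have e3 : H ⊓ Subgroup.centralizer (B : Set X) ⊓ N = N ⊓ Subgroup.centralizer (B : Set X) := by
    rw [inf_comm, ← inf_assoc, inf_eq_left.mpr hNH]
  rw [e3] at h2
  exact h2

theorem frob_quot_cardH {H : Subgroup X} (N : Subgroup X) [N.Normal] (hNH : N ≤ H) :
    Nat.card ↥(H.map (QuotientGroup.mk' N)) * Nat.card N = Nat.card H := by
  have h2 := frob_card_map_ker (QuotientGroup.mk' N) H
  rw [QuotientGroup.ker_mk', inf_eq_right.mpr hNH] at h2
  exact h2

end frobQuot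

end Cfsg.Agent.Lib.Helper26
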