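import Mathlib
import Cfsg.Agent.Lib.Helper26.FrobQuot

set_option autoImplicit false
set_option linter.style.haveILetI false
set_option linter.unusedSectionVars false

namespace Cfsg.Agent.Lib.Helper26

section frobMain

universe u

variable {X : Type u} [Group X] [Finite X]

theorem frob_sub_card (L B H : Subgroup X) (hB : B ≤ L) (hH : H ≤ L) :
    Nat.card ↥(H.subgroupOf L ⊓ Subgroup.centralizer ((B.subgroupOf L : Subgroup ↥L) : Set ↥L)) =
      Nat.card ↥(H ⊓ Subgroup.centralizer (B : Set X)) := by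
  rw [← Subgroup.card_map_of_injective L.subtype_injective]
  congr 2
  apply le_antisymm
  · rintro _ ⟨x, ⟨hxH, hxC⟩, rfl⟩
    refine ⟨Subgroup.mem_subgroupOf.mp hxH, Subgroup.mem_centralizer_iff.mpr ?_⟩
    intro b hb
    have h1 := (Subgroup.mem_centralizer_iff.mp hxC) ⟨b, hB hb⟩ (Subgroup.mem_subgroupOf.mpr hb)
    exact congrArg Subtype.val h1
  · rintro x ⟨hxH, hxC⟩
    refine ⟨⟨x, hH hxH⟩, ⟨Subgroup.mem_subgroupOf.mpr hxH, Subgroup.mem_centralizer_iff.mpr ?_⟩,
      rfl⟩
    intro b hb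
    apply Subtype.ext
    exact (Subgroup.mem_centralizer_iff.mp hxC) b (Subgroup.mem_subgroupOf.mp hb)

theorem frob_sub_card' (L H : Subgroup X) (hH : H ≤ L) :
    Nat.card ↥(H.subgroupOf L) = Nat.card H :=
  Nat.card_congr (Subgroup.subgroupOfEquivOfLe hH).toEquiv

theorem frob_transfer (L U E H : Subgroup X) (hU : U ≤ L) (hE : E ≤ L) (hH : H ≤ L)
    (hf : FrobFormula (U.subgroupOf L) (E.subgroupOf L) (H.subgroupOf L)) :
    FrobFormula U E H := by
  unfold FrobFormula at hf ⊢
  rw [← Subgroup.subgroupOf_sup hU hE, frob_sub_card L (U ⊔ E) H (sup_le hU hE) hH,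
    frob_sub_card L E H hE hH, frob_sub_card L U H hU hH, frob_sub_card' L E hE,
    frob_sub_card' L H hH] at hf
  exact hf

theorem frob_transfer_hyp (L U E H : Subgroup X) (hU : U ≤ L) (hE : E ≤ L) (hH : H ≤ L)
    (h : FrobHyp U E H) : FrobHyp (U.subgroupOf L) (E.subgroupOf L) (H.subgroupOf L) := by
  refine ⟨?_, ?_, ?_, ?_, ?_⟩
  · intro e he u hu
    exact Subgroup.mem_subgroupOf.mpr
      (h.hUn _ (Subgroup.mem_subgroupOf.mp he) _ (Subgroup.mem_subgroupOf.mp hu))
  · intro e he hne u hu hc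
    apply Subtype.ext
    exact h.hfpf _ (Subgroup.mem_subgroupOf.mp he) (fun h1 => hne (Subtype.ext h1)) _
      (Subgroup.mem_subgroupOf.mp hu) (congrArg Subtype.val hc)
  · intro x hx k hk
    rw [← Subgroup.subgroupOf_sup hU hE] at hx
    exact Subgroup.mem_subgroupOf.mpr
      (h.hHn _ (Subgroup.mem_subgroupOf.mp hx) _ (Subgroup.mem_subgroupOf.mp hk))
  · haveI := h.hsolv
    exact Group.isSolvable_of_surjective (f := ((Subgroup.subgroupOfEquivOfLe hH).symm : ↥H →* _))
      (Subgroup.subgroupOfEquivOfLe hH).symm.surjective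
  · rw [← Subgroup.subgroupOf_sup hU hE, frob_sub_card' L H hH,
      frob_sub_card' L (U ⊔ E) (sup_le hU hE)]
    exact h.hcop

/-- **The fixed-point formula for a Frobenius group acting coprimely on a solvable group.** -/
theorem frob_main : ∀ (n : ℕ) (X : Type u) [Group X] [Finite X] (U E H : Subgroup X),
    Nat.card H = n → FrobHyp U E H → FrobFormula U E H := by
  intro n
  induction n using Nat.strong_induction_on with
  | _ n ih =>
    intro X _ _ U E H hn hyp
    have hU : U ≤ H ⊔ (U ⊔ E) := le_sup_left.trans le_sup_right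
    have hE : E ≤ H ⊔ (U ⊔ E) := le_sup_right.trans le_sup_right
    have hH : H ≤ H ⊔ (U ⊔ E) := le_sup_left
    apply frob_transfer (H ⊔ (U ⊔ E)) U E H hU hE hH
    have hyp' := frob_transfer_hyp (H ⊔ (U ⊔ E)) U E H hU hE hH hyp
    have hcard' : Nat.card ↥(H.subgroupOf (H ⊔ (U ⊔ E))) = n := by
      rw [frob_sub_card' _ H hH, hn]
    have hnorm : H ⊔ (U ⊔ E) ≤ Subgroup.normalizer (H : Set X) := by
      apply sup_le Subgroup.le_normalizer
      intro x hx
      rw [Subgroup.mem_normalizer_iff]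
      intro k
      constructor
      · exact hyp.hHn x hx k
      · intro hk
        have h1 := hyp.hHn x⁻¹ (Subgroup.inv_mem _ hx) _ hk
        have e1 : x⁻¹ * (x * k * x⁻¹) * x⁻¹⁻¹ = k := by group
        rwa [e1] at h1
    haveI hnormal : (H.subgroupOf (H ⊔ (U ⊔ E))).Normal :=
      Subgroup.normal_subgroupOf_of_le_normalizer hnorm
    generalize H.subgroupOf (H ⊔ (U ⊔ E)) = H' at hyp' hcard' hnormal ⊢
    generalize U.subgroupOf (H ⊔ (U ⊔ E)) = U' at hyp' ⊢
    generalize E.subgroupOf (H ⊔ (U ⊔ E)) = E' at hyp' ⊢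
    by_cases hab : ∀ a ∈ H', ∀ b ∈ H', a * b = b * a
    · exact frob_abelian U' E' H' hab hyp'.hUn hyp'.hfpf hyp'.hcop
    · haveI := hyp'.hsolv
      have hNH : ⁅H', H'⁆ ≤ H' := Subgroup.commutator_le_right H' H'
      have hNbot : ⁅H', H'⁆ ≠ ⊥ := by
        intro h0
        rw [Subgroup.commutator_eq_bot_iff_le_centralizer] at h0
        apply hab
        intro a ha b hb
        exact ((Subgroup.mem_centralizer_iff.mp (h0 ha)) b hb).symm
      have hH'bot : H' ≠ ⊥ := by
        intro h0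
        apply hNbot
        rw [eq_bot_iff, ← h0]
        exact hNH
      have hNne : ⁅H', H'⁆ ≠ H' := by
        intro h0
        haveI : Nontrivial ↥H' := (Subgroup.nontrivial_iff_ne_bot H').mpr hH'bot
        have h1 := Group.IsSolvable.commutator_lt_top_of_nontrivial ↥H'
        apply h1.ne
        apply Subgroup.map_injective H'.subtype_injective
        rw [Subgroup.map_subtype_commutator, h0, ← MonoidHom.range_eq_map, Subgroup.range_subtype]
      have hN2 : 2 ≤ Nat.card ↥⁅H', H'⁆ := (Subgroup.one_lt_card_iff_ne_bot _).mpr hNbot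
      have hNlt : Nat.card ↥⁅H', H'⁆ < n := by
        rw [← hcard']
        exact lt_of_le_of_ne (Subgroup.card_le_of_le hNH)
          (fun h0 => hNne (Subgroup.eq_of_le_of_card_ge hNH h0.ge))
      have hypN : FrobHyp U' E' ⁅H', H'⁆ :=
        { hUn := hyp'.hUn
          hfpf := hyp'.hfpf
          hHn := fun x _ k hk => Subgroup.Normal.conj_mem inferInstance k hk x
          hsolv := Cfsg.Agent.Lib.Helper1.isSolvable_of_le' hNH hyp'.hsolv
          hcop := Nat.Coprime.coprime_dvd_left (Subgroup.card_dvd_of_le hNH) hyp'.hcop }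
      have fN := ih _ hNlt _ U' E' ⁅H', H'⁆ rfl hypN
      have hypQ := frob_quot_hyp ⁅H', H'⁆ hyp' hNH
      have qH := frob_quot_cardH ⁅H', H'⁆ hNH
      have hQlt : Nat.card ↥(H'.map (QuotientGroup.mk' ⁅H', H'⁆)) < n := by
        rw [← hcard', ← qH]
        have hpos : 0 < Nat.card ↥(H'.map (QuotientGroup.mk' ⁅H', H'⁆)) := Nat.card_pos
        nlinarith
      have fQ := ih _ hQlt _ _ _ _ rfl hypQ
      have qY := frob_quot_card ⁅H', H'⁆ hyp' hNH (U' ⊔ E') le_rfl
      have qE := frob_quot_card ⁅H', H'⁆ hyp' hNH E' le_sup_right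
      have qU := frob_quot_card ⁅H', H'⁆ hyp' hNH U' le_sup_left
      have hNE : ⁅H', H'⁆ ⊓ E' = ⊥ :=
        (Subgroup.disjoint_of_coprime_natCard
          (Nat.Coprime.coprime_dvd_left (Subgroup.card_dvd_of_le hNH)
            (Nat.Coprime.coprime_dvd_right (Subgroup.card_dvd_of_le le_sup_right)
              hyp'.hcop))).eq_bot
      have hcE : Nat.card ↥(E'.map (QuotientGroup.mk' ⁅H', H'⁆)) = Nat.card E' := by
        have h1 := frob_card_map_ker (QuotientGroup.mk' ⁅H', H'⁆) E'
        rw [QuotientGroup.ker_mk', inf_comm, hNE, Subgroup.card_bot, mul_one] at h1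
        exact h1
      unfold FrobFormula at fN fQ ⊢
      rw [← Subgroup.map_sup, hcE] at fQ
      rw [← qY, ← qE, ← qU, ← qH, mul_pow, mul_pow]
      calc _ = (Nat.card ↥(H'.map (QuotientGroup.mk' ⁅H', H'⁆) ⊓ Subgroup.centralizer
              (((U' ⊔ E').map (QuotientGroup.mk' ⁅H', H'⁆) : Subgroup _) : Set _)) ^ Nat.card E' *
              Nat.card ↥(H'.map (QuotientGroup.mk' ⁅H', H'⁆))) *
            (Nat.card ↥(⁅H', H'⁆ ⊓ Subgroup.centralizer ((U' ⊔ E' : Subgroup _) : Set _)) ^
              Nat.card E' * Nat.card ↥⁅H', H'⁆) := by ring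
        _ = _ := by rw [fQ, fN]; ring

end frobMain

end Cfsg.Agent.Lib.Helper26
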