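import Mathlib
import Cfsg.Agent.Lib.Helper26.FrobCyc2
import Cfsg.Agent.Lib.Helper26.FrobMain

set_option autoImplicit false
set_option linter.style.haveILetI false
set_option linter.unusedSectionVars false
open scoped commutatorElement

namespace Cfsg.Agent.Lib.Helper26

section frobCycGrp

universe u

variable {X : Type u} [Group X] [Finite X]

/-- hypotheses for "the derived subgroup of the kernel centralizes `H`" -/
structure FrobCycHyp (U E H : Subgroup X) : Prop where
  hyp : FrobHyp U E H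
  hCU : H ⊓ Subgroup.centralizer (U : Set X) = ⊥
  hcyc : IsCyclic ↥(H ⊓ Subgroup.centralizer (E : Set X))
  hprime : (Nat.card E).Prime

theorem frob_cyc_abelian (U E H : Subgroup X) [hHn : H.Normal]
    (hcomm : ∀ a ∈ H, ∀ b ∈ H, a * b = b * a) (h : FrobCycHyp U E H) :
    ⁅U, U⁆ ≤ Subgroup.centralizer (H : Set X) := by
  letI : CommGroup ↥H := commGroupOfComm H hcomm
  letI : DistribMulAction X (Additive ↥H) :=
    { smul := fun g v => Additive.ofMul
        ⟨g * ((Additive.toMul v : ↥H) : X) * g⁻¹, hHn.conj_mem _ (Additive.toMul v).2 g⟩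
      one_smul := fun v => by
        show Additive.ofMul (⟨1 * ((Additive.toMul v : ↥H) : X) * 1⁻¹, _⟩ : ↥H) = v
        simp
      mul_smul := fun g g' v => by
        apply congrArg Additive.ofMul
        apply Subtype.ext
        show g * g' * ((Additive.toMul v : ↥H) : X) * (g * g')⁻¹ =
          g * (g' * ((Additive.toMul v : ↥H) : X) * g'⁻¹) * g⁻¹
        group
      smul_zero := fun g => by
        apply congrArg Additive.ofMul
        apply Subtype.ext
        show g * ((1 : ↥H) : X) * g⁻¹ = ((1 : ↥H) : X)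
        simp
      smul_add := fun g v w => by
        apply congrArg Additive.ofMul
        apply Subtype.ext
        show g * (((Additive.toMul v : ↥H) : X) * ((Additive.toMul w : ↥H) : X)) * g⁻¹ =
          (g * ((Additive.toMul v : ↥H) : X) * g⁻¹) * (g * ((Additive.toMul w : ↥H) : X) * g⁻¹)
        group }
  have hsmul : ∀ (g : X) (v : Additive ↥H),
      (((Additive.toMul (g • v) : ↥H)) : X) = g * ((Additive.toMul v : ↥H) : X) * g⁻¹ :=
    fun g v => rfl
  have hfixmem : ∀ (S : Set X) (v : Additive ↥H), v ∈ frobFix (Additive ↥H) S →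
      ((Additive.toMul v : ↥H) : X) ∈ H ⊓ Subgroup.centralizer S := by
    intro S v hv
    refine ⟨(Additive.toMul v).2, Subgroup.mem_centralizer_iff.mpr ?_⟩
    intro g hg
    have h1 := hv g hg
    have h2 : g * ((Additive.toMul v : ↥H) : X) * g⁻¹ = ((Additive.toMul v : ↥H) : X) := by
      rw [← hsmul, h1]
    calc g * ((Additive.toMul v : ↥H) : X)
        = (g * ((Additive.toMul v : ↥H) : X) * g⁻¹) * g := by group
      _ = ((Additive.toMul v : ↥H) : X) * g := by rw [h2]
  have hc : Nat.card ↥(⊤ : AddSubgroup (Additive ↥H)) = Nat.card ↥H := AddSubgroup.card_top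
  have hS : FrobSetup U E (⊤ : AddSubgroup (Additive ↥H)) :=
    { hEU := h.hyp.hUn
      hfpf := h.hyp.hfpf
      hUW := fun _ _ _ _ => AddSubgroup.mem_top _
      hEW := fun _ _ _ _ => AddSubgroup.mem_top _
      hcU := by
        rw [hc]
        exact (Nat.Coprime.coprime_dvd_right (Subgroup.card_dvd_of_le le_sup_left)
          h.hyp.hcop).symm
      hcE := by
        rw [hc]
        exact (Nat.Coprime.coprime_dvd_right (Subgroup.card_dvd_of_le le_sup_right)
          h.hyp.hcop).symm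
      hCU := fun w _ hfx => by
        have h1 := hfixmem (U : Set X) w hfx
        rw [h.hCU, Subgroup.mem_bot] at h1
        have h2 : (Additive.toMul w : ↥H) = 1 := Subtype.ext h1
        exact congrArg Additive.ofMul h2 }
  have hcycA : IsAddCyclic ↥((⊤ : AddSubgroup (Additive ↥H)) ⊓ frobFix (Additive ↥H) (E : Set X)) := by
    obtain ⟨g₀, hg₀⟩ := h.hcyc.exists_zpow_surjective
    refine ⟨⟨⟨Additive.ofMul ⟨(g₀ : X), g₀.2.1⟩, ⟨AddSubgroup.mem_top _, fun e he => ?_⟩⟩, ?_⟩⟩
    · have h1 := (Subgroup.mem_centralizer_iff.mp g₀.2.2) e he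
      apply congrArg Additive.ofMul
      apply Subtype.ext
      show e * (g₀ : X) * e⁻¹ = g₀
      rw [h1]; group
    · intro x
      obtain ⟨m, hm⟩ := hg₀ ⟨_, hfixmem (E : Set X) x.1 x.2.2⟩
      refine ⟨m, ?_⟩
      apply Subtype.ext
      have h3 : ((g₀ : X)) ^ m = ((Additive.toMul x.1 : ↥H) : X) := by
        have := congrArg Subtype.val hm
        simpa using this
      show m • Additive.ofMul (⟨(g₀ : X), g₀.2.1⟩ : ↥H) = x.1
      rw [← ofMul_zpow]
      apply congrArg Additive.ofMul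
      apply Subtype.ext
      rw [Subgroup.coe_zpow]
      exact h3
  have main := frob_cyc_mod _ U E (⊤ : AddSubgroup (Additive ↥H)) rfl hS h.hprime hcycA
  rw [Subgroup.commutator_le]
  intro g₁ hg₁ g₂ hg₂
  rw [Subgroup.mem_centralizer_iff]
  intro m hm
  have hm' : (g₂ * g₁)⁻¹ * m * (g₂ * g₁) ∈ H := by
    have := hHn.conj_mem m hm (g₂ * g₁)⁻¹
    simpa using this
  have h1 := main g₁ hg₁ g₂ hg₂ (Additive.ofMul ⟨_, hm'⟩) (AddSubgroup.mem_top _)
  have h2 : (g₁ * g₂) * ((g₂ * g₁)⁻¹ * m * (g₂ * g₁)) * (g₁ * g₂)⁻¹ =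
      (g₂ * g₁) * ((g₂ * g₁)⁻¹ * m * (g₂ * g₁)) * (g₂ * g₁)⁻¹ :=
    congrArg (fun z : Additive ↥H => ((Additive.toMul z : ↥H) : X)) h1
  rw [commutatorElement_def]
  have h3 : (g₂ * g₁) * ((g₂ * g₁)⁻¹ * m * (g₂ * g₁)) * (g₂ * g₁)⁻¹ = m := by group
  rw [h3] at h2
  calc m * (g₁ * g₂ * g₁⁻¹ * g₂⁻¹)
      = ((g₁ * g₂) * ((g₂ * g₁)⁻¹ * m * (g₂ * g₁)) * (g₁ * g₂)⁻¹) * (g₁ * g₂ * g₁⁻¹ * g₂⁻¹) := by
        rw [h2]
    _ = g₁ * g₂ * g₁⁻¹ * g₂⁻¹ * m := by group

end frobCycGrp

end Cfsg.Agent.Lib.Helper26
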