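import Mathlib
import Cfsg.Agent.Lib.Helper26.FrobCyc3

set_option autoImplicit false
set_option linter.style.haveILetI false
set_option linter.unusedSectionVars false
open scoped commutatorElement

namespace Cfsg.Agent.Lib.Helper26

section frobCycGrp2

universe u

variable {X : Type u} [Group X] [Finite X]

theorem frob_cyc_transfer_hyp (L U E H : Subgroup X) (hU : U ≤ L) (hE : E ≤ L) (hH : H ≤ L)
    (h : FrobCycHyp U E H) :
    FrobCycHyp (U.subgroupOf L) (E.subgroupOf L) (H.subgroupOf L) := by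
  refine ⟨frob_transfer_hyp L U E H hU hE hH h.hyp, ?_, ?_, ?_⟩
  · apply Subgroup.eq_bot_of_card_eq
    rw [frob_sub_card L U H hU hH, h.hCU, Subgroup.card_bot]
  · haveI := h.hcyc
    let f : ↥(H.subgroupOf L ⊓ Subgroup.centralizer ((E.subgroupOf L : Subgroup ↥L) : Set ↥L)) →*
        ↥(H ⊓ Subgroup.centralizer (E : Set X)) :=
      { toFun := fun x => ⟨((x : ↥L) : X), ⟨Subgroup.mem_subgroupOf.mp x.2.1,
          Subgroup.mem_centralizer_iff.mpr (fun e he => by
            have h1 := (Subgroup.mem_centralizer_iff.mp x.2.2) ⟨e, hE he⟩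
              (Subgroup.mem_subgroupOf.mpr he)
            exact congrArg Subtype.val h1)⟩⟩
        map_one' := rfl
        map_mul' := fun x y => rfl }
    refine isCyclic_of_injective f ?_
    intro x y hxy
    have h1 : ((x : ↥L) : X) = ((y : ↥L) : X) :=
      congrArg (fun z : ↥(H ⊓ Subgroup.centralizer (E : Set X)) => (z : X)) hxy
    exact Subtype.ext (Subtype.ext h1)
  · rw [frob_sub_card' L E hE]
    exact h.hprime

theorem frob_cyc_transfer (L U H : Subgroup X) (hU : U ≤ L) (hH : H ≤ L)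
    (hc : ⁅U.subgroupOf L, U.subgroupOf L⁆ ≤
      Subgroup.centralizer ((H.subgroupOf L : Subgroup ↥L) : Set ↥L)) :
    ⁅U, U⁆ ≤ Subgroup.centralizer (H : Set X) := by
  rw [Subgroup.commutator_le] at hc ⊢
  intro g₁ hg₁ g₂ hg₂
  rw [Subgroup.mem_centralizer_iff]
  intro m hm
  have h1 := hc ⟨g₁, hU hg₁⟩ (Subgroup.mem_subgroupOf.mpr hg₁) ⟨g₂, hU hg₂⟩
    (Subgroup.mem_subgroupOf.mpr hg₂)
  have h2 := (Subgroup.mem_centralizer_iff.mp h1) ⟨m, hH hm⟩ (Subgroup.mem_subgroupOf.mpr hm)
  exact congrArg Subtype.val h2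

theorem frob_quot_cent {U E H : Subgroup X} (N : Subgroup X) [N.Normal] (h : FrobHyp U E H)
    (hNH : N ≤ H) (B : Subgroup X) (hB : B ≤ U ⊔ E) :
    H.map (QuotientGroup.mk' N) ⊓
      Subgroup.centralizer ((B.map (QuotientGroup.mk' N) : Subgroup (X ⧸ N)) : Set (X ⧸ N)) =
      (H ⊓ Subgroup.centralizer (B : Set X)).map (QuotientGroup.mk' N) := by
  have hcop : (Nat.card B).Coprime (Nat.card N) :=
    (Nat.Coprime.coprime_dvd_left (Subgroup.card_dvd_of_le hNH)
      (Nat.Coprime.coprime_dvd_right (Subgroup.card_dvd_of_le hB) h.hcop)).symm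
  have hsolvN : Group.IsSolvable ↥N := Cfsg.Agent.Lib.Helper1.isSolvable_of_le' hNH h.hsolv
  apply le_antisymm
  · rintro _ ⟨⟨k, hk, rfl⟩, hC0⟩
    have hC := Subgroup.mem_centralizer_iff.mp hC0
    have hx : ∀ a ∈ B, k⁻¹ * (a * k * a⁻¹) ∈ N := by
      intro a ha
      have h1 := hC (QuotientGroup.mk' N a) ⟨a, ha, rfl⟩
      rw [← QuotientGroup.eq_one_iff]
      have h2 : ((a * k : X) : X ⧸ N) = ((k * a : X) : X ⧸ N) := h1
      have e2 : k⁻¹ * (a * k * a⁻¹) = k⁻¹ * ((a * k) * a⁻¹) := by group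
      rw [e2, QuotientGroup.mk_mul, QuotientGroup.mk_mul, h2, QuotientGroup.mk_mul,
        QuotientGroup.mk_inv, QuotientGroup.mk_inv]
      group
    obtain ⟨d, hd, hkd⟩ := Cfsg.Agent.Lib.Helper1.coprime_coset_fixed
      (A := B) (D := N) (by rw [Subgroup.normalizer_eq_top]; exact le_top) hcop
      (Or.inr hsolvN) k hx
    refine ⟨k * d, ⟨H.mul_mem hk (hNH hd), hkd⟩, ?_⟩
    show ((k * d : X) : X ⧸ N) = ((k : X) : X ⧸ N)
    rw [QuotientGroup.mk_mul, (QuotientGroup.eq_one_iff d).mpr hd, mul_one]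
  · rintro _ ⟨k, ⟨hk, hC⟩, rfl⟩
    refine ⟨⟨k, hk, rfl⟩, Subgroup.mem_centralizer_iff.mpr ?_⟩
    rintro _ ⟨a, ha, rfl⟩
    have h1 := (Subgroup.mem_centralizer_iff.mp hC) a ha
    show ((a : X) : X ⧸ N) * ((k : X) : X ⧸ N) = ((k : X) : X ⧸ N) * ((a : X) : X ⧸ N)
    rw [← QuotientGroup.mk_mul, ← QuotientGroup.mk_mul, h1]

theorem frob_cyc_quot_hyp {U E H : Subgroup X} (N : Subgroup X) [N.Normal]
    (h : FrobCycHyp U E H) (hNH : N ≤ H) :
    FrobCycHyp (U.map (QuotientGroup.mk' N)) (E.map (QuotientGroup.mk' N))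
      (H.map (QuotientGroup.mk' N)) := by
  refine ⟨frob_quot_hyp N h.hyp hNH, ?_, ?_, ?_⟩
  · apply Subgroup.eq_bot_of_card_eq
    have h1 := frob_quot_card N h.hyp hNH U le_sup_left
    rw [h.hCU, Subgroup.card_bot] at h1
    exact Nat.eq_one_of_mul_eq_one_right h1
  · rw [frob_quot_cent N h.hyp hNH E le_sup_right]
    haveI := h.hcyc
    exact isCyclic_of_surjective
      ((QuotientGroup.mk' N).subgroupMap (H ⊓ Subgroup.centralizer (E : Set X)))
      ((QuotientGroup.mk' N).subgroupMap_surjective _)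
  · have hNE : N ⊓ E = ⊥ :=
      (Subgroup.disjoint_of_coprime_natCard
        (Nat.Coprime.coprime_dvd_left (Subgroup.card_dvd_of_le hNH)
          (Nat.Coprime.coprime_dvd_right (Subgroup.card_dvd_of_le le_sup_right)
            h.hyp.hcop))).eq_bot
    have h1 := frob_card_map_ker (QuotientGroup.mk' N) E
    rw [QuotientGroup.ker_mk', inf_comm, hNE, Subgroup.card_bot, mul_one] at h1
    rw [h1]
    exact h.hprime

/-- if the kernel of a Frobenius group acts coprimely on a solvable group `H` without fixed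
points, the complement has prime order and cyclic fixed points, then the derived subgroup of
the kernel centralizes `H`. -/
theorem frob_cyc_main : ∀ (n : ℕ) (X : Type u) [Group X] [Finite X] (U E H : Subgroup X),
    Nat.card H = n → FrobCycHyp U E H → ⁅U, U⁆ ≤ Subgroup.centralizer (H : Set X) := by
  intro n
  induction n using Nat.strong_induction_on with
  | _ n ih =>
    intro X _ _ U E H hn hyp
    have hU : U ≤ H ⊔ (U ⊔ E) := le_sup_left.trans le_sup_right
    have hE : E ≤ H ⊔ (U ⊔ E) := le_sup_right.trans le_sup_right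
    have hH : H ≤ H ⊔ (U ⊔ E) := le_sup_left
    apply frob_cyc_transfer (H ⊔ (U ⊔ E)) U H hU hH
    have hyp' := frob_cyc_transfer_hyp (H ⊔ (U ⊔ E)) U E H hU hE hH hyp
    have hcard' : Nat.card ↥(H.subgroupOf (H ⊔ (U ⊔ E))) = n := by
      rw [frob_sub_card' _ H hH, hn]
    have hnorm : H ⊔ (U ⊔ E) ≤ Subgroup.normalizer (H : Set X) := by
      apply sup_le Subgroup.le_normalizer
      intro x hx
      rw [Subgroup.mem_normalizer_iff]
      intro k
      constructor
      · exact hyp.hyp.hHn x hx k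
      · intro hk
        have h1 := hyp.hyp.hHn x⁻¹ (Subgroup.inv_mem _ hx) _ hk
        have e1 : x⁻¹ * (x * k * x⁻¹) * x⁻¹⁻¹ = k := by group
        rwa [e1] at h1
    haveI hnormal : (H.subgroupOf (H ⊔ (U ⊔ E))).Normal :=
      Subgroup.normal_subgroupOf_of_le_normalizer hnorm
    generalize H.subgroupOf (H ⊔ (U ⊔ E)) = H' at hyp' hcard' hnormal ⊢
    generalize U.subgroupOf (H ⊔ (U ⊔ E)) = U' at hyp' ⊢
    generalize E.subgroupOf (H ⊔ (U ⊔ E)) = E' at hyp' ⊢
    by_cases hab : ∀ a ∈ H', ∀ b ∈ H', a * b = b * a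
    · exact frob_cyc_abelian U' E' H' hab hyp'
    · haveI := hyp'.hyp.hsolv
      have hNH : ⁅H', H'⁆ ≤ H' := Subgroup.commutator_le_right H' H'
      have hNbot : ⁅H', H'⁆ ≠ ⊥ := by
        intro h0
        rw [Subgroup.commutator_eq_bot_iff_le_centralizer] at h0
        apply hab
        intro a ha b hb
        exact ((Subgroup.mem_centralizer_iff.mp (h0 ha)) b hb).symm
      have hH'bot : H' ≠ ⊥ := by
        intro h0
        apply hNbot
        rw [eq_bot_iff, ← h0]
        exact hNH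
      have hNne : ⁅H', H'⁆ ≠ H' := by
        intro h0
        haveI : Nontrivial ↥H' := (Subgroup.nontrivial_iff_ne_bot H').mpr hH'bot
        have h1 := Group.IsSolvable.commutator_lt_top_of_nontrivial ↥H'
        apply h1.ne
        apply Subgroup.map_injective H'.subtype_injective
        rw [Subgroup.map_subtype_commutator, h0, ← MonoidHom.range_eq_map, Subgroup.range_subtype]
      have hN2 : 2 ≤ Nat.card ↥⁅H', H'⁆ := (Subgroup.one_lt_card_iff_ne_bot _).mpr hNbot
      have hNlt : Nat.card ↥⁅H', H'⁆ < n := by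
        rw [← hcard']
        exact lt_of_le_of_ne (Subgroup.card_le_of_le hNH)
          (fun h0 => hNne (Subgroup.eq_of_le_of_card_ge hNH h0.ge))
      have hypN : FrobCycHyp U' E' ⁅H', H'⁆ :=
        { hyp :=
            { hUn := hyp'.hyp.hUn
              hfpf := hyp'.hyp.hfpf
              hHn := fun x _ k hk => Subgroup.Normal.conj_mem inferInstance k hk x
              hsolv := Cfsg.Agent.Lib.Helper1.isSolvable_of_le' hNH hyp'.hyp.hsolv
              hcop := Nat.Coprime.coprime_dvd_left (Subgroup.card_dvd_of_le hNH) hyp'.hyp.hcop }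
          hCU := by
            rw [eq_bot_iff, ← hyp'.hCU]
            exact inf_le_inf_right _ hNH
          hcyc := by
            haveI := hyp'.hcyc
            exact isCyclic_of_injective (Subgroup.inclusion (inf_le_inf_right _ hNH))
              (Subgroup.inclusion_injective _)
          hprime := hyp'.hprime }
      have cN := ih _ hNlt _ U' E' ⁅H', H'⁆ rfl hypN
      have hypQ := frob_cyc_quot_hyp ⁅H', H'⁆ hyp' hNH
      have qH := frob_quot_cardH ⁅H', H'⁆ hNH
      have hQlt : Nat.card ↥(H'.map (QuotientGroup.mk' ⁅H', H'⁆)) < n := by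
        rw [← hcard', ← qH]
        have hpos : 0 < Nat.card ↥(H'.map (QuotientGroup.mk' ⁅H', H'⁆)) := Nat.card_pos
        nlinarith
      have cQ := ih _ hQlt _ _ _ _ rfl hypQ
      rw [← Subgroup.map_commutator] at cQ
      -- combine
      intro d hd
      rw [Subgroup.mem_centralizer_iff]
      intro m hm
      have hdN := cN hd
      have hdU : d ∈ U' ⊔ E' := by
        have h1 : ⁅U', U'⁆ ≤ U' ⊔ E' := by
          rw [Subgroup.commutator_le]
          intro g₁ hg₁ g₂ hg₂
          rw [commutatorElement_def]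
          exact Subgroup.mul_mem _ (Subgroup.mul_mem _ (Subgroup.mul_mem _
            (Subgroup.mem_sup_left hg₁) (Subgroup.mem_sup_left hg₂))
            (Subgroup.inv_mem _ (Subgroup.mem_sup_left hg₁)))
            (Subgroup.inv_mem _ (Subgroup.mem_sup_left hg₂))
        exact h1 hd
      -- n₀ := m⁻¹ * (d * m * d⁻¹) ∈ N
      have hn₀ : m⁻¹ * (d * m * d⁻¹) ∈ ⁅H', H'⁆ := by
        have h1 := (Subgroup.mem_centralizer_iff.mp (cQ ⟨d, hd, rfl⟩))
          (QuotientGroup.mk' ⁅H', H'⁆ m) ⟨m, hm, rfl⟩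
        rw [← QuotientGroup.eq_one_iff]
        have h2 : ((m * d : _) : _ ⧸ ⁅H', H'⁆) = ((d * m : _) : _ ⧸ ⁅H', H'⁆) := h1
        have e2 : m⁻¹ * (d * m * d⁻¹) = m⁻¹ * ((d * m) * d⁻¹) := by group
        rw [e2, QuotientGroup.mk_mul, QuotientGroup.mk_mul, ← h2, QuotientGroup.mk_mul,
          QuotientGroup.mk_inv, QuotientGroup.mk_inv]
        group
      have hdn : d * (m⁻¹ * (d * m * d⁻¹)) = (m⁻¹ * (d * m * d⁻¹)) * d :=
        ((Subgroup.mem_centralizer_iff.mp hdN) _ hn₀).symm
      have hpow : ∀ k : ℕ, d ^ k * m * (d ^ k)⁻¹ = m * (m⁻¹ * (d * m * d⁻¹)) ^ k := by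
        intro k
        induction k with
        | zero => simp
        | succ k ihk =>
          have e3 : d ^ (k + 1) * m * (d ^ (k + 1))⁻¹ = d * (d ^ k * m * (d ^ k)⁻¹) * d⁻¹ := by
            rw [pow_succ']; group
          have hcomm : Commute d (m⁻¹ * (d * m * d⁻¹)) := hdn
          have e4 : d * (m⁻¹ * (d * m * d⁻¹)) ^ k = (m⁻¹ * (d * m * d⁻¹)) ^ k * d :=
            (hcomm.pow_right k).eq
          rw [e3, ihk, pow_succ']
          generalize (m⁻¹ * (d * m * d⁻¹)) ^ k = N₀ at e4 ⊢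
          have e5 : N₀ * d⁻¹ = d⁻¹ * N₀ := by
            have h0 := congrArg (fun z => d⁻¹ * z * d⁻¹) e4
            simp only [mul_assoc, inv_mul_cancel_left, mul_inv_cancel, mul_one] at h0
            exact h0
          calc d * (m * N₀) * d⁻¹ = d * m * (N₀ * d⁻¹) := by simp only [mul_assoc]
            _ = d * m * (d⁻¹ * N₀) := by rw [e5]
            _ = m * (m⁻¹ * (d * m * d⁻¹) * N₀) := by
              simp only [mul_assoc, mul_inv_cancel_left]
      have h5 := hpow (orderOf d)
      rw [pow_orderOf_eq_one, one_mul, inv_one, mul_one] at h5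
      have h6 : (m⁻¹ * (d * m * d⁻¹)) ^ orderOf d = 1 := by
        have := congrArg (fun z => m⁻¹ * z) h5
        simpa using this.symm
      have h7 : orderOf (m⁻¹ * (d * m * d⁻¹)) ∣ orderOf d := orderOf_dvd_of_pow_eq_one h6
      have h8 : orderOf d ∣ Nat.card ↥(U' ⊔ E') := Subgroup.orderOf_dvd_natCard _ hdU
      have h9 : orderOf (m⁻¹ * (d * m * d⁻¹)) ∣ Nat.card ↥H' :=
        Subgroup.orderOf_dvd_natCard _ (hNH hn₀)
      have h10 : orderOf (m⁻¹ * (d * m * d⁻¹)) ∣ 1 := by
        have := Nat.dvd_gcd h9 (h7.trans h8)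
        rwa [Nat.Coprime.gcd_eq_one hyp'.hyp.hcop] at this
      have h11 : m⁻¹ * (d * m * d⁻¹) = 1 := orderOf_eq_one_iff.mp (Nat.dvd_one.mp h10)
      have h12 : d * m * d⁻¹ = m := by
        have := congrArg (fun z => m * z) h11
        simpa using this
      calc m * d = (d * m * d⁻¹) * d := by rw [h12]
        _ = d * m := by group

end frobCycGrp2

end Cfsg.Agent.Lib.Helper26
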