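import Mathlib
import Cfsg.Agent.Lib.Helper26.FunctorNpc

/-!
# Sections of a fixed group as a class, and transport of the local hypothesis along isomorphisms
-/

set_option autoImplicit false

namespace Cfsg.Agent.Lib.Helper26

open Cfsg

universe u

section sect

variable {G : Type u} [Group G]

/-- `X` is (isomorphic to) a section of `G`: a homomorphic image of a subgroup of `G`. -/
def IsSect (G : Type u) [Group G] (X : Type u) [Group X] : Prop :=
  ∃ (K : Subgroup G) (f : ↥K →* X), Function.Surjective f

theorem isSect_self : IsSect G G :=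
  ⟨⊤, (⊤ : Subgroup G).subtype, fun g => ⟨⟨g, Subgroup.mem_top g⟩, rfl⟩⟩

theorem IsSect.quot {X : Type u} [Group X] (h : IsSect G X) (N : Subgroup X) [N.Normal] :
    IsSect G (X ⧸ N) := by
  obtain ⟨K, f, hf⟩ := h
  exact ⟨K, (QuotientGroup.mk' N).comp f, (QuotientGroup.mk'_surjective N).comp hf⟩

theorem IsSect.sub {X : Type u} [Group X] (h : IsSect G X) (K' : Subgroup X) :
    IsSect G ↥K' := by
  obtain ⟨K, f, hf⟩ := h
  refine ⟨(K'.comap f).map K.subtype,
    (f.subgroupComap K').comp
      ((K'.comap f).equivMapOfInjective K.subtype K.subtype_injective).symm.toMonoidHom, ?_⟩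
  exact (f.subgroupComap_surjective_of_surjective K' hf).comp
    ((K'.comap f).equivMapOfInjective K.subtype K.subtype_injective).symm.surjective

/-- a section is isomorphic to a literal section `K / R`. -/
theorem IsSect.exists_equiv {X : Type u} [Group X] (h : IsSect G X) :
    ∃ (K R : Subgroup G) (hR : (R.subgroupOf K).Normal),
      Nonempty ((↥K ⧸ R.subgroupOf K) ≃* X) := by
  obtain ⟨K, f, hf⟩ := h
  have hker : (f.ker.map K.subtype).subgroupOf K = f.ker :=
    Subgroup.comap_map_eq_self_of_injective K.subtype_injective _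
  have hn : ((f.ker.map K.subtype).subgroupOf K).Normal := by rw [hker]; infer_instance
  exact ⟨K, f.ker.map K.subtype, hn,
    ⟨(QuotientGroup.quotientMulEquivOfEq hker).trans
      (QuotientGroup.quotientKerEquivOfSurjective f hf)⟩⟩

end sect

section transport

variable {p : ℕ} [Fact p.Prime]

omit [Fact p.Prime] in
theorem pCore_map_mulEquiv {X₁ X : Type u} [Group X₁] [Group X] (ε : X ≃* X₁) :
    (pCore p X).map ε.toMonoidHom = pCore p X₁ := by
  apply le_antisymm
  · rw [Subgroup.map_le_iff_le_comap]
    apply sSup_le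
    rintro N ⟨hN1, hN2⟩
    rw [← Subgroup.map_le_iff_le_comap]
    exact le_sSup ⟨hN1.map _ ε.surjective, hN2.map _⟩
  · apply sSup_le
    rintro N ⟨hN1, hN2⟩
    have h1 : N = (N.comap ε.toMonoidHom).map ε.toMonoidHom :=
      (Subgroup.map_comap_eq_self_of_surjective ε.surjective N).symm
    rw [h1]
    apply Subgroup.map_mono
    exact le_sSup ⟨hN1.comap _, hN2.comap_of_injective _ ε.injective⟩

/-- Transport of the local hypothesis (in the shape used in the statements, without the extra
assumptions) along an isomorphism. -/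
theorem locHyp_transport {W : ∀ (Q : Type u) [Group Q], Subgroup Q}
    (hW : IsCharPFunctor.{u} p W) {X₁ X : Type u} [Group X₁] [Group X] [Finite X] [Finite X₁]
    (e : X₁ ≃* X)
    (h₁ : Subgroup.centralizer (pCore p X₁ : Set X₁) ≤ pCore p X₁ →
      HasNormalPComplement p (X₁ ⧸ pCore p X₁) → ¬ HasNormalPComplement p X₁ →
      ∀ T : Sylow p X₁, IsCoatom (T : Subgroup X₁) →
        (inducedFunctor W (T : Subgroup X₁)).Normal) :
    LocHyp p W X := by
  intro _ hc hnpc hnot T hT
  have hcore := pCore_map_mulEquiv (p := p) e.symm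
  have hc₁ : Subgroup.centralizer (pCore p X₁ : Set X₁) ≤ pCore p X₁ := by
    intro x₁ hx₁
    rw [← hcore]
    refine ⟨e x₁, hc ?_, e.symm_apply_apply x₁⟩
    rw [Subgroup.mem_centralizer_iff]
    intro y hy
    have hy₁ : e.symm y ∈ pCore p X₁ := by
      rw [← hcore]; exact Subgroup.mem_map_of_mem _ hy
    have h2 := Subgroup.mem_centralizer_iff.mp hx₁ _ hy₁
    apply e.symm.injective
    rw [map_mul, map_mul, e.symm_apply_apply]
    exact h2
  have hle : pCore p X ≤ (pCore p X₁).comap e.symm.toMonoidHom := by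
    rw [← Subgroup.map_le_iff_le_comap, hcore]
  have hnpc₁ : HasNormalPComplement p (X₁ ⧸ pCore p X₁) := by
    apply hasNPC_of_npc
    refine Npc.of_surjective (QuotientGroup.map (pCore p X) (pCore p X₁) e.symm.toMonoidHom hle)
      ?_ (npc_of_hasNPC hnpc)
    intro y₁
    obtain ⟨x₁, rfl⟩ := QuotientGroup.mk_surjective y₁
    refine ⟨QuotientGroup.mk (e x₁), ?_⟩
    rw [QuotientGroup.map_mk]
    congr 1
    exact e.symm_apply_apply x₁
  have hnot₁ : ¬ HasNormalPComplement p X₁ := by
    intro h
    apply hnot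
    exact hasNPC_of_npc (Npc.of_surjective e.toMonoidHom e.surjective (npc_of_hasNPC h))
  have hcardT : Nat.card ((T : Subgroup X).map e.symm.toMonoidHom) =
      p ^ (Nat.card X₁).factorization p := by
    rw [Subgroup.card_map_of_injective e.symm.injective, Nat.card_congr e.toEquiv]
    exact T.card_eq_multiplicity
  have hcoat : IsCoatom ((Sylow.ofCard _ hcardT : Sylow p X₁) : Subgroup X₁) := by
    rw [Sylow.coe_ofCard]
    exact (e.symm.mapSubgroup.isCoatom_iff (T : Subgroup X)).mpr hT
  have h3 := h₁ hc₁ hnpc₁ hnot₁ (Sylow.ofCard _ hcardT) hcoat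
  rw [Sylow.coe_ofCard, ind_map hW e.symm.toMonoidHom _ T.isPGroup'
    (fun u _ hu => e.symm.injective (by rw [map_one]; exact hu))] at h3
  have h4 : inducedFunctor W (T : Subgroup X) =
      ((inducedFunctor W (T : Subgroup X)).map e.symm.toMonoidHom).comap e.symm.toMonoidHom :=
    (Subgroup.comap_map_eq_self_of_injective e.symm.injective _).symm
  rw [h4]
  exact h3.comap _

end transport

end Cfsg.Agent.Lib.Helper26
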