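import Mathlib
import Cfsg.Prelude.Def_LocalEven
import Cfsg.Agent.Lib.Helper26.FunctorMin
import Cfsg.Agent.Lib.Helper26.FunctorSect

/-!
# Control of strong fusion by `W(T)` in the minimal configuration forces `W(T)` to be normal
-/

set_option autoImplicit false

namespace Cfsg.Agent.Lib.Helper26

open Cfsg

universe u

section fusion

variable {p : ℕ} [Fact p.Prime] {W : ∀ (Q : Type u) [Group Q], Subgroup Q}

/-- If `W(T)` controls strong fusion and the Sylow subgroup `T` is a maximal subgroup of `X`,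
where `X` has no normal `p`-complement, then `W(T)` is normal in `X`. -/
theorem ind_normal_of_controlsStrongFusion (hW : IsCharPFunctor.{u} p W) {X : Type u} [Group X]
    [Finite X] (T : Sylow p X) (hT : IsCoatom (T : Subgroup X))
    (hnot : ¬ HasNormalPComplement p X)
    (hcs : ControlsStrongFusion p (inducedFunctor W (T : Subgroup X))) :
    (inducedFunctor W (T : Subgroup X)).Normal := by
  obtain ⟨U, hU⟩ : ∃ U : Subgroup X, U = inducedFunctor W (T : Subgroup X) := ⟨_, rfl⟩
  rw [← hU] at hcs ⊢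
  have hTN : (T : Subgroup X) ≤ Subgroup.normalizer (U : Set X) := by
    rw [hU]
    exact Subgroup.le_normalizer.trans (normalizer_le_normalizer_ind hW T.isPGroup')
  by_cases hN : Subgroup.normalizer (U : Set X) = ⊤
  · exact Subgroup.normalizer_eq_top_iff.mp hN
  exfalso
  have hNT : Subgroup.normalizer (U : Set X) = (T : Subgroup X) := by
    by_contra hne
    exact hN (hT.2 _ (lt_of_le_of_ne hTN (Ne.symm hne)))
  obtain ⟨T', hUT', hctl⟩ := hcs
  obtain ⟨y, rfl⟩ := MulAction.exists_smul_eq X T T'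
  have hcoe : ((y • T : Sylow p X) : Subgroup X) =
      (T : Subgroup X).map (MulAut.conj y).toMonoidHom :=
    Cfsg.Agent.Lib.Helper14.sylow_smul_coe_eq_map y T
  have hW' : inducedFunctor W ((y • T : Sylow p X) : Subgroup X) =
      U.map (MulAut.conj y).toMonoidHom := by
    rw [hcoe, ind_conj hW y _ T.isPGroup', hU]
  have hconj : ∀ u : X, y⁻¹ * ((MulAut.conj y).toMonoidHom u) * y⁻¹⁻¹ = u := by
    intro u
    show y⁻¹ * (y * u * y⁻¹) * y⁻¹⁻¹ = u
    group
  have hsub : ((inducedFunctor W ((y • T : Sylow p X) : Subgroup X) : Subgroup X) : Set X) ⊆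
      (((y • T : Sylow p X) : Subgroup X) : Set X) := ind_le _
  obtain ⟨-, h2⟩ := hctl _ hsub
  obtain ⟨x, hx, hxa⟩ := h2 y⁻¹ (by
    rintro _ ⟨a, ha, rfl⟩
    rw [SetLike.mem_coe, hW'] at ha
    obtain ⟨u, hu, rfl⟩ := ha
    apply hUT'
    show y⁻¹ * ((MulAut.conj y).toMonoidHom u) * y⁻¹⁻¹ ∈ U
    rw [hconj]
    exact hu)
  have hle : U.map (MulAut.conj y).toMonoidHom ≤ U := by
    rintro _ ⟨u, hu, rfl⟩
    have ha : (MulAut.conj y).toMonoidHom u ∈
        inducedFunctor W ((y • T : Sylow p X) : Subgroup X) := by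
      rw [hW']; exact Subgroup.mem_map_of_mem _ hu
    have h3 := hxa _ ha
    rw [hconj] at h3
    have h4 : (MulAut.conj y).toMonoidHom u = x⁻¹ * u * x := by
      obtain ⟨c, hc⟩ : ∃ c : X, c = (MulAut.conj y).toMonoidHom u := ⟨_, rfl⟩
      rw [← hc] at h3 ⊢
      rw [h3]; group
    rw [h4]
    have hx' : x⁻¹ ∈ Subgroup.normalizer (U : Set X) := inv_mem hx
    have h5 := (Subgroup.mem_normalizer_iff.mp hx' u).mp hu
    rwa [inv_inv] at h5
  have heq : U.map (MulAut.conj y).toMonoidHom = U :=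
    Subgroup.eq_of_le_of_card_ge hle
      (by rw [Subgroup.card_map_of_injective (MulAut.conj y).injective])
  have hT'N : ((y • T : Sylow p X) : Subgroup X) ≤ (T : Subgroup X) := by
    rw [← hNT]
    have h6 := Subgroup.le_normalizer.trans
      (normalizer_le_normalizer_ind (W := W) hW (y • T : Sylow p X).isPGroup')
    rw [hW', heq] at h6
    exact h6
  have hTT' : ((y • T : Sylow p X) : Subgroup X) = (T : Subgroup X) :=
    Subgroup.eq_of_le_of_card_ge hT'N
      (by rw [Sylow.card_eq_multiplicity, Sylow.card_eq_multiplicity])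
  apply hnot
  have hFC : Cfsg.Agent.Lib.Helper2.FusionControl T := by
    intro a ha g hga
    have hA : ({a} : Set X) ⊆ (((y • T : Sylow p X) : Subgroup X) : Set X) := by
      rw [hTT']
      intro b hb
      rw [Set.mem_singleton_iff] at hb
      rw [hb]; exact ha
    obtain ⟨-, h5⟩ := hctl _ hA
    obtain ⟨n, hn, hna⟩ := h5 g (by
      rintro _ ⟨b, hb, rfl⟩
      rw [Set.mem_singleton_iff] at hb
      rw [hb, hTT']
      exact hga)
    rw [hNT] at hn
    exact ⟨n, hn, (hna a rfl).symm⟩
  exact ⟨T, Cfsg.pResidual p X, Cfsg.Agent.Lib.Helper2.pResidual_normal p,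
    Cfsg.Agent.Lib.Helper2.isComplement'_pResidual_of_fusionControl T hFC⟩

end fusion

end Cfsg.Agent.Lib.Helper26
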