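import Mathlib
import Cfsg.Agent.Lib.Helper26.Gross2DefsC
import Cfsg.Agent.Lib.Helper26.FpfBasic
import Cfsg.Agent.Lib.Helper31.GrossChain
import Cfsg.Agent.Lib.Helper97.Gross2Inv

/-!
# Gross's theorem for `p = 2` (S3795): piece CARD2 (reduction of `Card2Stmt` to the abelian core)
-/

set_option autoImplicit false
set_option linter.unusedSectionVars false
set_option linter.style.haveILetI false
open scoped commutatorElement

namespace Cfsg.Agent.Lib.Helper26.Gross2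

open Cfsg.Agent.Lib.Helper26
open Cfsg.Agent.Lib.Helper97

universe u

/-- piece CARD2 -/
theorem gross2_card2_of_core (hC : Card2CoreStmt.{u}) : Card2Stmt.{u} := by
  intro Γ _ _ ℓ n P φ hInv k _ χ R hχ hRP N a hNa ha1 hχN hle
  classical
  have hc2 := hInv.hc2
  obtain ⟨t₀, ht₀⟩ : ∃ t₀, t₀ = φ ^ N := ⟨_, rfl⟩
  rw [← ht₀] at hχN
  have ht₀z : t₀ ∈ Subgroup.zpowers φ := by
    rw [ht₀]
    exact Subgroup.pow_mem _ (Subgroup.mem_zpowers φ) N
  have ht₀a : t₀ ^ a = 1 := by rw [ht₀, ← pow_mul, hNa, hInv.hφ]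
  have hN0 : 0 < N := by
    rcases Nat.eq_zero_or_pos N with h0 | h0
    · rw [h0, zero_mul] at hNa
      have := pow_pos (show 0 < 2 by norm_num) (n + 1)
      omega
    · exact h0
  have hpz : ∀ i : ℕ, t₀ ^ i ∈ Subgroup.zpowers φ := fun i => Subgroup.pow_mem _ ht₀z i
  have hn1 : ∀ x ∈ P, t₀ * x * t₀⁻¹ ∈ P := Gross2Inv.inv_zpow_norm hInv ht₀z
  have hn1' : ∀ x ∈ P, t₀⁻¹ * x * t₀ ∈ P := Gross2Inv.inv_zpow_norm' hInv ht₀z
  have hZn : ∀ z ∈ P ⊓ Subgroup.centralizer (P : Set Γ),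
      t₀ * z * t₀⁻¹ ∈ P ⊓ Subgroup.centralizer (P : Set Γ) := by
    intro z hz
    obtain ⟨hzP, hzc⟩ := Subgroup.mem_inf.mp hz
    refine Subgroup.mem_inf.mpr ⟨hn1 z hzP, ?_⟩
    rw [Subgroup.mem_centralizer_iff]
    intro w hw
    have h1 := Subgroup.mem_centralizer_iff.mp hzc _ (hn1' w hw)
    have e1 : w * (t₀ * z * t₀⁻¹) = t₀ * ((t₀⁻¹ * w * t₀) * z) * t₀⁻¹ := by group
    have e2 : t₀ * z * t₀⁻¹ * w = t₀ * (z * (t₀⁻¹ * w * t₀)) * t₀⁻¹ := by group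
    rw [e1, e2, h1]
  have hχi : ∀ i : ℕ, ∀ z ∈ P ⊓ Subgroup.centralizer (P : Set Γ),
      χ (t₀ ^ i * z * (t₀ ^ i)⁻¹) = χ z ∧
        t₀ ^ i * z * (t₀ ^ i)⁻¹ ∈ P ⊓ Subgroup.centralizer (P : Set Γ) := by
    intro i
    induction i with
    | zero =>
      intro z hz
      simpa using hz
    | succ i ih =>
      intro z hz
      obtain ⟨h1, h2⟩ := ih z hz
      have e : t₀ ^ (i + 1) * z * (t₀ ^ (i + 1))⁻¹ = t₀ * (t₀ ^ i * z * (t₀ ^ i)⁻¹) * t₀⁻¹ := by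
        rw [pow_succ']
        group
      rw [e]
      exact ⟨(hχN _ h2).trans h1, hZn _ h2⟩
  have hRn : ∀ i : ℕ, ∀ x ∈ R, t₀ ^ i * x * (t₀ ^ i)⁻¹ ∈ R := fun i =>
    Gross2Inv.chi_norm hInv hχ (hpz i) (fun z hz => (hχi i z hz).1)
  have hR1 : ∀ x ∈ R, t₀ * x * t₀⁻¹ ∈ R := Gross2Inv.chi_norm hInv hχ ht₀z hχN
  have hord := Gross2Inv.inv_ord hInv
  have hne : ∀ i, 0 < i → i < a → t₀ ^ i ≠ 1 := by
    intro i hi hia h1
    rw [ht₀, ← pow_mul] at h1
    have h2 := orderOf_dvd_of_pow_eq_one h1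
    rw [hord, ← hNa] at h2
    have h3 := Nat.le_of_dvd (Nat.mul_pos hN0 hi) h2
    have h4 : N * i < N * a := Nat.mul_lt_mul_of_pos_left hia hN0
    omega
  have hRP' : R ≤ P := hχ.le
  -- the pairing
  have hχmul := hχ.hmul
  have hcc : ∀ {x y : Γ}, x ∈ P → y ∈ P → ⁅x, y⁆ ∈ P ⊓ Subgroup.centralizer (P : Set Γ) :=
    fun hx hy => Gross2Inv.comm_mem_center hc2 hx hy
  have hbl : ∀ x ∈ P, ∀ x' ∈ P, ∀ y ∈ P, χ ⁅x * x', y⁆ = χ ⁅x, y⁆ * χ ⁅x', y⁆ := by
    intro x hx x' hx' y hy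
    rw [Gross2Inv.comm_mul_left hc2 hx hx' hy, hχmul _ (hcc hx hy) _ (hcc hx' hy)]
  have hbr : ∀ x ∈ P, ∀ y ∈ P, ∀ y' ∈ P, χ ⁅x, y * y'⁆ = χ ⁅x, y⁆ * χ ⁅x, y'⁆ := by
    intro x hx y hy y' hy'
    rw [Gross2Inv.comm_mul_right hc2 hx hy hy', hχmul _ (hcc hx hy) _ (hcc hx hy')]
  have hbanti : ∀ x ∈ P, ∀ y ∈ P, χ ⁅x, y⁆ * χ ⁅y, x⁆ = 1 := by
    intro x hx y hy
    rw [← hχmul _ (hcc hx hy) _ (hcc hy hx), ← commutatorElement_inv x y, mul_inv_cancel, hχ.h1]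
  have hbRl : ∀ r ∈ R, ∀ y ∈ P, χ ⁅r, y⁆ = 1 := fun r hr y hy => ((hχ.hR r).mp hr).2 y hy
  have hbRr : ∀ x ∈ P, ∀ r ∈ R, χ ⁅x, r⁆ = 1 := by
    intro x hx r hr
    have h1 := hbanti x hx r (hRP' hr)
    rw [hbRl r hr x hx, mul_one] at h1
    exact h1
  -- normality of `R` in `P`
  haveI hNn : (R.subgroupOf P).Normal := by
    constructor
    intro x hx g
    rw [Subgroup.mem_subgroupOf] at hx ⊢
    have e : ((g * x * g⁻¹ : ↥P) : Γ) = ⁅(g : Γ), (x : Γ)⁆ * x := by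
      rw [commutatorElement_def]
      simp only [Subgroup.coe_mul, Subgroup.coe_inv]
      group
    rw [e]
    refine R.mul_mem (hχ.center_le _ (Gross2Inv.comm_mem g.2 x.2) ?_) hx
    intro w hw
    exact hc2 _ g.2 _ x.2 w hw
  -- the automorphism
  have hmemN : t₀ ∈ Subgroup.normalizer (P : Set Γ) := by
    intro x
    refine ⟨fun hx => hn1 x hx, fun hx => ?_⟩
    have h1 := hn1' _ hx
    have e : t₀⁻¹ * (t₀ * x * t₀⁻¹) * t₀ = x := by group
    rwa [e] at h1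
  obtain ⟨e₀, he₀⟩ : ∃ e₀ : MulAut ↥P, e₀ = conjQ P ⟨t₀, hmemN⟩ := ⟨_, rfl⟩
  have hei : ∀ (i : ℕ) (x : ↥P), (((e₀ ^ i) x : ↥P) : Γ) = t₀ ^ i * x * (t₀ ^ i)⁻¹ := by
    intro i x
    rw [he₀, ← map_pow, conjQ_apply]
    rfl
  have he1 : ∀ x : ↥P, ((e₀ x : ↥P) : Γ) = t₀ * x * t₀⁻¹ := by
    intro x
    rw [he₀, conjQ_apply]
  have hmap : (R.subgroupOf P).map (e₀ : ↥P →* ↥P) = R.subgroupOf P := by
    apply Subgroup.eq_of_le_of_card_ge
    · rintro _ ⟨x, hx, rfl⟩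
      have hx' : (x : Γ) ∈ R := Subgroup.mem_subgroupOf.mp hx
      apply Subgroup.mem_subgroupOf.mpr
      have : ((e₀ : ↥P →* ↥P) x : Γ) = t₀ * x * t₀⁻¹ := he1 x
      rw [this]
      exact hR1 _ hx'
    · exact (Subgroup.card_map_of_injective (MulEquiv.injective e₀)).ge
  -- the quotient
  obtain ⟨t, ht⟩ : ∃ t : MulAut (↥P ⧸ R.subgroupOf P), t = quotAut e₀ (R.subgroupOf P) hmap :=
    ⟨_, rfl⟩
  have htmk : ∀ (i : ℕ) (x : ↥P), (t ^ i) (QuotientGroup.mk x) = QuotientGroup.mk ((e₀ ^ i) x) := by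
    intro i x
    rw [ht]
    exact Cfsg.Agent.Lib.Helper31.gross_quotAut_pow_mk e₀ (R.subgroupOf P) hmap i x
  have hmk1 : ∀ x : ↥P, (QuotientGroup.mk x : ↥P ⧸ R.subgroupOf P) = 1 ↔ (x : Γ) ∈ R := by
    intro x
    rw [QuotientGroup.eq_one_iff]
    exact Subgroup.mem_subgroupOf
  have hta : t ^ a = 1 := by
    apply MulEquiv.ext
    intro x
    induction x using QuotientGroup.induction_on with
    | H x =>
      rw [htmk]
      have : (e₀ ^ a) x = x := by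
        apply Subtype.ext
        rw [hei, ht₀a]
        group
      rw [this]
      rfl
  have hfpf : ∀ i : ℕ, 0 < i → i < a → ∀ x : ↥P ⧸ R.subgroupOf P, (t ^ i) x = x → x = 1 := by
    intro i hi hia x
    induction x using QuotientGroup.induction_on with
    | H x =>
      intro hx
      rw [htmk] at hx
      have h1 : ((e₀ ^ i) x)⁻¹ * x ∈ R.subgroupOf P := QuotientGroup.eq.mp hx
      have h2 : (((e₀ ^ i) x)⁻¹ * x : ↥P).1 ∈ R := Subgroup.mem_subgroupOf.mp h1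
      have h3 : (x : Γ)⁻¹ * (t₀ ^ i * x * (t₀ ^ i)⁻¹) ∈ R := by
        have e : (x : Γ)⁻¹ * (t₀ ^ i * x * (t₀ ^ i)⁻¹) = ((((e₀ ^ i) x)⁻¹ * x : ↥P).1)⁻¹ := by
          rw [Subgroup.coe_mul, Subgroup.coe_inv, hei]
          group
        rw [e]
        exact R.inv_mem h2
      exact (hmk1 x).mpr
        (Gross2Inv.inv_fpf_mod hInv R hχ.center_le (hpz i) (hne i hi hia) (hRn i) x.1 x.2 h3)
  -- the bicharacter on the quotient
  obtain ⟨β, hβ⟩ : ∃ β : (↥P ⧸ R.subgroupOf P) → (↥P ⧸ R.subgroupOf P) → k,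
      β = fun x y => χ ⁅((Quotient.out x : ↥P) : Γ), ((Quotient.out y : ↥P) : Γ)⁆ := ⟨_, rfl⟩
  have hβmk : ∀ x y : ↥P, β (QuotientGroup.mk x) (QuotientGroup.mk y) = χ ⁅(x : Γ), (y : Γ)⁆ := by
    intro x y
    obtain ⟨r, hr⟩ := QuotientGroup.mk_out_eq_mul (R.subgroupOf P) x
    obtain ⟨r', hr'⟩ := QuotientGroup.mk_out_eq_mul (R.subgroupOf P) y
    have hrR : ((r : ↥P) : Γ) ∈ R := Subgroup.mem_subgroupOf.mp r.2
    have hr'R : ((r' : ↥P) : Γ) ∈ R := Subgroup.mem_subgroupOf.mp r'.2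
    rw [hβ]
    show χ ⁅((Quotient.out (QuotientGroup.mk x : ↥P ⧸ R.subgroupOf P) : ↥P) : Γ),
      ((Quotient.out (QuotientGroup.mk y : ↥P ⧸ R.subgroupOf P) : ↥P) : Γ)⁆ = _
    rw [hr, hr', Subgroup.coe_mul, Subgroup.coe_mul,
      hbl _ x.2 _ (hRP' hrR) _ (P.mul_mem y.2 (hRP' hr'R)),
      hbRl _ hrR _ (P.mul_mem y.2 (hRP' hr'R)), mul_one,
      hbr _ x.2 _ y.2 _ (hRP' hr'R), hbRr _ x.2 _ hr'R, mul_one]
  have hβl : ∀ x x' y : ↥P ⧸ R.subgroupOf P, β (x * x') y = β x y * β x' y := by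
    intro x x' y
    induction x using QuotientGroup.induction_on with
    | H x =>
      induction x' using QuotientGroup.induction_on with
      | H x' =>
        induction y using QuotientGroup.induction_on with
        | H y =>
          rw [← QuotientGroup.mk_mul, hβmk, hβmk, hβmk, Subgroup.coe_mul]
          exact hbl _ x.2 _ x'.2 _ y.2
  have hβr : ∀ x y y' : ↥P ⧸ R.subgroupOf P, β x (y * y') = β x y * β x y' := by
    intro x y y'
    induction x using QuotientGroup.induction_on with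
    | H x =>
      induction y using QuotientGroup.induction_on with
      | H y =>
        induction y' using QuotientGroup.induction_on with
        | H y' =>
          rw [← QuotientGroup.mk_mul, hβmk, hβmk, hβmk, Subgroup.coe_mul]
          exact hbr _ x.2 _ y.2 _ y'.2
  have hβalt : ∀ x : ↥P ⧸ R.subgroupOf P, β x x = 1 := by
    intro x
    induction x using QuotientGroup.induction_on with
    | H x => rw [hβmk, commutatorElement_self, hχ.h1]
  have hβnd : ∀ x : ↥P ⧸ R.subgroupOf P, (∀ y, β x y = 1) → x = 1 := by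
    intro x
    induction x using QuotientGroup.induction_on with
    | H x =>
      intro hx
      refine (hmk1 x).mpr ((hχ.hR _).mpr ⟨x.2, fun y hy => ?_⟩)
      have := hx (QuotientGroup.mk ⟨y, hy⟩)
      rwa [hβmk] at this
  have hβt : ∀ x y : ↥P ⧸ R.subgroupOf P, β (t x) (t y) = β x y := by
    intro x y
    induction x using QuotientGroup.induction_on with
    | H x =>
      induction y using QuotientGroup.induction_on with
      | H y =>
        have h1 := htmk 1 x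
        have h2 := htmk 1 y
        rw [pow_one, pow_one] at h1 h2
        rw [h1, h2, hβmk, hβmk, he1, he1]
        have e : ⁅t₀ * (x : Γ) * t₀⁻¹, t₀ * (y : Γ) * t₀⁻¹⁆ = t₀ * ⁅(x : Γ), (y : Γ)⁆ * t₀⁻¹ := by
          simp only [commutatorElement_def]
          group
        rw [e, hχN _ (hcc x.2 y.2)]
  -- cardinalities
  have hcard1 : Nat.card ↥P = Nat.card (↥P ⧸ R.subgroupOf P) * Nat.card ↥R := by
    rw [Subgroup.card_eq_card_quotient_mul_card_subgroup (R.subgroupOf P),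
      Nat.card_congr (Subgroup.subgroupOfEquivOfLe hRP').toEquiv]
  have hRpos : 0 < Nat.card ↥R := Nat.card_pos
  have hAle : Nat.card (↥P ⧸ R.subgroupOf P) ≤ (a - 1) ^ 2 := by
    rw [hcard1] at hle
    exact Nat.le_of_mul_le_mul_right hle hRpos
  obtain ⟨j, -, hj⟩ := (Nat.dvd_prime_pow Nat.prime_two).mp (Dvd.intro_left N hNa)
  haveI : Nontrivial (↥P ⧸ R.subgroupOf P) := by
    obtain ⟨x₀, hx₀P, hx₀R⟩ := SetLike.exists_of_lt (lt_of_le_of_ne hRP' hRP)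
    exact ⟨⟨QuotientGroup.mk ⟨x₀, hx₀P⟩, 1, fun h => hx₀R ((hmk1 _).mp h)⟩⟩
  have hcomm : ∀ x y : ↥P ⧸ R.subgroupOf P, x * y = y * x := by
    intro x y
    induction x using QuotientGroup.induction_on with
    | H x =>
      induction y using QuotientGroup.induction_on with
      | H y =>
        rw [← QuotientGroup.mk_mul, ← QuotientGroup.mk_mul]
        apply QuotientGroup.eq.mpr
        apply Subgroup.mem_subgroupOf.mpr
        have e : (((x * y)⁻¹ * (y * x) : ↥P) : Γ) = ⁅(y : Γ)⁻¹, (x : Γ)⁻¹⁆ := by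
          rw [commutatorElement_def]
          simp only [Subgroup.coe_mul, Subgroup.coe_inv]
          group
        rw [e]
        exact hχ.center_le _ (Gross2Inv.comm_mem (P.inv_mem y.2) (P.inv_mem x.2))
          (fun w hw => hc2 _ (P.inv_mem y.2) _ (P.inv_mem x.2) w hw)
  have hAp : IsPGroup ℓ (↥P ⧸ R.subgroupOf P) := hInv.hP.to_quotient (R.subgroupOf P)
  obtain ⟨hA1, hA2⟩ := @hC (↥P ⧸ R.subgroupOf P)
    { (QuotientGroup.Quotient.group (R.subgroupOf P)) with mul_comm := hcomm }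
    inferInstance inferInstance ℓ a j hInv.hℓ hInv.hℓ2 hAp hj ha1 t hta hfpf k _ β hβl hβr hβalt hβnd
    hβt hAle
  refine ⟨?_, hA2⟩
  rw [hcard1]
  exact congrArg (· * Nat.card ↥R) hA1

end Cfsg.Agent.Lib.Helper26.Gross2
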