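import Mathlib
import Cfsg.Agent.Lib.Helper26.Gross2DefsC

/-!
# Gross's theorem for `p = 2` (S3795): piece CARD2CORE

An automorphism `t` of `2`-power order `a` of a finite abelian `ℓ`-group `A` all of whose
nontrivial powers are fixed-point-free, preserving a nondegenerate alternating bicharacter, with
`|A| ≤ (a - 1) ^ 2`: then `|A| = ℓ ^ 2` and `a = ℓ + 1`.
-/

set_option autoImplicit false
set_option linter.unusedSectionVars false
set_option linter.style.haveILetI false

namespace Cfsg.Agent.Lib.Helper26.Gross2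

universe u

/-- a permutation with one fixed point `x₀`, of order dividing `a`, all of whose nontrivial powers
move every other point: `a ∣ |X| - 1` -/
theorem g2cc_orbit {X : Type*} [Finite X] (σ : Equiv.Perm X) (a : ℕ) (x₀ : X)
    (hσa : σ ^ a = 1) (h0 : σ x₀ = x₀)
    (hfree : ∀ i, 0 < i → i < a → ∀ x, (σ ^ i) x = x → x = x₀) (ha : 1 < a) :
    a ∣ Nat.card X - 1 := by
  classical
  have := Fintype.ofFinite X
  have hsupp : σ.support = Finset.univ.erase x₀ := by
    ext x
    rw [Equiv.Perm.mem_support, Finset.mem_erase]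
    constructor
    · intro hx
      refine ⟨?_, Finset.mem_univ _⟩
      rintro rfl
      exact hx h0
    · rintro ⟨hx, -⟩ hx'
      exact hx (hfree 1 one_pos ha x (by rw [pow_one]; exact hx'))
  have hsum : σ.cycleType.sum = Nat.card X - 1 := by
    rw [Equiv.Perm.sum_cycleType, hsupp, Finset.card_erase_of_mem (Finset.mem_univ _),
      Finset.card_univ, Nat.card_eq_fintype_card]
  rw [← hsum]
  apply Multiset.dvd_sum
  intro n hn
  rw [Equiv.Perm.mem_cycleType_iff] at hn
  obtain ⟨c, τ, hστ, hd, hc, hn⟩ := hn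
  obtain ⟨x, hx, -⟩ := id hc
  have hτx : τ x = x := by
    rcases hd x with h | h
    · exact absurd h hx
    · exact h
  have hxx₀ : x ≠ x₀ := by
    rintro rfl
    apply hx
    have : σ x = x := h0
    rw [hστ, Equiv.Perm.mul_apply, hτx] at this
    exact this
  have hcn : c ^ n = 1 := by
    rw [← hn, ← hc.orderOf]
    exact pow_orderOf_eq_one c
  have hσn : (σ ^ n) x = x := by
    rw [hστ, hd.commute.mul_pow, Equiv.Perm.mul_apply,
      Equiv.Perm.pow_apply_eq_self_of_apply_eq_self hτx, hcn, Equiv.Perm.one_apply]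
  have hr : (σ ^ (n % a)) x = x := by
    have e : σ ^ n = σ ^ (n % a) := by
      conv_lhs => rw [← Nat.mod_add_div n a]
      rw [pow_add, pow_mul, hσa, one_pow, mul_one]
    rw [← e]
    exact hσn
  by_contra hdvd
  have hpos : 0 < n % a := Nat.pos_of_ne_zero (fun h => hdvd (Nat.dvd_of_mod_eq_zero h))
  exact hxx₀ (hfree (n % a) hpos (Nat.mod_lt _ (by omega)) x hr)

/-- `ℓ ^ m + 1 = 2 ^ j` with `ℓ ≥ 3` odd forces `m = 1` (for `m ≥ 1`) -/
theorem g2cc_mersenne (ℓ m j : ℕ) (hℓ : Odd ℓ) (hℓ3 : 3 ≤ ℓ) (hm : 0 < m)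
    (h : ℓ ^ m + 1 = 2 ^ j) : m = 1 := by
  have hpow : ℓ ≤ ℓ ^ m := Nat.le_self_pow hm.ne' ℓ
  rcases Nat.even_or_odd m with hev | hodd
  · exfalso
    obtain ⟨r, rfl⟩ := hev
    have hj : 2 ≤ j := by
      by_contra hj
      have : j = 0 ∨ j = 1 := by omega
      rcases this with rfl | rfl
      · simp at h
        omega
      · simp at h
        omega
    obtain ⟨j', rfl⟩ : ∃ j', j = j' + 2 := ⟨j - 2, by omega⟩
    have h4 : (ℓ ^ (r + r) + 1) % 4 = 0 := by
      rw [h, pow_add]
      norm_num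
    have hodd' : Odd (ℓ ^ r) := hℓ.pow
    obtain ⟨c, hc⟩ := hodd'
    have e : ℓ ^ (r + r) = 4 * (c * c + c) + 1 := by
      rw [pow_add, hc]
      ring
    rw [e] at h4
    omega
  · by_contra hm1
    obtain ⟨r, rfl⟩ := hodd
    have hr : 1 ≤ r := by omega
    have hdvd : ℓ + 1 ∣ ℓ ^ (2 * r + 1) + 1 := by
      have := Odd.nat_add_dvd_pow_add_pow ℓ 1 (⟨r, rfl⟩ : Odd (2 * r + 1))
      rwa [one_pow] at this
    rw [h] at hdvd
    obtain ⟨i, hij, hi⟩ := (Nat.dvd_prime_pow Nat.prime_two).mp hdvd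
    have hlt : ℓ < ℓ ^ (2 * r + 1) := by
      calc ℓ = ℓ ^ 1 := (pow_one ℓ).symm
        _ < ℓ ^ (2 * r + 1) := Nat.pow_lt_pow_right (by omega) (by omega)
    have hij' : i < j := by
      by_contra hcon
      have : i = j := by omega
      subst this
      omega
    have hd2 : 2 ^ (i + 1) ∣ ℓ ^ (2 * r + 1) + 1 := by
      rw [h]
      exact pow_dvd_pow 2 hij'
    have hsq : ℓ ^ 2 ≡ 1 [MOD 2 ^ (i + 1)] := by
      have hi1 : 1 ≤ i := by
        rcases i with _ | i
        · simp at hi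
          omega
        · omega
      obtain ⟨i', rfl⟩ : ∃ i', i = i' + 1 := ⟨i - 1, by omega⟩
      have e : ℓ ^ 2 + 2 ^ (i' + 1 + 1) = 2 ^ (i' + 1 + 1) * 2 ^ i' + 1 := by
        have e1 : ℓ ^ 2 + 2 * (ℓ + 1) = (ℓ + 1) ^ 2 + 1 := by ring
        rw [hi] at e1
        rw [pow_succ 2 (i' + 1)]
        rw [show (2 ^ (i' + 1)) ^ 2 = 2 ^ (i' + 1) * 2 * 2 ^ i' by ring] at e1
        linarith
      have h1 : ℓ ^ 2 + 2 ^ (i' + 1 + 1) ≡ ℓ ^ 2 [MOD 2 ^ (i' + 1 + 1)] := by
        simp [Nat.ModEq]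
      have h2 : 2 ^ (i' + 1 + 1) * 2 ^ i' + 1 ≡ 1 [MOD 2 ^ (i' + 1 + 1)] := by
        simp [Nat.ModEq, Nat.add_mod]
      exact h1.symm.trans (e ▸ h2)
    have hmod : ℓ ^ (2 * r + 1) + 1 ≡ ℓ + 1 [MOD 2 ^ (i + 1)] := by
      have : ℓ ^ (2 * r + 1) = (ℓ ^ 2) ^ r * ℓ := by ring
      rw [this]
      have h3 : (ℓ ^ 2) ^ r * ℓ ≡ 1 ^ r * ℓ [MOD 2 ^ (i + 1)] := (hsq.pow r).mul_right ℓ
      rw [one_pow, one_mul] at h3
      exact h3.add_right 1
    have hd3 : 2 ^ (i + 1) ∣ ℓ + 1 := (hmod.dvd_iff (dvd_refl _)).mp hd2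
    rw [hi] at hd3
    have := Nat.le_of_dvd (by positivity) hd3
    have : 2 ^ i < 2 ^ (i + 1) := Nat.pow_lt_pow_right (by omega) (by omega)
    omega

section core

variable {M : Type u} [AddCommGroup M] [Finite M]

theorem g2cc_pow_mem (T : AddMonoid.End M) (B : AddSubgroup M) (hB : ∀ x ∈ B, T x ∈ B) (i : ℕ) :
    ∀ x ∈ B, (T ^ i) x ∈ B := by
  induction i with
  | zero => intro x hx; exact hx
  | succ i ih => intro x hx; rw [pow_succ]; exact ih _ (hB x hx)

theorem g2cc_inv_dvd (T : AddMonoid.End M) (a : ℕ) (ha : 1 < a) (hTa : T ^ a = 1)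
    (hfpf : ∀ i, 0 < i → i < a → ∀ x, (T ^ i) x = x → x = 0)
    (B : AddSubgroup M) (hB : ∀ x ∈ B, T x ∈ B) : a ∣ Nat.card B - 1 := by
  have hpm := g2cc_pow_mem T B hB
  have e1 : ∀ x : M, (T ^ (a - 1)) (T x) = x := by
    intro x
    have : T ^ (a - 1) * T = 1 := by rw [← pow_succ, Nat.sub_add_cancel ha.le, hTa]
    exact DFunLike.congr_fun this x
  have e2 : ∀ x : M, T ((T ^ (a - 1)) x) = x := by
    intro x
    have : T * T ^ (a - 1) = 1 := by rw [← pow_succ', Nat.sub_add_cancel ha.le, hTa]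
    exact DFunLike.congr_fun this x
  let σ : Equiv.Perm ↥B :=
    { toFun := fun x => ⟨T x, hB x x.2⟩
      invFun := fun x => ⟨(T ^ (a - 1)) x, hpm (a - 1) x x.2⟩
      left_inv := fun x => Subtype.ext (e1 x)
      right_inv := fun x => Subtype.ext (e2 x) }
  have hσ : ∀ (i : ℕ) (x : ↥B), (((σ ^ i) x : ↥B) : M) = (T ^ i) x := by
    intro i
    induction i with
    | zero => intro x; rfl
    | succ i ih =>
      intro x
      rw [pow_succ, Equiv.Perm.mul_apply, ih, pow_succ]
      rfl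
  apply g2cc_orbit σ a 0
  · ext x
    rw [hσ, hTa]
    rfl
  · exact Subtype.ext (map_zero T)
  · intro i hi hia x hx
    apply Subtype.ext
    apply hfpf i hi hia
    rw [← hσ, hx]
  · exact ha

theorem g2cc_irr (T : AddMonoid.End M) (a ℓ e₀ : ℕ) (hℓ : ℓ.Prime)
    (hcard : Nat.card M = ℓ ^ e₀) (ha : 1 < a) (hTa : T ^ a = 1)
    (hfpf : ∀ i, 0 < i → i < a → ∀ x, (T ^ i) x = x → x = 0)
    (hle : Nat.card M ≤ (a - 1) ^ 2)
    (B : AddSubgroup M) (hB : ∀ x ∈ B, T x ∈ B) (hB0 : B ≠ ⊥) : B = ⊤ := by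
  have h1 := g2cc_inv_dvd T a ha hTa hfpf B hB
  have h2 : a ∣ Nat.card M - 1 := by
    have := g2cc_inv_dvd T a ha hTa hfpf ⊤ (fun x _ => AddSubgroup.mem_top _)
    rwa [AddSubgroup.card_top] at this
  have hdvd : Nat.card B ∣ ℓ ^ e₀ := hcard ▸ AddSubgroup.card_addSubgroup_dvd_card B
  obtain ⟨f, hfe, hf⟩ := (Nat.dvd_prime_pow hℓ).mp hdvd
  apply AddSubgroup.eq_top_of_card_eq
  rw [hf, hcard]
  by_contra hne
  have hfe' : f < e₀ := lt_of_le_of_ne hfe (fun h => hne (by rw [h]))
  have hℓ2 := hℓ.two_le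
  have hf1 : 1 ≤ f := by
    by_contra h
    have : f = 0 := by omega
    rw [this, pow_zero] at hf
    exact hB0 ((AddSubgroup.card_eq_one).mp hf)
  have hpf : 2 ≤ ℓ ^ f := le_trans hℓ2 (Nat.le_self_pow (by omega) ℓ)
  have hpe : 2 ≤ ℓ ^ (e₀ - f) := le_trans hℓ2 (Nat.le_self_pow (by omega) ℓ)
  have hA : a + 1 ≤ ℓ ^ f := by
    rw [hf] at h1
    have := Nat.le_of_dvd (by omega) h1
    omega
  have hmod1 : ℓ ^ f ≡ 1 [MOD a] := by
    rw [hf] at h1
    exact ((Nat.modEq_iff_dvd' (by omega)).mpr h1).symm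
  have hmod2 : ℓ ^ e₀ ≡ 1 [MOD a] := by
    rw [hcard] at h2
    exact ((Nat.modEq_iff_dvd' (Nat.one_le_pow _ _ (by omega))).mpr h2).symm
  have hmod3 : ℓ ^ (e₀ - f) ≡ 1 [MOD a] := by
    have e : ℓ ^ e₀ = ℓ ^ (e₀ - f) * ℓ ^ f := by rw [← pow_add, Nat.sub_add_cancel hfe]
    have h3 : ℓ ^ (e₀ - f) * ℓ ^ f ≡ ℓ ^ (e₀ - f) * 1 [MOD a] := hmod1.mul_left _
    rw [← e, mul_one] at h3
    exact h3.symm.trans hmod2
  have hB' : a + 1 ≤ ℓ ^ (e₀ - f) := by
    have hd := (Nat.modEq_iff_dvd' (by omega)).mp hmod3.symm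
    have := Nat.le_of_dvd (by omega) hd
    omega
  have h4 : (a + 1) * (a + 1) ≤ ℓ ^ e₀ := by
    calc (a + 1) * (a + 1) ≤ ℓ ^ (e₀ - f) * ℓ ^ f := Nat.mul_le_mul hB' hA
      _ = ℓ ^ e₀ := by rw [← pow_add, Nat.sub_add_cancel hfe]
  rw [hcard] at hle
  have h5 : (a - 1) ^ 2 < (a + 1) * (a + 1) := by
    have : a - 1 ≤ a := Nat.sub_le a 1
    nlinarith
  omega

end core


/-- a finite commutative domain of characteristic `ℓ` has `ℓ ^ m` elements and satisfies
`u ^ ℓ ^ m = u` -/
theorem g2cc_findom (D : Type*) [CommRing D] [IsDomain D] [Finite D] (ℓ : ℕ) (hℓ : ℓ.Prime)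
    (h : (ℓ : D) = 0) : ∃ m : ℕ, 0 < m ∧ Nat.card D = ℓ ^ m ∧ ∀ u : D, u ^ (ℓ ^ m) = u := by
  classical
  haveI := Fintype.ofFinite D
  letI := Fintype.fieldOfDomain D
  haveI : CharP D ℓ := (CharP.charP_iff_prime_eq_zero hℓ).mpr h
  obtain ⟨m, -, hm⟩ := FiniteField.card D ℓ
  refine ⟨m, m.pos, by rw [Nat.card_eq_fintype_card, hm], fun u => ?_⟩
  rw [← hm]
  exact FiniteField.pow_card u

section core2

variable {M : Type u} [AddCommGroup M] [Finite M]

theorem g2cc_core_add [Nontrivial M] (ℓ a j e₀ : ℕ) (hℓ : ℓ.Prime) (hℓ2 : ℓ ≠ 2)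
    (hcard : Nat.card M = ℓ ^ e₀) (ha : a = 2 ^ j) (ha1 : 1 < a)
    (T T' : AddMonoid.End M) (hTT' : T * T' = 1) (hT'T : T' * T = 1) (hTa : T ^ a = 1)
    (hfpf : ∀ i, 0 < i → i < a → ∀ x, (T ^ i) x = x → x = 0)
    {k : Type*} [Field k] (β : M → M → k)
    (hβl : ∀ x x' y, β (x + x') y = β x y * β x' y)
    (hβr : ∀ x y y', β x (y + y') = β x y * β x y')
    (hβalt : ∀ x, β x x = 1)
    (hβnd : ∀ x, (∀ y, β x y = 1) → x = 0)
    (hβT : ∀ x y, β (T x) (T y) = β x y)
    (hle : Nat.card M ≤ (a - 1) ^ 2) :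
    Nat.card M = ℓ ^ 2 ∧ a = ℓ + 1 := by
  classical
  -- β basics
  have hβ0l : ∀ y, β 0 y = 1 := by
    intro y
    have := hβl y 0 y
    rw [add_zero, hβalt, one_mul] at this
    exact this.symm
  have hβ0r : ∀ x, β x 0 = 1 := by
    intro x
    have := hβr x x 0
    rw [add_zero, hβalt, one_mul] at this
    exact this.symm
  have hβanti : ∀ x y, β x y * β y x = 1 := by
    intro x y
    have := hβalt (x + y)
    rw [hβl, hβr, hβr, hβalt, hβalt, one_mul, mul_one] at this
    exact this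
  have hβne : ∀ x y, β x y ≠ 0 := fun x y h => by
    have := hβanti x y
    rw [h, zero_mul] at this
    exact zero_ne_one this
  have hβnegl : ∀ x y, β (-x) y = (β x y)⁻¹ := by
    intro x y
    have := hβl x (-x) y
    rw [add_neg_cancel, hβ0l] at this
    exact eq_inv_of_mul_eq_one_right this.symm
  have hβnegr : ∀ x y, β x (-y) = (β x y)⁻¹ := by
    intro x y
    have := hβr x y (-y)
    rw [add_neg_cancel, hβ0r] at this
    exact eq_inv_of_mul_eq_one_right this.symm
  have hβnd' : ∀ y, (∀ x, β x y = 1) → y = 0 := by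
    intro y hy
    apply hβnd
    intro x
    have := hβanti y x
    rw [hy x, mul_one] at this
    exact this
  have hcard1 : 1 < Nat.card M := Finite.one_lt_card
  -- a ≥ 4
  have ha4 : 4 ≤ a := by
    rcases j with _ | _ | j
    · simp at ha
      omega
    · exfalso
      simp at ha
      subst ha
      have : Nat.card M ≤ 1 := by simpa using hle
      omega
    · rw [ha, pow_succ, pow_succ]
      have := Nat.one_le_two_pow (n := j)
      omega
  obtain ⟨x₀, hx₀⟩ := exists_ne (0 : M)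
  -- irreducibility
  have hirr := g2cc_irr T a ℓ e₀ hℓ hcard ha1 hTa hfpf hle
  have hdich : ∀ f : AddMonoid.End M, f * T = T * f → f = 0 ∨ Function.Injective f := by
    intro f hf
    have hker : ∀ x ∈ (f : M →+ M).ker, T x ∈ (f : M →+ M).ker := by
      intro x hx
      have hx' : f x = 0 := hx
      show f (T x) = 0
      have : f (T x) = T (f x) := DFunLike.congr_fun hf x
      rw [this, hx', map_zero]
    by_cases hk : (f : M →+ M).ker = ⊥
    · right
      exact (AddMonoidHom.ker_eq_bot_iff f).mp hk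
    · left
      have := hirr _ hker hk
      ext x
      have hx : x ∈ (f : M →+ M).ker := by
        rw [this]
        exact AddSubgroup.mem_top x
      exact hx
  have hTne : T ≠ T' := by
    intro h
    have h2 : T ^ 2 = 1 := by
      rw [pow_two]
      nth_rewrite 2 [h]
      exact hTT'
    exact hx₀ (hfpf 2 (by omega) (by omega) x₀ (by rw [h2]; rfl))
  -- exponent ℓ
  haveI : Fact ℓ.Prime := ⟨hℓ⟩
  have hexp : ∀ x : M, ℓ • x = 0 := by
    have he₀ : e₀ ≠ 0 := by
      rintro rfl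
      rw [pow_zero] at hcard
      omega
    obtain ⟨x₁, hx₁⟩ := exists_prime_addOrderOf_dvd_card' (G := M) ℓ
      (by rw [hcard]; exact dvd_pow_self ℓ he₀)
    let B : AddSubgroup M := (nsmulAddMonoidHom ℓ : M →+ M).ker
    have hBT : ∀ x ∈ B, T x ∈ B := by
      intro x hx
      have hx' : ℓ • x = 0 := hx
      show ℓ • T x = 0
      rw [← map_nsmul, hx', map_zero]
    have hB0 : B ≠ ⊥ := by
      intro h
      have hx₁B : x₁ ∈ B := by
        show ℓ • x₁ = 0
        rw [← hx₁]
        exact addOrderOf_nsmul_eq_zero x₁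
      rw [h, AddSubgroup.mem_bot] at hx₁B
      rw [hx₁B, addOrderOf_zero] at hx₁
      exact hℓ.one_lt.ne hx₁
    have := hirr B hBT hB0
    intro x
    have hx : x ∈ B := by
      rw [this]
      exact AddSubgroup.mem_top x
    exact hx
  haveI : Nontrivial (AddMonoid.End M) :=
    ⟨⟨0, 1, fun h => hx₀ (DFunLike.congr_fun h x₀).symm⟩⟩
  have hcastE : ((ℓ : ℕ) : AddMonoid.End M) = 0 := by
    ext x
    rw [AddMonoid.End.natCast_apply, hexp]
    rfl
  haveI hchar : CharP (AddMonoid.End M) ℓ := (CharP.charP_iff_prime_eq_zero hℓ).mpr hcastE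
  -- the subring generated by `c = T + T'`
  have hcomm : Commute T T' := hTT'.trans hT'T.symm
  let c : AddMonoid.End M := T + T'
  let D : Subring (AddMonoid.End M) := Subring.closure {c}
  have hcT : c * T = T * c := by
    show (T + T') * T = T * (T + T')
    rw [add_mul, mul_add, hTT', hT'T]
  have hD1 : ∀ f ∈ D, f * T = T * f := by
    have hle' : D ≤ Subring.centralizer {T} := by
      apply Subring.closure_le.mpr
      intro f hf
      rw [Set.mem_singleton_iff] at hf
      rw [hf, SetLike.mem_coe, Subring.mem_centralizer_iff]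
      intro g hg
      rw [Set.mem_singleton_iff] at hg
      rw [hg]
      exact hcT.symm
    intro f hf
    exact (Subring.mem_centralizer_iff.mp (hle' hf) T rfl).symm
  have hD1' : ∀ f ∈ D, f * T' = T' * f := by
    intro f hf
    have h := hD1 f hf
    calc f * T' = T' * T * (f * T') := by rw [hT'T, one_mul]
      _ = T' * (T * f) * T' := by simp only [mul_assoc]
      _ = T' * (f * T) * T' := by rw [h]
      _ = T' * f * (T * T') := by simp only [mul_assoc]
      _ = T' * f := by rw [hTT', mul_one]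
  have hD3 : ∀ f ∈ D, ∀ g ∈ D, f * g = g * f := by
    have h1 : D ≤ Subring.centralizer {c} := by
      apply Subring.closure_le.mpr
      intro f hf
      rw [Set.mem_singleton_iff] at hf
      rw [hf, SetLike.mem_coe, Subring.mem_centralizer_iff]
      intro g hg
      rw [Set.mem_singleton_iff] at hg
      rw [hg]
    have h2 : D ≤ Subring.centralizer (D : Set (AddMonoid.End M)) := by
      apply Subring.closure_le.mpr
      intro f hf
      rw [Set.mem_singleton_iff] at hf
      rw [hf, SetLike.mem_coe, Subring.mem_centralizer_iff]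
      intro g hg
      exact (Subring.mem_centralizer_iff.mp (h1 hg) c rfl).symm
    intro f hf g hg
    exact Subring.mem_centralizer_iff.mp (h2 hg) f hf
  -- adjoints
  let Adj : AddMonoid.End M → AddMonoid.End M → Prop :=
    fun f g => ∀ x y, β (f x) y = β x (g y)
  have hAdjT : Adj T T' := by
    intro x y
    have := hβT x (T' y)
    have e : T (T' y) = y := DFunLike.congr_fun hTT' y
    rw [e] at this
    exact this
  have hAdjT' : Adj T' T := by
    intro x y
    have := hβT (T' x) y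
    have e : T (T' x) = x := DFunLike.congr_fun hTT' x
    rw [e] at this
    exact this.symm
  have hAdj_add : ∀ f g f' g', Adj f g → Adj f' g' → Adj (f + f') (g + g') := by
    intro f g f' g' h h' x y
    show β (f x + f' x) y = β x (g y + g' y)
    rw [hβl, hβr, h x y, h' x y]
  have hAdj_mul : ∀ f g f' g', Adj f g → Adj f' g' → Adj (f * f') (g' * g) := by
    intro f g f' g' h h' x y
    show β (f (f' x)) y = β x (g' (g y))
    rw [h, h']
  have hAdj_neg : ∀ f g, Adj f g → Adj (-f) (-g) := by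
    intro f g h x y
    show β (-(f x)) y = β x (-(g y))
    rw [hβnegl, hβnegr, h x y]
  have hAdj_zero : Adj 0 0 := by
    intro x y
    show β 0 y = β x 0
    rw [hβ0l, hβ0r]
  have hAdj_uniq : ∀ f g g', Adj f g → Adj f g' → g = g' := by
    intro f g g' h h'
    ext y
    have : g y - g' y = 0 := by
      apply hβnd'
      intro x
      rw [sub_eq_add_neg, hβr, hβnegr, ← h x y, ← h' x y]
      exact mul_inv_cancel₀ (hβne _ _)
    exact sub_eq_zero.mp this
  have hD2 : ∀ f ∈ D, Adj f f := by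
    intro f hf
    induction hf using Subring.closure_induction with
    | mem x hx =>
      rw [Set.mem_singleton_iff] at hx
      rw [hx]
      have := hAdj_add T T' T' T hAdjT hAdjT'
      rwa [add_comm T' T] at this
    | zero => exact hAdj_zero
    | one => intro x y; rfl
    | add x y hx hy hx' hy' => exact hAdj_add _ _ _ _ hx' hy'
    | neg x hx hx' => exact hAdj_neg _ _ hx'
    | mul x y hx hy hx' hy' =>
      have := hAdj_mul _ _ _ _ hx' hy'
      rwa [hD3 y hy x hx] at this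
  -- `D` is a finite commutative domain
  have hDdich : ∀ f ∈ D, f = 0 ∨ Function.Injective f := fun f hf => hdich f (hD1 f hf)
  letI : CommRing ↥D :=
    { (inferInstance : Ring ↥D) with
      mul_comm := fun f g => Subtype.ext (hD3 f.1 f.2 g.1 g.2) }
  haveI : Nontrivial ↥D := ⟨⟨0, 1, fun h => zero_ne_one (congrArg Subtype.val h)⟩⟩
  haveI : NoZeroDivisors ↥D := ⟨fun {f g} h => by
    have h' : f.1 * g.1 = 0 := congrArg Subtype.val h
    rcases hDdich f.1 f.2 with h0 | hinj
    · left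
      exact Subtype.ext h0
    · right
      apply Subtype.ext
      ext x
      apply hinj
      show f.1 (g.1 x) = f.1 0
      rw [map_zero]
      exact DFunLike.congr_fun h' x⟩
  haveI : IsDomain ↥D := NoZeroDivisors.to_isDomain _
  haveI : Finite (AddMonoid.End M) :=
    Finite.of_injective (fun f : AddMonoid.End M => (f : M → M)) DFunLike.coe_injective
  have hcastD : ((ℓ : ℕ) : ↥D) = 0 := Subtype.ext hcastE
  obtain ⟨m, hm0, hN₀, hpow⟩ := g2cc_findom ↥D ℓ hℓ hcastD
  have hcD : c ∈ D := Subring.subset_closure rfl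
  have hcpow : c ^ (ℓ ^ m) = c := congrArg Subtype.val (hpow ⟨c, hcD⟩)
  have hfrob : c ^ (ℓ ^ m) = T ^ (ℓ ^ m) + T' ^ (ℓ ^ m) := add_pow_char_pow_of_commute ℓ m hcomm
  have hℓ2' := hℓ.two_le
  have hN2 : 2 ≤ ℓ ^ m := le_trans hℓ2' (Nat.le_self_pow (by omega) ℓ)
  generalize hN : ℓ ^ m = N at hN₀ hpow hcpow hfrob hN2
  have hTN : T ^ N + T' ^ N = T + T' := by rw [← hfrob, hcpow]
  have hT'N : T' ^ N * T ^ N = 1 := by rw [← hcomm.symm.mul_pow, hT'T, one_pow]
  have hprod : (T ^ N - T) * (T ^ N - T') = 0 := by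
    have h1 : T ^ N * T ^ N + 1 = (T + T') * T ^ N := by rw [← hTN, add_mul, hT'N]
    have h2 : T ^ N * T' = T' * T ^ N := (hcomm.symm.pow_right N).eq.symm
    have h3 : T ^ N * T ^ N = (T + T') * T ^ N - 1 := eq_sub_of_add_eq h1
    rw [sub_mul, mul_sub, mul_sub, h2, hTT', h3, add_mul]
    abel
  have hg1 : (T ^ N - T) * T = T * (T ^ N - T) := by
    rw [sub_mul, mul_sub, ← pow_succ, ← pow_succ']
  have hcase : T ^ N = T ∨ T ^ N = T' := by
    rcases hdich _ hg1 with h0 | hinj
    · left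
      exact sub_eq_zero.mp h0
    · right
      apply sub_eq_zero.mp
      ext x
      apply hinj
      show (T ^ N - T) ((T ^ N - T') x) = (T ^ N - T) 0
      rw [map_zero]
      exact DFunLike.congr_fun hprod x
  -- `N ^ 2 ≤ |M|`
  have hinj : Function.Injective (fun p : ↥D × ↥D => p.1.1 x₀ + p.2.1 (T x₀)) := by
    rintro ⟨u, v⟩ ⟨u', v'⟩ h
    have h' : u.1 x₀ + v.1 (T x₀) = u'.1 x₀ + v'.1 (T x₀) := h
    have hpD : u.1 - u'.1 ∈ D := D.sub_mem u.2 u'.2
    have hwD : v.1 - v'.1 ∈ D := D.sub_mem v.2 v'.2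
    generalize hp : u.1 - u'.1 = p at hpD
    generalize hw : v.1 - v'.1 = w at hwD
    have hg0 : (p + w * T) x₀ = 0 := by
      rw [← hp, ← hw]
      show (u.1 x₀ - u'.1 x₀) + (v.1 (T x₀) - v'.1 (T x₀)) = 0
      rw [sub_add_sub_comm, h', sub_self]
    have hgT : (p + w * T) * T = T * (p + w * T) := by
      rw [add_mul, mul_add, hD1 p hpD, ← mul_assoc T w T, ← hD1 w hwD]
    have hg : p + w * T = 0 := by
      rcases hdich _ hgT with h0 | hinj
      · exact h0
      · exact absurd (hinj (by rw [hg0, map_zero])) hx₀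
    have hadj1 : Adj (p + w * T) (p + T' * w) :=
      hAdj_add _ _ _ _ (hD2 p hpD) (hAdj_mul _ _ _ _ (hD2 w hwD) hAdjT)
    have hadj0 : Adj (p + w * T) 0 := by
      rw [hg]
      exact hAdj_zero
    have hg' : p + T' * w = 0 := hAdj_uniq _ _ _ hadj1 hadj0
    have hw0 : w * (T - T') = 0 := by
      rw [mul_sub, hD1' w hwD]
      have e : w * T - T' * w = (p + w * T) - (p + T' * w) := by abel
      rw [e, hg, hg', sub_zero]
    have hw00 : w = 0 := by
      rcases hdich w (hD1 w hwD) with h0 | hinj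
      · exact h0
      · exfalso
        apply hTne
        apply sub_eq_zero.mp
        ext x
        apply hinj
        show w ((T - T') x) = w 0
        rw [map_zero]
        exact DFunLike.congr_fun hw0 x
    have hp0 : p = 0 := by
      rw [hw00, zero_mul, add_zero] at hg
      exact hg
    have huu : u = u' := Subtype.ext (sub_eq_zero.mp (hp.trans hp0))
    have hvv : v = v' := Subtype.ext (sub_eq_zero.mp (hw.trans hw00))
    rw [huu, hvv]
  have hNle : N * N ≤ Nat.card M := by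
    have := Nat.card_le_card_of_injective _ hinj
    rwa [Nat.card_prod, hN₀] at this
  have hN1 : N ≤ a - 1 := by
    by_contra hcon
    have h1 : a - 1 < N := by omega
    have h2 : (a - 1) * (a - 1) < N * N := Nat.mul_lt_mul'' h1 h1
    have h3 : (a - 1) ^ 2 = (a - 1) * (a - 1) := pow_two _
    omega
  have haN : a = N + 1 := by
    rcases hcase with h | h
    · exfalso
      have h1 : T ^ (N - 1) = 1 := by
        have e : T ^ N = T ^ (N - 1) * T := by rw [← pow_succ, Nat.sub_add_cancel (by omega)]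
        rw [e] at h
        calc T ^ (N - 1) = T ^ (N - 1) * (T * T') := by rw [hTT', mul_one]
          _ = (T ^ (N - 1) * T) * T' := by rw [mul_assoc]
          _ = T * T' := by rw [h]
          _ = 1 := hTT'
      exact hx₀ (hfpf (N - 1) (by omega) (by omega) x₀ (by rw [h1]; rfl))
    · have h1 : T ^ (N + 1) = 1 := by rw [pow_succ, h, hT'T]
      by_contra hne
      have h2 : N + 1 < a := by omega
      exact hx₀ (hfpf (N + 1) (by omega) h2 x₀ (by rw [h1]; rfl))
  have hm1 : m = 1 := g2cc_mersenne ℓ m j (hℓ.odd_of_ne_two hℓ2) (by omega) hm0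
    (by rw [← ha, haN, hN])
  rw [hm1, pow_one] at hN
  subst hN
  refine ⟨?_, haN⟩
  have h1 : a - 1 = ℓ := by omega
  rw [h1] at hle
  have h3 : ℓ ^ 2 = ℓ * ℓ := pow_two _
  omega

end core2

/-- piece CARD2CORE -/
theorem gross2_card2_core : Card2CoreStmt.{u} := by
  intro A _ _ _ ℓ a j hℓ hℓ2 hA ha ha1 t hta hfpf k _ β hβl hβr hβalt hβnd hβt hle
  haveI : Fact ℓ.Prime := ⟨hℓ⟩
  obtain ⟨e₀, he₀⟩ := IsPGroup.iff_card.mp hA
  let T : AddMonoid.End (Additive A) := MonoidHom.toAdditive t.toMonoidHom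
  let T' : AddMonoid.End (Additive A) := MonoidHom.toAdditive t.symm.toMonoidHom
  have hTpow : ∀ (i : ℕ) (x : Additive A),
      (T ^ i) x = Additive.ofMul ((t ^ i) (Additive.toMul x)) := by
    intro i
    induction i with
    | zero => intro x; rfl
    | succ i ih =>
      intro x
      rw [pow_succ, pow_succ]
      show (T ^ i) (T x) = _
      rw [ih]
      rfl
  refine g2cc_core_add (M := Additive A) ℓ a j e₀ hℓ hℓ2 he₀ ha ha1 T T' ?_ ?_ ?_ ?_
    (fun x y => β (Additive.toMul x) (Additive.toMul y)) ?_ ?_ ?_ ?_ ?_ hle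
  · ext x
    exact congrArg Additive.ofMul (t.apply_symm_apply (Additive.toMul x))
  · ext x
    exact congrArg Additive.ofMul (t.symm_apply_apply (Additive.toMul x))
  · ext x
    rw [hTpow, hta]
    rfl
  · intro i hi hia x hx
    rw [hTpow] at hx
    have := hfpf i hi hia (Additive.toMul x) (congrArg Additive.toMul hx)
    exact congrArg Additive.ofMul this
  · intro x x' y
    exact hβl _ _ _
  · intro x y y'
    exact hβr _ _ _
  · intro x
    exact hβalt _
  · intro x hx
    have := hβnd (Additive.toMul x) (fun y => hx (Additive.ofMul y))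
    exact congrArg Additive.ofMul this
  · intro x y
    exact hβt _ _

end Cfsg.Agent.Lib.Helper26.Gross2
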