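import Mathlib
import Cfsg.Agent.Lib.Helper26.Gross2DefsC

/-!
# Gross's theorem for `p = 2` (S3795): piece COMP (the component theorem)
-/

set_option autoImplicit false
set_option linter.unusedSectionVars false
set_option linter.style.haveILetI false
open scoped commutatorElement

namespace Cfsg.Agent.Lib.Helper26.Gross2

open Cfsg.Agent.Lib.Helper26

universe u

/-- elements of odd prime power order: `y ^ 2 ∈ R → y ∈ R` -/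
theorem g2comp_odd {Γ : Type*} [Group Γ] {ℓ n : ℕ} {P : Subgroup Γ} {φ : Γ}
    (hInv : GrossInv ℓ n P φ) (y : Γ) (hy : y ∈ P) (R : Subgroup Γ) (h : y ^ 2 ∈ R) : y ∈ R := by
  obtain ⟨j, hj⟩ := hInv.hP ⟨y, hy⟩
  have hyj : y ^ ℓ ^ j = 1 := by
    have := congrArg Subtype.val hj
    rwa [Subgroup.coe_pow] at this
  have hodd : Odd (ℓ ^ j) := (hInv.hℓ.odd_of_ne_two hInv.hℓ2).pow
  obtain ⟨m, hm⟩ := hodd
  have e : y = (y ^ 2) ^ (m + 1) := by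
    rw [← pow_mul, show 2 * (m + 1) = ℓ ^ j + 1 by omega, pow_succ, hyj, one_mul]
  rw [e]
  exact R.pow_mem h _

/-- the element `x = u⁻¹ ψ u ψ⁻¹` of a `GrossInv` configuration -/
theorem g2comp_x {Γ : Type*} [Group Γ] {ℓ n : ℕ} {P : Subgroup Γ} {φ : Γ}
    (hInv : GrossInv ℓ n P φ) (u : Γ) (hu : u ∈ P) :
    (φ ^ 2 ^ n) ^ 2 = 1 ∧ u⁻¹ * (φ ^ 2 ^ n * u * (φ ^ 2 ^ n)⁻¹) ∈ P ∧
    φ ^ 2 ^ n * (u⁻¹ * (φ ^ 2 ^ n * u * (φ ^ 2 ^ n)⁻¹)) * (φ ^ 2 ^ n)⁻¹ =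
      (u⁻¹ * (φ ^ 2 ^ n * u * (φ ^ 2 ^ n)⁻¹))⁻¹ ∧
    (u⁻¹ * (φ ^ 2 ^ n * u * (φ ^ 2 ^ n)⁻¹)) ^ ℓ = 1 ∧
    ∀ R : Subgroup Γ, (∀ z ∈ P, (∀ w ∈ P, z * w = w * z) → z ∈ R) →
      u⁻¹ * (φ ^ 2 ^ n * u * (φ ^ 2 ^ n)⁻¹) ∈ R → u ∈ R := by
  have hZψ := hInv.hZψ
  have hinv := hInv.hinv
  have hψP : ∀ y ∈ P, φ ^ 2 ^ n * y * (φ ^ 2 ^ n)⁻¹ ∈ P := gross_pow_conj_mem P hInv.hnorm (2 ^ n)
  have hψ2 : (φ ^ 2 ^ n) ^ 2 = 1 := by rw [← pow_mul, ← pow_succ, hInv.hφ]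
  generalize φ ^ 2 ^ n = ψ at hZψ hinv hψP hψ2
  have hxP : u⁻¹ * (ψ * u * ψ⁻¹) ∈ P := P.mul_mem (P.inv_mem hu) (hψP u hu)
  have hconj : ψ * (u⁻¹ * (ψ * u * ψ⁻¹)) * ψ⁻¹ = (u⁻¹ * (ψ * u * ψ⁻¹))⁻¹ := by
    have e1 : ψ * (u⁻¹ * (ψ * u * ψ⁻¹)) * ψ⁻¹ = ψ * u⁻¹ * ψ * u * (ψ ^ 2)⁻¹ := by group
    have e2 : (u⁻¹ * (ψ * u * ψ⁻¹))⁻¹ = ψ * u⁻¹ * (ψ ^ 2)⁻¹ * ψ * u := by group
    rw [e1, e2, hψ2, inv_one, mul_one, mul_one]
  refine ⟨hψ2, hxP, hconj, ?_, ?_⟩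
  · generalize u⁻¹ * (ψ * u * ψ⁻¹) = x at hxP hconj
    have hcen : ∀ w ∈ P, x ^ ℓ * w = w * x ^ ℓ := hInv.hexp x hxP
    have h1 : ψ * x ^ ℓ = x ^ ℓ * ψ := hZψ (x ^ ℓ) (P.pow_mem hxP ℓ) hcen
    have h2 : ψ * x ^ ℓ * ψ⁻¹ = (x ^ ℓ)⁻¹ := by rw [← conj_pow, hconj, inv_pow]
    have h3 : ψ * x ^ ℓ * ψ⁻¹ = x ^ ℓ := by rw [h1, mul_inv_cancel_right]
    have h4 : (x ^ ℓ) ^ 2 = 1 := by
      rw [pow_two]
      nth_rewrite 1 [← h3]
      rw [h2, inv_mul_cancel]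
    have := g2comp_odd hInv (x ^ ℓ) (P.pow_mem hxP ℓ) ⊥ (by rw [h4]; exact Subgroup.one_mem _)
    exact Subgroup.mem_bot.mp this
  · intro R hR hx
    have hz : u * (ψ * u * ψ⁻¹) ∈ R := hR _ (P.mul_mem hu (hψP u hu)) (hinv u hu)
    apply g2comp_odd hInv u hu R
    have e : u ^ 2 = (u * (ψ * u * ψ⁻¹)) * (u⁻¹ * (ψ * u * ψ⁻¹))⁻¹ := by
      rw [pow_two]
      group
    rw [e]
    exact R.mul_mem hz (R.inv_mem hx)

/-- piece COMP -/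
theorem gross2_comp (hN : N2Stmt.{u}) (hLe : Le2Stmt.{u}) (hCard : Card2Stmt.{u})
    (hG : G3EqStmt.{u}) (hDih : DihStmt.{u}) : CompStmt.{u} := by
  intro k _ _ M₀ ℓ n hD V _ _ _ P φ hInv hcard hCV χ θ R W hW
  haveI : Finite (Module.End k V)ˣ := gross_finite_units
  have hℓ := hInv.hℓ
  have hℓ2 := hInv.hℓ2
  have hℓodd : Odd ℓ := hℓ.odd_of_ne_two hℓ2
  have hℓ3 : 3 ≤ ℓ := by
    have := hℓ.two_le
    omega
  have hcardP : Nat.card P ∣ M₀ := (Dvd.intro _ rfl).trans hcard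
  have h2M : 2 ^ (n + 1) ∣ M₀ := (Dvd.intro_left _ rfl).trans hcard
  -- steps 1-3
  obtain ⟨N, a, hNa, ha1, hWN, hCW, hχN⟩ := hN k M₀ ℓ n hD V P φ hInv hcardP hCV χ θ R W hW
  obtain ⟨hle, heq⟩ := hLe k M₀ ℓ n hD V P φ hInv hcard χ θ R W hW N a hNa ha1 hWN hCW hχN
  obtain ⟨hPR, haℓ⟩ :=
    hCard (Module.End k V)ˣ ℓ n P φ hInv k χ R hW.hχ hW.hRQ N a hNa ha1 hχN hle
  refine ⟨hPR, ?_⟩
  -- step 4
  obtain ⟨b, hb⟩ : Even a := by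
    rw [haℓ]
    exact hℓodd.add_one
  have hN2 : N * b = 2 ^ n := by
    have h1 : N * (b + b) = 2 ^ (n + 1) := hb ▸ hNa
    rw [pow_succ, mul_add] at h1
    omega
  have hφN : (φ ^ N) ^ a = 1 := by rw [← pow_mul, hNa, hInv.hφ]
  have hS : φ ^ N ∈ grossStab W := mem_grossStab_of_pow W (by omega : 0 < a) hφN hWN
  have hψeq : φ ^ 2 ^ n = (φ ^ N) ^ b := by rw [← pow_mul, hN2]
  have hψW : ∀ v ∈ W, ((φ ^ 2 ^ n : (Module.End k V)ˣ) : Module.End k V) v ∈ W := by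
    rw [hψeq]
    exact gross_pow_mem W hWN b
  refine ⟨hψW, ?_⟩
  -- the elements
  obtain ⟨u, huP, huR⟩ := SetLike.exists_of_lt (lt_of_le_of_ne hW.hχ.le hW.hRQ)
  obtain ⟨hψ2, hxP, hconj, hxℓ, hxR⟩ := g2comp_x hInv u huP
  have hψPn : ∀ y ∈ P, φ ^ 2 ^ n * y * (φ ^ 2 ^ n)⁻¹ ∈ P :=
    gross_pow_conj_mem P hInv.hnorm (2 ^ n)
  have hxnR : u⁻¹ * (φ ^ 2 ^ n * u * (φ ^ 2 ^ n)⁻¹) ∉ R :=
    fun h => huR (hxR R hW.hχ.center_le h)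
  generalize hψdef : φ ^ 2 ^ n = ψ at hψ2 hxP hconj hxℓ hxR hψW hψeq hxnR hψPn ⊢
  generalize hxdef : u⁻¹ * (ψ * u * ψ⁻¹) = x at hxP hconj hxℓ hxR hxnR
  have hSψ : ψ ∈ grossStab W := mem_grossStab_of_pow W (by norm_num : 0 < 2) hψ2 hψW
  obtain ⟨h, hhP, hhχ⟩ : ∃ h ∈ P, χ ⁅x, h⁆ ≠ 1 := by
    by_contra hcon
    push Not at hcon
    exact hxnR ((hW.hχ.hR x).mpr ⟨hxP, hcon⟩)
  -- the central element `c = ⁅h, x⁆`
  have hcP : ⁅h, x⁆ ∈ P := by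
    rw [commutatorElement_def]
    exact P.mul_mem (P.mul_mem (P.mul_mem hhP hxP) (P.inv_mem hhP)) (P.inv_mem hxP)
  have hcZ : ⁅h, x⁆ ∈ P ⊓ Subgroup.centralizer (P : Set (Module.End k V)ˣ) :=
    Subgroup.mem_inf.mpr ⟨hcP, Subgroup.mem_centralizer_iff.mpr
      (fun w hw => (hInv.hc2 h hhP x hxP w hw).symm)⟩
  have hcinvZ : ⁅h, x⁆⁻¹ ∈ P ⊓ Subgroup.centralizer (P : Set (Module.End k V)ˣ) :=
    Subgroup.inv_mem _ hcZ
  have hζ1 : χ ⁅h, x⁆ ≠ 1 := by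
    intro h1
    apply hhχ
    have h2 := hW.hχ.hmul _ hcinvZ _ hcZ
    rw [inv_mul_cancel, hW.hχ.h1, h1, mul_one, commutatorElement_inv] at h2
    exact h2.symm
  have hcx : ⁅h, x⁆ * x = h * x * h⁻¹ := by
    rw [commutatorElement_def]
    group
  have hcℓ : ⁅h, x⁆ ^ ℓ = 1 := by
    have hcomm : Commute ⁅h, x⁆ x := hInv.hc2 h hhP x hxP x hxP
    have h1 : (⁅h, x⁆ * x) ^ ℓ = ⁅h, x⁆ ^ ℓ * x ^ ℓ := hcomm.mul_pow ℓ
    rw [hcx, conj_pow, hxℓ, mul_one, mul_one, mul_inv_cancel] at h1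
    exact h1.symm
  have hcact : ∀ (i : ℕ), ∀ v ∈ W,
      ((⁅h, x⁆ ^ i : (Module.End k V)ˣ) : Module.End k V) v = (χ ⁅h, x⁆) ^ i • v := by
    intro i
    induction i with
    | zero =>
      intro v _
      simp
    | succ i ih =>
      intro v hv
      rw [pow_succ, Units.val_mul, Module.End.mul_apply, hW.hWχ v hv _ hcZ, map_smul, ih v hv,
        smul_smul, pow_succ, mul_comm]
  have hζℓ : (χ ⁅h, x⁆) ^ ℓ = 1 := by
    obtain ⟨w₀, hw₀W, hw₀⟩ := Submodule.exists_mem_ne_zero_of_ne_bot hW.hW0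
    have h1 := hcact ℓ w₀ hw₀W
    rw [hcℓ, Units.val_one, Module.End.one_apply] at h1
    have h2 : ((χ ⁅h, x⁆) ^ ℓ - 1) • w₀ = 0 := by
      rw [sub_smul, one_smul, ← h1, sub_self]
    rcases smul_eq_zero.mp h2 with h3 | h3
    · exact sub_eq_zero.mp h3
    · exact absurd h3 hw₀
  have hhx : ∀ v ∈ W, ((h * x * h⁻¹ : (Module.End k V)ˣ) : Module.End k V) v =
      χ ⁅h, x⁆ • (x : Module.End k V) v := by
    intro v hv
    rw [← hcx, Units.val_mul, Module.End.mul_apply, hW.hWχ _ (hW.hWQ x hxP v hv) _ hcZ]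
  generalize χ ⁅h, x⁆ = ζ at hζ1 hζℓ hhx
  -- scalars
  have hℓk : (ℓ : k) ≠ 0 := by
    apply gross_cast_ne_zero
    refine Nat.Coprime.coprime_dvd_left ?_ hD.hcop
    refine Dvd.dvd.trans ?_ hcardP
    rw [hPR]
    exact Dvd.dvd.mul_right (dvd_pow_self ℓ (by norm_num)) _
  have h2k : (2 : k) ≠ 0 := by
    have h1 : ((2 : ℕ) : k) ≠ 0 := by
      apply gross_cast_ne_zero
      refine Nat.Coprime.coprime_dvd_left ?_ hD.hcop
      exact (dvd_pow_self 2 (by omega)).trans h2M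
    exact_mod_cast h1
  -- step 6: the dihedral lemma on an invariant subspace
  have key : ∀ Y : Submodule k V, Y ≤ W → (∀ g ∈ P, ∀ v ∈ Y, (g : Module.End k V) v ∈ Y) →
      ∀ (hψS : ψ ∈ grossStab Y) (hxS : x ∈ grossStab Y),
      2 * ℓ * Module.finrank k
          ↥(LinearMap.ker (((grossRes Y ⟨ψ, hψS⟩ : (Module.End k ↥Y)ˣ) : Module.End k ↥Y) - 1)) =
        2 * ℓ * Module.finrank k
            ↥(LinearMap.ker (((grossRes Y ⟨ψ, hψS⟩ : (Module.End k ↥Y)ˣ) : Module.End k ↥Y) - 1) ⊓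
              LinearMap.ker (((grossRes Y ⟨x, hxS⟩ : (Module.End k ↥Y)ˣ) : Module.End k ↥Y) - 1)) +
          (ℓ - 1) * Module.finrank k ↥Y := by
    intro Y hYW hYP hψS hxS
    have hhS : h ∈ grossStab Y := ⟨hYP h hhP, hYP h⁻¹ (P.inv_mem hhP)⟩
    refine hDih k ↥Y ℓ hℓ hℓ2 hℓk h2k (grossRes Y ⟨x, hxS⟩) (grossRes Y ⟨ψ, hψS⟩)
      (grossRes Y ⟨h, hhS⟩) ζ ?_ ?_ ?_ hζ1 hζℓ ?_
    · rw [← map_pow]
      have : (⟨x, hxS⟩ : ↥(grossStab Y)) ^ ℓ = 1 := Subtype.ext (by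
        rw [Subgroup.coe_pow]
        exact hxℓ)
      rw [this, map_one]
    · rw [← map_pow]
      have : (⟨ψ, hψS⟩ : ↥(grossStab Y)) ^ 2 = 1 := Subtype.ext (by
        rw [Subgroup.coe_pow]
        exact hψ2)
      rw [this, map_one]
    · rw [← map_inv, ← map_inv, ← map_mul, ← map_mul]
      congr 1
      exact Subtype.ext hconj
    · intro v
      apply Subtype.ext
      rw [← map_inv, ← map_mul, ← map_mul, grossRes_apply]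
      exact hhx v.1 (hYW v.2)
  -- step 4: equality in the Hall-Higman count
  have hta : (grossRes W ⟨φ ^ N, hS⟩) ^ a = 1 := by
    rw [← map_pow]
    have : (⟨φ ^ N, hS⟩ : ↥(grossStab W)) ^ a = 1 := Subtype.ext (by
      rw [Subgroup.coe_pow]
      exact hφN)
    rw [this, map_one]
  have htfix : ∀ w : ↥W,
      ((grossRes W ⟨φ ^ N, hS⟩ : (Module.End k ↥W)ˣ) : Module.End k ↥W) w = w → w = 0 := by
    intro w hw
    apply Subtype.ext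
    apply hCW w.1 w.2
    have := congrArg Subtype.val hw
    rwa [grossRes_apply] at this
  have haM : a ∣ M₀ := (Dvd.intro_left N hNa).trans h2M
  obtain ⟨ζ₀, hζ₀⟩ := hD.hroot
  obtain ⟨c₀, hc₀⟩ := haM
  have hζa : IsPrimitiveRoot (ζ₀ ^ c₀) a := hζ₀.pow hD.hM0 (by rw [hc₀, mul_comm])
  have hak : (a : k) ≠ 0 :=
    gross_cast_ne_zero (Nat.Coprime.coprime_dvd_left (Dvd.intro _ hc₀.symm) hD.hcop)
  have hPeq : Nat.card P = (a - 1) ^ 2 * Nat.card R := by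
    rw [hPR, haℓ, Nat.add_sub_cancel]
  have hcomm := heq hPeq hS
  have hG3 := hG k ↥W (grossRes W ⟨φ ^ N, hS⟩) a ha1 ⟨b, hb⟩ hta htfix (ζ₀ ^ c₀) hζa hak hcomm
  have htb : (grossRes W ⟨φ ^ N, hS⟩) ^ (a / 2) = grossRes W ⟨ψ, hSψ⟩ := by
    have e : a / 2 = b := by omega
    rw [e, ← map_pow]
    congr 1
    exact Subtype.ext (by
      rw [Subgroup.coe_pow]
      exact hψeq.symm)
  rw [htb, haℓ] at hG3
  have e1 : ℓ + 1 - 1 = ℓ := by omega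
  have e2 : ℓ + 1 - 2 = ℓ - 1 := by omega
  rw [e1, e2] at hG3
  -- step 7
  have hxSW : x ∈ grossStab W := ⟨hW.hWQ x hxP, hW.hWQ x⁻¹ (P.inv_mem hxP)⟩
  have hkeyW := key W le_rfl hW.hWQ hSψ hxSW
  have hint0 : Module.finrank k
      ↥(LinearMap.ker (((grossRes W ⟨ψ, hSψ⟩ : (Module.End k ↥W)ˣ) : Module.End k ↥W) - 1) ⊓
        LinearMap.ker (((grossRes W ⟨x, hxSW⟩ : (Module.End k ↥W)ˣ) : Module.End k ↥W) - 1)) =
      0 := by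
    rw [hG3] at hkeyW
    have h1 : 2 * ℓ * Module.finrank k
      ↥(LinearMap.ker (((grossRes W ⟨ψ, hSψ⟩ : (Module.End k ↥W)ˣ) : Module.End k ↥W) - 1) ⊓
        LinearMap.ker (((grossRes W ⟨x, hxSW⟩ : (Module.End k ↥W)ˣ) : Module.End k ↥W) - 1)) =
      0 := by omega
    exact (Nat.mul_eq_zero.mp h1).resolve_left (by omega)
  have hbot := Submodule.finrank_eq_zero.mp hint0
  have hno : ∀ w ∈ W, (ψ : Module.End k V) w = w → (x : Module.End k V) w = w → w = 0 := by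
    intro w hw h1 h2
    have hmem : (⟨w, hw⟩ : ↥W) ∈
        LinearMap.ker (((grossRes W ⟨ψ, hSψ⟩ : (Module.End k ↥W)ˣ) : Module.End k ↥W) - 1) ⊓
        LinearMap.ker (((grossRes W ⟨x, hxSW⟩ : (Module.End k ↥W)ˣ) : Module.End k ↥W) - 1) := by
      refine Submodule.mem_inf.mpr ⟨?_, ?_⟩
      · rw [LinearMap.mem_ker, LinearMap.sub_apply, sub_eq_zero]
        exact Subtype.ext h1
      · rw [LinearMap.mem_ker, LinearMap.sub_apply, sub_eq_zero]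
        exact Subtype.ext h2
    rw [hbot] at hmem
    exact congrArg Subtype.val ((Submodule.mem_bot k).mp hmem)
  -- step 8
  intro Y hYW hYP hYψ
  have hψS : ψ ∈ grossStab Y := mem_grossStab_of_pow Y (by norm_num : 0 < 2) hψ2 hYψ
  have hxS : x ∈ grossStab Y := ⟨hYP x hxP, hYP x⁻¹ (P.inv_mem hxP)⟩
  have hkeyY := key Y hYW hYP hψS hxS
  have hintY :
      LinearMap.ker (((grossRes Y ⟨ψ, hψS⟩ : (Module.End k ↥Y)ˣ) : Module.End k ↥Y) - 1) ⊓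
        LinearMap.ker (((grossRes Y ⟨x, hxS⟩ : (Module.End k ↥Y)ˣ) : Module.End k ↥Y) - 1) = ⊥ := by
    rw [eq_bot_iff]
    intro y hy
    obtain ⟨hy1, hy2⟩ := Submodule.mem_inf.mp hy
    rw [LinearMap.mem_ker, LinearMap.sub_apply, sub_eq_zero] at hy1 hy2
    have := hno y.1 (hYW y.2) (congrArg Subtype.val hy1) (congrArg Subtype.val hy2)
    exact (Submodule.mem_bot k).mpr (Subtype.ext this)
  rw [hintY, finrank_bot, mul_zero, zero_add] at hkeyY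
  rw [← hkeyY]
  congr 1
  have hmap : (LinearMap.ker
      (((grossRes Y ⟨ψ, hψS⟩ : (Module.End k ↥Y)ˣ) : Module.End k ↥Y) - 1)).map Y.subtype =
      Y ⊓ LinearMap.ker ((ψ : Module.End k V) - 1) := by
    ext v
    constructor
    · rintro ⟨y, hy, rfl⟩
      rw [SetLike.mem_coe, LinearMap.mem_ker, LinearMap.sub_apply, sub_eq_zero] at hy
      refine Submodule.mem_inf.mpr ⟨y.2, ?_⟩
      rw [LinearMap.mem_ker, LinearMap.sub_apply, sub_eq_zero]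
      exact congrArg Subtype.val hy
    · intro hv
      obtain ⟨hvY, hv⟩ := Submodule.mem_inf.mp hv
      rw [LinearMap.mem_ker, LinearMap.sub_apply, sub_eq_zero] at hv
      refine ⟨⟨v, hvY⟩, ?_, rfl⟩
      rw [SetLike.mem_coe, LinearMap.mem_ker, LinearMap.sub_apply, sub_eq_zero]
      exact Subtype.ext hv
  rw [← hmap]
  exact Submodule.finrank_map_subtype_eq Y _

end Cfsg.Agent.Lib.Helper26.Gross2
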