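import Mathlib
import Cfsg.Agent.Lib.Helper26.Gross2DefsB

/-!
# Gross's theorem for `p = 2` (S3795): assembly of the linear three-layer key proposition

`gross2_lin3 : AbwStmt → StructStmt → K1Stmt → L2Stmt → Lin3Stmt`: a minimal counterexample is a
minimal tower; its structure, the first layer count `|R [Q, ψ] : R| = q ^ 2`, `|Q : R| = q ^ (2 m)`
and the second layer identity `2 s e = (s + 1) d` are contradictory.
-/

set_option autoImplicit false
set_option linter.style.haveILetI false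
set_option linter.unusedSectionVars false
open scoped commutatorElement

namespace Cfsg.Agent.Lib.Helper26.Gross2

open Cfsg.Agent.Lib.Helper26

universe u

/-- consequence of the abelian lemma: `ψ` centralises abelian `φ`-invariant subgroups -/
theorem gross2_ab_of_abw (hAbw : AbwStmt.{u}) {k : Type} [Field k] [Finite k] {M₀ n : ℕ}
    (hD : GrossDat k M₀) {V : Type u} [AddCommGroup V] [Module k V] [Module.Finite k V]
    (B : Subgroup (Module.End k V)ˣ) (φ : (Module.End k V)ˣ) (hcard : Nat.card B ∣ M₀)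
    (hφ : φ ^ 2 ^ (n + 1) = 1) (hnB : ∀ x ∈ B, φ * x * φ⁻¹ ∈ B)
    (hCV : ∀ v : V, (φ : Module.End k V) v = v → v = 0)
    (hab : ∀ x ∈ B, ∀ y ∈ B, x * y = y * x) :
    ∀ x ∈ B, φ ^ 2 ^ n * x = x * φ ^ 2 ^ n := by
  intro x hx
  have h1 := hAbw k M₀ n hD V B φ hcard hφ hnB hCV ⊤ (fun _ _ _ _ => Submodule.mem_top)
    (fun a ha b hb u _ => by
      rw [← Module.End.mul_apply, ← Module.End.mul_apply, ← Units.val_mul, ← Units.val_mul,
        hab a ha b hb]) x hx
  have h2 : φ ^ 2 ^ n * x * (φ ^ 2 ^ n)⁻¹ = x := by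
    apply Units.ext
    apply LinearMap.ext
    intro u
    exact h1 u Submodule.mem_top
  calc φ ^ 2 ^ n * x = φ ^ 2 ^ n * x * (φ ^ 2 ^ n)⁻¹ * φ ^ 2 ^ n := by group
    _ = x * φ ^ 2 ^ n := by rw [h2]

theorem gross2_lin3 (hAbw : AbwStmt.{u}) (hStruct : StructStmt.{u}) (hK1 : K1Stmt.{u})
    (hL2 : L2Stmt.{u}) : Lin3Stmt.{u} := by
  intro k _ _ q s n M₀ hD hq hs hq2 hs2 hqs V _ _ _ Q S φ hQ hS hcard hφ hnQ hnS hSQ hCQ hCS hCV
  haveI : Finite (Module.End k V)ˣ := gross_finite_units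
  have hψpow : ∀ (K : Subgroup (Module.End k V)ˣ), (∀ x ∈ K, φ * x * φ⁻¹ ∈ K) →
      ∀ x ∈ K, φ ^ 2 ^ n * x * (φ ^ 2 ^ n)⁻¹ ∈ K :=
    fun K hK => gross_pow_conj_mem K hK (2 ^ n)
  have main : ∀ (d : ℕ) (Q S : Subgroup (Module.End k V)ˣ), Nat.card Q + Nat.card S = d →
      IsPGroup q Q → IsPGroup s S → Nat.card Q * Nat.card S * 2 ^ (n + 1) ∣ M₀ →
      (∀ x ∈ Q, φ * x * φ⁻¹ ∈ Q) → (∀ y ∈ S, φ * y * φ⁻¹ ∈ S) →
      (∀ y ∈ S, ∀ x ∈ Q, y * x * y⁻¹ ∈ Q) →
      (∀ x ∈ Q, φ * x = x * φ → x = 1) → (∀ y ∈ S, φ * y = y * φ → y = 1) →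
      ∀ y ∈ S, ∀ x ∈ Q, (y⁻¹ * (φ ^ 2 ^ n * y * (φ ^ 2 ^ n)⁻¹)) * x =
        x * (y⁻¹ * (φ ^ 2 ^ n * y * (φ ^ 2 ^ n)⁻¹)) := by
    intro d
    induction d using Nat.strong_induction_on with
    | _ d ih =>
      intro Q S hd hQ hS hcard hnQ hnS hSQ hCQ hCS
      by_contra hnot
      have hQpos : 0 < Nat.card Q := Nat.card_pos
      have hSpos : 0 < Nat.card S := Nat.card_pos
      have hlt : ∀ (K₀ K : Subgroup (Module.End k V)ˣ), K₀ ≤ K → K₀ ≠ K →
          Nat.card K₀ < Nat.card K := by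
        intro K₀ K h1 h2
        by_contra hge
        push_neg at hge
        exact h2 (Subgroup.eq_of_le_of_card_ge h1 hge)
      have hT : GrossTMin q s n Q S φ :=
        { tow :=
            { hq := hq
              hs := hs
              hq2 := hq2
              hs2 := hs2
              hqs := hqs
              hfinQ := inferInstance
              hfinS := inferInstance
              hQ := hQ
              hS := hS
              hφ := hφ
              hnormQ := hnQ
              hnormS := hnS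
              hSQ := hSQ
              hCQ := hCQ
              hCS := hCS }
          hsubS := by
            intro S₀ h1 h2 h3
            have hl := hlt S₀ S h1 h2
            have hdv : Nat.card Q * Nat.card S₀ * 2 ^ (n + 1) ∣ M₀ :=
              (Nat.mul_dvd_mul_right (Nat.mul_dvd_mul_left _ (Subgroup.card_dvd_of_le h1)) _).trans
                hcard
            exact ih (Nat.card Q + Nat.card S₀) (by omega) Q S₀ rfl hQ (hS.to_le h1) hdv hnQ h3
              (fun y hy => hSQ y (h1 hy)) hCQ (fun y hy => hCS y (h1 hy))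
          hsubQ := by
            intro Q₀ h1 h2 h3 h4
            have hl := hlt Q₀ Q h1 h2
            have hdv : Nat.card Q₀ * Nat.card S * 2 ^ (n + 1) ∣ M₀ :=
              (Nat.mul_dvd_mul_right (Nat.mul_dvd_mul_right (Subgroup.card_dvd_of_le h1) _) _).trans
                hcard
            exact ih (Nat.card Q₀ + Nat.card S) (by omega) Q₀ S rfl (hQ.to_le h1) hS hdv h3 hnS h4
              (fun x hx => hCQ x (h1 hx)) hCS
          hnot := hnot }
      have hcardQ : Nat.card Q * 2 ^ (n + 1) ∣ M₀ := by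
        refine Dvd.dvd.trans ?_ hcard
        refine ⟨Nat.card S, ?_⟩
        ring
      have hab : ∀ B : Subgroup (Module.End k V)ˣ, B ≤ Q → (∀ x ∈ B, ∀ y ∈ B, x * y = y * x) →
          (∀ x ∈ B, φ * x * φ⁻¹ ∈ B) → ∀ x ∈ B, φ ^ 2 ^ n * x = x * φ ^ 2 ^ n := by
        intro B hBQ hBab hBn
        have hcB : Nat.card B ∣ M₀ :=
          ((Subgroup.card_dvd_of_le hBQ).trans (Dvd.intro _ rfl)).trans hcardQ
        exact gross2_ab_of_abw hAbw hD B φ hcB hφ hBn hCV hBab
      obtain ⟨h1, h2, h3, h4, h5⟩ := hStruct _ q s n Q S φ hT hab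
      obtain ⟨R, m, hRQ, hZR, hRinv, hcQ, hcD⟩ :=
        hK1 k M₀ q n hD hq hq2 V Q φ hQ hcardQ hφ hnQ hCV h1 h2 h3
      have hSR : ∀ y ∈ S, ∀ x ∈ R, y * x * y⁻¹ ∈ R :=
        fun y hy => hRinv y (hSQ y hy) (fun z hz hc => h5 y hy z hz hc)
      have hZn : ∀ x ∈ Q ⊓ Subgroup.centralizer (Q : Set (Module.End k V)ˣ),
          φ * x * φ⁻¹ ∈ Q ⊓ Subgroup.centralizer (Q : Set (Module.End k V)ˣ) := by
        intro z hz
        refine Subgroup.mem_inf.mpr ⟨hnQ z hz.1, ?_⟩
        rw [Subgroup.mem_centralizer_iff]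
        intro w hw
        have hw' : φ⁻¹ * w * φ ∈ Q :=
          gross_inv_conj_mem Q (pow_pos (by norm_num) (n + 1)) hφ hnQ w hw
        have e := (Subgroup.mem_centralizer_iff.mp hz.2) _ hw'
        calc w * (φ * z * φ⁻¹) = φ * ((φ⁻¹ * w * φ) * z) * φ⁻¹ := by group
          _ = φ * (z * (φ⁻¹ * w * φ)) * φ⁻¹ := by rw [e]
          _ = φ * z * φ⁻¹ * w := by group
      have hψZ : ∀ z ∈ Q, (∀ w ∈ Q, z * w = w * z) → φ ^ 2 ^ n * z = z * φ ^ 2 ^ n := by
        intro z hz hc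
        have hzZ : z ∈ Q ⊓ Subgroup.centralizer (Q : Set (Module.End k V)ˣ) := by
          refine Subgroup.mem_inf.mpr ⟨hz, ?_⟩
          rw [Subgroup.mem_centralizer_iff]
          intro w hw
          exact (hc w hw).symm
        exact hab (Q ⊓ Subgroup.centralizer (Q : Set (Module.End k V)ˣ)) inf_le_left
          (fun a ha b hb => ((Subgroup.mem_centralizer_iff.mp hb.2) a ha.1)) hZn z hzZ
      have hψR : ∀ x ∈ R, φ ^ 2 ^ n * x * (φ ^ 2 ^ n)⁻¹ ∈ R :=
        hRinv (φ ^ 2 ^ n) (hψpow Q hnQ) hψZ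
      have hfin := hL2 _ q s n Q S φ hT h1 h2 h4 h5 R hRQ hZR hSR hψR (2 * m) 2 hcQ hcD
      have hs3 : 3 ≤ s := by
        have := hs.two_le
        omega
      rcases Nat.lt_or_ge m 2 with hm | hm
      · interval_cases m
        · omega
        · omega
      · nlinarith
  intro y hy x hx
  exact main _ Q S rfl hQ hS hcard hnQ hnS hSQ hCQ hCS y hy x hx

end Cfsg.Agent.Lib.Helper26.Gross2
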