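import Mathlib
import Cfsg.Agent.S3794
import Cfsg.Agent.Lib.Helper26.Gross2DefsA
import Cfsg.Agent.Lib.Helper75.Gross2CHAIN2
import Cfsg.Agent.Lib.Helper69.Gross2T2FIT
import Cfsg.Agent.Lib.Helper88.Gross2FIT3
import Cfsg.Agent.Lib.Helper68.Gross2CENT2

/-!
# Gross's theorem for `p = 2` (S3795): the top-level reduction to `Aut3Stmt`
-/

set_option autoImplicit false

namespace Cfsg.Agent.Lib.Helper26.Gross2

universe u

/-- Gross's theorem for `p = 2`, given the module-theoretic core `Aut3Stmt` -/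
theorem gross2_main_of_aut3 (hA : Aut3Stmt.{u}) {G : Type u} [Group G] [Finite G]
    (hG : Group.IsSolvable G) (σ : MulAut G)
    (n : ℕ) (hn : 1 < n) (hσ : orderOf σ = 2 ^ n) (hfpf : ∀ g : G, σ g = g → g = 1) :
    ∃ F : Fin ((2 * n - 2) + 1) → Subgroup G, F 0 = ⊥ ∧ F (Fin.last (2 * n - 2)) = ⊤ ∧
      Monotone F ∧ (∀ i, (F i).Normal) ∧
      ∀ i : Fin (2 * n - 2), ∃ k : ℕ, (F i.succ).lowerCentralSeries k ≤ F i.castSucc :=
  Cfsg.Agent.Lib.Helper75.Gross2CHAIN2.gross2_chain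
    (Cfsg.Agent.Lib.Helper69.Gross2T2FIT.gross2_T_of_cent
      (Cfsg.Agent.Lib.Helper68.Gross2CENT2.gross2_cent_of_aut hA
        Cfsg.Agent.Lib.Helper88.Gross2FIT3.gross2_fit3)) hG σ n hn
    (by rw [← hσ]; exact pow_orderOf_eq_one σ) hfpf

end Cfsg.Agent.Lib.Helper26.Gross2
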