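import Mathlib
import Cfsg.Agent.Lib.Helper26.GrossIrr1

set_option autoImplicit false
set_option linter.style.haveILetI false
set_option linter.unusedSectionVars false
open scoped commutatorElement

namespace Cfsg.Agent.Lib.Helper26

section grossIrr2

variable {k : Type*} [Field k] [Finite k] {V : Type*} [AddCommGroup V] [Module k V]
  [Module.Finite k V] {p q n M₀ : ℕ} {Q : Subgroup (Module.End k V)ˣ} {φ : (Module.End k V)ˣ}

/-- **The stabiliser period `N` of `W` and the fixed-point-freeness of `φ ^ N` on `W`.** -/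
theorem gross_irr_N (hD : GrossData k p q n M₀) (h : GrossKP k p q n M₀ V Q φ)
    (hmin : GrossMin p q n Q φ) {χ θ : (Module.End k V)ˣ → k}
    {R : Subgroup (Module.End k V)ˣ} {W : Submodule k V} (hW : GrossW Q χ θ R W) :
    ∃ N a : ℕ, N * a = p ^ (n + 1) ∧ 1 < a ∧ (∀ v ∈ W, (φ ^ N).1 v ∈ W) ∧
      (∀ v ∈ W, (φ ^ N).1 v = v → v = 0) ∧
      (∀ z ∈ Q ⊓ Subgroup.centralizer (Q : Set (Module.End k V)ˣ),
        χ (φ ^ N * z * (φ ^ N)⁻¹) = χ z) := by
  classical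
  haveI : Finite (Module.End k V)ˣ := gross_finite_units
  have hm : 0 < p ^ (n + 1) := pow_pos hD.hp.pos _
  have hex : ∃ i, 0 < i ∧ ∀ v ∈ W, (φ ^ i).1 v ∈ W := by
    refine ⟨p ^ (n + 1), hm, fun v hv => ?_⟩
    rw [h.hφ]
    exact hv
  obtain ⟨N, hNspec, hNmin⟩ : ∃ N, (0 < N ∧ ∀ v ∈ W, (φ ^ N).1 v ∈ W) ∧
      ∀ i, i < N → ¬ (0 < i ∧ ∀ v ∈ W, (φ ^ i).1 v ∈ W) :=
    ⟨Nat.find hex, Nat.find_spec hex, fun i hi => Nat.find_min hex hi⟩
  obtain ⟨hN0, hNW⟩ := hNspec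
  -- powers of `φ ^ N` preserve `W`
  have hD1 : ∀ j : ℕ, ∀ v ∈ W, (φ ^ (N * j)).1 v ∈ W := by
    intro j
    induction j with
    | zero =>
      intro v hv
      rw [Nat.mul_zero, pow_zero]
      exact hv
    | succ j ih =>
      intro v hv
      rw [Nat.mul_succ, pow_add, gross_act_mul]
      exact ih _ (hNW v hv)
  -- `N ∣ p ^ (n + 1)`
  have hdvd : N ∣ p ^ (n + 1) := by
    rw [Nat.dvd_iff_mod_eq_zero]
    by_contra hr
    have hr0 : 0 < p ^ (n + 1) % N := Nat.pos_of_ne_zero hr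
    have hrN : p ^ (n + 1) % N < N := Nat.mod_lt _ hN0
    apply hNmin _ hrN
    refine ⟨hr0, ?_⟩
    have e : φ ^ (p ^ (n + 1) % N) = φ ^ (N * ((p ^ (n + 1) / N) * (p ^ (n + 1) - 1))) := by
      have e1 : φ ^ (p ^ (n + 1) % N) * φ ^ (N * (p ^ (n + 1) / N)) = 1 := by
        rw [← pow_add, Nat.mod_add_div, h.hφ]
      have e2 : φ ^ (N * ((p ^ (n + 1) / N) * (p ^ (n + 1) - 1))) *
          φ ^ (N * (p ^ (n + 1) / N)) = 1 := by
        rw [← pow_add]
        have e3 : N * ((p ^ (n + 1) / N) * (p ^ (n + 1) - 1)) + N * (p ^ (n + 1) / N) =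
            p ^ (n + 1) * (N * (p ^ (n + 1) / N)) := by
          obtain ⟨c, hc⟩ : ∃ c, p ^ (n + 1) = c + 1 := ⟨p ^ (n + 1) - 1, by omega⟩
          rw [hc, Nat.add_sub_cancel]
          ring
        rw [e3, pow_mul, h.hφ, one_pow]
      exact mul_right_cancel (e1.trans e2.symm)
    rw [e]
    exact hD1 _
  obtain ⟨a, ha⟩ := hdvd
  have hNa : N * a = p ^ (n + 1) := ha.symm
  -- the inverse of `φ ^ N` preserves `W`
  have hD3 : ∀ v ∈ W, ((φ ^ N)⁻¹).1 v ∈ W := by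
    have e : (φ ^ N)⁻¹ = φ ^ (N * (p ^ (n + 1) - 1)) := by
      apply inv_eq_of_mul_eq_one_right
      rw [← pow_add]
      have e3 : N + N * (p ^ (n + 1) - 1) = p ^ (n + 1) * N := by
        obtain ⟨c, hc⟩ : ∃ c, p ^ (n + 1) = c + 1 := ⟨p ^ (n + 1) - 1, by omega⟩
        rw [hc, Nat.add_sub_cancel]
        ring
      rw [e3, pow_mul, h.hφ, one_pow]
    rw [e]
    exact hD1 _
  have hZR : ∀ z ∈ Q ⊓ Subgroup.centralizer (Q : Set (Module.End k V)ˣ), z ∈ R := by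
    intro z hz
    exact hW.hχ.center_le z hz.1 (fun w hw => ((Subgroup.mem_centralizer_iff.mp hz.2) w hw).symm)
  -- the projection onto `W`
  haveI : Fintype ↥R := Fintype.ofFinite _
  let act : ↥R →* Module.End k V := (Units.coeHom (Module.End k V)).comp R.subtype
  have hact : ∀ (y : ↥R) (v : V), act y v = (y : (Module.End k V)ˣ).1 v := fun y v => rfl
  have hmul' : ∀ y y' : ↥R, θ ((y * y' : ↥R) : (Module.End k V)ˣ) =
      θ (y : (Module.End k V)ˣ) * θ (y' : (Module.End k V)ˣ) :=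
    fun y y' => hW.hθmul _ y.2 _ y'.2
  have hne' : ∀ y : ↥R, θ (y : (Module.End k V)ˣ) ≠ 0 := fun y => hW.hθne _ y.2
  have hcardR : (Fintype.card ↥R : k) ≠ 0 := by
    rw [← Nat.card_eq_fintype_card]
    apply gross_cast_ne_zero
    have h1 : Nat.card R ∣ M₀ := (Subgroup.card_dvd_of_le hW.hχ.le).trans h.hcard
    exact Nat.Coprime.coprime_dvd_left h1 hD.hcop
  have hE1 : ∀ v ∈ W, grossProj act (fun y : ↥R => θ (y : (Module.End k V)ˣ)) v = v := by
    intro v hv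
    apply grossProj_of_mem act _ hne' hcardR
    intro y
    exact (hW.hW v).mp hv _ y.2
  have hE2 : ∀ i, 0 < i → i < N → ∀ v ∈ W,
      grossProj act (fun y : ↥R => θ (y : (Module.End k V)ˣ)) ((φ ^ i).1 v) = 0 := by
    intro i hi hiN v hv
    have hg : φ ^ i ∈ Subgroup.zpowers φ := Subgroup.pow_mem _ (Subgroup.mem_zpowers φ) i
    by_cases hc1 : ∀ z ∈ Q ⊓ Subgroup.centralizer (Q : Set (Module.End k V)ˣ),
        χ ((φ ^ i)⁻¹ * z * φ ^ i) = χ z
    · have hnorm : ∀ x ∈ R, (φ ^ i)⁻¹ * x * φ ^ i ∈ R := by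
        have h1 := GrossChi.norm hmin hW.hχ (g := (φ ^ i)⁻¹) (Subgroup.inv_mem _ hg)
          (by
            intro z hz
            rw [inv_inv]
            exact hc1 z hz)
        intro x hx
        have h2 := h1 x hx
        rwa [inv_inv] at h2
      by_cases hc2 : ∀ x ∈ R, θ ((φ ^ i)⁻¹ * x * φ ^ i) = θ x
      · exfalso
        apply hNmin i hiN
        refine ⟨hi, fun v hv => ?_⟩
        rw [hW.hW]
        intro x hx
        rw [gross_act_conj (φ ^ i) x v, (hW.hW v).mp hv _ (hnorm x hx), map_smul, hc2 x hx]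
      · push_neg at hc2
        obtain ⟨x, hx, hxne⟩ := hc2
        apply grossProj_of_ne act _ hmul' hne' ⟨x, hx⟩ (θ ((φ ^ i)⁻¹ * x * φ ^ i)) hxne
        show x.1 ((φ ^ i).1 v) = θ ((φ ^ i)⁻¹ * x * φ ^ i) • (φ ^ i).1 v
        rw [gross_act_conj (φ ^ i) x v, (hW.hW v).mp hv _ (hnorm x hx), map_smul]
    · push_neg at hc1
      obtain ⟨z, hz, hzne⟩ := hc1
      have hz' : (φ ^ i)⁻¹ * z * φ ^ i ∈ Q ⊓ Subgroup.centralizer (Q : Set (Module.End k V)ˣ) := by
        have h1 := hmin.zpow_norm_center (Subgroup.inv_mem _ hg) z hz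
        rwa [inv_inv] at h1
      apply grossProj_of_ne act _ hmul' hne' ⟨z, hZR z hz⟩ (χ ((φ ^ i)⁻¹ * z * φ ^ i))
        (by
          show χ ((φ ^ i)⁻¹ * z * φ ^ i) ≠ θ z
          rw [hW.hθχ z hz]
          exact hzne)
      show z.1 ((φ ^ i).1 v) = χ ((φ ^ i)⁻¹ * z * φ ^ i) • (φ ^ i).1 v
      rw [gross_act_conj (φ ^ i) z v, hW.hWχ v hv _ hz', map_smul]
  -- fixed points of `φ ^ N` on `W`
  have hfix : ∀ v ∈ W, (φ ^ N).1 v = v → v = 0 := by
    intro v hv hvN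
    have hu : φ.1 (∑ i ∈ Finset.range N, (φ ^ i).1 v) = ∑ i ∈ Finset.range N, (φ ^ i).1 v := by
      rw [map_sum]
      have e1 : ∀ i ∈ Finset.range N, φ.1 ((φ ^ i).1 v) = (φ ^ (i + 1)).1 v := by
        intro i _
        rw [← gross_act_mul, ← pow_succ']
      rw [Finset.sum_congr rfl e1]
      have e2 := Finset.sum_range_succ' (fun i => (φ ^ i).1 v) N
      have e3 := Finset.sum_range_succ (fun i => (φ ^ i).1 v) N
      rw [e3] at e2
      have e4 : (φ ^ N).1 v = (φ ^ 0).1 v := by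
        rw [hvN, pow_zero]
        rfl
      rw [e4] at e2
      exact (add_right_cancel e2).symm
    have hu0 := h.hCV _ hu
    have hPu : grossProj act (fun y : ↥R => θ (y : (Module.End k V)ˣ))
        (∑ i ∈ Finset.range N, (φ ^ i).1 v) = v := by
      rw [map_sum, Finset.sum_eq_single 0]
      · rw [pow_zero]
        exact hE1 v hv
      · intro i hi hi0
        exact hE2 i (Nat.pos_of_ne_zero hi0) (Finset.mem_range.mp hi) v hv
      · intro h0
        exact absurd (Finset.mem_range.mpr hN0) h0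
    rw [hu0, map_zero] at hPu
    exact hPu.symm
  refine ⟨N, a, hNa, ?_, hNW, hfix, ?_⟩
  · by_contra ha1
    have ha0 : a ≠ 0 := by
      rintro rfl
      rw [Nat.mul_zero] at hNa
      omega
    have ha' : a = 1 := by omega
    rw [ha', Nat.mul_one] at hNa
    apply hW.hW0
    rw [Submodule.eq_bot_iff]
    intro v hv
    apply hfix v hv
    rw [hNa, h.hφ]
    rfl
  · intro z hz
    obtain ⟨s, hs, hs0⟩ := (Submodule.ne_bot_iff W).mp hW.hW0
    have hz' : φ ^ N * z * (φ ^ N)⁻¹ ∈ Q ⊓ Subgroup.centralizer (Q : Set (Module.End k V)ˣ) :=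
      hmin.zpow_norm_center (Subgroup.pow_mem _ (Subgroup.mem_zpowers φ) N) z hz
    have e1 : (φ ^ N * z * (φ ^ N)⁻¹).1 s = χ (φ ^ N * z * (φ ^ N)⁻¹) • s := hW.hWχ s hs _ hz'
    have e2 : (φ ^ N * z * (φ ^ N)⁻¹).1 s = χ z • s := by
      rw [gross_act_mul, gross_act_mul, hW.hWχ _ (hD3 s hs) z hz, map_smul, gross_act_act_inv]
    rw [e1] at e2
    have e3 : (χ (φ ^ N * z * (φ ^ N)⁻¹) - χ z) • s = 0 := by rw [sub_smul, e2, sub_self]
    rcases smul_eq_zero.mp e3 with h3 | h3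
    · exact sub_eq_zero.mp h3
    · exact absurd h3 hs0

end grossIrr2

end Cfsg.Agent.Lib.Helper26
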