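import Mathlib
import Cfsg.Agent.Lib.Helper26.Gross2DefsC
import Cfsg.Agent.Lib.Helper26.Gross2Lin3S
import Cfsg.Agent.Lib.Helper26.Gross2Card2Core
import Cfsg.Agent.Lib.Helper26.Gross2Comp
import Cfsg.Agent.Lib.Helper26.Gross2Top
import Cfsg.Agent.Lib.Helper54.Gross2AUT3LIFT
import Cfsg.Agent.Lib.Helper75.Gross2ABW
import Cfsg.Agent.Lib.Helper29.Gross2STRUCT
import Cfsg.Agent.Lib.Helper88.Gross2DIH
import Cfsg.Agent.Lib.Helper49.Gross2DIMHOM
import Cfsg.Agent.Lib.Helper49.Gross2G3EQ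
import Cfsg.Agent.Lib.Helper49.Gross2K2L
import Cfsg.Agent.Lib.Helper12.Gross2MIN2INV
import Cfsg.Agent.Lib.Helper4.Gross2N2

/-!
# Gross's theorem for `p = 2` (S3795): assembly of the module-theoretic core

`gross2_aut3_of` derives `Aut3Stmt` from the pieces that were still open when this file was
written (SETUP, LE2, CARD2, TOWER, K1, L2); all other pieces are plugged in.
-/

set_option autoImplicit false

namespace Cfsg.Agent.Lib.Helper26.Gross2

universe u

/-- the component theorem from the two remaining inputs -/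
theorem gross2_comp_of (hLe : Le2Stmt.{u}) (hCard2 : Card2CoreStmt.{u} → Card2Stmt.{u}) :
    CompStmt.{u} :=
  gross2_comp Cfsg.Agent.Lib.Helper4.Gross2.gross2_n2 hLe (hCard2 gross2_card2_core)
    Cfsg.Agent.Lib.Helper49.Gross2G3EQ.gross2_g3eq Cfsg.Agent.Lib.Helper88.Gross2DIH.gross2_dih

/-- `Aut3Stmt` from the six remaining pieces -/
theorem gross2_aut3_of (hSetup : SetupStmt.{u}) (hLe : Le2Stmt.{u})
    (hCard2 : Card2CoreStmt.{u} → Card2Stmt.{u}) (hTower : TowerStmt.{u})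
    (hK1 : AbwStmt.{u} → SetupStmt.{u} → CompStmt.{u} → K1Stmt.{u})
    (hL2 : AbwStmt.{u} → K2LStmt.{u} → Min2InvStmt.{u} → DimHomStmt.{u} → TowerStmt.{u} →
      L2Stmt.{u}) : Aut3Stmt.{u} :=
  Cfsg.Agent.Lib.Helper54.Gross2AUT3LIFT.gross2_aut_of_lin
    (gross2_lin3s Cfsg.Agent.Lib.Helper75.Gross2ABW.gross2_abw
      Cfsg.Agent.Lib.Helper29.Gross2STRUCT.gross2_struct
      (hK1 Cfsg.Agent.Lib.Helper75.Gross2ABW.gross2_abw hSetup (gross2_comp_of hLe hCard2))
      (hL2 Cfsg.Agent.Lib.Helper75.Gross2ABW.gross2_abw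
        (Cfsg.Agent.Lib.Helper49.Gross2K2L.gross2_k2l hSetup (gross2_comp_of hLe hCard2))
        Cfsg.Agent.Lib.Helper12.Gross2MIN2INV.gross2_min2inv
        Cfsg.Agent.Lib.Helper49.Gross2DIMHOM.gross2_dimhom hTower))

end Cfsg.Agent.Lib.Helper26.Gross2
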