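import Mathlib

set_option autoImplicit false
set_option linter.style.haveILetI false
set_option linter.unusedSectionVars false

namespace Cfsg.Agent.Lib.Helper26

section grossSq

variable {G : Type*} [Group G] {k : Type*} [Field k]

theorem gross_mulfun_one (f : G → k) (Q : Subgroup G)
    (hmul : ∀ x ∈ Q, ∀ y ∈ Q, f (x * y) = f x * f y) (hne : ∀ x ∈ Q, f x ≠ 0) : f 1 = 1 := by
  have h1 := hmul 1 Q.one_mem 1 Q.one_mem
  rw [one_mul] at h1
  have h2 : f 1 * (f 1 - 1) = 0 := by rw [mul_sub, mul_one, ← h1, sub_self]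
  rcases mul_eq_zero.mp h2 with h | h
  · exact absurd h (hne 1 Q.one_mem)
  · exact sub_eq_zero.mp h

theorem gross_mulfun_pow (f : G → k) (Q : Subgroup G)
    (hmul : ∀ x ∈ Q, ∀ y ∈ Q, f (x * y) = f x * f y) (hne : ∀ x ∈ Q, f x ≠ 0)
    {x : G} (hx : x ∈ Q) (i : ℕ) : f (x ^ i) = f x ^ i := by
  induction i with
  | zero => rw [pow_zero, pow_zero]; exact gross_mulfun_one f Q hmul hne
  | succ i ih => rw [pow_succ, pow_succ, hmul _ (Q.pow_mem hx i) _ hx, ih]

theorem gross_mulfun_inv (f : G → k) (Q : Subgroup G)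
    (hmul : ∀ x ∈ Q, ∀ y ∈ Q, f (x * y) = f x * f y) (hne : ∀ x ∈ Q, f x ≠ 0)
    {x : G} (hx : x ∈ Q) : f x⁻¹ = (f x)⁻¹ := by
  have h1 := hmul x hx x⁻¹ (Q.inv_mem hx)
  rw [mul_inv_cancel, gross_mulfun_one f Q hmul hne] at h1
  exact eq_inv_of_mul_eq_one_right h1.symm

/-- the index of the radical of a nondegenerate-mod-radical alternating pairing of exponent `q`
is a square -/
theorem gross_sq (β : G → G → k) (q : ℕ) (hq : q.Prime) (R : Subgroup G) :
    ∀ (d : ℕ) (Q : Subgroup G), Nat.card Q = d → Finite Q →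
      (∀ x ∈ Q, ∀ x' ∈ Q, ∀ y ∈ Q, β (x * x') y = β x y * β x' y) →
      (∀ x ∈ Q, ∀ y ∈ Q, ∀ y' ∈ Q, β x (y * y') = β x y * β x y') →
      (∀ x ∈ Q, β x x = 1) →
      (∀ x ∈ Q, ∀ y ∈ Q, β x y * β y x = 1) →
      (∀ x ∈ Q, ∀ y ∈ Q, β x y ^ q = 1) →
      (∀ x, x ∈ R ↔ x ∈ Q ∧ ∀ y ∈ Q, β x y = 1) →
      ∃ s : ℕ, Nat.card Q = s ^ 2 * Nat.card R := by
  intro d
  induction d using Nat.strong_induction_on with
  | _ d ih =>
    intro Q hd hfin hl hr halt hanti hpow hR
    haveI := hfin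
    haveI : NeZero q := ⟨hq.ne_zero⟩
    have hne : ∀ x ∈ Q, ∀ y ∈ Q, β x y ≠ 0 := by
      intro x hx y hy h0
      have := hpow x hx y hy
      rw [h0, zero_pow hq.ne_zero] at this
      exact zero_ne_one this
    by_cases hQR : ∀ x ∈ Q, x ∈ R
    · have : R = Q := le_antisymm (fun x hx => ((hR x).mp hx).1) hQR
      exact ⟨1, by rw [this]; simp⟩
    · push_neg at hQR
      obtain ⟨x, hx, hxR⟩ := hQR
      have hex : ∃ y ∈ Q, β x y ≠ 1 := by
        by_contra hcon
        push_neg at hcon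
        exact hxR ((hR x).mpr ⟨hx, hcon⟩)
      obtain ⟨y, hy, hxy⟩ := hex
      have hprim : IsPrimitiveRoot (β x y) q := by
        have h1 : orderOf (β x y) ∣ q := orderOf_dvd_of_pow_eq_one (hpow x hx y hy)
        have h2 : orderOf (β x y) ≠ 1 := fun h => hxy (orderOf_eq_one_iff.mp h)
        have h3 : orderOf (β x y) = q := ((Nat.dvd_prime hq).mp h1).resolve_left h2
        rw [← h3]
        exact IsPrimitiveRoot.orderOf _
      have hyx1 : β y x ≠ 1 := by
        intro h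
        have := hanti x hx y hy
        rw [h, mul_one] at this
        exact hxy this
      have hprim' : IsPrimitiveRoot (β y x) q := by
        have h1 : orderOf (β y x) ∣ q := orderOf_dvd_of_pow_eq_one (hpow y hy x hx)
        have h2 : orderOf (β y x) ≠ 1 := fun h => hyx1 (orderOf_eq_one_iff.mp h)
        have h3 : orderOf (β y x) = q := ((Nat.dvd_prime hq).mp h1).resolve_left h2
        rw [← h3]
        exact IsPrimitiveRoot.orderOf _
      -- left-multiplicative functions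
      have hLx : ∀ u ∈ Q, ∀ v ∈ Q, β (u * v) x = β u x * β v x := fun u hu v hv => hl u hu v hv x hx
      have hLy : ∀ u ∈ Q, ∀ v ∈ Q, β (u * v) y = β u y * β v y := fun u hu v hv => hl u hu v hv y hy
      have hnx : ∀ u ∈ Q, β u x ≠ 0 := fun u hu => hne u hu x hx
      have hny : ∀ u ∈ Q, β u y ≠ 0 := fun u hu => hne u hu y hy
      let Q₂ : Subgroup G :=
        { carrier := {u | u ∈ Q ∧ β u x = 1 ∧ β u y = 1}
          mul_mem' := by
            rintro a b ⟨ha, ha1, ha2⟩ ⟨hb, hb1, hb2⟩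
            exact ⟨Q.mul_mem ha hb, by rw [hLx a ha b hb, ha1, hb1, mul_one],
              by rw [hLy a ha b hb, ha2, hb2, mul_one]⟩
          one_mem' := ⟨Q.one_mem, gross_mulfun_one _ Q hLx hnx, gross_mulfun_one _ Q hLy hny⟩
          inv_mem' := by
            rintro a ⟨ha, ha1, ha2⟩
            exact ⟨Q.inv_mem ha, by rw [gross_mulfun_inv _ Q hLx hnx ha, ha1, inv_one],
              by rw [gross_mulfun_inv _ Q hLy hny ha, ha2, inv_one]⟩ }
      have hmemQ₂ : ∀ u, u ∈ Q₂ ↔ u ∈ Q ∧ β u x = 1 ∧ β u y = 1 := fun u => Iff.rfl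
      have hQ₂Q : Q₂ ≤ Q := fun u hu => hu.1
      -- values on x^i y^j u
      have hvy : ∀ (i j : ℕ) (u : G), u ∈ Q₂ → β (x ^ i * y ^ j * u) y = β x y ^ i := by
        intro i j u hu
        rw [hLy _ (Q.mul_mem (Q.pow_mem hx i) (Q.pow_mem hy j)) _ hu.1,
          hLy _ (Q.pow_mem hx i) _ (Q.pow_mem hy j), gross_mulfun_pow _ Q hLy hny hx,
          gross_mulfun_pow _ Q hLy hny hy, halt y hy, hu.2.2, one_pow, mul_one, mul_one]
      have hvx : ∀ (i j : ℕ) (u : G), u ∈ Q₂ → β (x ^ i * y ^ j * u) x = β y x ^ j := by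
        intro i j u hu
        rw [hLx _ (Q.mul_mem (Q.pow_mem hx i) (Q.pow_mem hy j)) _ hu.1,
          hLx _ (Q.pow_mem hx i) _ (Q.pow_mem hy j), gross_mulfun_pow _ Q hLx hnx hx,
          gross_mulfun_pow _ Q hLx hnx hy, halt x hx, hu.2.1, one_pow, one_mul, mul_one]
      -- decomposition
      have hD : ∀ v ∈ Q, ∃ i < q, ∃ j < q, ∃ v₂ ∈ Q₂, v = x ^ i * y ^ j * v₂ := by
        intro v hv
        obtain ⟨i, hi, hi'⟩ := hprim.eq_pow_of_pow_eq_one (hpow v hv y hy)
        obtain ⟨j, hj, hj'⟩ := hprim'.eq_pow_of_pow_eq_one (hpow v hv x hx)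
        have hxy' : x ^ i * y ^ j ∈ Q := Q.mul_mem (Q.pow_mem hx i) (Q.pow_mem hy j)
        refine ⟨i, hi, j, hj, (x ^ i * y ^ j)⁻¹ * v, ⟨Q.mul_mem (Q.inv_mem hxy') hv, ?_, ?_⟩, ?_⟩
        · rw [hLx _ (Q.inv_mem hxy') _ hv, gross_mulfun_inv _ Q hLx hnx hxy']
          have h1 := hvx i j 1 Q₂.one_mem
          rw [mul_one] at h1
          rw [h1, hj', inv_mul_cancel₀ (hnx v hv)]
        · rw [hLy _ (Q.inv_mem hxy') _ hv, gross_mulfun_inv _ Q hLy hny hxy']
          have h1 := hvy i j 1 Q₂.one_mem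
          rw [mul_one] at h1
          rw [h1, hi', inv_mul_cancel₀ (hny v hv)]
        · group
      -- radical of Q₂
      have hRQ₂ : ∀ x', x' ∈ R ↔ x' ∈ Q₂ ∧ ∀ v ∈ Q₂, β x' v = 1 := by
        intro x'
        constructor
        · intro hx'
          obtain ⟨h1, h2⟩ := (hR x').mp hx'
          exact ⟨⟨h1, h2 x hx, h2 y hy⟩, fun v hv => h2 v hv.1⟩
        · rintro ⟨hx', h2⟩
          refine (hR x').mpr ⟨hx'.1, ?_⟩
          intro v hv
          obtain ⟨i, -, j, -, v₂, hv₂, rfl⟩ := hD v hv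
          have hRm : ∀ u ∈ Q, ∀ w ∈ Q, β x' (u * w) = β x' u * β x' w :=
            fun u hu w hw => hr x' hx'.1 u hu w hw
          have hRn : ∀ u ∈ Q, β x' u ≠ 0 := fun u hu => hne x' hx'.1 u hu
          rw [hRm _ (Q.mul_mem (Q.pow_mem hx i) (Q.pow_mem hy j)) _ hv₂.1,
            hRm _ (Q.pow_mem hx i) _ (Q.pow_mem hy j), gross_mulfun_pow _ Q hRm hRn hx,
            gross_mulfun_pow _ Q hRm hRn hy, hx'.2.1, hx'.2.2, h2 v₂ hv₂, one_pow, one_pow,
            mul_one, mul_one]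
      -- cardinality
      have hcard : Nat.card Q = q * q * Nat.card Q₂ := by
        let F : Fin q × Fin q × Q₂ → Q := fun t =>
          ⟨x ^ (t.1 : ℕ) * y ^ (t.2.1 : ℕ) * (t.2.2 : G),
            Q.mul_mem (Q.mul_mem (Q.pow_mem hx _) (Q.pow_mem hy _)) t.2.2.2.1⟩
        have hF : Function.Bijective F := by
          constructor
          · rintro ⟨i, j, u⟩ ⟨i', j', u'⟩ h
            have h0 : x ^ (i : ℕ) * y ^ (j : ℕ) * (u : G) = x ^ (i' : ℕ) * y ^ (j' : ℕ) * (u' : G) :=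
              congrArg Subtype.val h
            have h1 := congrArg (fun g => β g y) h0
            simp only [hvy _ _ _ u.2, hvy _ _ _ u'.2] at h1
            have hii : (i : ℕ) = i' := hprim.pow_inj i.2 i'.2 h1
            have h2 := congrArg (fun g => β g x) h0
            simp only [hvx _ _ _ u.2, hvx _ _ _ u'.2] at h2
            have hjj : (j : ℕ) = j' := hprim'.pow_inj j.2 j'.2 h2
            rw [hii, hjj] at h0
            have huu : (u : G) = u' := mul_left_cancel h0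
            have e1 : i = i' := Fin.ext hii
            have e2 : j = j' := Fin.ext hjj
            have e3 : u = u' := Subtype.ext huu
            rw [e1, e2, e3]
          · rintro ⟨v, hv⟩
            obtain ⟨i, hi, j, hj, v₂, hv₂, rfl⟩ := hD v hv
            exact ⟨(⟨i, hi⟩, ⟨j, hj⟩, ⟨v₂, hv₂⟩), rfl⟩
        rw [← Nat.card_congr (Equiv.ofBijective F hF), Nat.card_prod, Nat.card_prod, Nat.card_fin,
          mul_assoc]
      haveI : Finite Q₂ := Finite.of_injective (Subgroup.inclusion hQ₂Q)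
        (Subgroup.inclusion_injective hQ₂Q)
      have hpos : 0 < Nat.card Q₂ := Nat.card_pos
      have hlt : Nat.card Q₂ < d := by
        rw [← hd, hcard]
        have h2 := hq.two_le
        have h4 : 4 ≤ q * q := Nat.mul_le_mul h2 h2
        calc Nat.card Q₂ < 4 * Nat.card Q₂ := by omega
          _ ≤ q * q * Nat.card Q₂ := Nat.mul_le_mul_right _ h4
      obtain ⟨s', hs'⟩ := ih _ hlt Q₂ rfl inferInstance
        (fun a ha b hb c hc => hl a ha.1 b hb.1 c hc.1)
        (fun a ha b hb c hc => hr a ha.1 b hb.1 c hc.1)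
        (fun a ha => halt a ha.1)
        (fun a ha b hb => hanti a ha.1 b hb.1)
        (fun a ha b hb => hpow a ha.1 b hb.1) hRQ₂
      refine ⟨q * s', ?_⟩
      rw [hcard, hs']
      ring

end grossSq

end Cfsg.Agent.Lib.Helper26
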