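import Mathlib
import Cfsg.Agent.Lib.Helper26.GrossIrr2
import Cfsg.Agent.Lib.Helper67.GrossRed
import Cfsg.Agent.Lib.Helper67.GrossIrrHH
import Cfsg.Agent.Lib.Helper65.GrossAB
import Cfsg.Agent.Lib.Helper73.GrossCard
import Cfsg.Agent.Lib.Helper55.GrossFinal

/-!
# The linear key proposition of the Shult-Gross theorem (assembly)

`gross_kp p : GrossKPStmt p`: for an odd prime `p`, a `q`-group `Q` of linear maps normalised by
a linear map `φ` of order dividing `p ^ (n + 1)` without nonzero fixed vectors, such that
`C_Q(φ) = 1`: then `φ ^ p ^ n` centralises `Q`.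

Assembled from the reduction to the irreducible case (Helper67.GrossRed), the abelian case
(Helper65.GrossAB), the nonabelian irreducible configuration (GrossIrr1, GrossIrr2,
Helper67.GrossIrrHH using the Hall-Higman pieces Helper86.GrossG1, Helper34.GrossG2,
Helper32.GrossG3) and the arithmetic end game (Helper73.GrossCard, Helper55.GrossFinal).
-/

set_option autoImplicit false
set_option linter.style.haveILetI false
set_option linter.unusedSectionVars false
open scoped commutatorElement

namespace Cfsg.Agent.Lib.Helper26

universe u v

/-- **The linear key proposition.** -/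
theorem gross_kp (p : ℕ) : GrossKPStmt.{u, v} p := by
  intro k _ _ q n M₀ hD
  have main : ∀ (d : ℕ) (V : Type u) [AddCommGroup V] [Module k V] [Module.Finite k V]
      (Q : Subgroup (Module.End k V)ˣ) (φ : (Module.End k V)ˣ),
      Module.finrank k V + Nat.card Q = d → GrossKP k p q n M₀ V Q φ →
      ∀ x ∈ Q, φ ^ p ^ n * x = x * φ ^ p ^ n := by
    intro d
    induction d using Nat.strong_induction_on with
    | _ d ih =>
      intro V _ _ _ Q φ hd h
      by_contra hnot
      haveI : Finite (Module.End k V)ˣ := gross_finite_units
      have hirr : ∀ U : Submodule k V, (∀ x ∈ Q, ∀ u ∈ U, (x : Module.End k V) u ∈ U) →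
          (∀ u ∈ U, (φ : Module.End k V) u ∈ U) → U = ⊥ ∨ U = ⊤ := by
        intro U hQU hφU
        by_contra hU
        push_neg at hU
        exact hnot (Cfsg.Agent.Lib.Helper67.GrossRedP.gross_kp_red hD d ih V Q φ hd h U hU.1 hU.2
          hQU hφU)
      have hmin : GrossMin p q n Q φ :=
        { hp := hD.hp
          hq := hD.hq
          hqp := hD.hqp
          hfin := inferInstance
          hQ := h.hQ
          hφ := h.hφ
          hnorm := h.hnorm
          hCQ := h.hCQ
          hsub := by
            intro Q₀ h1 h2 h3
            have hlt : Nat.card Q₀ < Nat.card Q := by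
              by_contra hge
              push_neg at hge
              exact h2 (Subgroup.eq_of_le_of_card_ge h1 hge)
            exact ih (Module.finrank k V + Nat.card Q₀) (by omega) V Q₀ φ rfl
              { hQ := h.hQ.to_le h1
                hcard := (Subgroup.card_dvd_of_le h1).trans h.hcard
                hφ := h.hφ
                hnorm := h3
                hCQ := fun x hx => h.hCQ x (h1 hx)
                hCV := h.hCV }
          hnot := hnot }
      by_cases hab : ∀ x ∈ Q, ∀ y ∈ Q, x * y = y * x
      · exact Cfsg.Agent.Lib.Helper65.GrossAB.gross_kp_ab hD h hmin hirr hab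
      · obtain ⟨χ, θ, R, W, hW⟩ := gross_irr_setup hD h hmin hirr hab
        obtain ⟨N, a, hNa, ha, hWN, hfix, hinv⟩ := gross_irr_N hD h hmin hW
        have hle := Cfsg.Agent.Lib.Helper67.GrossIrrHH.gross_irr_le hD h hmin hW N a hNa ha hWN
          hfix hinv
        exact Cfsg.Agent.Lib.Helper55.GrossFinal.gross_final hmin hD.hp2 hW.hχ N a hNa ha hinv
          (Cfsg.Agent.Lib.Helper73.GrossCard.gross_card_eq hmin hD.hp2 hW.hχ N a hNa ha hinv
            hW.hRQ hle)
  intro V _ _ _ Q φ h
  exact main _ V Q φ rfl h

end Cfsg.Agent.Lib.Helper26
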