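import Cfsg.Agent.Lib.Helper15.KStab4

set_option autoImplicit false
open scoped commutatorElement

namespace Cfsg.Agent.Lib.Helper26

open Cfsg.Agent.Lib.Helper42 Cfsg.Agent.Lib.Helper15

universe u

section kq1

variable {X : Type u} [Group X] [Finite X] {p : ℕ} [Fact p.Prime]

/-- the computation at the level of a minimal subnormal subgroup `N` (no stability needed):
`B` acts quadratically on `E / (E ⊓ C(p'-elements of N))` for a minimal `N`-invariant subgroup `E`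
of `A` not centralized by the `p'`-elements of `N` -/
theorem kq_nlevel
    (T : Subgroup X) [hTn : T.Normal] (hT : IsPGroup p T)
    (A : Subgroup X) [hAn : A.Normal] (hAT : A ≤ T)
    (hA2 : ⁅A, A⁆ ≤ Subgroup.centralizer (A : Set X))
    (hA3 : ⁅T, A⁆ ≤ A ⊓ Subgroup.centralizer (A : Set X))
    (B : Subgroup X)
    (hB2 : ⁅B, B⁆ ≤ Subgroup.centralizer (B : Set X))
    (h3 : ∀ E : Subgroup X, E ≤ T → ⁅E, E⁆ ≤ Subgroup.centralizer (E : Set X) →
      ⁅E, T⁆ ≤ E ⊓ Subgroup.centralizer (E : Set X) → E ≤ Subgroup.normalizer (B : Set X))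
    (h4 : ∀ E : Subgroup X, E ≤ T → ⁅E, E⁆ ≤ Subgroup.centralizer (E : Set X) →
      ⁅E, T⁆ ≤ E ⊓ Subgroup.centralizer (E : Set X) → B ≤ Subgroup.normalizer (E : Set X) →
      ⁅B, ⁅E, E⁆⁆ = ⊥ → ⁅⁅B ⊓ Subgroup.centralizer (B : Set X), E⁆, E⁆ = ⊥ →
      ⁅B, E⁆ ≤ B ⊓ Subgroup.centralizer (B : Set X))
    (N : Subgroup X) (hBN : B ≤ N) (hTN : T ≤ N)
    (hMIN : ∀ M : Subgroup X, M ≤ N → N ≤ Subgroup.normalizer (M : Set X) → B ≤ M → T ≤ M →
      M = N)
    (hZBT : B ⊓ Subgroup.centralizer (B : Set X) ≤ T)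
    (E : Subgroup X) (hEA : E ≤ A) (hNE : N ≤ Subgroup.normalizer (E : Set X))
    (hECL : ¬ E ≤ Subgroup.centralizer {x : X | x ∈ N ∧ (orderOf x).Coprime p})
    (hmin' : ∀ U : Subgroup X, U ≤ E → N ≤ Subgroup.normalizer (U : Set X) → U ≠ E →
        U ≤ Subgroup.centralizer {x : X | x ∈ N ∧ (orderOf x).Coprime p}) :
    ⁅⁅E, B⁆, B⁆ ≤ E ⊓ Subgroup.centralizer {x : X | x ∈ N ∧ (orderOf x).Coprime p} := by
  have hATc : ⁅A, T⁆ ≤ A ⊓ Subgroup.centralizer (A : Set X) := by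
    rw [Subgroup.commutator_comm]; exact hA3
  set Lset : Set X := {x | x ∈ N ∧ (orderOf x).Coprime p} with hLset
  set CL : Subgroup X := Subgroup.centralizer Lset with hCL
  have hNCL : N ≤ Subgroup.normalizer (CL : Set X) := by
    apply ks_le_normalizer_of_conj
    intro n hn c hc
    rw [hCL, Subgroup.mem_centralizer_iff] at hc ⊢
    rintro x ⟨hxN, hxc⟩
    have hx' : n⁻¹ * x * n ∈ Lset := by
      refine ⟨N.mul_mem (N.mul_mem (N.inv_mem hn) hxN) hn, ?_⟩
      have : orderOf (n⁻¹ * x * n) = orderOf x := by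
        have := orderOf_injective (MulAut.conj n⁻¹).toMonoidHom (MulAut.conj n⁻¹).injective x
        simpa using this
      rw [this]; exact hxc
    have h1 := hc _ hx'
    calc x * (n * c * n⁻¹) = n * ((n⁻¹ * x * n) * c) * n⁻¹ := by group
      _ = n * (c * (n⁻¹ * x * n)) * n⁻¹ := by rw [h1]
      _ = n * c * n⁻¹ * x := by group
  have hcomm : ∀ {U : Subgroup X}, U ≤ CL → ∀ x ∈ Lset, ∀ u ∈ U, x * u = u * x := by
    intro U hU x hx u hu
    have := hU hu
    rw [hCL, Subgroup.mem_centralizer_iff] at this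
    exact this x hx
  have hleCL : ∀ {U : Subgroup X}, (∀ x ∈ Lset, ∀ u ∈ U, x * u = u * x) → U ≤ CL := by
    intro U h u hu
    rw [hCL, Subgroup.mem_centralizer_iff]
    intro x hx
    exact h x hx u hu
  -- key claim
  have hET' : E ≤ T := hEA.trans hAT
  have hEN : E ≤ N := hET'.trans hTN
  have hEp : IsPGroup p E := hT.to_le hET'
  have hcAE : Subgroup.centralizer (A : Set X) ≤ Subgroup.centralizer (E : Set X) :=
    Subgroup.centralizer_le hEA
  have hEE : ⁅E, E⁆ ≤ Subgroup.centralizer (E : Set X) :=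
    ((Subgroup.commutator_mono hEA hEA).trans hA2).trans hcAE
  have hET : ⁅E, T⁆ ≤ E ⊓ Subgroup.centralizer (E : Set X) :=
    le_inf (ks_commutator_le_left (hTN.trans hNE))
      (((Subgroup.commutator_mono hEA le_rfl).trans (hATc.trans inf_le_right)).trans hcAE)
  have hEB : E ≤ Subgroup.normalizer (B : Set X) := h3 E hET' hEE hET
  have hBE : B ≤ Subgroup.normalizer (E : Set X) := hBN.trans hNE
  have hNE₀ : N ≤ Subgroup.normalizer ((E ⊓ CL : Subgroup X) : Set X) :=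
    ks_le_normalizer_inf hNE hNCL
  have hE₀CL : E ⊓ CL ≤ CL := inf_le_right
  -- the conclusion in either case
  have finish : (∀ x ∈ N, (orderOf x).Coprime p → ∀ e ∈ E, ⁅e, x⁆ ∈ E ⊓ CL) → False := by
    intro h
    apply hECL
    apply hleCL
    rintro x ⟨hxN, hxc⟩ e he
    exact ks_coprime_comm hEp inf_le_left hxc (h x hxN hxc)
      (fun n hn => hcomm hE₀CL x ⟨hxN, hxc⟩ n hn) e he
  -- E₀ ≤ Z(E)
  have hE₀Z : E ⊓ CL ≤ Subgroup.centralizer (E : Set X) := by
    have hNC : N ≤ Subgroup.normalizer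
        ((E ⊓ Subgroup.centralizer ((E ⊓ CL : Subgroup X) : Set X) : Subgroup X) : Set X) :=
      ks_le_normalizer_inf hNE (ks_le_normalizer_centralizer hNE₀)
    by_cases hC : E ⊓ Subgroup.centralizer ((E ⊓ CL : Subgroup X) : Set X) = E
    · have h := inf_le_right (a := E)
        (b := Subgroup.centralizer ((E ⊓ CL : Subgroup X) : Set X))
      rw [hC] at h
      exact Subgroup.le_centralizer_iff.mp h
    · exfalso
      have hCCL := hmin' _ inf_le_left hNC hC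
      apply finish
      intro x hxN hxc e he
      have hxe : x * e⁻¹ * x⁻¹ ∈ E := ks_conj_mem hNE hxN (E.inv_mem he)
      have hcE : ⁅e, x⁆ ∈ E := by
        have : ⁅e, x⁆ = e * (x * e⁻¹ * x⁻¹) := by rw [commutatorElement_def]; group
        rw [this]; exact E.mul_mem he hxe
      have hcC : ⁅e, x⁆ ∈ Subgroup.centralizer ((E ⊓ CL : Subgroup X) : Set X) := by
        rw [Subgroup.mem_centralizer_iff]
        intro n hn
        have hn' : e⁻¹ * n * e ∈ E ⊓ CL := ks_conj_mem' hNE₀ (hEN he) hn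
        have h1 : x * n = n * x := hcomm hE₀CL x ⟨hxN, hxc⟩ n hn
        have h2 : x * (e⁻¹ * n * e) = (e⁻¹ * n * e) * x := hcomm hE₀CL x ⟨hxN, hxc⟩ _ hn'
        have h1' : x⁻¹ * n = n * x⁻¹ := by
          calc x⁻¹ * n = x⁻¹ * (n * x) * x⁻¹ := by group
            _ = x⁻¹ * (x * n) * x⁻¹ := by rw [h1]
            _ = n * x⁻¹ := by group
        rw [commutatorElement_def]
        calc n * (e * x * e⁻¹ * x⁻¹) = e * ((e⁻¹ * n * e) * x) * e⁻¹ * x⁻¹ := by group
          _ = e * (x * (e⁻¹ * n * e)) * e⁻¹ * x⁻¹ := by rw [h2]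
          _ = e * x * e⁻¹ * (n * x⁻¹) := by group
          _ = e * x * e⁻¹ * (x⁻¹ * n) := by rw [h1']
          _ = e * x * e⁻¹ * x⁻¹ * n := by group
      exact ⟨hcE, hCCL ⟨hcE, hcC⟩⟩
  -- V = [E, E]
  have hVE : ⁅E, E⁆ ≤ E := ks_commutator_le_self E
  have hVcA : ⁅E, E⁆ ≤ Subgroup.centralizer (A : Set X) := (Subgroup.commutator_mono hEA hEA).trans hA2
  have hNV : N ≤ Subgroup.normalizer ((⁅E, E⁆ : Subgroup X) : Set X) :=
    ks_le_normalizer_commutator hNE hNE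
  have hEne : E ≠ ⊥ := by
    rintro rfl
    exact hECL bot_le
  have hVne : ⁅E, E⁆ ≠ E := by
    intro h
    have h1 : E ≤ Subgroup.centralizer (E : Set X) := h.ge.trans hEE
    have h2 : ⁅E, E⁆ = ⊥ := by
      rw [Subgroup.commutator_eq_bot_iff_le_centralizer]; exact h1
    exact hEne (h ▸ h2)
  have hVCL : ⁅E, E⁆ ≤ CL := hmin' _ hVE hNV hVne
  have hTV : T ≤ Subgroup.centralizer ((⁅E, E⁆ : Subgroup X) : Set X) := by
    have h1 : ⁅⁅E, T⁆, E⁆ = ⊥ := by
      rw [Subgroup.commutator_eq_bot_iff_le_centralizer]; exact hET.trans inf_le_right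
    have h2 : ⁅⁅T, E⁆, E⁆ = ⊥ := by
      rw [Subgroup.commutator_comm T E]; exact h1
    have h3' : ⁅⁅E, E⁆, T⁆ = ⊥ := Subgroup.commutator_commutator_eq_bot_of_rotate h1 h2
    rw [Subgroup.commutator_eq_bot_iff_le_centralizer] at h3'
    exact Subgroup.le_centralizer_iff.mp h3'
  -- N = B * C_N(V)
  have hfac : ∀ n ∈ N, ∃ b ∈ B, ∃ c ∈ N ⊓ Subgroup.centralizer ((⁅E, E⁆ : Subgroup X) : Set X),
      n = b * c := by
    apply ks_gamma (p := p) (T := T) inf_le_left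
      (ks_le_normalizer_inf Subgroup.le_normalizer (ks_le_normalizer_centralizer hNV)) hBN
      (le_inf hTN hTV) ?_ hMIN
    intro x hxN hxc
    refine Subgroup.mem_inf.mpr ⟨hxN, ?_⟩
    rw [Subgroup.mem_centralizer_iff]
    intro v hv
    exact (hcomm hVCL x ⟨hxN, hxc⟩ v hv).symm
  -- N centralizes V₀ = C_V(B)
  have hNV₀ : ∀ n ∈ N, ∀ v ∈ ⁅E, E⁆ ⊓ Subgroup.centralizer (B : Set X), n * v * n⁻¹ = v := by
    intro n hn v hv
    obtain ⟨b, hb, c, hc, rfl⟩ := hfac n hn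
    have h1 : v * c = c * v := (Subgroup.mem_centralizer_iff.mp hc.2) v hv.1
    have h2 : b * v = v * b := (Subgroup.mem_centralizer_iff.mp hv.2) b hb
    calc b * c * v * (b * c)⁻¹ = b * (c * v) * c⁻¹ * b⁻¹ := by group
      _ = b * (v * c) * c⁻¹ * b⁻¹ := by rw [h1]
      _ = (b * v) * b⁻¹ := by group
      _ = (v * b) * b⁻¹ := by rw [h2]
      _ = v := by group
  by_cases hBV : ⁅B, ⁅E, E⁆⁆ = ⊥
  · -- B centralizes [E,E]: the family property applies to E
    have hq : ⁅⁅B ⊓ Subgroup.centralizer (B : Set X), E⁆, E⁆ = ⊥ := by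
      rw [Subgroup.commutator_eq_bot_iff_le_centralizer]
      refine (Subgroup.commutator_mono hZBT le_rfl).trans ?_
      rw [Subgroup.commutator_comm]
      exact hET.trans inf_le_right
    have h5 := h4 E hET' hEE hET hBE hBV hq
    have h6 : ⁅⁅E, B⁆, B⁆ ≤ ⊥ := by
      rw [le_bot_iff, Subgroup.commutator_eq_bot_iff_le_centralizer, Subgroup.commutator_comm]
      exact h5.trans inf_le_right
    exact h6.trans bot_le
  · -- the radical
    let R₁ : Subgroup X :=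
      { carrier := {e | e ∈ E ∧ ∀ e' ∈ E, ⁅e, e'⁆ ∈ ⁅E, E⁆ ⊓ Subgroup.centralizer (B : Set X)}
        one_mem' := ⟨E.one_mem, fun e' _ => by
          rw [commutatorElement_one_left]; exact Subgroup.one_mem _⟩
        mul_mem' := by
          rintro a b ⟨ha, ha'⟩ ⟨hb, hb'⟩
          refine ⟨E.mul_mem ha hb, fun e' he' => ?_⟩
          have hbc := hb' e' he'
          have hcomm' : a * ⁅b, e'⁆ = ⁅b, e'⁆ * a := by
            have := hVcA hbc.1
            rw [Subgroup.mem_centralizer_iff] at this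
            exact this a (hEA ha)
          have : ⁅a * b, e'⁆ = ⁅b, e'⁆ * ⁅a, e'⁆ := by
            have h1 : ⁅a * b, e'⁆ = a * ⁅b, e'⁆ * a⁻¹ * ⁅a, e'⁆ := by
              simp only [commutatorElement_def]; group
            rw [h1, hcomm']; group
          rw [this]
          exact Subgroup.mul_mem _ hbc (ha' e' he')
        inv_mem' := by
          rintro a ⟨ha, ha'⟩
          refine ⟨E.inv_mem ha, fun e' he' => ?_⟩
          have hac := ha' e' he'
          have hcomm' : a * ⁅a, e'⁆ = ⁅a, e'⁆ * a := by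
            have := hVcA hac.1
            rw [Subgroup.mem_centralizer_iff] at this
            exact this a (hEA ha)
          have : ⁅a⁻¹, e'⁆ = (⁅a, e'⁆)⁻¹ := by
            have h1 : ⁅a⁻¹, e'⁆ = a⁻¹ * (⁅a, e'⁆)⁻¹ * a := by
              simp only [commutatorElement_def]; group
            have h2 : a⁻¹ * (⁅a, e'⁆)⁻¹ = (⁅a, e'⁆)⁻¹ * a⁻¹ := by
              rw [← mul_inv_rev, ← mul_inv_rev, hcomm']
            rw [h1, h2]; group
          rw [this]
          exact Subgroup.inv_mem _ hac }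
    have hR₁E : R₁ ≤ E := fun e he => he.1
    have hNR₁ : N ≤ Subgroup.normalizer (R₁ : Set X) := by
      apply ks_le_normalizer_of_conj
      rintro n hn e ⟨he, he'⟩
      refine ⟨ks_conj_mem hNE hn he, fun e' he'' => ?_⟩
      have h1 := he' (n⁻¹ * e' * n) (ks_conj_mem' hNE hn he'')
      have h2 := hNV₀ n hn _ h1
      have h3' : ⁅n * e * n⁻¹, e'⁆ = n * ⁅e, n⁻¹ * e' * n⁆ * n⁻¹ := by
        simp only [commutatorElement_def]; group
      rw [h3', h2]; exact h1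
    have hR₁ne : R₁ ≠ E := by
      intro h
      apply hBV
      rw [Subgroup.commutator_comm, Subgroup.commutator_eq_bot_iff_le_centralizer]
      rw [Subgroup.commutator_le]
      intro e he e' he'
      have : e ∈ R₁ := by rw [h]; exact he
      exact (this.2 e' he').2
    have hR₁CL : R₁ ≤ CL := hmin' R₁ hR₁E hNR₁ hR₁ne
    have hkey : ⁅E ⊓ B, B⁆ ≤ R₁ := by
      rw [Subgroup.commutator_le]
      rintro b ⟨hbE, hbB⟩ h hh
      have hwB : ⁅b, h⁆ ∈ Subgroup.centralizer (B : Set X) :=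
        hB2 (Subgroup.commutator_mem_commutator hbB hh)
      have hwE : ⁅b, h⁆ ∈ E := by
        have h1 : h * b⁻¹ * h⁻¹ ∈ E := ks_conj_mem hBE hh (E.inv_mem hbE)
        have : ⁅b, h⁆ = b * (h * b⁻¹ * h⁻¹) := by rw [commutatorElement_def]; group
        rw [this]; exact E.mul_mem hbE h1
      refine ⟨hwE, fun e' he' => Subgroup.mem_inf.mpr
        ⟨Subgroup.commutator_mem_commutator hwE he', ?_⟩⟩
      rw [Subgroup.mem_centralizer_iff]
      intro k hk
      -- d = [k, e'] ∈ B ⊓ E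
      have hdB : ⁅k, e'⁆ ∈ B := by
        have h1 : e' * k⁻¹ * e'⁻¹ ∈ B := ks_conj_mem hEB he' (B.inv_mem hk)
        have : ⁅k, e'⁆ = k * (e' * k⁻¹ * e'⁻¹) := by rw [commutatorElement_def]; group
        rw [this]; exact B.mul_mem hk h1
      have hdE : ⁅k, e'⁆ ∈ E := by
        have h1 : k * e' * k⁻¹ ∈ E := ks_conj_mem hBE hk he'
        have : ⁅k, e'⁆ = (k * e' * k⁻¹) * e'⁻¹ := by rw [commutatorElement_def]
        rw [this]; exact E.mul_mem h1 (E.inv_mem he')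
      have hwk : k * ⁅b, h⁆ = ⁅b, h⁆ * k := (Subgroup.mem_centralizer_iff.mp hwB) k hk
      have hwd : ⁅k, e'⁆ * ⁅b, h⁆ = ⁅b, h⁆ * ⁅k, e'⁆ :=
        (Subgroup.mem_centralizer_iff.mp hwB) _ hdB
      have hcd : ⁅k, e'⁆ * ⁅⁅b, h⁆, e'⁆ = ⁅⁅b, h⁆, e'⁆ * ⁅k, e'⁆ :=
        (Subgroup.mem_centralizer_iff.mp
          (hVcA (Subgroup.commutator_mem_commutator hwE he'))) _ (hEA hdE)
      generalize ⁅b, h⁆ = w at hwk hwd hcd
      have hke : k * e' = ⁅k, e'⁆ * e' * k := by rw [commutatorElement_def]; group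
      have hwk' : k * w⁻¹ = w⁻¹ * k := by
        calc k * w⁻¹ = w⁻¹ * (w * k) * w⁻¹ := by group
          _ = w⁻¹ * (k * w) * w⁻¹ := by rw [hwk]
          _ = w⁻¹ * k := by group
      have hke' : k * e'⁻¹ = e'⁻¹ * (⁅k, e'⁆)⁻¹ * k := by rw [commutatorElement_def]; group
      have hwd' : w * ⁅k, e'⁆ = ⁅k, e'⁆ * w := hwd.symm
      have hwd'' : w⁻¹ * (⁅k, e'⁆)⁻¹ = (⁅k, e'⁆)⁻¹ * w⁻¹ := by
        rw [← mul_inv_rev, ← mul_inv_rev, hwd]
      -- k * [w, e'] = [w, e'] * k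
      have e1 : k * ⁅w, e'⁆ = ⁅k, e'⁆ * ⁅w, e'⁆ * (⁅k, e'⁆)⁻¹ * k := by
        calc k * ⁅w, e'⁆ = (k * w) * e' * w⁻¹ * e'⁻¹ := by rw [commutatorElement_def]; group
          _ = w * (k * e') * w⁻¹ * e'⁻¹ := by rw [hwk]; group
          _ = w * (⁅k, e'⁆ * e' * k) * w⁻¹ * e'⁻¹ := by rw [← hke]
          _ = (w * ⁅k, e'⁆) * e' * (k * w⁻¹) * e'⁻¹ := by group
          _ = (⁅k, e'⁆ * w) * e' * (w⁻¹ * k) * e'⁻¹ := by rw [hwd', hwk']
          _ = ⁅k, e'⁆ * w * e' * w⁻¹ * (k * e'⁻¹) := by group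
          _ = ⁅k, e'⁆ * w * e' * w⁻¹ * (e'⁻¹ * (⁅k, e'⁆)⁻¹ * k) := by rw [← hke']
          _ = ⁅k, e'⁆ * ⁅w, e'⁆ * (⁅k, e'⁆)⁻¹ * k := by rw [commutatorElement_def w e']; group
      rw [e1, hcd]; group
    have hEBle : ⁅E, B⁆ ≤ E ⊓ B := le_inf (ks_commutator_le_left hBE) (ks_commutator_le_right hEB)
    exact ((Subgroup.commutator_mono hEBle le_rfl).trans hkey).trans (le_inf hR₁E hR₁CL)

end kq1

end Cfsg.Agent.Lib.Helper26
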