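import Cfsg.Agent.Lib.Helper26.KQuot1

set_option autoImplicit false
open scoped commutatorElement

namespace Cfsg.Agent.Lib.Helper26

open Cfsg.Agent.Lib.Helper42 Cfsg.Agent.Lib.Helper15

universe u

section kq2

variable {X : Type u} [Group X]

/-- `U` is minimal among the `N`-invariant subgroups properly containing `W` -/
def KqMinOver (N W U : Subgroup X) : Prop :=
  N ≤ Subgroup.normalizer (U : Set X) ∧ W ≤ U ∧ U ≠ W ∧
    ∀ V : Subgroup X, N ≤ Subgroup.normalizer (V : Set X) → W ≤ V → V ≤ U → V = W ∨ V = U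

/-- `E / W` is generated by `N`-minimal sections over `W` -/
def KqSSec (N W E : Subgroup X) : Prop :=
  E ≤ sSup {U : Subgroup X | KqMinOver N W U ∧ U ≤ E}

/-- stability on the normal `p`-sections `U₁ / U₂` of `X` (internal form) -/
def KqPSNorm (p : ℕ) (X : Type u) [Group X] : Prop :=
  ∀ (U₁ U₂ : Subgroup X), U₁.Normal → U₂.Normal → U₂ ≤ U₁ → IsPGroup p U₁ →
    ∃ D : Subgroup X, D.Normal ∧
      (∀ P : Subgroup X, P.Normal → IsPGroup p P → P ≤ D) ∧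
      (∀ y ∈ D, (orderOf y).Coprime p → ⁅U₁, Subgroup.zpowers y⁆ ≤ U₂) ∧
      (∀ g : X, ⁅⁅U₁, Subgroup.zpowers g⁆, Subgroup.zpowers g⁆ ≤ U₂ → g ∈ D)

theorem kq_le_normalizer_of_cj_le {N H : Subgroup X} (h : ∀ n ∈ N, cj n H ≤ H) :
    N ≤ Subgroup.normalizer (H : Set X) :=
  ks_le_normalizer_of_conj fun n hn _ hx => h n hn (conj_mem_cj hx)

theorem kq_le_normalizer_sup {N H K : Subgroup X} (hH : N ≤ Subgroup.normalizer (H : Set X))
    (hK : N ≤ Subgroup.normalizer (K : Set X)) :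
    N ≤ Subgroup.normalizer ((H ⊔ K : Subgroup X) : Set X) := by
  apply kq_le_normalizer_of_cj_le
  intro n hn
  have h1 : cj n (H ⊔ K) = cj n H ⊔ cj n K := Subgroup.map_sup H K _
  rw [h1, cj_eq_of_mem_normalizer (hH hn), cj_eq_of_mem_normalizer (hK hn)]

theorem kqMinOver_cj {N W U : Subgroup X} {g : X} (hgN : g ∈ Subgroup.normalizer (N : Set X))
    (hgW : g ∈ Subgroup.normalizer (W : Set X)) (h : KqMinOver N W U) :
    KqMinOver N W (cj g U) := by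
  obtain ⟨h1, h2, h3, h4⟩ := h
  have hgN' : g⁻¹ ∈ Subgroup.normalizer (N : Set X) := inv_mem hgN
  have hgW' : g⁻¹ ∈ Subgroup.normalizer (W : Set X) := inv_mem hgW
  have key : ∀ {V : Subgroup X} {k : X}, k ∈ Subgroup.normalizer (N : Set X) →
      N ≤ Subgroup.normalizer (V : Set X) →
      N ≤ Subgroup.normalizer ((cj k V : Subgroup X) : Set X) := by
    intro V k hk hV
    rw [normalizer_cj]
    calc N = cj k N := (cj_eq_of_mem_normalizer hk).symm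
      _ ≤ cj k (Subgroup.normalizer (V : Set X)) := cj_mono hV
  refine ⟨key hgN h1, ?_, ?_, ?_⟩
  · calc W = cj g W := (cj_eq_of_mem_normalizer hgW).symm
      _ ≤ cj g U := cj_mono h2
  · intro h
    apply h3
    have h5 : cj g⁻¹ (cj g U) = cj g⁻¹ W := by rw [h]
    rw [cj_inv_cj, cj_eq_of_mem_normalizer hgW'] at h5
    exact h5
  · intro V hV hWV hVU
    have h5 := h4 (cj g⁻¹ V) (key hgN' hV)
      (by
        calc W = cj g⁻¹ W := (cj_eq_of_mem_normalizer hgW').symm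
          _ ≤ cj g⁻¹ V := cj_mono hWV)
      (by rw [cj_le_iff, inv_inv]; exact hVU)
    rcases h5 with h5 | h5
    · left
      have h6 : cj g (cj g⁻¹ V) = cj g W := by rw [h5]
      rwa [cj_cj_inv, cj_eq_of_mem_normalizer hgW] at h6
    · right
      have h6 : cj g (cj g⁻¹ V) = cj g U := by rw [h5]
      rwa [cj_cj_inv] at h6

/-- Clifford: semisimplicity passes to normal subgroups -/
theorem kqSSec_of_normal [Finite X] {N₁ N W E : Subgroup X} (hNN : N ≤ N₁)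
    (hN₁N : N₁ ≤ Subgroup.normalizer (N : Set X)) (hW : N₁ ≤ Subgroup.normalizer (W : Set X))
    (h : KqSSec N₁ W E) : KqSSec N W E := by
  refine h.trans (sSup_le ?_)
  rintro U ⟨⟨hU1, hU2, hU3, hU4⟩, hUE⟩
  obtain ⟨U₀, ⟨hU₀N, hWU₀, hU₀U, hU₀ne⟩, hmin⟩ := Set.exists_min_image
    {V : Subgroup X | N ≤ Subgroup.normalizer (V : Set X) ∧ W ≤ V ∧ V ≤ U ∧ V ≠ W}
    (fun V => Nat.card V) (Set.toFinite _) ⟨U, hNN.trans hU1, hU2, le_rfl, hU3⟩
  have hU₀min : KqMinOver N W U₀ := by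
    refine ⟨hU₀N, hWU₀, hU₀ne, fun V hV hWV hVU => ?_⟩
    by_cases hVW : V = W
    · exact Or.inl hVW
    · right
      have := hmin V ⟨hV, hWV, hVU.trans hU₀U, hVW⟩
      exact Subgroup.eq_of_le_of_card_ge hVU this
  obtain ⟨J, hJ⟩ : ∃ J : Subgroup X, J = ⨆ g : N₁, cj (g : X) U₀ := ⟨_, rfl⟩
  have hJU : J ≤ U := by
    rw [hJ]
    refine iSup_le (fun g => ?_)
    calc cj (g : X) U₀ ≤ cj (g : X) U := cj_mono hU₀U
      _ = U := cj_eq_of_mem_normalizer (hU1 g.2)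
  have hle : ∀ g : N₁, cj (g : X) U₀ ≤ J := by
    intro g; rw [hJ]; exact le_iSup (fun g : N₁ => cj (g : X) U₀) g
  have hU₀J : U₀ ≤ J := by
    have := hle 1
    simpa [cj_one] using this
  have hN₁J : N₁ ≤ Subgroup.normalizer (J : Set X) := by
    apply kq_le_normalizer_of_cj_le
    intro n hn
    have h1 : cj n J = ⨆ g : N₁, cj n (cj (g : X) U₀) := by
      rw [hJ]; exact Subgroup.map_iSup _ _
    rw [h1]
    refine iSup_le (fun g => ?_)
    rw [cj_cj]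
    exact hle (⟨n, hn⟩ * g)
  have hJeq : J = U := by
    rcases hU4 J hN₁J (hWU₀.trans hU₀J) hJU with h | h
    · exfalso; apply hU₀ne; exact le_antisymm (h ▸ hU₀J) hWU₀
    · exact h
  rw [← hJeq, hJ]
  refine iSup_le (fun g => le_sSup ⟨kqMinOver_cj (hN₁N g.2) (hW g.2) hU₀min, ?_⟩)
  exact ((hle g).trans hJU).trans hUE

theorem kq_nilp0 {Q : Type*} [Group Q] [Finite Q] {p : ℕ} [Fact p.Prime] {H U : Subgroup Q}
    (hH : IsPGroup p H) (hUH : U ≤ H) (hU : U ≤ ⁅U, H⁆) : U = ⊥ := by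
  haveI : Group.IsNilpotent ↥H := hH.isNilpotent
  obtain ⟨n, hn⟩ := (Subgroup.isNilpotent_iff_lowerCentralSeries H).mp inferInstance
  have key : ∀ k, U ≤ H.lowerCentralSeries k := by
    intro k
    induction k with
    | zero => exact hUH
    | succ k ih => exact hU.trans (Subgroup.commutator_mono ih le_rfl)
  rw [eq_bot_iff, ← hn]
  exact key n

theorem kq_nilp [Finite X] {p : ℕ} [Fact p.Prime] {H U W : Subgroup X} [hW : W.Normal]
    (hH : IsPGroup p H) (hUH : U ≤ H) (hU : U ≤ ⁅U, H⁆ ⊔ W) : U ≤ W := by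
  have h1 : U.map (QuotientGroup.mk' W) = ⊥ := by
    apply kq_nilp0 (p := p) (H := H.map (QuotientGroup.mk' W)) (hH.map _) (Subgroup.map_mono hUH)
    rw [← Subgroup.map_commutator]
    have h2 := Subgroup.map_mono (f := QuotientGroup.mk' W) hU
    rw [Subgroup.map_sup] at h2
    have hWb : W.map (QuotientGroup.mk' W) = ⊥ := by
      rw [Subgroup.map_eq_bot_iff, QuotientGroup.ker_mk']
    rwa [hWb, sup_bot_eq] at h2
  rw [Subgroup.map_eq_bot_iff, QuotientGroup.ker_mk'] at h1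
  exact h1

theorem kq_quad_sSup {Q : Type*} [Group Q] {Eb Bb : Subgroup Q}
    (hab : ∀ x ∈ Eb, ∀ y ∈ Eb, x * y = y * x) (hBE : Bb ≤ Subgroup.normalizer (Eb : Set Q))
    (𝒰 : Set (Subgroup Q)) (h𝒰 : ∀ U ∈ 𝒰, U ≤ Eb ∧ ⁅⁅U, Bb⁆, Bb⁆ = ⊥) (hE : Eb ≤ sSup 𝒰) :
    ⁅⁅Eb, Bb⁆, Bb⁆ = ⊥ := by
  have hcE : ∀ x ∈ Eb, ∀ b ∈ Bb, ⁅x, b⁆ ∈ Eb := by
    intro x hx b hb
    have h1 : b * x⁻¹ * b⁻¹ ∈ Eb := ks_conj_mem hBE hb (Eb.inv_mem hx)
    have h2 : ⁅x, b⁆ = x * (b * x⁻¹ * b⁻¹) := by rw [commutatorElement_def]; group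
    rw [h2]; exact Eb.mul_mem hx h1
  let Qd : Subgroup Q :=
    { carrier := {e | e ∈ Eb ∧ ∀ b ∈ Bb, ⁅e, b⁆ ∈ Subgroup.centralizer (Bb : Set Q)}
      one_mem' := ⟨Eb.one_mem, fun b _ => by
        rw [commutatorElement_one_left]; exact Subgroup.one_mem _⟩
      mul_mem' := by
        rintro x y ⟨hx, hx'⟩ ⟨hy, hy'⟩
        refine ⟨Eb.mul_mem hx hy, fun b hb => ?_⟩
        have h2 : ⁅x * y, b⁆ = ⁅y, b⁆ * ⁅x, b⁆ := by
          have h3 : ⁅x * y, b⁆ = x * ⁅y, b⁆ * x⁻¹ * ⁅x, b⁆ := by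
            simp only [commutatorElement_def]; group
          rw [h3, hab x hx _ (hcE y hy b hb)]; group
        rw [h2]
        exact Subgroup.mul_mem _ (hy' b hb) (hx' b hb)
      inv_mem' := by
        rintro x ⟨hx, hx'⟩
        refine ⟨Eb.inv_mem hx, fun b hb => ?_⟩
        have h2 : ⁅x⁻¹, b⁆ = (⁅x, b⁆)⁻¹ := by
          have h3 : ⁅x⁻¹, b⁆ = x⁻¹ * (⁅x, b⁆)⁻¹ * x := by
            simp only [commutatorElement_def]; group
          have h4 : x⁻¹ * (⁅x, b⁆)⁻¹ = (⁅x, b⁆)⁻¹ * x⁻¹ :=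
            hab _ (Eb.inv_mem hx) _ (Eb.inv_mem (hcE x hx b hb))
          rw [h3, h4]; group
        rw [h2]; exact Subgroup.inv_mem _ (hx' b hb) }
  have hQ : Eb ≤ Qd := by
    refine hE.trans (sSup_le ?_)
    intro U hU
    obtain ⟨hUE, hUq⟩ := h𝒰 U hU
    intro e he
    refine ⟨hUE he, fun b hb => ?_⟩
    rw [Subgroup.commutator_eq_bot_iff_le_centralizer] at hUq
    exact hUq (Subgroup.commutator_mem_commutator he hb)
  rw [Subgroup.commutator_eq_bot_iff_le_centralizer, Subgroup.commutator_le]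
  intro e he b hb
  exact (hQ he).2 b hb

end kq2

end Cfsg.Agent.Lib.Helper26
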