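import Cfsg.Agent.Lib.Helper26.KQuot3

set_option autoImplicit false
open scoped commutatorElement

namespace Cfsg.Agent.Lib.Helper26

open Cfsg.Agent.Lib.Helper42 Cfsg.Agent.Lib.Helper15

universe u

section kq4

variable {X : Type u} [Group X] [Finite X] {p : ℕ} [Fact p.Prime]

/-- `p`-stability (normalizer form) of all quotients gives the internal form on the normal
`p`-sections -/
theorem kqPSNorm_of_quotients
    (hst : ∀ (R : Subgroup X) (_ : R.Normal), Cfsg.IsNormalizerPStable p (X ⧸ R)) :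
    KqPSNorm p X := by
  intro U₁ U₂ hU₁n hU₂n hU hU₁
  haveI := hU₂n
  haveI := hU₁n
  have hst' := hst U₂ hU₂n
  have hπs : Function.Surjective (QuotientGroup.mk' U₂) := QuotientGroup.mk'_surjective _
  obtain ⟨Pb, hPb⟩ : ∃ Pb : Subgroup (X ⧸ U₂), Pb = U₁.map (QuotientGroup.mk' U₂) := ⟨_, rfl⟩
  haveI hPbn : Pb.Normal := by rw [hPb]; exact Subgroup.Normal.map hU₁n _ hπs
  have hPbp : IsPGroup p Pb := by rw [hPb]; exact hU₁.map _
  have hNtop : Subgroup.normalizer (Pb : Set (X ⧸ U₂)) = ⊤ := Subgroup.normalizer_eq_top Pb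
  have hmemN : ∀ n : X, QuotientGroup.mk' U₂ n ∈
      Subgroup.normalizer (Pb : Set (X ⧸ U₂)) := fun n => by
    rw [hNtop]; trivial
  obtain ⟨φ, hφ⟩ : ∃ φ : X →* ↥(Subgroup.normalizer (Pb : Set (X ⧸ U₂))) ⧸
      (Subgroup.centralizer (Pb : Set (X ⧸ U₂))).subgroupOf
        (Subgroup.normalizer (Pb : Set (X ⧸ U₂))),
      ∀ n : X, φ n = QuotientGroup.mk
        (⟨QuotientGroup.mk' U₂ n, hmemN n⟩ :
          ↥(Subgroup.normalizer (Pb : Set (X ⧸ U₂)))) :=
    ⟨(QuotientGroup.mk' _).comp ((QuotientGroup.mk' U₂).codRestrict _ hmemN),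
      fun n => rfl⟩
  have hφs : Function.Surjective φ := by
    intro q
    obtain ⟨⟨y, hy⟩, rfl⟩ := QuotientGroup.mk_surjective q
    obtain ⟨n, rfl⟩ := hπs y
    exact ⟨n, hφ n⟩
  -- kernel description: φ n = 1 → n centralizes U₁ modulo U₂
  have hker : ∀ n : X, φ n = 1 → ∀ u ∈ U₁, ⁅u, n⁆ ∈ U₂ := by
    intro n hn u hu
    rw [hφ n, QuotientGroup.eq_one_iff, Subgroup.mem_subgroupOf] at hn
    have hn' : QuotientGroup.mk' U₂ n ∈
        Subgroup.centralizer (Pb : Set (X ⧸ U₂)) := hn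
    rw [Subgroup.mem_centralizer_iff] at hn'
    have hub : QuotientGroup.mk' U₂ u ∈ Pb := by
      rw [hPb]; exact ⟨u, hu, rfl⟩
    have h1 := hn' _ hub
    have h2 : QuotientGroup.mk' U₂ (⁅u, n⁆) = 1 := by
      rw [map_commutatorElement, commutatorElement_eq_one_iff_mul_comm]
      exact h1
    rwa [QuotientGroup.mk'_apply, QuotientGroup.eq_one_iff] at h2
  obtain ⟨O, hO⟩ : ∃ O : Subgroup (↥(Subgroup.normalizer (Pb : Set (X ⧸ U₂))) ⧸
      (Subgroup.centralizer (Pb : Set (X ⧸ U₂))).subgroupOf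
        (Subgroup.normalizer (Pb : Set (X ⧸ U₂)))),
      O = Cfsg.pCore p _ := ⟨_, rfl⟩
  have hOn : O.Normal := by rw [hO]; exact pCore_normal p _
  have hOp : IsPGroup p O := by rw [hO]; exact isPGroup_pCore p _
  refine ⟨O.comap φ, hOn.comap φ, ?_, ?_, ?_⟩
  · -- normal p-subgroups
    intro P hPn hP x hx
    show φ x ∈ O
    have h1 : (P.map φ).Normal := Subgroup.Normal.map hPn φ hφs
    have h2 : IsPGroup p (P.map φ) := hP.map φ
    have h3 : P.map φ ≤ O := by rw [hO]; exact le_pCore h1 h2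
    exact h3 ⟨x, hx, rfl⟩
  · -- p'-elements of D
    intro y hy hcop
    have hy' : φ y ∈ O := hy
    have h1 : φ y = 1 := by
      obtain ⟨j, hj⟩ := IsPGroup.iff_orderOf.mp hOp ⟨φ y, hy'⟩
      rw [Subgroup.orderOf_mk] at hj
      have hdvd : orderOf (φ y) ∣ orderOf y := orderOf_map_dvd φ y
      have hc : Nat.Coprime (orderOf (φ y)) (orderOf y) := by
        rw [hj]; exact Nat.Coprime.pow_left j hcop.symm
      exact orderOf_eq_one_iff.mp (Nat.Coprime.eq_one_of_dvd hc hdvd)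
    rw [Subgroup.commutator_le]
    intro u hu z hz
    obtain ⟨k, rfl⟩ := Subgroup.mem_zpowers_iff.mp hz
    have h2 : φ (y ^ k) = 1 := by rw [map_zpow, h1, one_zpow]
    exact hker (y ^ k) h2 u hu
  · -- quadratic elements
    intro g hq
    show φ g ∈ O
    rw [hφ, hO]
    apply hst' Pb hPbp
    have e1 : Subgroup.zpowers (QuotientGroup.mk' U₂ g) =
        (Subgroup.zpowers g).map (QuotientGroup.mk' U₂) := by
      rw [MonoidHom.map_zpowers]
    rw [e1, hPb, ← Subgroup.map_commutator, ← Subgroup.map_commutator, Subgroup.map_eq_bot_iff,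
      QuotientGroup.ker_mk']
    exact hq

/-- in a constrained group which is `p`-stable on its normal sections (internal form), the
`K`-infinity subgroups of a Sylow `p`-subgroup are those of `O_p(X)` -/
theorem kq_kinf_eq (hPS : KqPSNorm p X)
    (hc : Subgroup.centralizer ((Cfsg.pCore p X : Subgroup X) : Set X) ≤ Cfsg.pCore p X)
    (S : Sylow p X) :
    Cfsg.inducedFunctor Cfsg.kInfLower (S : Subgroup X) =
        Cfsg.inducedFunctor Cfsg.kInfLower (Cfsg.pCore p X) ∧
      Cfsg.inducedFunctor Cfsg.kInfUpper (S : Subgroup X) =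
        Cfsg.inducedFunctor Cfsg.kInfUpper (Cfsg.pCore p X) := by
  obtain ⟨A, hAn, hAT, hA2, hA3, -, hA6⟩ := exists_critical_pCore X p
  haveI := hAn
  set T := Cfsg.pCore p X with hT
  have hTn : T.Normal := pCore_normal p X
  haveI := hTn
  have hTp : IsPGroup p T := isPGroup_pCore p X
  have hTS : T ≤ (S : Subgroup X) := normal_pgroup_le_sylow S hTp
  have hTmax : ∀ P : Subgroup X, P.Normal → IsPGroup p P → P ≤ T :=
    fun P hn hP => le_pCore hn hP
  have hAp : IsPGroup p A := hTp.to_le hAT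
  have hA5 : ∀ x : X, (orderOf x).Coprime p → x ∈ Subgroup.centralizer (A : Set X) → x = 1 := by
    intro x hcop hx
    have h1 : x ∈ T := hc (hA6 x hcop hx)
    obtain ⟨j, hj⟩ := IsPGroup.iff_orderOf.mp hTp ⟨x, h1⟩
    rw [Subgroup.orderOf_mk] at hj
    apply orderOf_eq_one_iff.mp
    rw [hj] at hcop ⊢
    rcases Nat.eq_zero_or_pos j with rfl | hjpos
    · simp
    · exfalso
      have h2 : p = 1 := Nat.Coprime.eq_one_of_dvd hcop.symm (dvd_pow_self p hjpos.ne')
      exact (Fact.out : p.Prime).ne_one h2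
  set Z := A ⊓ Subgroup.centralizer (A : Set X) with hZ
  have hZn : Z.Normal := inferInstance
  have hquad : ∀ g : X, ⁅⁅A, Subgroup.zpowers g⁆, Subgroup.zpowers g⁆ ≤ Z →
      ⁅⁅Z, Subgroup.zpowers g⁆, Subgroup.zpowers g⁆ = ⊥ → g ∈ T := by
    intro g h1 h2
    obtain ⟨D₁, h1n, -, hD₁y, hD₁g⟩ := hPS A Z hAn hZn inf_le_left hAp
    obtain ⟨D₂, h2n, -, hD₂y, hD₂g⟩ := hPS Z ⊥ hZn inferInstance bot_le (hAp.to_le inf_le_left)
    have hg₁ : g ∈ D₁ := hD₁g g h1
    have hg₂ : g ∈ D₂ := hD₂g g h2.le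
    haveI := h1n
    haveI := h2n
    have hDn : (D₁ ⊓ D₂).Normal := inferInstance
    have hDp : IsPGroup p ↥(D₁ ⊓ D₂) := by
      apply ks_isPGroup_of_coprime_trivial
      intro y hy hcop
      apply hA5 y hcop
      have hy1 := hD₁y y hy.1 hcop
      have hy2 := hD₂y y hy.2 hcop
      rw [Subgroup.mem_centralizer_iff]
      intro a ha
      refine (ks_coprime_comm hAp (inf_le_left : Z ≤ A) hcop ?_ ?_ a ha).symm
      · intro e he
        exact hy1 (Subgroup.commutator_mem_commutator he (Subgroup.mem_zpowers y))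
      · intro n hn
        have := hy2 (Subgroup.commutator_mem_commutator hn (Subgroup.mem_zpowers y))
        rw [Subgroup.mem_bot, commutatorElement_eq_one_iff_mul_comm] at this
        exact this.symm
    exact hTmax _ hDn hDp ⟨hg₁, hg₂⟩
  -- the two easy kinds of subgroups
  have X1 : ∀ B : Subgroup X, A ≤ Subgroup.normalizer (B : Set X) →
      ⁅A, ⁅B, B⁆⁆ = ⊥ → ⁅⁅Z, B⁆, B⁆ = ⊥ → B ≤ T := by
    intro B hAB hc1 hc2 g hg
    have hH : Subgroup.zpowers g ≤ B := (Subgroup.zpowers_le).mpr hg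
    apply hquad g
    · have hAB' : ⁅A, B⁆ ≤ B := by
        rw [Subgroup.commutator_comm]; exact le_normalizer_iff_commutator_le.mp hAB
      have c1 : ⁅A, Subgroup.zpowers g⁆ ≤ B ⊓ A :=
        le_inf ((Subgroup.commutator_mono le_rfl hH).trans hAB') (Subgroup.commutator_le_left A _)
      have hBBc : ⁅B, B⁆ ≤ Subgroup.centralizer (A : Set X) := by
        rw [← Subgroup.commutator_eq_bot_iff_le_centralizer, Subgroup.commutator_comm]
        exact hc1
      refine le_inf ?_ ?_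
      · exact (Subgroup.commutator_mono (c1.trans inf_le_right) le_rfl).trans
          (Subgroup.commutator_le_left A _)
      · exact (Subgroup.commutator_mono (c1.trans inf_le_left) hH).trans hBBc
    · rw [← le_bot_iff, ← hc2]
      exact Subgroup.commutator_mono (Subgroup.commutator_mono le_rfl hH) hH
  have X2 : ∀ B : Subgroup X,
      ⁅B, A⁆ ≤ B ⊓ Subgroup.centralizer (B : Set X) → B ≤ T := by
    intro B hBA g hg
    have hH : Subgroup.zpowers g ≤ B := (Subgroup.zpowers_le).mpr hg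
    have c1 : ⁅A, Subgroup.zpowers g⁆ ≤ B ⊓ Subgroup.centralizer (B : Set X) := by
      rw [Subgroup.commutator_comm]
      exact (Subgroup.commutator_mono hH le_rfl).trans hBA
    have c2 : ⁅⁅A, Subgroup.zpowers g⁆, Subgroup.zpowers g⁆ = ⊥ := by
      rw [← le_bot_iff]
      refine (Subgroup.commutator_mono c1 hH).trans ?_
      rw [le_bot_iff, Subgroup.commutator_eq_bot_iff_le_centralizer]
      exact inf_le_right
    apply hquad g
    · rw [c2]; exact bot_le
    · rw [← le_bot_iff, ← c2]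
      exact Subgroup.commutator_mono (Subgroup.commutator_mono inf_le_left le_rfl) le_rfl
  -- transfer to the Sylow subgroup
  set Sg : Subgroup X := (S : Subgroup X) with hSg
  set A' : Subgroup ↥Sg := A.subgroupOf Sg with hA'
  set T' : Subgroup ↥Sg := T.subgroupOf Sg with hT'
  have hA'im : im Sg A' = A := Subgroup.map_subgroupOf_eq_of_le (hAT.trans hTS)
  have hT'im : im Sg T' = T := Subgroup.map_subgroupOf_eq_of_le hTS
  set ZA' : Subgroup ↥Sg := A' ⊓ Subgroup.centralizer (A' : Set ↥Sg) with hZA'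
  have hZim : im Sg ZA' = Z := by rw [hZA', im_center, hA'im]
  have hTA : ⁅A, T⁆ ≤ Z := by rw [Subgroup.commutator_comm]; exact hA3
  have hle_T' : ∀ B' : Subgroup ↥Sg, im Sg B' ≤ T → B' ≤ T' := by
    intro B' h
    rw [← im_le_im Sg, hT'im]; exact h
  have hA'2 : A' ∈ Cfsg.classTwoSubgroups ↥Sg := by
    rw [← im_mem_classTwo Sg, hA'im]; exact hA2
  -- `A'` belongs to every lower family
  have K1 : ∀ R' : Subgroup ↥Sg, A' ∈ Cfsg.kLowerStarFamily R' := by
    intro R'
    haveI hA'n : A'.Normal := Subgroup.normal_subgroupOf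
    refine ⟨hA'2, ?_, fun A₁ hA₁ _ hAN hc1 hc2 => ?_⟩
    · rw [Subgroup.normalizer_eq_top]; exact le_top
    · have hB : im Sg A₁ ≤ T := by
        apply X1 (im Sg A₁)
        · have := (im_le_normalizer Sg).mpr hAN
          rwa [hA'im] at this
        · rw [← hA'im, ← im_commutator, ← im_commutator, im_eq_bot]; exact hc1
        · rw [← hZim, ← im_commutator, ← im_commutator, im_eq_bot]; exact hc2
      rw [← im_le_im Sg, im_commutator, im_center, hA'im]
      exact (Subgroup.commutator_mono le_rfl hB).trans hTA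
  have hA'even : ∀ n, A' ≤ Cfsg.kSeqEven ↥Sg n := fun n => by
    rw [kSeqEven_eq]; exact le_sSup (K1 _)
  -- the odd terms
  have K2 : ∀ n, Cfsg.kSeqOdd ↥Sg (n + 1) ≤ T' := by
    intro n
    rw [kSeqOdd_succ_eq]
    refine sSup_le ?_
    rintro B' ⟨-, hB'⟩
    apply hle_T'
    apply X2 (im Sg B')
    have h1 : ⁅B', A'⁆ ≤ B' ⊓ Subgroup.centralizer (B' : Set ↥Sg) :=
      (Subgroup.commutator_mono le_rfl (hA'even n)).trans hB'
    have h2 : ⁅im Sg B', im Sg A'⁆ ≤ im Sg (B' ⊓ Subgroup.centralizer (B' : Set ↥Sg)) := by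
      rw [← im_commutator]; exact (im_le_im Sg).mpr h1
    rw [hA'im, im_center] at h2
    exact h2
  -- the even terms
  have K3step : ∀ n, (∀ E' : Subgroup ↥Sg, E' ≤ T' → E' ∈ Cfsg.classTwoSubgroups ↥Sg →
      ⁅E', T'⁆ ≤ E' ⊓ Subgroup.centralizer (E' : Set ↥Sg) → E' ≤ Cfsg.kSeqOdd ↥Sg n) →
      Cfsg.kSeqEven ↥Sg n ≤ T' := by
    intro n hgood
    rw [kSeqEven_eq]
    refine sSup_le ?_
    rintro B' ⟨hB2, hBn, hBu⟩
    apply hle_T'
    have hsub : ∀ E : Subgroup X, E ≤ T → ⁅E, E⁆ ≤ Subgroup.centralizer (E : Set X) →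
        ⁅E, T⁆ ≤ E ⊓ Subgroup.centralizer (E : Set X) →
        im Sg (E.subgroupOf Sg) = E ∧ E.subgroupOf Sg ≤ Cfsg.kSeqOdd ↥Sg n ∧
          E.subgroupOf Sg ∈ Cfsg.classTwoSubgroups ↥Sg := by
      intro E hET hEE hETc
      have hEim : im Sg (E.subgroupOf Sg) = E := Subgroup.map_subgroupOf_eq_of_le (hET.trans hTS)
      have h2 : E.subgroupOf Sg ∈ Cfsg.classTwoSubgroups ↥Sg := by
        rw [← im_mem_classTwo Sg, hEim]; exact hEE
      refine ⟨hEim, hgood _ ?_ h2 ?_, h2⟩
      · rw [← im_le_im Sg, hEim, hT'im]; exact hET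
      · rw [← im_le_im Sg, im_commutator, im_center, hEim, hT'im]; exact hETc
    have hBp : IsPGroup p (im Sg B') := S.isPGroup'.to_le (Subgroup.map_subtype_le B')
    apply kq_main hPS T hTp hTmax A hAT hA2 hA3 hA5 (im Sg B') hBp ((im_mem_classTwo Sg).mpr hB2)
    · intro E hET hEE hETc
      obtain ⟨hEim, hEodd, -⟩ := hsub E hET hEE hETc
      have := (im_le_normalizer Sg).mpr (hEodd.trans hBn)
      rwa [hEim] at this
    · intro E hET hEE hETc hBE hc1 hc2
      obtain ⟨hEim, hEodd, hE2⟩ := hsub E hET hEE hETc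
      have h5 := hBu (E.subgroupOf Sg) hE2 hEodd
        ((im_le_normalizer Sg).mp (by rw [hEim]; exact hBE))
        (by rw [← im_eq_bot Sg, im_commutator, im_commutator, hEim]; exact hc1)
        (by rw [← im_eq_bot Sg, im_commutator, im_commutator, im_center, hEim]; exact hc2)
      have h6 := (im_le_im Sg).mpr h5
      rwa [im_commutator, im_center, hEim] at h6
  have K3 : ∀ n, (∀ E' : Subgroup ↥Sg, E' ≤ T' → E' ∈ Cfsg.classTwoSubgroups ↥Sg →
      ⁅E', T'⁆ ≤ E' ⊓ Subgroup.centralizer (E' : Set ↥Sg) → E' ≤ Cfsg.kSeqOdd ↥Sg n) ∧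
      Cfsg.kSeqEven ↥Sg n ≤ T' := by
    intro n
    induction n with
    | zero =>
      have h0 : ∀ E' : Subgroup ↥Sg, E' ≤ T' → E' ∈ Cfsg.classTwoSubgroups ↥Sg →
          ⁅E', T'⁆ ≤ E' ⊓ Subgroup.centralizer (E' : Set ↥Sg) → E' ≤ Cfsg.kSeqOdd ↥Sg 0 := by
        intro E' _ _ _
        rw [kSeqOdd_zero]; exact le_top
      exact ⟨h0, K3step 0 h0⟩
    | succ n ih =>
      have h1 : ∀ E' : Subgroup ↥Sg, E' ≤ T' → E' ∈ Cfsg.classTwoSubgroups ↥Sg →
          ⁅E', T'⁆ ≤ E' ⊓ Subgroup.centralizer (E' : Set ↥Sg) →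
          E' ≤ Cfsg.kSeqOdd ↥Sg (n + 1) := by
        intro E' _ hE2 hET
        rw [kSeqOdd_succ_eq]
        apply le_sSup
        exact ⟨hE2, (Subgroup.commutator_mono le_rfl ih.2).trans hET⟩
      exact ⟨h1, K3step (n + 1) h1⟩
  obtain ⟨hL, hU⟩ := kInf_of_le T' (fun n => ⟨(K3 n).2, K2 n⟩)
  have hT'p : IsPGroup p ↥T' :=
    IsPGroup.of_injective S.isPGroup' T'.subtype T'.subtype_injective
  constructor
  · have h1 := inducedFunctor_map (isCharPFunctor_kInfLower p) Sg.subtype T' hT'p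
      Sg.subtype_injective.injOn
    have h2 : T'.map Sg.subtype = T := hT'im
    rw [h2] at h1
    rw [h1]
    show (Cfsg.kInfLower ↥Sg).map Sg.subtype = (im T' (Cfsg.kInfLower ↥T')).map Sg.subtype
    rw [hL]
  · have h1 := inducedFunctor_map (isCharPFunctor_kInfUpper p) Sg.subtype T' hT'p
      Sg.subtype_injective.injOn
    have h2 : T'.map Sg.subtype = T := hT'im
    rw [h2] at h1
    rw [h1]
    show (Cfsg.kInfUpper ↥Sg).map Sg.subtype = (im T' (Cfsg.kInfUpper ↥T')).map Sg.subtype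
    rw [hU]

/-- in a constrained group all of whose quotients are `p`-stable (normalizer form), the
`K`-infinity subgroups of a Sylow `p`-subgroup are normal -/
theorem kq_kinf_normal_of_quotients
    (hst : ∀ (R : Subgroup X) (_ : R.Normal), Cfsg.IsNormalizerPStable p (X ⧸ R))
    (hc : Subgroup.centralizer ((Cfsg.pCore p X : Subgroup X) : Set X) ≤ Cfsg.pCore p X)
    (S : Sylow p X) :
    (Cfsg.inducedFunctor Cfsg.kInfLower (S : Subgroup X)).Normal ∧
      (Cfsg.inducedFunctor Cfsg.kInfUpper (S : Subgroup X)).Normal := by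
  obtain ⟨hL, hU⟩ := kq_kinf_eq (kqPSNorm_of_quotients hst) hc S
  constructor
  · rw [hL]; exact inducedFunctor_pCore_normal (isCharPFunctor_kInfLower p)
  · rw [hU]; exact inducedFunctor_pCore_normal (isCharPFunctor_kInfUpper p)

end kq4

end Cfsg.Agent.Lib.Helper26
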