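import Cfsg.Agent.Lib.Helper26.KQuot3

set_option autoImplicit false
open scoped commutatorElement

namespace Cfsg.Agent.Lib.Helper26

open Cfsg.Agent.Lib.Helper42 Cfsg.Agent.Lib.Helper15

universe u

section kq5

variable {X : Type u} [Group X] [Finite X] {p : ℕ} [Fact p.Prime]

/-- an element centralizing every chief factor of `X` inside the critical subgroup `A` lies in
`T = O_p(X)` -/
theorem kq_cent_chief (T : Subgroup X)
    (hTmax : ∀ P : Subgroup X, P.Normal → IsPGroup p P → P ≤ T)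
    (A : Subgroup X) [hAn : A.Normal] (hAp : IsPGroup p A)
    (hA5 : ∀ x : X, (orderOf x).Coprime p → x ∈ Subgroup.centralizer (A : Set X) → x = 1)
    (g : X)
    (hg : ∀ U V : Subgroup X, Cfsg.IsChiefFactor U V → U ≤ A → ⁅U, Subgroup.zpowers g⁆ ≤ V) :
    g ∈ T := by
  let D : Subgroup X :=
    { carrier := {x | ∀ U V : Subgroup X, Cfsg.IsChiefFactor U V → U ≤ A → ∀ u ∈ U, ⁅u, x⁆ ∈ V}
      one_mem' := by
        intro U V _ _ u _
        rw [commutatorElement_one_right]; exact V.one_mem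
      mul_mem' := by
        intro x y hx hy U V hUV hUA u hu
        have hVn : V.Normal := hUV.2.2.1
        have h1 : ⁅u, x * y⁆ = ⁅u, x⁆ * (x * ⁅u, y⁆ * x⁻¹) := by
          simp only [commutatorElement_def]; group
        rw [h1]
        exact V.mul_mem (hx U V hUV hUA u hu) (hVn.conj_mem _ (hy U V hUV hUA u hu) x)
      inv_mem' := by
        intro x hx U V hUV hUA u hu
        have hVn : V.Normal := hUV.2.2.1
        have h1 : ⁅u, x⁻¹⁆ = x⁻¹ * (⁅u, x⁆)⁻¹ * x⁻¹⁻¹ := by
          simp only [commutatorElement_def]; group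
        rw [h1]
        exact hVn.conj_mem _ (V.inv_mem (hx U V hUV hUA u hu)) x⁻¹ }
  have hDn : D.Normal := by
    constructor
    intro x hx k U V hUV hUA u hu
    have hUn : U.Normal := hUV.2.1
    have hVn : V.Normal := hUV.2.2.1
    have h1 : ⁅u, k * x * k⁻¹⁆ = k * ⁅k⁻¹ * u * k⁻¹⁻¹, x⁆ * k⁻¹ := by
      simp only [commutatorElement_def]; group
    rw [h1]
    exact hVn.conj_mem _ (hx U V hUV hUA _ (hUn.conj_mem u hu k⁻¹)) k
  have hgD : g ∈ D := by
    intro U V hUV hUA u hu
    exact hg U V hUV hUA (Subgroup.commutator_mem_commutator hu (Subgroup.mem_zpowers g))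
  have hDp : IsPGroup p D := by
    apply ks_isPGroup_of_coprime_trivial
    intro y hy hcop
    apply hA5 y hcop
    have key : ∀ (n : ℕ) (E : Subgroup X), Nat.card E = n → E.Normal → E ≤ A →
        ∀ e ∈ E, y * e = e * y := by
      intro n
      induction' n using Nat.strong_induction_on with n ih
      intro E hn hEn hEA
      by_cases hE : E = ⊥
      · intro e he
        rw [hE, Subgroup.mem_bot] at he
        rw [he, mul_one, one_mul]
      · obtain ⟨E₀, ⟨hE₀n, hE₀E, hE₀ne⟩, hmax⟩ := Set.exists_max_image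
          {F : Subgroup X | F.Normal ∧ F ≤ E ∧ F ≠ E}
          (fun F => Nat.card F) (Set.toFinite _) ⟨⊥, inferInstance, bot_le, fun h => hE h.symm⟩
        have hchief : Cfsg.IsChiefFactor E E₀ := by
          refine ⟨lt_of_le_of_ne hE₀E hE₀ne, hEn, hE₀n, fun F hFn hWF hFE => ?_⟩
          by_cases hFE' : F = E
          · exact Or.inr hFE'
          · left
            have := hmax F ⟨hFn, hFE, hFE'⟩
            exact (Subgroup.eq_of_le_of_card_ge hWF this).symm
        have hlt : Nat.card E₀ < n := by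
          rw [← hn]
          exact card_lt_of_lt (lt_of_le_of_ne hE₀E hE₀ne)
        have h0 := ih _ hlt E₀ rfl hE₀n (hE₀E.trans hEA)
        exact ks_coprime_comm (hAp.to_le hEA) hE₀E hcop
          (fun e he => hy E E₀ hchief hEA e he) h0
    rw [Subgroup.mem_centralizer_iff]
    intro a ha
    exact (key _ A rfl hAn le_rfl a ha).symm
  exact hTmax D hDn hDp hgD

/-- an element acting quadratically on `A / Z` and on `Z` acts quadratically on every chief
factor inside `A` -/
theorem kq_quad_chief (A Z H : Subgroup X) [hZn : Z.Normal] (h1 : ⁅⁅A, H⁆, H⁆ ≤ Z)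
    (h2 : ⁅⁅Z, H⁆, H⁆ = ⊥) (U V : Subgroup X) (hUV : Cfsg.IsChiefFactor U V) (hUA : U ≤ A) :
    ⁅⁅U, H⁆, H⁆ ≤ V := by
  obtain ⟨hlt, hUn, hVn, hmax⟩ := hUV
  haveI := hUn
  haveI := hVn
  by_cases hle : U ⊓ Z ≤ V
  · refine le_trans (le_inf ?_ ?_) hle
    · exact (Subgroup.commutator_mono (Subgroup.commutator_le_left U H) le_rfl).trans
        (Subgroup.commutator_le_left U H)
    · exact (Subgroup.commutator_mono (Subgroup.commutator_mono hUA le_rfl) le_rfl).trans h1
  · have hn : (U ⊓ Z ⊔ V).Normal := inferInstance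
    have hcov : U ⊓ Z ⊔ V = U := by
      rcases hmax _ hn le_sup_right (sup_le inf_le_left hlt.le) with h | h
      · exact absurd (h ▸ le_sup_left) hle
      · exact h
    have h3 : ⁅⁅U ⊓ Z ⊔ V, H⁆, H⁆ ≤ ⁅⁅U ⊓ Z, H⁆, H⁆ ⊔ V :=
      (Subgroup.commutator_mono (commutator_sup_le (U ⊓ Z) V H) le_rfl).trans
        (commutator_sup_le _ V H)
    rw [hcov] at h3
    refine h3.trans (sup_le ?_ le_rfl)
    have h4 : ⁅⁅U ⊓ Z, H⁆, H⁆ ≤ ⁅⁅Z, H⁆, H⁆ :=
      Subgroup.commutator_mono (Subgroup.commutator_mono inf_le_right le_rfl) le_rfl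
    rw [h2] at h4
    exact h4.trans bot_le

/-- the minimal case of the main lemma, relative form: only the elements of `B` are tested, on
the chief factors of `X` inside `A` -/
theorem kq_main_min_rel
    (T : Subgroup X) [hTn : T.Normal] (hT : IsPGroup p T)
    (A : Subgroup X) [hAn : A.Normal] (hAT : A ≤ T)
    (hA2 : ⁅A, A⁆ ≤ Subgroup.centralizer (A : Set X))
    (hA3 : ⁅T, A⁆ ≤ A ⊓ Subgroup.centralizer (A : Set X))
    (hA5 : ∀ x : X, (orderOf x).Coprime p → x ∈ Subgroup.centralizer (A : Set X) → x = 1)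
    (B : Subgroup X) (hBp : IsPGroup p B)
    (hB2 : ⁅B, B⁆ ≤ Subgroup.centralizer (B : Set X))
    (h3 : ∀ E : Subgroup X, E ≤ T → ⁅E, E⁆ ≤ Subgroup.centralizer (E : Set X) →
      ⁅E, T⁆ ≤ E ⊓ Subgroup.centralizer (E : Set X) → E ≤ Subgroup.normalizer (B : Set X))
    (h4 : ∀ E : Subgroup X, E ≤ T → ⁅E, E⁆ ≤ Subgroup.centralizer (E : Set X) →
      ⁅E, T⁆ ≤ E ⊓ Subgroup.centralizer (E : Set X) → B ≤ Subgroup.normalizer (E : Set X) →
      ⁅B, ⁅E, E⁆⁆ = ⊥ → ⁅⁅B ⊓ Subgroup.centralizer (B : Set X), E⁆, E⁆ = ⊥ →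
      ⁅B, E⁆ ≤ B ⊓ Subgroup.centralizer (B : Set X))
    (N : Subgroup X) (hBN : B ≤ N) (hTN : T ≤ N)
    (hOT : ∀ P : Subgroup X, IsPGroup p P → P ≤ N → N ≤ Subgroup.normalizer (P : Set X) → P ≤ T)
    (hMIN : ∀ M : Subgroup X, M ≤ N → N ≤ Subgroup.normalizer (M : Set X) → B ≤ M → T ≤ M →
      M = N)
    (hSS : ∀ E W : Subgroup X, E.Normal → W.Normal → E ≤ A → KqMinOver ⊤ W E → KqSSec N W E)
    (hq0 : ∀ g ∈ B, ⁅⁅A, Subgroup.zpowers g⁆, Subgroup.zpowers g⁆ = ⊥ → g ∈ T)
    (hqc : ∀ g ∈ B, ∀ U V : Subgroup X, Cfsg.IsChiefFactor U V → U ≤ A →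
      ⁅⁅U, Subgroup.zpowers g⁆, Subgroup.zpowers g⁆ ≤ V → ⁅U, Subgroup.zpowers g⁆ ≤ V) :
    B ≤ T := by
  have hNT : N ≤ Subgroup.normalizer (T : Set X) := by
    rw [Subgroup.normalizer_eq_top]; exact le_top
  have hNA : N ≤ Subgroup.normalizer (A : Set X) := by
    rw [Subgroup.normalizer_eq_top]; exact le_top
  have hAp : IsPGroup p A := hT.to_le hAT
  have hATc : ⁅A, T⁆ ≤ A ⊓ Subgroup.centralizer (A : Set X) := by
    rw [Subgroup.commutator_comm]; exact hA3
  have hAB : A ≤ Subgroup.normalizer (B : Set X) := h3 A hAT hA2 hATc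
  -- Step 0 : Z(B) ≤ T
  have hZBT : B ⊓ Subgroup.centralizer (B : Set X) ≤ T := by
    have hZab : ⁅B ⊓ Subgroup.centralizer (B : Set X), B ⊓ Subgroup.centralizer (B : Set X)⁆ = ⊥ := by
      rw [Subgroup.commutator_eq_bot_iff_le_centralizer]
      exact inf_le_right.trans (Subgroup.centralizer_le inf_le_left)
    have hAZ : A ≤ Subgroup.normalizer
        ((B ⊓ Subgroup.centralizer (B : Set X) : Subgroup X) : Set X) :=
      ks_le_normalizer_inf hAB (ks_le_normalizer_centralizer hAB)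
    have hq : ⁅⁅A, B ⊓ Subgroup.centralizer (B : Set X)⁆, B ⊓ Subgroup.centralizer (B : Set X)⁆
        ≤ ⊥ := by
      rw [← hZab]
      exact Subgroup.commutator_mono (ks_commutator_le_right hAZ) le_rfl
    intro g hg
    apply hq0 g hg.1
    rw [← le_bot_iff]
    exact (Subgroup.commutator_mono (Subgroup.commutator_mono le_rfl
      (Subgroup.zpowers_le.mpr hg)) (Subgroup.zpowers_le.mpr hg)).trans hq
  set Lset : Set X := {x | x ∈ N ∧ (orderOf x).Coprime p} with hLset
  set CL : Subgroup X := Subgroup.centralizer Lset with hCL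
  have hNCL : N ≤ Subgroup.normalizer (CL : Set X) := by
    apply ks_le_normalizer_of_conj
    intro n hn c hc
    rw [hCL, Subgroup.mem_centralizer_iff] at hc ⊢
    rintro x ⟨hxN, hxc⟩
    have hx' : n⁻¹ * x * n ∈ Lset := by
      refine ⟨N.mul_mem (N.mul_mem (N.inv_mem hn) hxN) hn, ?_⟩
      have : orderOf (n⁻¹ * x * n) = orderOf x := by
        have := orderOf_injective (MulAut.conj n⁻¹).toMonoidHom (MulAut.conj n⁻¹).injective x
        simpa using this
      rw [this]; exact hxc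
    have h1 := hc _ hx'
    calc x * (n * c * n⁻¹) = n * ((n⁻¹ * x * n) * c) * n⁻¹ := by group
      _ = n * (c * (n⁻¹ * x * n)) * n⁻¹ := by rw [h1]
      _ = n * c * n⁻¹ * x := by group
  have hcomm : ∀ {U : Subgroup X}, U ≤ CL → ∀ x ∈ Lset, ∀ u ∈ U, x * u = u * x := by
    intro U hU x hx u hu
    have := hU hu
    rw [hCL, Subgroup.mem_centralizer_iff] at this
    exact this x hx
  have hleCL : ∀ {U : Subgroup X}, (∀ x ∈ Lset, ∀ u ∈ U, x * u = u * x) → U ≤ CL := by
    intro U h u hu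
    rw [hCL, Subgroup.mem_centralizer_iff]
    intro x hx
    exact h x hx u hu
  -- key claim
  have key : A ≤ CL := by
    by_contra hAC
    obtain ⟨E, ⟨hEn, hEA, hECL⟩, hmin⟩ := Set.exists_min_image
      {E : Subgroup X | E.Normal ∧ E ≤ A ∧ ¬ E ≤ CL}
      (fun E => Nat.card E) (Set.toFinite _) ⟨A, hAn, le_rfl, hAC⟩
    haveI := hEn
    have hminX : ∀ F : Subgroup X, F.Normal → F ≤ E → F ≠ E → F ≤ CL := by
      intro F hFn hFE hne
      by_contra hF
      have := hmin F ⟨hFn, hFE.trans hEA, hF⟩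
      exact hne (Subgroup.eq_of_le_of_card_ge hFE this)
    obtain ⟨E₀, hE₀⟩ : ∃ E₀ : Subgroup X,
        E₀ = sSup {F : Subgroup X | F.Normal ∧ F ≤ E ∧ F ≠ E} := ⟨_, rfl⟩
    have hE₀n : E₀.Normal := by rw [hE₀]; exact Subgroup.sSup_normal _ (fun F hF => hF.1)
    haveI := hE₀n
    have hE₀E : E₀ ≤ E := by rw [hE₀]; exact sSup_le (fun F hF => hF.2.1)
    have hE₀CL : E₀ ≤ CL := by
      rw [hE₀]; exact sSup_le (fun F hF => hminX F hF.1 hF.2.1 hF.2.2)
    have hle₀ : ∀ F : Subgroup X, F.Normal → F ≤ E → F ≠ E → F ≤ E₀ := by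
      intro F h1 h2 h3; rw [hE₀]; exact le_sSup ⟨h1, h2, h3⟩
    have hEneE₀ : E ≠ E₀ := fun h => hECL (h ▸ hE₀CL)
    have hchief : KqMinOver ⊤ E₀ E := by
      refine ⟨by rw [Subgroup.normalizer_eq_top], hE₀E, hEneE₀, fun V hV hWV hVE => ?_⟩
      have hVn : V.Normal := Subgroup.normalizer_eq_top_iff.mp (top_le_iff.mp hV)
      by_cases hVE' : V = E
      · exact Or.inr hVE'
      · exact Or.inl (le_antisymm (hle₀ V hVn hVE hVE') hWV)
    have hSSE := hSS E E₀ hEn hE₀n hEA hchief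
    have hET' : E ≤ T := hEA.trans hAT
    have hEp : IsPGroup p E := hT.to_le hET'
    have hEne : E ≠ ⊥ := by rintro rfl; exact hECL bot_le
    have hNE₀ : N ≤ Subgroup.normalizer (E₀ : Set X) := by
      rw [Subgroup.normalizer_eq_top]; exact le_top
    have hEE₀ : ⁅E, E⁆ ≤ E₀ := by
      apply hle₀ _ inferInstance (ks_commutator_le_self E)
      intro h
      have h1 : E ≤ (⊥ : Subgroup X) :=
        kq_nilp (p := p) (H := E) (U := E) (W := ⊥) hEp le_rfl (by rw [h]; exact le_sup_left)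
      exact hEne (le_bot_iff.mp h1)
    have hET₀ : ⁅E, T⁆ ≤ E₀ := by
      apply hle₀ _ inferInstance
        (ks_commutator_le_left (by rw [Subgroup.normalizer_eq_top]; exact le_top))
      intro h
      have h1 : E ≤ (⊥ : Subgroup X) :=
        kq_nilp (p := p) (H := T) (U := E) (W := ⊥) hT hET' (by rw [h]; exact le_sup_left)
      exact hEne (le_bot_iff.mp h1)
    -- the quotient by `E₀`
    obtain ⟨π, hπ⟩ : ∃ π : X →* X ⧸ E₀, π = QuotientGroup.mk' E₀ := ⟨_, rfl⟩
    have hker : π.ker = E₀ := by rw [hπ]; exact QuotientGroup.ker_mk' E₀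
    have hmapbot : ∀ {H : Subgroup X}, H.map π = ⊥ ↔ H ≤ E₀ := by
      intro H; rw [Subgroup.map_eq_bot_iff, hker]
    have hπE₀ : E₀.map π = ⊥ := hmapbot.mpr le_rfl
    have hπcomm : ∀ a b : X, π a * π b = π b * π a ↔ ⁅a, b⁆ ∈ E₀ := by
      intro a b
      rw [← commutatorElement_eq_one_iff_mul_comm, ← map_commutatorElement, ← MonoidHom.mem_ker,
        hker]
    -- the centralizer in `N` of an `N`-invariant section `U / E₀`
    have hCex : ∀ U : Subgroup X, N ≤ Subgroup.normalizer (U : Set X) → U ≤ E →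
        ∃ C : Subgroup X, C ≤ N ∧ N ≤ Subgroup.normalizer (C : Set X) ∧ T ≤ C ∧
          ∀ x : X, x ∈ C ↔ x ∈ N ∧ ∀ u ∈ U, π u * π x = π x * π u := by
      intro U hNU hUE
      obtain ⟨C, hC⟩ : ∃ C : Subgroup X, C = N ⊓ (Subgroup.centralizer
          ((U.map π : Subgroup (X ⧸ E₀)) : Set (X ⧸ E₀))).comap π := ⟨_, rfl⟩
      have hmemC : ∀ x : X, x ∈ C ↔ x ∈ N ∧ ∀ u ∈ U, π u * π x = π x * π u := by
        intro x
        rw [hC, Subgroup.mem_inf, Subgroup.mem_comap, Subgroup.mem_centralizer_iff]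
        constructor
        · rintro ⟨h1, h2⟩
          exact ⟨h1, fun u hu => h2 _ (Subgroup.mem_map_of_mem π hu)⟩
        · rintro ⟨h1, h2⟩
          refine ⟨h1, ?_⟩
          rintro _ ⟨u, hu, rfl⟩
          exact h2 u hu
      refine ⟨C, by rw [hC]; exact inf_le_left, ?_, ?_, hmemC⟩
      · apply ks_le_normalizer_of_conj
        intro n hn x hx
        rw [hmemC] at hx ⊢
        refine ⟨N.mul_mem (N.mul_mem hn hx.1) (N.inv_mem hn), fun u hu => ?_⟩
        have h1 := hx.2 (n⁻¹ * u * n) (ks_conj_mem' hNU hn hu)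
        simp only [map_mul, map_inv] at h1 ⊢
        calc π u * (π n * π x * (π n)⁻¹)
            = π n * ((π n)⁻¹ * π u * π n * π x) * (π n)⁻¹ := by group
          _ = π n * (π x * ((π n)⁻¹ * π u * π n)) * (π n)⁻¹ := by rw [h1]
          _ = π n * π x * (π n)⁻¹ * π u := by group
      · intro t ht
        rw [hmemC]
        refine ⟨hTN ht, fun u hu => ?_⟩
        rw [hπcomm]
        exact hET₀ (Subgroup.commutator_mem_commutator (hUE hu) ht)
    -- `B` is quadratic on every `N`-minimal piece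
    have hU : ∀ U : Subgroup X, KqMinOver N E₀ U → U ≤ E →
        ⁅⁅U.map π, B.map π⁆, B.map π⁆ = ⊥ := by
      rintro U ⟨hNU, hE₀U, hUne, hUmin⟩ hUE
      by_cases hUCL : U ≤ CL
      · -- the `p'`-elements of `N` centralize `U`: then `N` acts trivially on `U / E₀`
        have hUB : ⁅U, B⁆ ≤ E₀ := by
          obtain ⟨C, hCN, hNC, hTC, hmemC⟩ := hCex U hNU hUE
          have hLC : ∀ x ∈ N, (orderOf x).Coprime p → x ∈ C := by
            intro x hxN hxc
            rw [hmemC]
            refine ⟨hxN, fun u hu => ?_⟩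
            rw [← map_mul, ← map_mul, hcomm hUCL x ⟨hxN, hxc⟩ u hu]
          have hfac := ks_gamma (p := p) hCN hNC hBN hTC hLC hMIN
          obtain ⟨Ub, hUb⟩ : ∃ Ub : Subgroup (X ⧸ E₀), Ub = U.map π := ⟨_, rfl⟩
          obtain ⟨Bb, hBb⟩ : ∃ Bb : Subgroup (X ⧸ E₀), Bb = B.map π := ⟨_, rfl⟩
          have hBbUb : Bb ≤ Subgroup.normalizer (Ub : Set (X ⧸ E₀)) := by
            apply ks_le_normalizer_of_conj
            rw [hUb, hBb]
            rintro _ ⟨b, hb, rfl⟩ _ ⟨u, hu, rfl⟩
            exact ⟨b * u * b⁻¹, ks_conj_mem hNU (hBN hb) hu, by simp⟩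
          have hcomUb : ⁅Ub, Bb⁆ ≤ Ub := ks_commutator_le_left hBbUb
          obtain ⟨F, hF⟩ : ∃ F : Subgroup X, F = (⁅Ub, Bb⁆).comap π := ⟨_, rfl⟩
          have hBbn : Bb ≤ Subgroup.normalizer
              ((⁅Ub, Bb⁆ : Subgroup (X ⧸ E₀)) : Set (X ⧸ E₀)) :=
            ks_le_normalizer_commutator hBbUb Subgroup.le_normalizer
          have hNF : N ≤ Subgroup.normalizer (F : Set X) := by
            apply ks_le_normalizer_of_conj
            intro n hn x hx
            obtain ⟨b, hb, c, hc, rfl⟩ := hfac n hn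
            rw [hF, Subgroup.mem_comap] at hx ⊢
            have hxU : π x ∈ Ub := hcomUb hx
            rw [hUb] at hxU
            obtain ⟨u, hu, hux⟩ := hxU
            have hcu := ((hmemC c).mp hc).2 u hu
            rw [hux] at hcu
            have h1 : π (b * c * x * (b * c)⁻¹) = π b * π x * (π b)⁻¹ := by
              simp only [map_mul, map_inv, mul_inv_rev]
              calc π b * π c * π x * ((π c)⁻¹ * (π b)⁻¹)
                  = π b * (π c * π x) * (π c)⁻¹ * (π b)⁻¹ := by group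
                _ = π b * (π x * π c) * (π c)⁻¹ * (π b)⁻¹ := by rw [hcu]
                _ = π b * π x * (π b)⁻¹ := by group
            rw [h1]
            exact ks_conj_mem hBbn (by rw [hBb]; exact Subgroup.mem_map_of_mem π hb) hx
          have hE₀F : E₀ ≤ F := by
            intro x hx
            rw [hF, Subgroup.mem_comap]
            have h1 : π x = 1 := by rw [← MonoidHom.mem_ker, hker]; exact hx
            rw [h1]; exact Subgroup.one_mem _
          have hFU : F ≤ U := by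
            have h1 : F ≤ Ub.comap π := by rw [hF]; exact Subgroup.comap_mono hcomUb
            rw [hUb, Subgroup.comap_map_eq, hker, sup_eq_left.mpr hE₀U] at h1
            exact h1
          rcases hUmin F hNF hE₀F hFU with hFe | hFe
          · rw [Subgroup.commutator_le]
            intro u hu b hb
            rw [← hFe, hF, Subgroup.mem_comap, map_commutatorElement]
            exact Subgroup.commutator_mem_commutator
              (by rw [hUb]; exact Subgroup.mem_map_of_mem π hu)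
              (by rw [hBb]; exact Subgroup.mem_map_of_mem π hb)
          · exfalso
            apply hUne
            apply le_antisymm _ hE₀U
            rw [← hmapbot, ← hUb]
            have hUbp : IsPGroup p Ub := by rw [hUb]; exact (hEp.to_le hUE).map π
            have hBbp : IsPGroup p Bb := by rw [hBb]; exact hBp.map π
            have hHp : IsPGroup p (Bb ⊔ Ub : Subgroup (X ⧸ E₀)) :=
              IsPGroup.to_sup_of_normal_right' hBbp hUbp hBbUb
            apply kq_nilp0 (p := p) hHp le_sup_right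
            have h1 : Ub ≤ ⁅Ub, Bb⁆ := by
              calc Ub = F.map π := by rw [hFe, hUb]
                _ ≤ ⁅Ub, Bb⁆ := by rw [hF]; exact Subgroup.map_comap_le _ _
            exact h1.trans (Subgroup.commutator_mono le_rfl le_sup_left)
        have h1 : ⁅U.map π, B.map π⁆ = ⊥ := by
          rw [← Subgroup.map_commutator, hmapbot]; exact hUB
        rw [h1, Subgroup.commutator_bot_left]
      · -- the `N`-level computation
        obtain ⟨Es, ⟨hEsU, hNEs, hEsCL⟩, hmins⟩ := Set.exists_min_image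
          {V : Subgroup X | V ≤ U ∧ N ≤ Subgroup.normalizer (V : Set X) ∧ ¬ V ≤ CL}
          (fun V => Nat.card V) (Set.toFinite _) ⟨U, le_rfl, hNU, hUCL⟩
        have hmin's : ∀ V : Subgroup X, V ≤ Es → N ≤ Subgroup.normalizer (V : Set X) →
            V ≠ Es → V ≤ CL := by
          intro V hVE hNV hne
          by_contra hV
          have := hmins V ⟨hVE.trans hEsU, hNV, hV⟩
          exact hne (Subgroup.eq_of_le_of_card_ge hVE this)
        have hquad : ⁅⁅Es, B⁆, B⁆ ≤ Es ⊓ CL :=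
          kq_nlevel T hT A hAT hA2 hA3 B hB2 h3 h4 N hBN hTN hMIN hZBT Es
            ((hEsU.trans hUE).trans hEA) hNEs hEsCL hmin's
        have hG₁ : Es ⊓ CL ≤ E₀ := by
          have hN1 : N ≤ Subgroup.normalizer (((Es ⊓ CL) ⊔ E₀ : Subgroup X) : Set X) :=
            kq_le_normalizer_sup (ks_le_normalizer_inf hNEs hNCL) hNE₀
          rcases hUmin _ hN1 le_sup_right (sup_le (inf_le_left.trans hEsU) hE₀U) with h | h
          · rw [← h]; exact le_sup_left
          · exfalso; apply hUCL; rw [← h]; exact sup_le inf_le_right hE₀CL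
        have hG₂ : Es ⊔ E₀ = U := by
          have hN2 : N ≤ Subgroup.normalizer ((Es ⊔ E₀ : Subgroup X) : Set X) :=
            kq_le_normalizer_sup hNEs hNE₀
          rcases hUmin _ hN2 le_sup_right (sup_le hEsU hE₀U) with h | h
          · exfalso; apply hEsCL; exact (le_sup_left.trans h.le).trans hE₀CL
          · exact h
        have h1 : U.map π = Es.map π := by
          rw [← hG₂, Subgroup.map_sup, hπE₀, sup_bot_eq]
        rw [h1, ← Subgroup.map_commutator, ← Subgroup.map_commutator, hmapbot]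
        exact hquad.trans hG₁
    -- `B` is quadratic on `E / E₀`
    have hq : ⁅⁅E, B⁆, B⁆ ≤ E₀ := by
      rw [← hmapbot, Subgroup.map_commutator, Subgroup.map_commutator]
      apply kq_quad_sSup (Eb := E.map π) (Bb := B.map π) ?_ ?_
        ((fun U : Subgroup X => U.map π) '' {U : Subgroup X | KqMinOver N E₀ U ∧ U ≤ E}) ?_ ?_
      · rintro _ ⟨x, hx, rfl⟩ _ ⟨y, hy, rfl⟩
        rw [hπcomm]
        exact hEE₀ (Subgroup.commutator_mem_commutator hx hy)
      · apply ks_le_normalizer_of_conj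
        rintro _ ⟨b, hb, rfl⟩ _ ⟨e, he, rfl⟩
        exact ⟨b * e * b⁻¹, hEn.conj_mem e he b, by simp⟩
      · rintro _ ⟨U, ⟨hUm, hUE⟩, rfl⟩
        exact ⟨Subgroup.map_mono hUE, hU U hUm hUE⟩
      · rw [Subgroup.map_le_iff_le_comap]
        refine hSSE.trans (sSup_le ?_)
        intro U hUS
        rw [← Subgroup.map_le_iff_le_comap]
        exact le_sSup ⟨U, hUS, rfl⟩
    -- the elements of `B` centralize the chief factor `E / E₀`
    have hchiefE : Cfsg.IsChiefFactor E E₀ := by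
      refine ⟨lt_of_le_of_ne hE₀E (Ne.symm hEneE₀), hEn, hE₀n, fun F hFn hWF hFE => ?_⟩
      haveI := hFn
      exact hchief.2.2.2 F (by rw [Subgroup.normalizer_eq_top]) hWF hFE
    have hEB₀ : ∀ e ∈ E, ∀ b ∈ B, ⁅e, b⁆ ∈ E₀ := by
      intro e he b hb
      have h1 := hqc b hb E E₀ hchiefE hEA
        ((Subgroup.commutator_mono (Subgroup.commutator_mono le_rfl
          (Subgroup.zpowers_le.mpr hb)) (Subgroup.zpowers_le.mpr hb)).trans hq)
      exact h1 (Subgroup.commutator_mem_commutator he (Subgroup.mem_zpowers b))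
    obtain ⟨C, hCN, hNC, hTC, hmemC⟩ := hCex E
      (by rw [Subgroup.normalizer_eq_top]; exact le_top) le_rfl
    have hCeq : C = N := by
      apply hMIN C hCN hNC _ hTC
      intro b hb
      rw [hmemC]
      exact ⟨hBN hb, fun u hu => (hπcomm u b).mpr (hEB₀ u hu b hb)⟩
    apply hECL
    apply hleCL
    rintro x ⟨hxN, hxc⟩ e he
    have hxC : x ∈ C := by rw [hCeq]; exact hxN
    exact ks_coprime_comm hEp hE₀E hxc
      (fun e he => (hπcomm e x).mp (((hmemC x).mp hxC).2 e he))
      (fun n hn => hcomm hE₀CL x ⟨hxN, hxc⟩ n hn) e he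
  -- conclusion
  have hNp : IsPGroup p N := by
    apply ks_isPGroup_of_coprime_trivial
    intro x hxN hxc
    apply hA5 x hxc
    rw [Subgroup.mem_centralizer_iff]
    intro a ha
    exact (hcomm key x ⟨hxN, hxc⟩ a ha).symm
  exact hBN.trans (hOT N hNp le_rfl Subgroup.le_normalizer)

/-- the main lemma, relative form: a class two `p`-subgroup `B` with the lower-star property
relative to the "central" class two subgroups of `T = O_p(X)` lies in `T`, provided its elements
that act quadratically on `A` lie in `T` and its elements act trivially on every chief factor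
inside `A` on which they act quadratically -/
theorem kq_main_rel
    (T : Subgroup X) [hTn : T.Normal] (hT : IsPGroup p T)
    (hTmax : ∀ P : Subgroup X, P.Normal → IsPGroup p P → P ≤ T)
    (A : Subgroup X) [hAn : A.Normal] (hAT : A ≤ T)
    (hA2 : ⁅A, A⁆ ≤ Subgroup.centralizer (A : Set X))
    (hA3 : ⁅T, A⁆ ≤ A ⊓ Subgroup.centralizer (A : Set X))
    (hA5 : ∀ x : X, (orderOf x).Coprime p → x ∈ Subgroup.centralizer (A : Set X) → x = 1)
    (B : Subgroup X) (hBp : IsPGroup p B)
    (hB2 : ⁅B, B⁆ ≤ Subgroup.centralizer (B : Set X))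
    (h3 : ∀ E : Subgroup X, E ≤ T → ⁅E, E⁆ ≤ Subgroup.centralizer (E : Set X) →
      ⁅E, T⁆ ≤ E ⊓ Subgroup.centralizer (E : Set X) → E ≤ Subgroup.normalizer (B : Set X))
    (h4 : ∀ E : Subgroup X, E ≤ T → ⁅E, E⁆ ≤ Subgroup.centralizer (E : Set X) →
      ⁅E, T⁆ ≤ E ⊓ Subgroup.centralizer (E : Set X) → B ≤ Subgroup.normalizer (E : Set X) →
      ⁅B, ⁅E, E⁆⁆ = ⊥ → ⁅⁅B ⊓ Subgroup.centralizer (B : Set X), E⁆, E⁆ = ⊥ →
      ⁅B, E⁆ ≤ B ⊓ Subgroup.centralizer (B : Set X))
    (hq0 : ∀ g ∈ B, ⁅⁅A, Subgroup.zpowers g⁆, Subgroup.zpowers g⁆ = ⊥ → g ∈ T)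
    (hqc : ∀ g ∈ B, ∀ U V : Subgroup X, Cfsg.IsChiefFactor U V → U ≤ A →
      ⁅⁅U, Subgroup.zpowers g⁆, Subgroup.zpowers g⁆ ≤ V → ⁅U, Subgroup.zpowers g⁆ ≤ V) :
    B ≤ T := by
  have key : ∀ (n : ℕ) (N : Subgroup X), Nat.card N = n → B ≤ N → T ≤ N →
      (∀ P : Subgroup X, IsPGroup p P → P ≤ N → N ≤ Subgroup.normalizer (P : Set X) → P ≤ T) →
      (∀ E W : Subgroup X, E.Normal → W.Normal → E ≤ A → KqMinOver ⊤ W E → KqSSec N W E) →
      B ≤ T := by
    intro n
    induction' n using Nat.strong_induction_on with n ih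
    intro N hn hBN hTN hOT hSS
    by_cases hM : ∃ M : Subgroup X, M ≤ N ∧ N ≤ Subgroup.normalizer (M : Set X) ∧ B ≤ M ∧
        T ≤ M ∧ M ≠ N
    · obtain ⟨M, hMN, hNM, hBM, hTM, hne⟩ := hM
      have hlt : Nat.card M < n := by
        rw [← hn]
        exact card_lt_of_lt (lt_of_le_of_ne hMN hne)
      refine ih _ hlt M rfl hBM hTM (ks_OT_of_normal hOT hMN hNM) ?_
      intro E W hEn hWn hEA hmin
      haveI := hWn
      exact kqSSec_of_normal hMN hNM (by rw [Subgroup.normalizer_eq_top]; exact le_top)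
        (hSS E W hEn hWn hEA hmin)
    · push Not at hM
      exact kq_main_min_rel T hT A hAT hA2 hA3 hA5 B hBp hB2 h3 h4 N hBN hTN hOT
        (fun M h1 h2 h3' h4' => hM M h1 h2 h3' h4') hSS hq0 hqc
  refine key _ ⊤ rfl le_top le_top ?_ ?_
  · intro P hP _ hN
    exact hTmax P (Subgroup.normalizer_eq_top_iff.mp (top_le_iff.mp hN)) hP
  · intro E W _ _ _ hmin
    exact le_sSup ⟨hmin, le_rfl⟩

end kq5

end Cfsg.Agent.Lib.Helper26
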