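import Cfsg.Agent.Lib.Helper26.KQuot5
import Cfsg.Agent.Lib.Helper26.KQuot4

set_option autoImplicit false
open scoped commutatorElement

namespace Cfsg.Agent.Lib.Helper26

open Cfsg.Agent.Lib.Helper42 Cfsg.Agent.Lib.Helper15

universe u

section kq6

variable {X : Type u} [Group X] [Finite X] {p : ℕ} [Fact p.Prime]

/-- relative form: if every "good" element of `S` (cubic on the critical subgroup `A`, quadratic
on `Z(A)`) acts trivially on each chief factor inside `A` on which it acts quadratically, then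
the `K`-infinity subgroups of `S` are those of `O_p(X)` -/
theorem kq_kinf_eq_rel (S : Sylow p X) (A : Subgroup X) [hAn : A.Normal]
    (hAT : A ≤ Cfsg.pCore p X) (hA2 : ⁅A, A⁆ ≤ Subgroup.centralizer (A : Set X))
    (hA3 : ⁅Cfsg.pCore p X, A⁆ ≤ A ⊓ Subgroup.centralizer (A : Set X))
    (hA5 : ∀ x : X, (orderOf x).Coprime p → x ∈ Subgroup.centralizer (A : Set X) → x = 1)
    (hHc : ∀ g ∈ (S : Subgroup X),
      Cfsg.iterCommutator A (Subgroup.zpowers g) 3 ≤ A ⊓ Subgroup.centralizer (A : Set X) →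
      ⁅⁅A ⊓ Subgroup.centralizer (A : Set X), Subgroup.zpowers g⁆, Subgroup.zpowers g⁆ = ⊥ →
      ∀ U V : Subgroup X, Cfsg.IsChiefFactor U V → U ≤ A →
        ⁅⁅U, Subgroup.zpowers g⁆, Subgroup.zpowers g⁆ ≤ V → ⁅U, Subgroup.zpowers g⁆ ≤ V) :
    Cfsg.inducedFunctor Cfsg.kInfLower (S : Subgroup X) =
        Cfsg.inducedFunctor Cfsg.kInfLower (Cfsg.pCore p X) ∧
      Cfsg.inducedFunctor Cfsg.kInfUpper (S : Subgroup X) =
        Cfsg.inducedFunctor Cfsg.kInfUpper (Cfsg.pCore p X) := by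
  set T := Cfsg.pCore p X with hT
  have hTn : T.Normal := pCore_normal p X
  haveI := hTn
  have hTp : IsPGroup p T := isPGroup_pCore p X
  have hTS : T ≤ (S : Subgroup X) := normal_pgroup_le_sylow S hTp
  have hTmax : ∀ P : Subgroup X, P.Normal → IsPGroup p P → P ≤ T :=
    fun P hn hP => le_pCore hn hP
  have hAp : IsPGroup p A := hTp.to_le hAT
  set Z := A ⊓ Subgroup.centralizer (A : Set X) with hZ
  have hZn : Z.Normal := inferInstance
  have hquad : ∀ g ∈ (S : Subgroup X), ⁅⁅A, Subgroup.zpowers g⁆, Subgroup.zpowers g⁆ ≤ Z →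
      ⁅⁅Z, Subgroup.zpowers g⁆, Subgroup.zpowers g⁆ = ⊥ → g ∈ T := by
    intro g hgS h1 h2
    have hgood1 : Cfsg.iterCommutator A (Subgroup.zpowers g) 3 ≤ Z := by
      show ⁅⁅⁅A, Subgroup.zpowers g⁆, Subgroup.zpowers g⁆, Subgroup.zpowers g⁆ ≤ Z
      exact (Subgroup.commutator_mono h1 le_rfl).trans (Subgroup.commutator_le_left Z _)
    apply kq_cent_chief T hTmax A hAp hA5 g
    intro U V hUV hUA
    exact hHc g hgS hgood1 h2 U V hUV hUA
      (kq_quad_chief A Z (Subgroup.zpowers g) h1 h2 U V hUV hUA)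
  -- the two easy kinds of subgroups
  have X1 : ∀ B : Subgroup X, B ≤ (S : Subgroup X) → A ≤ Subgroup.normalizer (B : Set X) →
      ⁅A, ⁅B, B⁆⁆ = ⊥ → ⁅⁅Z, B⁆, B⁆ = ⊥ → B ≤ T := by
    intro B hBS hAB hc1 hc2 g hg
    have hH : Subgroup.zpowers g ≤ B := (Subgroup.zpowers_le).mpr hg
    apply hquad g (hBS hg)
    · have hAB' : ⁅A, B⁆ ≤ B := by
        rw [Subgroup.commutator_comm]; exact le_normalizer_iff_commutator_le.mp hAB
      have c1 : ⁅A, Subgroup.zpowers g⁆ ≤ B ⊓ A :=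
        le_inf ((Subgroup.commutator_mono le_rfl hH).trans hAB') (Subgroup.commutator_le_left A _)
      have hBBc : ⁅B, B⁆ ≤ Subgroup.centralizer (A : Set X) := by
        rw [← Subgroup.commutator_eq_bot_iff_le_centralizer, Subgroup.commutator_comm]
        exact hc1
      refine le_inf ?_ ?_
      · exact (Subgroup.commutator_mono (c1.trans inf_le_right) le_rfl).trans
          (Subgroup.commutator_le_left A _)
      · exact (Subgroup.commutator_mono (c1.trans inf_le_left) hH).trans hBBc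
    · rw [← le_bot_iff, ← hc2]
      exact Subgroup.commutator_mono (Subgroup.commutator_mono le_rfl hH) hH
  have X2 : ∀ B : Subgroup X, B ≤ (S : Subgroup X) →
      ⁅B, A⁆ ≤ B ⊓ Subgroup.centralizer (B : Set X) → B ≤ T := by
    intro B hBS hBA g hg
    have hH : Subgroup.zpowers g ≤ B := (Subgroup.zpowers_le).mpr hg
    have c1 : ⁅A, Subgroup.zpowers g⁆ ≤ B ⊓ Subgroup.centralizer (B : Set X) := by
      rw [Subgroup.commutator_comm]
      exact (Subgroup.commutator_mono hH le_rfl).trans hBA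
    have c2 : ⁅⁅A, Subgroup.zpowers g⁆, Subgroup.zpowers g⁆ = ⊥ := by
      rw [← le_bot_iff]
      refine (Subgroup.commutator_mono c1 hH).trans ?_
      rw [le_bot_iff, Subgroup.commutator_eq_bot_iff_le_centralizer]
      exact inf_le_right
    apply hquad g (hBS hg)
    · rw [c2]; exact bot_le
    · rw [← le_bot_iff, ← c2]
      exact Subgroup.commutator_mono (Subgroup.commutator_mono inf_le_left le_rfl) le_rfl
  -- transfer to the Sylow subgroup
  set Sg : Subgroup X := (S : Subgroup X) with hSg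
  set A' : Subgroup ↥Sg := A.subgroupOf Sg with hA'
  set T' : Subgroup ↥Sg := T.subgroupOf Sg with hT'
  have hA'im : im Sg A' = A := Subgroup.map_subgroupOf_eq_of_le (hAT.trans hTS)
  have hT'im : im Sg T' = T := Subgroup.map_subgroupOf_eq_of_le hTS
  set ZA' : Subgroup ↥Sg := A' ⊓ Subgroup.centralizer (A' : Set ↥Sg) with hZA'
  have hZim : im Sg ZA' = Z := by rw [hZA', im_center, hA'im]
  have hTA : ⁅A, T⁆ ≤ Z := by rw [Subgroup.commutator_comm]; exact hA3
  have hle_T' : ∀ B' : Subgroup ↥Sg, im Sg B' ≤ T → B' ≤ T' := by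
    intro B' h
    rw [← im_le_im Sg, hT'im]; exact h
  have hA'2 : A' ∈ Cfsg.classTwoSubgroups ↥Sg := by
    rw [← im_mem_classTwo Sg, hA'im]; exact hA2
  -- `A'` belongs to every lower family
  have K1 : ∀ R' : Subgroup ↥Sg, A' ∈ Cfsg.kLowerStarFamily R' := by
    intro R'
    haveI hA'n : A'.Normal := Subgroup.normal_subgroupOf
    refine ⟨hA'2, ?_, fun A₁ hA₁ _ hAN hc1 hc2 => ?_⟩
    · rw [Subgroup.normalizer_eq_top]; exact le_top
    · have hB : im Sg A₁ ≤ T := by
        apply X1 (im Sg A₁) (Subgroup.map_subtype_le A₁)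
        · have := (im_le_normalizer Sg).mpr hAN
          rwa [hA'im] at this
        · rw [← hA'im, ← im_commutator, ← im_commutator, im_eq_bot]; exact hc1
        · rw [← hZim, ← im_commutator, ← im_commutator, im_eq_bot]; exact hc2
      rw [← im_le_im Sg, im_commutator, im_center, hA'im]
      exact (Subgroup.commutator_mono le_rfl hB).trans hTA
  have hA'even : ∀ n, A' ≤ Cfsg.kSeqEven ↥Sg n := fun n => by
    rw [kSeqEven_eq]; exact le_sSup (K1 _)
  -- the odd terms
  have K2 : ∀ n, Cfsg.kSeqOdd ↥Sg (n + 1) ≤ T' := by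
    intro n
    rw [kSeqOdd_succ_eq]
    refine sSup_le ?_
    rintro B' ⟨-, hB'⟩
    apply hle_T'
    apply X2 (im Sg B') (Subgroup.map_subtype_le B')
    have h1 : ⁅B', A'⁆ ≤ B' ⊓ Subgroup.centralizer (B' : Set ↥Sg) :=
      (Subgroup.commutator_mono le_rfl (hA'even n)).trans hB'
    have h2 : ⁅im Sg B', im Sg A'⁆ ≤ im Sg (B' ⊓ Subgroup.centralizer (B' : Set ↥Sg)) := by
      rw [← im_commutator]; exact (im_le_im Sg).mpr h1
    rw [hA'im, im_center] at h2
    exact h2
  -- the even terms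
  have K3step : ∀ n, (∀ E' : Subgroup ↥Sg, E' ≤ T' → E' ∈ Cfsg.classTwoSubgroups ↥Sg →
      ⁅E', T'⁆ ≤ E' ⊓ Subgroup.centralizer (E' : Set ↥Sg) → E' ≤ Cfsg.kSeqOdd ↥Sg n) →
      Cfsg.kSeqEven ↥Sg n ≤ T' := by
    intro n hgood
    rw [kSeqEven_eq]
    refine sSup_le ?_
    rintro B' ⟨hB2, hBn, hBu⟩
    apply hle_T'
    have hsub : ∀ E : Subgroup X, E ≤ T → ⁅E, E⁆ ≤ Subgroup.centralizer (E : Set X) →
        ⁅E, T⁆ ≤ E ⊓ Subgroup.centralizer (E : Set X) →
        im Sg (E.subgroupOf Sg) = E ∧ E.subgroupOf Sg ≤ Cfsg.kSeqOdd ↥Sg n ∧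
          E.subgroupOf Sg ∈ Cfsg.classTwoSubgroups ↥Sg := by
      intro E hET hEE hETc
      have hEim : im Sg (E.subgroupOf Sg) = E := Subgroup.map_subgroupOf_eq_of_le (hET.trans hTS)
      have h2 : E.subgroupOf Sg ∈ Cfsg.classTwoSubgroups ↥Sg := by
        rw [← im_mem_classTwo Sg, hEim]; exact hEE
      refine ⟨hEim, hgood _ ?_ h2 ?_, h2⟩
      · rw [← im_le_im Sg, hEim, hT'im]; exact hET
      · rw [← im_le_im Sg, im_commutator, im_center, hEim, hT'im]; exact hETc
    have hBS : im Sg B' ≤ Sg := Subgroup.map_subtype_le B'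
    have hBp : IsPGroup p (im Sg B') := S.isPGroup'.to_le hBS
    have hBc2 : ⁅im Sg B', im Sg B'⁆ ≤ Subgroup.centralizer ((im Sg B' : Subgroup X) : Set X) :=
      (im_mem_classTwo Sg).mpr hB2
    have h3' : ∀ E : Subgroup X, E ≤ T → ⁅E, E⁆ ≤ Subgroup.centralizer (E : Set X) →
        ⁅E, T⁆ ≤ E ⊓ Subgroup.centralizer (E : Set X) →
        E ≤ Subgroup.normalizer ((im Sg B' : Subgroup X) : Set X) := by
      intro E hET hEE hETc
      obtain ⟨hEim, hEodd, -⟩ := hsub E hET hEE hETc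
      have := (im_le_normalizer Sg).mpr (hEodd.trans hBn)
      rwa [hEim] at this
    have h4' : ∀ E : Subgroup X, E ≤ T → ⁅E, E⁆ ≤ Subgroup.centralizer (E : Set X) →
        ⁅E, T⁆ ≤ E ⊓ Subgroup.centralizer (E : Set X) →
        im Sg B' ≤ Subgroup.normalizer (E : Set X) →
        ⁅im Sg B', ⁅E, E⁆⁆ = ⊥ →
        ⁅⁅im Sg B' ⊓ Subgroup.centralizer ((im Sg B' : Subgroup X) : Set X), E⁆, E⁆ = ⊥ →
        ⁅im Sg B', E⁆ ≤ im Sg B' ⊓ Subgroup.centralizer ((im Sg B' : Subgroup X) : Set X) := by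
      intro E hET hEE hETc hBE hc1 hc2
      obtain ⟨hEim, hEodd, hE2⟩ := hsub E hET hEE hETc
      have h5 := hBu (E.subgroupOf Sg) hE2 hEodd
        ((im_le_normalizer Sg).mp (by rw [hEim]; exact hBE))
        (by rw [← im_eq_bot Sg, im_commutator, im_commutator, hEim]; exact hc1)
        (by rw [← im_eq_bot Sg, im_commutator, im_commutator, im_center, hEim]; exact hc2)
      have h6 := (im_le_im Sg).mpr h5
      rwa [im_commutator, im_center, hEim] at h6
    -- the elements of `B` are good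
    have hAB : A ≤ Subgroup.normalizer ((im Sg B' : Subgroup X) : Set X) := h3' A hAT hA2 hTA
    have hZT : Z ≤ T := inf_le_left.trans hAT
    have hZZ : ⁅Z, Z⁆ = ⊥ := by
      rw [Subgroup.commutator_eq_bot_iff_le_centralizer]
      exact inf_le_right.trans (Subgroup.centralizer_le inf_le_left)
    have hZc : Z ≤ Subgroup.centralizer (Z : Set X) :=
      Subgroup.commutator_eq_bot_iff_le_centralizer.mp hZZ
    have hBZ : ⁅im Sg B', Z⁆ ≤
        im Sg B' ⊓ Subgroup.centralizer ((im Sg B' : Subgroup X) : Set X) := by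
      apply h4' Z hZT (by rw [hZZ]; exact bot_le)
        (le_inf (Subgroup.commutator_le_left Z T) ((Subgroup.commutator_le_left Z T).trans hZc))
        (by rw [Subgroup.normalizer_eq_top]; exact le_top)
        (by rw [hZZ, Subgroup.commutator_bot_right])
      rw [← le_bot_iff, ← hZZ]
      exact Subgroup.commutator_mono (Subgroup.commutator_le_right _ Z) le_rfl
    have hgoodB : ∀ g ∈ im Sg B',
        Cfsg.iterCommutator A (Subgroup.zpowers g) 3 ≤ Z ∧
          ⁅⁅Z, Subgroup.zpowers g⁆, Subgroup.zpowers g⁆ = ⊥ := by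
      intro g hg
      have hH : Subgroup.zpowers g ≤ im Sg B' := (Subgroup.zpowers_le).mpr hg
      have hAB' : ⁅A, im Sg B'⁆ ≤ im Sg B' := by
        rw [Subgroup.commutator_comm]; exact le_normalizer_iff_commutator_le.mp hAB
      have hBBB : ⁅⁅im Sg B', im Sg B'⁆, im Sg B'⁆ = ⊥ := by
        rw [Subgroup.commutator_eq_bot_iff_le_centralizer]; exact hBc2
      constructor
      · show ⁅⁅⁅A, Subgroup.zpowers g⁆, Subgroup.zpowers g⁆, Subgroup.zpowers g⁆ ≤ Z
        have h7 : ⁅⁅⁅A, Subgroup.zpowers g⁆, Subgroup.zpowers g⁆, Subgroup.zpowers g⁆ ≤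
            ⁅⁅im Sg B', im Sg B'⁆, im Sg B'⁆ :=
          Subgroup.commutator_mono (Subgroup.commutator_mono
            ((Subgroup.commutator_mono le_rfl hH).trans hAB') hH) hH
        rw [hBBB] at h7
        exact h7.trans bot_le
      · rw [← le_bot_iff]
        have c1 : ⁅Z, Subgroup.zpowers g⁆ ≤
            im Sg B' ⊓ Subgroup.centralizer ((im Sg B' : Subgroup X) : Set X) := by
          rw [Subgroup.commutator_comm]
          exact (Subgroup.commutator_mono hH le_rfl).trans hBZ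
        refine (Subgroup.commutator_mono c1 hH).trans ?_
        rw [le_bot_iff, Subgroup.commutator_eq_bot_iff_le_centralizer]
        exact inf_le_right
    apply kq_main_rel T hTp hTmax A hAT hA2 hA3 hA5 (im Sg B') hBp hBc2 h3' h4'
    · intro g hg hq
      apply hquad g (hBS hg)
      · rw [hq]; exact bot_le
      · rw [← le_bot_iff, ← hq]
        exact Subgroup.commutator_mono (Subgroup.commutator_mono inf_le_left le_rfl) le_rfl
    · intro g hg U V hUV hUA hquadUV
      obtain ⟨hg1, hg2⟩ := hgoodB g hg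
      exact hHc g (hBS hg) hg1 hg2 U V hUV hUA hquadUV
  have K3 : ∀ n, (∀ E' : Subgroup ↥Sg, E' ≤ T' → E' ∈ Cfsg.classTwoSubgroups ↥Sg →
      ⁅E', T'⁆ ≤ E' ⊓ Subgroup.centralizer (E' : Set ↥Sg) → E' ≤ Cfsg.kSeqOdd ↥Sg n) ∧
      Cfsg.kSeqEven ↥Sg n ≤ T' := by
    intro n
    induction n with
    | zero =>
      have h0 : ∀ E' : Subgroup ↥Sg, E' ≤ T' → E' ∈ Cfsg.classTwoSubgroups ↥Sg →
          ⁅E', T'⁆ ≤ E' ⊓ Subgroup.centralizer (E' : Set ↥Sg) → E' ≤ Cfsg.kSeqOdd ↥Sg 0 := by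
        intro E' _ _ _
        rw [kSeqOdd_zero]; exact le_top
      exact ⟨h0, K3step 0 h0⟩
    | succ n ih =>
      have h1 : ∀ E' : Subgroup ↥Sg, E' ≤ T' → E' ∈ Cfsg.classTwoSubgroups ↥Sg →
          ⁅E', T'⁆ ≤ E' ⊓ Subgroup.centralizer (E' : Set ↥Sg) →
          E' ≤ Cfsg.kSeqOdd ↥Sg (n + 1) := by
        intro E' _ hE2 hET
        rw [kSeqOdd_succ_eq]
        apply le_sSup
        exact ⟨hE2, (Subgroup.commutator_mono le_rfl ih.2).trans hET⟩
      exact ⟨h1, K3step (n + 1) h1⟩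
  obtain ⟨hL, hU⟩ := kInf_of_le T' (fun n => ⟨(K3 n).2, K2 n⟩)
  have hT'p : IsPGroup p ↥T' :=
    IsPGroup.of_injective S.isPGroup' T'.subtype T'.subtype_injective
  constructor
  · have h1 := inducedFunctor_map (isCharPFunctor_kInfLower p) Sg.subtype T' hT'p
      Sg.subtype_injective.injOn
    have h2 : T'.map Sg.subtype = T := hT'im
    rw [h2] at h1
    rw [h1]
    show (Cfsg.kInfLower ↥Sg).map Sg.subtype = (im T' (Cfsg.kInfLower ↥T')).map Sg.subtype
    rw [hL]
  · have h1 := inducedFunctor_map (isCharPFunctor_kInfUpper p) Sg.subtype T' hT'p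
      Sg.subtype_injective.injOn
    have h2 : T'.map Sg.subtype = T := hT'im
    rw [h2] at h1
    rw [h1]
    show (Cfsg.kInfUpper ↥Sg).map Sg.subtype = (im T' (Cfsg.kInfUpper ↥T')).map Sg.subtype
    rw [hU]

end kq6

end Cfsg.Agent.Lib.Helper26
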