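import Mathlib
import Cfsg.Prelude.Def_LieRecognition

set_option autoImplicit false

namespace Cfsg.Agent.Lib.Helper26

open scoped Pointwise

section General

variable {G : Type*} [Group G]

/-- If `D` normalises `Q`, every element of `Q ⊔ D` is a product `x * d`. -/
theorem mem_sup_of_normalizes (Q D : Subgroup G)
    (hn : ∀ d ∈ D, ∀ x ∈ Q, d * x * d⁻¹ ∈ Q) {g : G} (hg : g ∈ Q ⊔ D) :
    ∃ x ∈ Q, ∃ d ∈ D, g = x * d := by
  let T : Subgroup G :=
    { carrier := {g | ∃ x ∈ Q, ∃ d ∈ D, g = x * d}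
      mul_mem' := by
        rintro _ _ ⟨x, hx, d, hd, rfl⟩ ⟨x', hx', d', hd', rfl⟩
        refine ⟨x * (d * x' * d⁻¹), Q.mul_mem hx (hn d hd x' hx'), d * d', D.mul_mem hd hd', ?_⟩
        group
      one_mem' := ⟨1, Q.one_mem, 1, D.one_mem, by simp⟩
      inv_mem' := by
        rintro _ ⟨x, hx, d, hd, rfl⟩
        refine ⟨d⁻¹ * x⁻¹ * d⁻¹⁻¹, hn d⁻¹ (D.inv_mem hd) x⁻¹ (Q.inv_mem hx), d⁻¹, D.inv_mem hd, ?_⟩
        group }
  have h1 : Q ⊔ D ≤ T := by
    refine sup_le ?_ ?_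
    · intro x hx
      exact ⟨x, hx, 1, D.one_mem, by simp⟩
    · intro d hd
      exact ⟨1, Q.one_mem, d, hd, by simp⟩
  exact h1 hg

theorem orderOf_dvd_card_of_mem [Finite G] (H : Subgroup G) {d : G} (hd : d ∈ H) :
    orderOf d ∣ Nat.card H := by
  have := orderOf_dvd_natCard (⟨d, hd⟩ : H)
  rwa [Subgroup.orderOf_mk] at this

theorem odd_orderOf_of_mem [Finite G] (H : Subgroup G) (hodd : Odd (Nat.card H)) {d : G}
    (hd : d ∈ H) : Odd (orderOf d) :=
  Odd.of_dvd_nat hodd (orderOf_dvd_card_of_mem H hd)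

/-- An element of order dividing two in a group of odd order is trivial. -/
theorem eq_one_of_sq_of_odd [Finite G] (H : Subgroup G) (hodd : Odd (Nat.card H)) {d : G}
    (hd : d ∈ H) (h2 : d * d = 1) : d = 1 := by
  have h1 : orderOf d ∣ 2 := orderOf_dvd_of_pow_eq_one (by rw [pow_two]; exact h2)
  have h3 : Odd (orderOf d) := odd_orderOf_of_mem H hodd hd
  have h4 : orderOf d = 1 := by
    rcases (Nat.dvd_prime Nat.prime_two).1 h1 with h | h
    · exact h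
    · exfalso
      rw [h] at h3
      exact (by decide : ¬ Odd 2) h3
  exact orderOf_eq_one_iff.1 h4

/-- Square roots in odd order: `w = u * u` with `u` a power of `w`. -/
theorem exists_sqrt_pow {w : G} (hw : Odd (orderOf w)) :
    ∃ m : ℕ, w ^ m * w ^ m = w := by
  obtain ⟨m, hm⟩ := hw
  refine ⟨m + 1, ?_⟩
  rw [← pow_add]
  have : m + 1 + (m + 1) = orderOf w + 1 := by omega
  rw [this, pow_succ, pow_orderOf_eq_one, one_mul]

/-- Squaring is injective on elements of odd order. -/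
theorem sq_inj_of_odd {x y : G} (hx : Odd (orderOf x)) (hy : Odd (orderOf y))
    (h : x * x = y * y) : x = y := by
  have h1 : orderOf (x ^ 2) = orderOf x :=
    Nat.Coprime.orderOf_pow (Nat.Coprime.symm (Nat.coprime_two_left.2 hx))
  have h2 : orderOf (y ^ 2) = orderOf y :=
    Nat.Coprime.orderOf_pow (Nat.Coprime.symm (Nat.coprime_two_left.2 hy))
  have h3 : x ^ 2 = y ^ 2 := by rw [pow_two, pow_two, h]
  have h4 : orderOf x = orderOf y := by rw [← h1, ← h2, h3]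
  obtain ⟨m, hm⟩ := hx
  have h5 : x = (x ^ 2) ^ (m + 1) := by
    rw [← pow_mul]
    have : 2 * (m + 1) = orderOf x + 1 := by omega
    rw [this, pow_succ, pow_orderOf_eq_one, one_mul]
  have h6 : y = (y ^ 2) ^ (m + 1) := by
    rw [← pow_mul]
    have : 2 * (m + 1) = orderOf y + 1 := by omega
    rw [this, pow_succ, pow_orderOf_eq_one, one_mul]
  rw [h5, h6, h3]

theorem mem_invertedBy {D : Subgroup G} {t x : G} :
    x ∈ Cfsg.invertedBy D t ↔ x ∈ D ∧ t * x * t⁻¹ = x⁻¹ := Iff.rfl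

theorem invertedBy_pow {D : Subgroup G} {t x : G} (hx : x ∈ Cfsg.invertedBy D t) (n : ℕ) :
    x ^ n ∈ Cfsg.invertedBy D t := by
  refine ⟨D.pow_mem hx.1 n, ?_⟩
  rw [← conj_pow, hx.2, inv_pow]

theorem invertedBy_inv {D : Subgroup G} {t x : G} (hx : x ∈ Cfsg.invertedBy D t) :
    x⁻¹ ∈ Cfsg.invertedBy D t := by
  refine ⟨D.inv_mem hx.1, ?_⟩
  have h2 : t * x⁻¹ * t⁻¹ = (t * x * t⁻¹)⁻¹ := by group
  rw [h2, hx.2]

theorem one_mem_invertedBy {D : Subgroup G} {t : G} : (1 : G) ∈ Cfsg.invertedBy D t :=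
  ⟨D.one_mem, by simp⟩

/-- Square roots inside the inverted set of an odd-order subgroup. -/
theorem invertedBy_sqrt [Finite G] {D : Subgroup G} (hodd : Odd (Nat.card D)) {t x : G}
    (hx : x ∈ Cfsg.invertedBy D t) : ∃ l ∈ Cfsg.invertedBy D t, l * l = x := by
  obtain ⟨m, hm⟩ := exists_sqrt_pow (odd_orderOf_of_mem D hodd hx.1)
  exact ⟨x ^ m, invertedBy_pow hx m, hm⟩

theorem mem_centralizer_singleton {t y : G} :
    y ∈ Subgroup.centralizer ({t} : Set G) ↔ t * y = y * t := by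
  rw [Subgroup.mem_centralizer_iff]
  constructor
  · intro h; exact h t rfl
  · intro h g hg
    rw [Set.mem_singleton_iff] at hg
    rw [hg, h]

variable [Finite G]

/-- Existence of the factorisation `x = y * z` with `y` centralising `t` and `z` inverted. -/
theorem odd_decomp_exists (t : G) (ht : t * t = 1) (X : Subgroup G) (hodd : Odd (Nat.card X))
    (hnorm : ∀ x ∈ X, t * x * t⁻¹ ∈ X) {x : G} (hx : x ∈ X) :
    ∃ y ∈ X ⊓ Subgroup.centralizer {t}, ∃ z ∈ Cfsg.invertedBy X t, x = y * z := by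
  have hwX : x⁻¹ * (t * x * t⁻¹) ∈ X := X.mul_mem (X.inv_mem hx) (hnorm x hx)
  have hwinv : x⁻¹ * (t * x * t⁻¹) ∈ Cfsg.invertedBy X t := by
    refine ⟨hwX, ?_⟩
    have e1 : t * (x⁻¹ * (t * x * t⁻¹)) * t⁻¹ = t * x⁻¹ * t⁻¹ * (t * t) * x * (t * t)⁻¹ := by
      group
    rw [e1, ht]; group
  obtain ⟨u, hu, huu⟩ := invertedBy_sqrt hodd hwinv
  refine ⟨x * u, Subgroup.mem_inf.2 ⟨X.mul_mem hx hu.1, ?_⟩, u⁻¹, invertedBy_inv hu, by group⟩
  rw [mem_centralizer_singleton]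
  have h5 : t * u = u⁻¹ * t := by
    have := hu.2
    rw [← this]; group
  have h6 : t * x = x * (x⁻¹ * (t * x * t⁻¹)) * t := by
    group
  calc t * (x * u) = (t * x) * u := by group
    _ = x * (x⁻¹ * (t * x * t⁻¹)) * t * u := by rw [← h6]
    _ = x * (x⁻¹ * (t * x * t⁻¹)) * (t * u) := by group
    _ = x * (u * u) * (u⁻¹ * t) := by rw [h5, huu]
    _ = x * u * t := by group

/-- Uniqueness of the factorisation. -/
theorem odd_decomp_unique (t : G) (X : Subgroup G) (hodd : Odd (Nat.card X))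
    {y y' z z' : G} (hy : y ∈ X ⊓ Subgroup.centralizer {t})
    (hy' : y' ∈ X ⊓ Subgroup.centralizer {t}) (hz : z ∈ Cfsg.invertedBy X t)
    (hz' : z' ∈ Cfsg.invertedBy X t) (h : y * z = y' * z') : y = y' ∧ z = z' := by
  have hc : t * (y'⁻¹ * y) = (y'⁻¹ * y) * t :=
    mem_centralizer_singleton.1
      ((Subgroup.centralizer {t}).mul_mem ((Subgroup.centralizer {t}).inv_mem hy'.2) hy.2)
  have h1 : y'⁻¹ * y = z' * z⁻¹ := by
    have : y = y' * z' * z⁻¹ := by rw [← h]; group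
    rw [this]; group
  rw [h1] at hc
  have h2 : t * (z' * z⁻¹) * t⁻¹ = z'⁻¹ * z := by
    have : t * (z' * z⁻¹) * t⁻¹ = (t * z' * t⁻¹) * (t * z * t⁻¹)⁻¹ := by group
    rw [this, hz.2, hz'.2, inv_inv]
  have h3 : z' * z⁻¹ = z'⁻¹ * z := by
    rw [← h2, hc]; group
  have h4 : z' * z' = z * z := by
    have : z' * z' = z' * (z' * z⁻¹) * z := by group
    rw [this, h3]; group
  have h5 : z' = z := sq_inj_of_odd (odd_orderOf_of_mem X hodd hz'.1)
    (odd_orderOf_of_mem X hodd hz.1) h4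
  refine ⟨?_, h5.symm⟩
  rw [h5] at h
  exact mul_right_cancel h

theorem odd_decomp_card (t : G) (ht : t * t = 1) (X : Subgroup G) (hodd : Odd (Nat.card X))
    (hnorm : ∀ x ∈ X, t * x * t⁻¹ ∈ X) :
    Nat.card X = Nat.card ↥(X ⊓ Subgroup.centralizer {t}) * Nat.card (Cfsg.invertedBy X t) := by
  rw [← Nat.card_prod]
  symm
  apply Nat.card_congr
  refine Equiv.ofBijective
    (fun p : ↥(X ⊓ Subgroup.centralizer {t}) × (Cfsg.invertedBy X t) =>
      (⟨(p.1 : G) * (p.2 : G), X.mul_mem p.1.2.1 p.2.2.1⟩ : X)) ⟨?_, ?_⟩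
  · rintro ⟨y, z⟩ ⟨y', z'⟩ h
    have h1 : (y : G) * (z : G) = (y' : G) * (z' : G) := congrArg Subtype.val h
    obtain ⟨h2, h3⟩ := odd_decomp_unique t X hodd y.2 y'.2 z.2 z'.2 h1
    exact Prod.ext (Subtype.ext h2) (Subtype.ext h3)
  · rintro ⟨x, hx⟩
    obtain ⟨y, hy, z, hz, rfl⟩ := odd_decomp_exists t ht X hodd hnorm hx
    exact ⟨(⟨y, hy⟩, ⟨z, hz⟩), rfl⟩

theorem conj_inverted_mem_closure (t : G) (ht : t * t = 1) (X : Subgroup G)
    (hodd : Odd (Nat.card X)) (hnorm : ∀ x ∈ X, t * x * t⁻¹ ∈ X) {x : G} (hx : x ∈ X)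
    {z : G} (hz : z ∈ Cfsg.invertedBy X t) :
    x * z * x⁻¹ ∈ Subgroup.closure (Cfsg.invertedBy X t) := by
  obtain ⟨y, hy, z₀, hz₀, rfl⟩ := odd_decomp_exists t ht X hodd hnorm hx
  have hyt : t * y = y * t := mem_centralizer_singleton.1 hy.2
  have h1 : y * z * y⁻¹ ∈ Cfsg.invertedBy X t := by
    refine ⟨X.mul_mem (X.mul_mem hy.1 hz.1) (X.inv_mem hy.1), ?_⟩
    have : t * (y * z * y⁻¹) * t⁻¹ = (t * y) * z * (t * y)⁻¹ := by group
    rw [this, hyt]
    have h2 : y * t * z * (y * t)⁻¹ = y * (t * z * t⁻¹) * y⁻¹ := by group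
    rw [h2, hz.2]; group
  have h3 : y * z₀ * z * (y * z₀)⁻¹ = z₀ * (z₀⁻¹ * y * z₀ * z * z₀⁻¹ * y⁻¹ * z₀) * z₀⁻¹ := by group
  have h4 : y * z₀ * z * (y * z₀)⁻¹ = y * z₀ * y⁻¹ * (y * z * y⁻¹) * (y * z₀ * y⁻¹)⁻¹ := by group
  rw [h4]
  have h5 : y * z₀ * y⁻¹ ∈ Cfsg.invertedBy X t := by
    refine ⟨X.mul_mem (X.mul_mem hy.1 hz₀.1) (X.inv_mem hy.1), ?_⟩
    have : t * (y * z₀ * y⁻¹) * t⁻¹ = (t * y) * z₀ * (t * y)⁻¹ := by group
    rw [this, hyt]
    have h2 : y * t * z₀ * (y * t)⁻¹ = y * (t * z₀ * t⁻¹) * y⁻¹ := by group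
    rw [h2, hz₀.2]; group
  exact Subgroup.mul_mem _ (Subgroup.mul_mem _ (Subgroup.subset_closure h5)
    (Subgroup.subset_closure h1)) (Subgroup.inv_mem _ (Subgroup.subset_closure h5))

theorem conj_closure_inverted_le (t : G) (ht : t * t = 1) (X : Subgroup G)
    (hodd : Odd (Nat.card X)) (hnorm : ∀ x ∈ X, t * x * t⁻¹ ∈ X) {x : G} (hx : x ∈ X) :
    MulAut.conj x • Subgroup.closure (Cfsg.invertedBy X t) ≤
      Subgroup.closure (Cfsg.invertedBy X t) := by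
  rw [Subgroup.smul_closure, Subgroup.closure_le]
  rintro _ ⟨z, hz, rfl⟩
  show x * z * x⁻¹ ∈ Subgroup.closure (Cfsg.invertedBy X t)
  exact conj_inverted_mem_closure t ht X hodd hnorm hx hz

theorem conj_closure_inverted_eq (t : G) (ht : t * t = 1) (X : Subgroup G)
    (hodd : Odd (Nat.card X)) (hnorm : ∀ x ∈ X, t * x * t⁻¹ ∈ X) {x : G} (hx : x ∈ X) :
    MulAut.conj x • Subgroup.closure (Cfsg.invertedBy X t) =
      Subgroup.closure (Cfsg.invertedBy X t) := by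
  apply le_antisymm (conj_closure_inverted_le t ht X hodd hnorm hx)
  rw [Subgroup.subset_pointwise_smul_iff, ← map_inv]
  exact conj_closure_inverted_le t ht X hodd hnorm (X.inv_mem hx)

end General

end Cfsg.Agent.Lib.Helper26
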