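import Mathlib
import Cfsg.Prelude.Def_LieRecognition
import Cfsg.Agent.Lib.Helper26.OddInv

set_option autoImplicit false

namespace Cfsg.Agent.Lib.Helper26

open MulAction

section Setup

variable {G Ω : Type*} [Group G] [MulAction G Ω] {a : Ω} {t : G} {Q : Subgroup G}

theorem two_trans (hS : IsRankOneSetup G Ω a t Q) {c d e f : Ω} (h1 : c ≠ d) (h2 : e ≠ f) :
    ∃ g : G, g • c = e ∧ g • d = f :=
  (MulAction.is_two_pretransitive_iff.1 hS.two_transitive) h1 h2

theorem t_inv (hS : IsRankOneSetup G Ω a t Q) : t⁻¹ = t :=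
  inv_eq_of_mul_eq_one_left hS.mul_self

theorem b_ne (hS : IsRankOneSetup G Ω a t Q) : t • a ≠ a := fun h =>
  hS.not_mem (by rw [mem_stabilizer_iff]; exact h)

theorem tta (hS : IsRankOneSetup G Ω a t Q) : t • t • a = a := by
  rw [smul_smul, hS.mul_self, one_smul]

theorem Q_fix (hS : IsRankOneSetup G Ω a t Q) {x : G} (hx : x ∈ Q) : x • a = a :=
  mem_stabilizer_iff.1 (hS.le hx)

/-- `G_a` is transitive on the points other than `a`. -/
theorem stab_trans (hS : IsRankOneSetup G Ω a t Q) {c d : Ω} (hc : c ≠ a) (hd : d ≠ a) :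
    ∃ h ∈ stabilizer G a, h • c = d := by
  obtain ⟨g, hg1, hg2⟩ := two_trans hS (Ne.symm hc) (Ne.symm hd)
  exact ⟨g, mem_stabilizer_iff.2 hg1, hg2⟩

/-- A non-identity element of `Q` fixes no point other than `a`. -/
theorem Q_free (hS : IsRankOneSetup G Ω a t Q) {x : G} (hx : x ∈ Q) {c : Ω} (hc : c ≠ a)
    (hxc : x • c = c) : x = 1 := by
  obtain ⟨h, hh, hhc⟩ := stab_trans hS (b_ne hS) hc
  have h1 : h⁻¹ * x * h⁻¹⁻¹ ∈ Q := hS.conj_mem h⁻¹ ((stabilizer G a).inv_mem hh) x hx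
  have h2 : h⁻¹ * x * h⁻¹⁻¹ ∈ stabilizer G (t • a) := by
    rw [mem_stabilizer_iff, inv_inv, mul_smul, mul_smul, hhc, hxc, ← hhc, inv_smul_smul]
  have h3 : h⁻¹ * x * h⁻¹⁻¹ ∈ Q ⊓ stabilizer G (t • a) := ⟨h1, h2⟩
  rw [hS.inf_eq_bot, Subgroup.mem_bot] at h3
  have : x = h * (h⁻¹ * x * h⁻¹⁻¹) * h⁻¹ := by group
  rw [this, h3]; group

theorem Q_inj (hS : IsRankOneSetup G Ω a t Q) {x y : G} (hx : x ∈ Q) (hy : y ∈ Q) {c : Ω}
    (hc : c ≠ a) (hxy : x • c = y • c) : x = y := by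
  have h1 : (y⁻¹ * x) • c = c := by rw [mul_smul, hxy, inv_smul_smul]
  have h2 := Q_free hS (Q.mul_mem (Q.inv_mem hy) hx) hc h1
  exact (inv_mul_eq_one.1 h2).symm

theorem D_normalizes (hS : IsRankOneSetup G Ω a t Q) :
    ∀ d ∈ stabilizer G a ⊓ stabilizer G (t • a), ∀ x ∈ Q, d * x * d⁻¹ ∈ Q :=
  fun d hd x hx => hS.conj_mem d hd.1 x hx

theorem stab_decomp (hS : IsRankOneSetup G Ω a t Q) {h : G} (hh : h ∈ stabilizer G a) :
    ∃ x ∈ Q, ∃ d ∈ stabilizer G a ⊓ stabilizer G (t • a), h = x * d := by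
  apply mem_sup_of_normalizes Q _ (D_normalizes hS)
  rw [hS.sup_eq]; exact hh

/-- `Q` is transitive on the points other than `a`. -/
theorem Q_trans (hS : IsRankOneSetup G Ω a t Q) {c : Ω} (hc : c ≠ a) :
    ∃ x ∈ Q, x • (t • a) = c := by
  obtain ⟨h, hh, hhc⟩ := stab_trans hS (b_ne hS) hc
  obtain ⟨x, hx, d, hd, rfl⟩ := stab_decomp hS hh
  refine ⟨x, hx, ?_⟩
  rw [← hhc, mul_smul, mem_stabilizer_iff.1 hd.2]

theorem Q_trans' (hS : IsRankOneSetup G Ω a t Q) {c d : Ω} (hc : c ≠ a) (hd : d ≠ a) :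
    ∃ x ∈ Q, x • c = d := by
  obtain ⟨x, hx, rfl⟩ := Q_trans hS hc
  obtain ⟨y, hy, rfl⟩ := Q_trans hS hd
  exact ⟨y * x⁻¹, Q.mul_mem hy (Q.inv_mem hx), by rw [mul_smul, inv_smul_smul]⟩

theorem smul_ne_of_mem_stab {g : G} (hg : g ∈ stabilizer G a) {c : Ω} (hc : c ≠ a) :
    g • c ≠ a := by
  intro h
  apply hc
  have : g • c = g • a := by rw [h, mem_stabilizer_iff.1 hg]
  exact smul_left_cancel g this

/-- The bijection `Q ≃ Ω ∖ {a}`. -/
noncomputable def QEquiv (hS : IsRankOneSetup G Ω a t Q) : Q ≃ {c : Ω // c ≠ a} :=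
  Equiv.ofBijective (fun x => ⟨(x : G) • (t • a), smul_ne_of_mem_stab (hS.le x.2) (b_ne hS)⟩)
    ⟨fun x y hxy => Subtype.ext (Q_inj hS x.2 y.2 (b_ne hS) (Subtype.mk.inj hxy)),
     fun c => by
      obtain ⟨x, hx, hxc⟩ := Q_trans hS c.2
      exact ⟨⟨x, hx⟩, Subtype.ext hxc⟩⟩

theorem finite_Omega [Finite G] (hS : IsRankOneSetup G Ω a t Q) : Finite Ω := by
  classical
  have h1 : Finite {c : Ω // c ≠ a} := Finite.of_equiv Q (QEquiv hS)
  have h2 : Finite {c : Ω // ¬ c ≠ a} := by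
    have : Subsingleton {c : Ω // ¬ c ≠ a} :=
      ⟨fun x y => Subtype.ext ((not_not.1 x.2).trans (not_not.1 y.2).symm)⟩
    infer_instance
  exact Finite.of_equiv _ (Equiv.sumCompl (fun c : Ω => c ≠ a))

theorem card_Omega [Finite G] (hS : IsRankOneSetup G Ω a t Q) :
    Nat.card Ω = Nat.card Q + 1 := by
  classical
  have := finite_Omega hS
  have h1 : Nat.card {c : Ω // c ≠ a} = Nat.card Q := (Nat.card_congr (QEquiv hS)).symm
  have h2 : Nat.card {c : Ω // ¬ c ≠ a} = 1 := by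
    have : Unique {c : Ω // ¬ c ≠ a} :=
      { default := ⟨a, by simp⟩
        uniq := fun x => Subtype.ext (not_not.1 x.2) }
    exact Nat.card_unique
  rw [← Nat.card_congr (Equiv.sumCompl (fun c : Ω => c ≠ a)), Nat.card_sum, h1, h2]

theorem odd_card_Omega [Finite G] (hS : IsRankOneSetup G Ω a t Q) : Odd (Nat.card Ω) := by
  rw [card_Omega hS]
  exact hS.even_card.add_one

theorem Q_inf_D (hS : IsRankOneSetup G Ω a t Q) :
    Q ⊓ (stabilizer G a ⊓ stabilizer G (t • a)) = ⊥ := by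
  apply le_antisymm _ bot_le
  rw [← hS.inf_eq_bot]
  exact inf_le_inf_left Q inf_le_right

theorem card_stab [Finite G] (hS : IsRankOneSetup G Ω a t Q) :
    Nat.card (stabilizer G a) =
      Nat.card Q * Nat.card ↥(stabilizer G a ⊓ stabilizer G (t • a)) := by
  rw [← Nat.card_prod]
  symm
  apply Nat.card_congr
  refine Equiv.ofBijective
    (fun p : Q × ↥(stabilizer G a ⊓ stabilizer G (t • a)) =>
      (⟨(p.1 : G) * (p.2 : G), (stabilizer G a).mul_mem (hS.le p.1.2) p.2.2.1⟩ : stabilizer G a))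
    ⟨?_, ?_⟩
  · rintro ⟨x, d⟩ ⟨x', d'⟩ h
    have h1 : (x : G) * (d : G) = (x' : G) * (d' : G) := congrArg Subtype.val h
    have h2 : (x' : G)⁻¹ * x = d' * (d : G)⁻¹ := by
      have : (x : G) = x' * d' * (d : G)⁻¹ := by rw [← h1]; group
      rw [this]; group
    have h3 : (x' : G)⁻¹ * x ∈ Q ⊓ stabilizer G (t • a) :=
      ⟨Q.mul_mem (Q.inv_mem x'.2) x.2, by
        rw [h2]; exact Subgroup.mul_mem _ d'.2.2 (Subgroup.inv_mem _ d.2.2)⟩
    rw [hS.inf_eq_bot, Subgroup.mem_bot] at h3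
    have h4 : (x' : G) = x := inv_mul_eq_one.1 h3
    have h5 : (d : G) = d' := by
      rw [h4] at h1
      exact mul_left_cancel h1
    exact Prod.ext (Subtype.ext h4.symm) (Subtype.ext h5)
  · rintro ⟨h, hh⟩
    obtain ⟨x, hx, d, hd, rfl⟩ := stab_decomp hS hh
    exact ⟨(⟨x, hx⟩, ⟨d, hd⟩), rfl⟩

theorem pretrans (hS : IsRankOneSetup G Ω a t Q) : IsPretransitive G Ω := by
  have := hS.two_transitive
  exact MulAction.isPretransitive_of_is_two_pretransitive

theorem card_G [Finite G] (hS : IsRankOneSetup G Ω a t Q) :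
    Nat.card G = Nat.card Q * Nat.card ↥(stabilizer G a ⊓ stabilizer G (t • a)) *
      (Nat.card Q + 1) := by
  have := pretrans hS
  rw [← card_Omega hS, ← card_stab hS, ← MulAction.index_stabilizer_of_transitive G a,
    Subgroup.card_mul_index]

theorem exists_sylow_le [Finite G] (hS : IsRankOneSetup G Ω a t Q) :
    ∃ P : Sylow 2 G, (P : Subgroup G) ≤ Q := by
  have : Fact (Nat.Prime 2) := ⟨Nat.prime_two⟩
  obtain ⟨P₀⟩ : Nonempty (Sylow 2 Q) := inferInstance
  have hcard : Nat.card ((P₀ : Subgroup Q).map Q.subtype) =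
      2 ^ (Nat.card G).factorization 2 := by
    rw [Subgroup.card_map_of_injective Q.subtype_injective, Sylow.card_eq_multiplicity]
    congr 1
    rw [card_G hS]
    have hQ : Nat.card Q ≠ 0 := Nat.card_pos.ne'
    have hD : Nat.card ↥(stabilizer G a ⊓ stabilizer G (t • a)) ≠ 0 := Nat.card_pos.ne'
    rw [Nat.factorization_mul (mul_ne_zero hQ hD) (Nat.succ_ne_zero _),
      Nat.factorization_mul hQ hD]
    have h1 : (Nat.card ↥(stabilizer G a ⊓ stabilizer G (t • a))).factorization 2 = 0 := by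
      apply Nat.factorization_eq_zero_of_not_dvd
      exact fun h => (Nat.not_even_iff_odd.2 hS.odd_card) (even_iff_two_dvd.2 h)
    have h2 : (Nat.card Q + 1).factorization 2 = 0 := by
      apply Nat.factorization_eq_zero_of_not_dvd
      exact fun h => (Nat.not_even_iff_odd.2 hS.even_card.add_one) (even_iff_two_dvd.2 h)
    rw [Finsupp.add_apply, Finsupp.add_apply, h1, h2, add_zero, add_zero]
  refine ⟨Sylow.ofCard _ hcard, ?_⟩
  rw [Sylow.coe_ofCard]
  exact Subgroup.map_subtype_le _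

/-- Canonical form: existence. -/
theorem canon_exists (hS : IsRankOneSetup G Ω a t Q) {g : G} (hg : g ∉ stabilizer G a) :
    ∃ x ∈ stabilizer G a, ∃ y ∈ Q, g = x * t * y := by
  have h1 : g⁻¹ • a ≠ a := by
    intro h
    apply hg
    rw [mem_stabilizer_iff]
    have := congrArg (fun c => g • c) h
    simp only [smul_inv_smul] at this
    exact this.symm
  obtain ⟨y, hy, hyb⟩ := Q_trans hS h1
  refine ⟨g * y * t, ?_, y⁻¹, Q.inv_mem hy, ?_⟩
  · rw [mem_stabilizer_iff, mul_smul, mul_smul, hyb, smul_inv_smul]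
  · have : g * y * t * t * y⁻¹ = g * y * (t * t) * y⁻¹ := by group
    rw [this, hS.mul_self]; group

/-- Canonical form: uniqueness. -/
theorem canon_unique (hS : IsRankOneSetup G Ω a t Q) {x x' y y' : G}
    (hx : x ∈ stabilizer G a) (hx' : x' ∈ stabilizer G a) (hy : y ∈ Q) (hy' : y' ∈ Q)
    (h : x * t * y = x' * t * y') : x = x' ∧ y = y' := by
  have h1 : ∀ {x y : G}, x ∈ stabilizer G a → (x * t * y)⁻¹ • a = y⁻¹ • (t • a) := by
    intro x y hx
    have : (x * t * y)⁻¹ = y⁻¹ * t⁻¹ * x⁻¹ := by group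
    rw [this, mul_smul, mul_smul, t_inv hS,
      mem_stabilizer_iff.1 ((stabilizer G a).inv_mem hx)]
  have h2 : y⁻¹ • (t • a) = y'⁻¹ • (t • a) := by rw [← h1 hx, ← h1 hx', h]
  have h3 : y⁻¹ = y'⁻¹ := Q_inj hS (Q.inv_mem hy) (Q.inv_mem hy') (b_ne hS) h2
  have h4 : y = y' := inv_injective h3
  refine ⟨?_, h4⟩
  rw [h4] at h
  exact mul_right_cancel (mul_right_cancel h)

/-- Involutions of `G_a` lie in `Q`. -/
theorem invol_mem_Q [Finite G] (hS : IsRankOneSetup G Ω a t Q) {s : G}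
    (hs : s ∈ stabilizer G a) (h2 : s * s = 1) : s ∈ Q := by
  obtain ⟨x, hx, d, hd, rfl⟩ := stab_decomp hS hs
  have h3 : d * d = (x * (d * x * d⁻¹))⁻¹ := by
    have : x * (d * x * d⁻¹) * (d * d) = x * d * (x * d) := by group
    rw [h2] at this
    exact eq_inv_of_mul_eq_one_right this
  have h4 : d * d ∈ Q ⊓ (stabilizer G a ⊓ stabilizer G (t • a)) := by
    refine ⟨?_, Subgroup.mul_mem _ hd hd⟩
    rw [h3]
    exact Q.inv_mem (Q.mul_mem hx (D_normalizes hS d hd x hx))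
  rw [Q_inf_D hS, Subgroup.mem_bot] at h4
  have h5 : d = 1 := eq_one_of_sq_of_odd _ hS.odd_card hd h4
  rw [h5, mul_one]; exact hx

/-- Every involution has a fixed point. -/
theorem invol_fix_exists [Finite G] (hS : IsRankOneSetup G Ω a t Q) {u : G} (h2 : u * u = 1) :
    ∃ c : Ω, u • c = c := by
  have : Fact (Nat.Prime 2) := ⟨Nat.prime_two⟩
  have := finite_Omega hS
  have hP : IsPGroup 2 (Subgroup.zpowers u) := by
    rintro ⟨g, hg⟩
    refine ⟨1, ?_⟩
    obtain ⟨k, rfl⟩ := Subgroup.mem_zpowers_iff.1 hg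
    apply Subtype.ext
    simp only [pow_one, Subgroup.coe_pow, Subgroup.coe_one]
    rw [← zpow_natCast, ← zpow_mul, mul_comm, zpow_mul, zpow_natCast, pow_two, h2, one_zpow]
  have hnd : ¬ 2 ∣ Nat.card Ω := fun h =>
    (Nat.not_even_iff_odd.2 (odd_card_Omega hS)) (even_iff_two_dvd.2 h)
  obtain ⟨c, hc⟩ := hP.nonempty_fixed_point_of_prime_not_dvd_card Ω hnd
  exact ⟨c, hc ⟨u, Subgroup.mem_zpowers u⟩⟩

/-- An involution fixes at most one point. -/
theorem invol_fix_unique [Finite G] (hS : IsRankOneSetup G Ω a t Q) {u : G} (h1 : u ≠ 1)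
    (h2 : u * u = 1) {c d : Ω} (hc : u • c = c) (hd : u • d = d) : c = d := by
  have := pretrans hS
  obtain ⟨g, rfl⟩ := exists_smul_eq G a c
  have hs : g⁻¹ * u * g ∈ stabilizer G a := by
    rw [mem_stabilizer_iff, mul_smul, mul_smul, hc, inv_smul_smul]
  have hs2 : g⁻¹ * u * g * (g⁻¹ * u * g) = 1 := by
    have : g⁻¹ * u * g * (g⁻¹ * u * g) = g⁻¹ * (u * u) * g := by group
    rw [this, h2]; group
  have hsQ := invol_mem_Q hS hs hs2
  have hs1 : g⁻¹ * u * g ≠ 1 := by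
    intro h
    apply h1
    have : u = g * (g⁻¹ * u * g) * g⁻¹ := by group
    rw [this, h]; group
  by_contra hne
  have h3 : g⁻¹ • d ≠ a := by
    intro h
    apply hne
    rw [← h, smul_inv_smul]
  have h4 : (g⁻¹ * u * g) • (g⁻¹ • d) = g⁻¹ • d := by
    rw [mul_smul, mul_smul, smul_inv_smul, hd]
  exact hs1 (Q_free hS hsQ h3 h4)

theorem conj_involution_commute {s x : G} (hs2 : s * s = 1) (hx : s * x * s = x⁻¹) (m : ℕ) :
    s * x ^ m * s = (x ^ m)⁻¹ := by
  have hsinv : s⁻¹ = s := inv_eq_of_mul_eq_one_left hs2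
  have h1 : s * x ^ m * s⁻¹ = (s * x * s⁻¹) ^ m := conj_pow.symm
  rw [hsinv] at h1
  rw [h1, hx, inv_pow]

/-- The product of an involution of `G_a` and an involution outside `G_a` has odd order. -/
theorem prod_invol_odd [Finite G] (hS : IsRankOneSetup G Ω a t Q) {s u : G}
    (hs : s ∈ stabilizer G a) (hs1 : s ≠ 1) (hs2 : s * s = 1) (hu : u ∉ stabilizer G a)
    (hu1 : u ≠ 1) (hu2 : u * u = 1) : Odd (orderOf (s * u)) := by
  by_contra hodd
  rw [Nat.not_odd_iff_even] at hodd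
  obtain ⟨m, hm⟩ := hodd
  have hpos : 0 < orderOf (s * u) := orderOf_pos (s * u)
  have hsinv : s⁻¹ = s := inv_eq_of_mul_eq_one_left hs2
  have huinv : u⁻¹ = u := inv_eq_of_mul_eq_one_left hu2
  have hz2 : (s * u) ^ m * (s * u) ^ m = 1 := by
    rw [← pow_add, ← hm, pow_orderOf_eq_one]
  have hz1 : (s * u) ^ m ≠ 1 := by
    intro h
    have := orderOf_dvd_of_pow_eq_one h
    have := Nat.le_of_dvd (by omega) this
    omega
  have hzinv : ((s * u) ^ m)⁻¹ = (s * u) ^ m := inv_eq_of_mul_eq_one_left hz2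
  have hsz : s * (s * u) ^ m * s = (s * u) ^ m := by
    rw [conj_involution_commute hs2 (x := s * u) (by
      have : s * (s * u) * s = (s * s) * u * s := by group
      rw [this, hs2, one_mul, mul_inv_rev, hsinv, huinv]) m, hzinv]
  have huz : u * (s * u) ^ m * u = (s * u) ^ m := by
    rw [conj_involution_commute hu2 (x := s * u) (by
      have : u * (s * u) * u = u * s * (u * u) := by group
      rw [this, hu2, mul_one, mul_inv_rev, hsinv, huinv]) m, hzinv]
  have hza : (s * u) ^ m • a = a := by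
    apply invol_fix_unique hS hs1 hs2 _ (mem_stabilizer_iff.1 hs)
    have : s * (s * u) ^ m = (s * u) ^ m * s := by
      have h := hsz
      have : s * (s * u) ^ m = s * (s * u) ^ m * s * s⁻¹ := by group
      rw [this, h, hsinv]
    rw [← mul_smul, this, mul_smul, mem_stabilizer_iff.1 hs]
  obtain ⟨c, hc⟩ := invol_fix_exists hS hu2
  have hzc : (s * u) ^ m • c = c := by
    apply invol_fix_unique hS hu1 hu2 _ hc
    have : u * (s * u) ^ m = (s * u) ^ m * u := by
      have h := huz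
      have : u * (s * u) ^ m = u * (s * u) ^ m * u * u⁻¹ := by group
      rw [this, h, huinv]
    rw [← mul_smul, this, mul_smul, hc]
  have hac : a = c := invol_fix_unique hS hz1 hz2 hza hzc
  apply hu
  rw [mem_stabilizer_iff, hac, hc]

/-- Two involutions whose product has odd order are conjugate. -/
theorem conj_of_odd_prod {s u : G} (hs2 : s * s = 1) (hu2 : u * u = 1)
    (h : Odd (orderOf (s * u))) : ∃ g : G, g * s * g⁻¹ = u := by
  obtain ⟨m, hm⟩ := h
  have hsinv : s⁻¹ = s := inv_eq_of_mul_eq_one_left hs2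
  have huinv : u⁻¹ = u := inv_eq_of_mul_eq_one_left hu2
  refine ⟨(s * u) ^ m, ?_⟩
  have h1 : s * (s * u) ^ m * s = ((s * u) ^ m)⁻¹ :=
    conj_involution_commute hs2 (x := s * u) (by
      have : s * (s * u) * s = (s * s) * u * s := by group
      rw [this, hs2, one_mul, mul_inv_rev, hsinv, huinv]) m
  have h2 : (s * u) ^ m * (s * u) ^ m * (s * u) = 1 := by
    rw [← pow_add, ← pow_succ]
    have : m + m + 1 = orderOf (s * u) := by omega
    rw [this, pow_orderOf_eq_one]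
  have h3 : (s * u) ^ m * s * ((s * u) ^ m)⁻¹ = (s * u) ^ m * (s * ((s * u) ^ m)⁻¹ * s) * s := by
    have : (s * u) ^ m * (s * ((s * u) ^ m)⁻¹ * s) * s
        = (s * u) ^ m * s * ((s * u) ^ m)⁻¹ * (s * s) := by group
    rw [this, hs2, mul_one]
  have h4 : s * ((s * u) ^ m)⁻¹ * s = (s * u) ^ m := by
    have : s * ((s * u) ^ m)⁻¹ * s = (s * (s * u) ^ m * s)⁻¹ := by
      rw [mul_inv_rev, mul_inv_rev, hsinv, mul_assoc]
    rw [this, h1, inv_inv]
  rw [h3, h4]
  have h5 : (s * u) ^ m * (s * u) ^ m = (s * u)⁻¹ := eq_inv_of_mul_eq_one_left h2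
  rw [h5, mul_inv_rev, hsinv, huinv, mul_assoc, hs2, mul_one]

/-- Involutions with distinct fixed points have a product of odd order. -/
theorem prod_invol_odd' [Finite G] (hS : IsRankOneSetup G Ω a t Q) {u v : G}
    (hu1 : u ≠ 1) (hu2 : u * u = 1) (hv1 : v ≠ 1) (hv2 : v * v = 1) {c d : Ω}
    (hc : u • c = c) (hd : v • d = d) (hcd : c ≠ d) : Odd (orderOf (u * v)) := by
  have := pretrans hS
  obtain ⟨g, hg⟩ := exists_smul_eq G c a
  have hs : g * u * g⁻¹ ∈ stabilizer G a := by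
    rw [mem_stabilizer_iff, mul_smul, mul_smul, ← hg, inv_smul_smul, hc]
  have hs1 : g * u * g⁻¹ ≠ 1 := by
    intro h
    apply hu1
    have : u = g⁻¹ * (g * u * g⁻¹) * g := by group
    rw [this, h]; group
  have hs2 : g * u * g⁻¹ * (g * u * g⁻¹) = 1 := by
    have : g * u * g⁻¹ * (g * u * g⁻¹) = g * (u * u) * g⁻¹ := by group
    rw [this, hu2]; group
  have hw1 : g * v * g⁻¹ ≠ 1 := by
    intro h
    apply hv1
    have : v = g⁻¹ * (g * v * g⁻¹) * g := by group
    rw [this, h]; group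
  have hw2 : g * v * g⁻¹ * (g * v * g⁻¹) = 1 := by
    have : g * v * g⁻¹ * (g * v * g⁻¹) = g * (v * v) * g⁻¹ := by group
    rw [this, hv2]; group
  have hwd : (g * v * g⁻¹) • (g • d) = g • d := by
    rw [mul_smul, mul_smul, inv_smul_smul, hd]
  have hw : g * v * g⁻¹ ∉ stabilizer G a := by
    intro h
    have h3 : a = g • d := invol_fix_unique hS hw1 hw2 (mem_stabilizer_iff.1 h) hwd
    rw [← hg] at h3
    exact hcd (smul_left_cancel g h3)
  have h4 := prod_invol_odd hS hs hs1 hs2 hw hw1 hw2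
  have h5 : g * u * g⁻¹ * (g * v * g⁻¹) = MulAut.conj g (u * v) := by
    rw [MulAut.conj_apply]; group
  rw [h5, MulEquiv.orderOf_eq] at h4
  exact h4

/-- Any two involutions are conjugate. -/
theorem invol_conj [Finite G] (hS : IsRankOneSetup G Ω a t Q) {u v : G}
    (hu1 : u ≠ 1) (hu2 : u * u = 1) (hv1 : v ≠ 1) (hv2 : v * v = 1) :
    ∃ g : G, g * u * g⁻¹ = v := by
  obtain ⟨c, hc⟩ := invol_fix_exists hS hu2
  obtain ⟨d, hd⟩ := invol_fix_exists hS hv2
  by_cases hcd : c = d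
  · have := pretrans hS
    obtain ⟨e, he⟩ : ∃ e : Ω, e ≠ c := by
      by_cases h : a = c
      · exact ⟨t • a, fun h' => b_ne hS (h'.trans h.symm)⟩
      · exact ⟨a, h⟩
    obtain ⟨g, hg⟩ := exists_smul_eq G c e
    have hw1 : g * u * g⁻¹ ≠ 1 := by
      intro h
      apply hu1
      have : u = g⁻¹ * (g * u * g⁻¹) * g := by group
      rw [this, h]; group
    have hw2 : g * u * g⁻¹ * (g * u * g⁻¹) = 1 := by
      have : g * u * g⁻¹ * (g * u * g⁻¹) = g * (u * u) * g⁻¹ := by group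
      rw [this, hu2]; group
    have hwe : (g * u * g⁻¹) • e = e := by
      rw [mul_smul, mul_smul, ← hg, inv_smul_smul, hc]
    have h1 := prod_invol_odd' hS hw1 hw2 hv1 hv2 hwe hd (by rw [← hcd]; exact he)
    obtain ⟨h, hh⟩ := conj_of_odd_prod hw2 hv2 h1
    refine ⟨h * g, ?_⟩
    rw [← hh]; group
  · exact conj_of_odd_prod hu2 hv2 (prod_invol_odd' hS hu1 hu2 hv1 hv2 hc hd hcd)

theorem exists_ne_one_Q [Finite G] (hS : IsRankOneSetup G Ω a t Q) : ∃ x ∈ Q, x ≠ 1 := by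
  by_contra h
  push Not at h
  have h1 : Q = ⊥ := (Subgroup.eq_bot_iff_forall Q).2 h
  have h2 := hS.even_card
  rw [h1, Subgroup.card_bot] at h2
  exact (by decide : ¬ Even 1) h2

/-- The normaliser of a subset of `Q` containing a non-identity element lies in `G_a`. -/
theorem normalizer_le (hS : IsRankOneSetup G Ω a t Q) {X : Set G} (hX : X ⊆ (Q : Set G))
    (hx : ∃ x ∈ X, x ≠ 1) : Subgroup.normalizer X ≤ stabilizer G a := by
  intro g hg
  obtain ⟨x, hxX, hx1⟩ := hx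
  rw [Subgroup.mem_set_normalizer_iff] at hg
  have h1 : g * x * g⁻¹ ∈ Q := hX ((hg x).1 hxX)
  rw [mem_stabilizer_iff]
  by_contra hne
  have h2 : (g * x * g⁻¹) • (g • a) = g • a := by
    rw [mul_smul, mul_smul, inv_smul_smul, Q_fix hS (hX hxX)]
  have h3 := Q_free hS h1 hne h2
  apply hx1
  have : x = g⁻¹ * (g * x * g⁻¹) * g := by group
  rw [this, h3]; group

theorem normalizer_Q [Finite G] (hS : IsRankOneSetup G Ω a t Q) :
    Subgroup.normalizer (Q : Set G) = stabilizer G a := by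
  apply le_antisymm (normalizer_le hS (le_refl _) (exists_ne_one_Q hS))
  intro h hh
  rw [Subgroup.mem_set_normalizer_iff]
  intro n
  constructor
  · intro hn
    exact hS.conj_mem h hh n hn
  · intro hn
    have := hS.conj_mem h⁻¹ ((stabilizer G a).inv_mem hh) _ hn
    have h2 : h⁻¹ * (h * n * h⁻¹) * h⁻¹⁻¹ = n := by group
    rw [h2] at this
    exact this

theorem normalizer_stab [Finite G] (hS : IsRankOneSetup G Ω a t Q) :
    Subgroup.normalizer (stabilizer G a : Set G) = stabilizer G a := by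
  apply le_antisymm _ Subgroup.le_normalizer
  intro g hg
  rw [Subgroup.mem_set_normalizer_iff] at hg
  obtain ⟨x, hxQ, hx1⟩ := exists_ne_one_Q hS
  have h1 : g * x * g⁻¹ ∈ stabilizer G a := (hg x).1 (hS.le hxQ)
  rw [mem_stabilizer_iff, mul_smul, mul_smul] at h1
  have h2 := congrArg (fun c => g⁻¹ • c) h1
  simp only [inv_smul_smul] at h2
  have h3 : g⁻¹ • a = a := by
    by_contra hne
    exact hx1 (Q_free hS hxQ hne h2)
  have h4 : g⁻¹ ∈ stabilizer G a := mem_stabilizer_iff.2 h3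
  simpa using (stabilizer G a).inv_mem h4

end Setup

end Cfsg.Agent.Lib.Helper26
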