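import Mathlib
import Cfsg.Prelude.Def_LieRecognition
import Cfsg.Agent.Lib.Helper26.RankOneBasic

set_option autoImplicit false

namespace Cfsg.Agent.Lib.Helper26

open MulAction

section Conj

variable {G : Type*} [Group G]

theorem conj_mul_self {x v : G} (hv : v * v = 1) : x * v * x⁻¹ * (x * v * x⁻¹) = 1 := by
  have : x * v * x⁻¹ * (x * v * x⁻¹) = x * (v * v) * x⁻¹ := by group
  rw [this, hv]; group

theorem conj_ne_one {x v : G} (hv : v ≠ 1) : x * v * x⁻¹ ≠ 1 := by
  intro h
  apply hv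
  have : v = x⁻¹ * (x * v * x⁻¹) * x := by group
  rw [this, h]; group

theorem conj_mul_self' {x v : G} (hx : x * x = 1) (hv : v * v = 1) :
    x * v * x * (x * v * x) = 1 := by
  have h := conj_mul_self (x := x) hv
  rwa [inv_eq_of_mul_eq_one_left hx] at h

theorem conj_ne_one' {x v : G} (hx : x * x = 1) (hv : v ≠ 1) : x * v * x ≠ 1 := by
  have h := conj_ne_one (x := x) hv
  rwa [inv_eq_of_mul_eq_one_left hx] at h

/-- Two involutions whose product has odd order are conjugate by an involution. -/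
theorem invol_conj_of_odd_prod {s u : G} (hs2 : s * s = 1) (hu2 : u * u = 1)
    (h : Odd (orderOf (s * u))) : ∃ v : G, v * v = 1 ∧ v * s * v = u := by
  obtain ⟨m, hm⟩ := h
  have hsinv : s⁻¹ = s := inv_eq_of_mul_eq_one_left hs2
  have huinv : u⁻¹ = u := inv_eq_of_mul_eq_one_left hu2
  have h1 : s * (s * u) ^ m * s = ((s * u) ^ m)⁻¹ :=
    conj_involution_commute hs2 (x := s * u) (by
      have : s * (s * u) * s = (s * s) * u * s := by group
      rw [this, hs2, one_mul, mul_inv_rev, hsinv, huinv]) m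
  have h2 : (s * u) ^ m * (s * u) ^ m * (s * u) = 1 := by
    rw [← pow_add, ← pow_succ]
    have : m + m + 1 = orderOf (s * u) := by omega
    rw [this, pow_orderOf_eq_one]
  have h5 : (s * u) ^ m * (s * u) ^ m = (s * u)⁻¹ := eq_inv_of_mul_eq_one_left h2
  refine ⟨(s * u) ^ m * s, ?_, ?_⟩
  · have : (s * u) ^ m * s * ((s * u) ^ m * s) = (s * u) ^ m * (s * (s * u) ^ m * s) := by group
    rw [this, h1, mul_inv_cancel]
  · have : (s * u) ^ m * s * s * ((s * u) ^ m * s)
        = (s * u) ^ m * (s * s) * (s * u) ^ m * s := by group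
    rw [this, hs2, mul_one, h5, mul_inv_rev, hsinv, huinv, mul_assoc, hs2, mul_one]

/-- In a group of odd order no non-identity element is inverted by conjugation. -/
theorem eq_one_of_inverted_of_odd [Finite G] (H : Subgroup G) (hodd : Odd (Nat.card H))
    {k x : G} (hk : k ∈ H) (hx : x ∈ H) (h : k * x * k⁻¹ = x⁻¹) : x = 1 := by
  have hkx : k * x = x⁻¹ * k := by rw [← h]; group
  have hkx' : k * x⁻¹ = x * k := by
    have : k * x⁻¹ = (k * x * k⁻¹)⁻¹ * k := by group
    rw [this, h, inv_inv]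
  have h2 : k * k * x = x * (k * k) := by
    calc k * k * x = k * (k * x) := by group
      _ = k * (x⁻¹ * k) := by rw [hkx]
      _ = (k * x⁻¹) * k := by group
      _ = x * k * k := by rw [hkx']
      _ = x * (k * k) := by group
  obtain ⟨m, hm⟩ := exists_sqrt_pow (odd_orderOf_of_mem H hodd hk)
  have h3 : Commute (k * k) x := h2
  have h4 : Commute k x := by
    have h5 : Commute ((k * k) ^ m) x := h3.pow_left m
    have h6 : (k * k) ^ m = k := by
      rw [← pow_two, ← pow_mul, mul_comm, pow_mul, pow_two, hm]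
    rwa [h6] at h5
  have h7 : x = x⁻¹ := by
    rw [← h, h4.eq]; group
  have h8 : x * x = 1 := by
    nth_rewrite 2 [h7]
    exact mul_inv_cancel x
  exact eq_one_of_sq_of_odd H hodd hx h8

end Conj

section Setup2

variable {G Ω : Type*} [Group G] [MulAction G Ω] {a : Ω} {t : G} {Q : Subgroup G}

/-- The involution `t` may be replaced by any involution with the same image of `a`. -/
theorem setup_swap (hS : IsRankOneSetup G Ω a t Q) {v : G} (hv2 : v * v = 1)
    (hva : v • a = t • a) : IsRankOneSetup G Ω a v Q where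
  two_transitive := hS.two_transitive
  mul_self := hv2
  ne_one := by
    intro h
    rw [h, one_smul] at hva
    exact b_ne hS hva.symm
  not_mem := by
    intro h
    rw [mem_stabilizer_iff, hva] at h
    exact b_ne hS h
  le := hS.le
  conj_mem := hS.conj_mem
  inf_eq_bot := by rw [hva]; exact hS.inf_eq_bot
  sup_eq := by rw [hva]; exact hS.sup_eq
  even_card := hS.even_card
  odd_card := by rw [hva]; exact hS.odd_card

/-- The set-up may be transported by conjugation. -/
theorem setup_conj (hS : IsRankOneSetup G Ω a t Q) (g : G) :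
    IsRankOneSetup G Ω (g • a) (g * t * g⁻¹) (Q.map (MulAut.conj g).toMonoidHom) := by
  have e : (g * t * g⁻¹) • g • a = g • t • a := by
    rw [mul_smul, mul_smul, inv_smul_smul]
  have hinj : Function.Injective (MulAut.conj g).toMonoidHom := (MulAut.conj g).injective
  exact
  { two_transitive := hS.two_transitive
    mul_self := by
      have : g * t * g⁻¹ * (g * t * g⁻¹) = g * (t * t) * g⁻¹ := by group
      rw [this, hS.mul_self]; group
    ne_one := conj_ne_one hS.ne_one
    not_mem := by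
      intro h
      rw [mem_stabilizer_iff, e] at h
      exact b_ne hS (smul_left_cancel g h)
    le := by
      rw [stabilizer_smul_eq_stabilizer_map_conj]
      exact Subgroup.map_mono hS.le
    conj_mem := by
      intro h hh x hx
      rw [stabilizer_smul_eq_stabilizer_map_conj] at hh
      obtain ⟨h', hh', rfl⟩ := hh
      obtain ⟨x', hx', rfl⟩ := hx
      refine ⟨h' * x' * h'⁻¹, hS.conj_mem h' hh' x' hx', ?_⟩
      simp only [MulEquiv.coe_toMonoidHom, MulAut.conj_apply]
      group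
    inf_eq_bot := by
      rw [e, stabilizer_smul_eq_stabilizer_map_conj, ← Subgroup.map_inf_eq _ _ _ hinj,
        hS.inf_eq_bot, Subgroup.map_bot]
    sup_eq := by
      rw [e, stabilizer_smul_eq_stabilizer_map_conj g a,
        stabilizer_smul_eq_stabilizer_map_conj g (t • a), ← Subgroup.map_inf_eq _ _ _ hinj,
        ← Subgroup.map_sup, hS.sup_eq]
    even_card := by
      rw [Subgroup.card_map_of_injective hinj]; exact hS.even_card
    odd_card := by
      rw [e, stabilizer_smul_eq_stabilizer_map_conj g a,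
        stabilizer_smul_eq_stabilizer_map_conj g (t • a), ← Subgroup.map_inf_eq _ _ _ hinj,
        Subgroup.card_map_of_injective hinj]
      exact hS.odd_card }

/-- A set-up exists at every point `e` with every involution `u` moving `e`. -/
theorem setup_at (hS : IsRankOneSetup G Ω a t Q) {e : Ω} {u : G} (hu2 : u * u = 1)
    (hue : u • e ≠ e) : ∃ Q' : Subgroup G, IsRankOneSetup G Ω e u Q' := by
  obtain ⟨g, rfl, hg2⟩ := two_trans hS (b_ne hS).symm hue.symm
  refine ⟨_, setup_swap (setup_conj hS g) hu2 ?_⟩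
  rw [← hg2, mul_smul, mul_smul, inv_smul_smul]

theorem mem_involutionsIn {S : Set G} {x : G} :
    x ∈ Cfsg.involutionsIn S ↔ x ∈ S ∧ x ≠ 1 ∧ x * x = 1 := Iff.rfl

/-- The structure equation: existence. -/
theorem struct_exists [Finite G] (hS : IsRankOneSetup G Ω a t Q) :
    ∃ s r : G, s ∈ Cfsg.involutionsIn (stabilizer G a : Set G) ∧ r ∈ Q ∧
      t * s * t = r⁻¹ * t * r := by
  obtain ⟨c, hc⟩ := invol_fix_exists hS hS.mul_self
  have hca : c ≠ a := fun h => b_ne hS (by rw [← h]; exact hc)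
  obtain ⟨r, hr, hrc⟩ := Q_trans hS hca
  refine ⟨t * (r⁻¹ * t * r) * t⁻¹, r, ⟨?_, ?_, ?_⟩, hr, ?_⟩
  · rw [SetLike.mem_coe, mem_stabilizer_iff, t_inv hS]
    simp only [mul_smul]
    rw [hrc, hc, ← hrc, inv_smul_smul, tta hS]
  · intro h
    apply hS.ne_one
    have h1 : t = r * (t⁻¹ * (t * (r⁻¹ * t * r) * t⁻¹) * t) * r⁻¹ := by group
    rw [h1, h]; group
  · have : t * (r⁻¹ * t * r) * t⁻¹ * (t * (r⁻¹ * t * r) * t⁻¹)
        = t * (r⁻¹ * (t * t) * r) * t⁻¹ := by group
    rw [this, hS.mul_self]; group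
  · have : t * (t * (r⁻¹ * t * r) * t⁻¹) * t = (t * t) * (r⁻¹ * t * r) := by group
    rw [this, hS.mul_self, one_mul]

/-- The structure equation: uniqueness. -/
theorem struct_unique [Finite G] (hS : IsRankOneSetup G Ω a t Q) {s s' r r' : G}
    (hs : s ∈ Cfsg.involutionsIn (stabilizer G a : Set G))
    (hs' : s' ∈ Cfsg.involutionsIn (stabilizer G a : Set G)) (hr : r ∈ Q) (hr' : r' ∈ Q)
    (h : t * s * t = r⁻¹ * t * r) (h' : t * s' * t = r'⁻¹ * t * r') : s = s' ∧ r = r' := by
  obtain ⟨c, hc⟩ := invol_fix_exists hS hS.mul_self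
  have key : ∀ {s r : G}, s ∈ Cfsg.involutionsIn (stabilizer G a : Set G) → r ∈ Q →
      t * s * t = r⁻¹ * t * r → r • (t • a) = c := by
    intro s r hs hr h
    have hw1 : t * s * t ≠ 1 := conj_ne_one' hS.mul_self hs.2.1
    have hw2 : t * s * t * (t * s * t) = 1 := conj_mul_self' hS.mul_self hs.2.2
    have hwb : (t * s * t) • (t • a) = t • a := by
      rw [mul_smul, mul_smul, tta hS, mem_stabilizer_iff.1 (SetLike.mem_coe.1 hs.1)]
    have hwc : (t * s * t) • (r⁻¹ • c) = r⁻¹ • c := by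
      rw [h, mul_smul, mul_smul, smul_inv_smul, hc]
    have := invol_fix_unique hS hw1 hw2 hwb hwc
    rw [this, smul_inv_smul]
  have h1 := key hs hr h
  have h2 := key hs' hr' h'
  have hrr : r = r' := Q_inj hS hr hr' (b_ne hS) (h1.trans h2.symm)
  refine ⟨?_, hrr⟩
  rw [hrr, ← h'] at h
  exact mul_left_cancel (mul_right_cancel h)

theorem K_of_J (hS : IsRankOneSetup G Ω a t Q) {v : G} (hv2 : v * v = 1)
    (hva : v • a = t • a) :
    t * v ∈ Cfsg.invertedBy (stabilizer G a ⊓ stabilizer G (t • a)) t := by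
  have hvb : v • (t • a) = a := by rw [← hva, smul_smul, hv2, one_smul]
  have hvinv : v⁻¹ = v := inv_eq_of_mul_eq_one_left hv2
  refine ⟨Subgroup.mem_inf.2 ⟨?_, ?_⟩, ?_⟩
  · rw [mem_stabilizer_iff, mul_smul, hva, tta hS]
  · rw [mem_stabilizer_iff, mul_smul, hvb]
  · rw [mul_inv_rev, hvinv, t_inv hS]
    have : t * (t * v) * t = (t * t) * v * t := by group
    rw [this, hS.mul_self, one_mul]

theorem J_of_K (hS : IsRankOneSetup G Ω a t Q) {k : G}
    (hk : k ∈ Cfsg.invertedBy (stabilizer G a ⊓ stabilizer G (t • a)) t) :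
    (t * k) * (t * k) = 1 ∧ (t * k) • a = t • a := by
  constructor
  · have : t * k * (t * k) = (t * k * t⁻¹) * (t * t) * k := by group
    rw [this, hk.2, hS.mul_self, mul_one, inv_mul_cancel]
  · rw [mul_smul, mem_stabilizer_iff.1 hk.1.1]

/-- The elements of `D` inverted by `t` permute the involutions of `G_a` transitively. -/
theorem K_trans [Finite G] (hS : IsRankOneSetup G Ω a t Q) {s s' : G}
    (hs : s ∈ Cfsg.involutionsIn (stabilizer G a : Set G))
    (hs' : s' ∈ Cfsg.involutionsIn (stabilizer G a : Set G)) :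
    ∃ k ∈ Cfsg.invertedBy (stabilizer G a ⊓ stabilizer G (t • a)) t, k⁻¹ * s * k = s' := by
  have hw1 : t * s' * t ≠ 1 := conj_ne_one' hS.mul_self hs'.2.1
  have hw2 : t * s' * t * (t * s' * t) = 1 := conj_mul_self' hS.mul_self hs'.2.2
  have hwb : (t * s' * t) • (t • a) = t • a := by
    rw [mul_smul, mul_smul, tta hS, mem_stabilizer_iff.1 (SetLike.mem_coe.1 hs'.1)]
  have hw : t * s' * t ∉ stabilizer G a := by
    intro h
    exact b_ne hS (invol_fix_unique hS hw1 hw2 hwb (mem_stabilizer_iff.1 h))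
  have hodd := prod_invol_odd hS (SetLike.mem_coe.1 hs.1) hs.2.1 hs.2.2 hw hw1 hw2
  obtain ⟨v, hv2, hv⟩ := invol_conj_of_odd_prod hs.2.2 hw2 hodd
  have hva : v • a = t • a := by
    apply invol_fix_unique hS hw1 hw2 _ hwb
    rw [← hv, mul_smul, mul_smul, smul_smul v v a, hv2, one_smul,
      mem_stabilizer_iff.1 (SetLike.mem_coe.1 hs.1)]
  have hk := K_of_J hS hv2 hva
  refine ⟨(t * v)⁻¹, invertedBy_inv hk, ?_⟩
  rw [inv_inv, mul_inv_rev, t_inv hS, inv_eq_of_mul_eq_one_left hv2]
  have e1 : t * v * s * (v * t) = t * (v * s * v) * t := by group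
  rw [e1, hv]
  have e2 : t * (t * s' * t) * t = (t * t) * s' * (t * t) := by group
  rw [e2, hS.mul_self, one_mul, mul_one]

/-- Counting the involutions that move `a`, by the image of `a`. -/
theorem card_T_J [Finite G] (hS : IsRankOneSetup G Ω a t Q) :
    Nat.card {u : G // u * u = 1 ∧ u • a ≠ a} =
      Nat.card Q * Nat.card {v : G // v * v = 1 ∧ v • a = t • a} := by
  rw [← Nat.card_prod]
  symm
  apply Nat.card_congr
  refine Equiv.ofBijective
    (fun p : Q × {v : G // v * v = 1 ∧ v • a = t • a} =>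
      (⟨(p.1 : G) * (p.2 : G) * (p.1 : G)⁻¹, conj_mul_self p.2.2.1, by
        rw [mul_smul, mul_smul, Q_fix hS (Q.inv_mem p.1.2), p.2.2.2]
        exact smul_ne_of_mem_stab (hS.le p.1.2) (b_ne hS)⟩ :
        {u : G // u * u = 1 ∧ u • a ≠ a})) ⟨?_, ?_⟩
  · rintro ⟨⟨x, hx⟩, ⟨v, hv2, hva⟩⟩ ⟨⟨x', hx'⟩, ⟨v', hv2', hva'⟩⟩ h
    have h1 : x * v * x⁻¹ = x' * v' * x'⁻¹ := congrArg Subtype.val h
    have h2 : x • (t • a) = x' • (t • a) := by
      have := congrArg (fun g : G => g • a) h1
      simp only [mul_smul] at this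
      rwa [Q_fix hS (Q.inv_mem hx), Q_fix hS (Q.inv_mem hx'), hva, hva'] at this
    have h3 : x = x' := Q_inj hS hx hx' (b_ne hS) h2
    subst h3
    have h4 : v = v' := mul_left_cancel (mul_right_cancel h1)
    subst h4
    rfl
  · rintro ⟨u, hu2, hua⟩
    obtain ⟨x, hx, hxb⟩ := Q_trans hS hua
    refine ⟨(⟨x, hx⟩, ⟨x⁻¹ * u * x, ?_, ?_⟩), ?_⟩
    · have := conj_mul_self (x := x⁻¹) hu2
      rwa [inv_inv] at this
    · rw [mul_smul, mul_smul, Q_fix hS hx, ← hxb, inv_smul_smul]
    · apply Subtype.ext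
      show x * (x⁻¹ * u * x) * x⁻¹ = u
      group

/-- Counting the involutions that move `a`, by their fixed point. -/
theorem card_T_I [Finite G] (hS : IsRankOneSetup G Ω a t Q) :
    Nat.card {u : G // u * u = 1 ∧ u • a ≠ a} =
      Nat.card Q * Nat.card {w : G // w ≠ 1 ∧ w * w = 1 ∧ w • (t • a) = t • a} := by
  rw [← Nat.card_prod]
  symm
  apply Nat.card_congr
  refine Equiv.ofBijective
    (fun p : Q × {w : G // w ≠ 1 ∧ w * w = 1 ∧ w • (t • a) = t • a} =>
      (⟨(p.1 : G) * (p.2 : G) * (p.1 : G)⁻¹, conj_mul_self p.2.2.2.1, by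
        intro h
        have h1 : ((p.1 : G) * (p.2 : G) * (p.1 : G)⁻¹) • ((p.1 : G) • (t • a)) =
            (p.1 : G) • (t • a) := by
          rw [mul_smul, mul_smul, inv_smul_smul, p.2.2.2.2]
        have h2 := invol_fix_unique hS (conj_ne_one p.2.2.1) (conj_mul_self p.2.2.2.1) h h1
        exact smul_ne_of_mem_stab (hS.le p.1.2) (b_ne hS) h2.symm⟩ :
        {u : G // u * u = 1 ∧ u • a ≠ a})) ⟨?_, ?_⟩
  · rintro ⟨⟨x, hx⟩, ⟨w, hw1, hw2, hwb⟩⟩ ⟨⟨x', hx'⟩, ⟨w', hw1', hw2', hwb'⟩⟩ h
    have h1 : x * w * x⁻¹ = x' * w' * x'⁻¹ := congrArg Subtype.val h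
    have h2 : (x * w * x⁻¹) • (x • (t • a)) = x • (t • a) := by
      rw [mul_smul, mul_smul, inv_smul_smul, hwb]
    have h3 : (x * w * x⁻¹) • (x' • (t • a)) = x' • (t • a) := by
      rw [h1, mul_smul, mul_smul, inv_smul_smul, hwb']
    have h4 : x • (t • a) = x' • (t • a) :=
      invol_fix_unique hS (conj_ne_one hw1) (conj_mul_self hw2) h2 h3
    have h5 : x = x' := Q_inj hS hx hx' (b_ne hS) h4
    subst h5
    have h6 : w = w' := mul_left_cancel (mul_right_cancel h1)
    subst h6
    rfl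
  · rintro ⟨u, hu2, hua⟩
    obtain ⟨c, hc⟩ := invol_fix_exists hS hu2
    have hca : c ≠ a := fun h => hua (by rw [← h]; exact hc)
    have hu1 : u ≠ 1 := fun h => hua (by rw [h, one_smul])
    obtain ⟨x, hx, hxb⟩ := Q_trans hS hca
    refine ⟨(⟨x, hx⟩, ⟨x⁻¹ * u * x, ?_, ?_, ?_⟩), ?_⟩
    · have := conj_ne_one (x := x⁻¹) hu1
      rwa [inv_inv] at this
    · have := conj_mul_self (x := x⁻¹) hu2
      rwa [inv_inv] at this
    · rw [mul_smul, mul_smul, hxb, hc, ← hxb, inv_smul_smul]
    · apply Subtype.ext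
      show x * (x⁻¹ * u * x) * x⁻¹ = u
      group

theorem card_J_K (hS : IsRankOneSetup G Ω a t Q) :
    Nat.card {v : G // v * v = 1 ∧ v • a = t • a} =
      Nat.card (Cfsg.invertedBy (stabilizer G a ⊓ stabilizer G (t • a)) t) := by
  apply Nat.card_congr
  exact
  { toFun := fun v => ⟨t * v.1, K_of_J hS v.2.1 v.2.2⟩
    invFun := fun k => ⟨t * k.1, J_of_K hS k.2⟩
    left_inv := by
      rintro ⟨v, hv⟩
      apply Subtype.ext
      show t * (t * v) = v
      rw [← mul_assoc, hS.mul_self, one_mul]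
    right_inv := by
      rintro ⟨k, hk⟩
      apply Subtype.ext
      show t * (t * k) = k
      rw [← mul_assoc, hS.mul_self, one_mul] }

theorem card_Ib_Ia (hS : IsRankOneSetup G Ω a t Q) :
    Nat.card {w : G // w ≠ 1 ∧ w * w = 1 ∧ w • (t • a) = t • a} =
      Nat.card (Cfsg.involutionsIn (stabilizer G a : Set G)) := by
  apply Nat.card_congr
  exact
  { toFun := fun w => ⟨t * w.1 * t, by
      refine ⟨?_, conj_ne_one' hS.mul_self w.2.1, conj_mul_self' hS.mul_self w.2.2.1⟩
      rw [SetLike.mem_coe, mem_stabilizer_iff, mul_smul, mul_smul, w.2.2.2, tta hS]⟩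
    invFun := fun s => ⟨t * s.1 * t, conj_ne_one' hS.mul_self s.2.2.1,
      conj_mul_self' hS.mul_self s.2.2.2, by
        rw [mul_smul, mul_smul, tta hS, mem_stabilizer_iff.1 (SetLike.mem_coe.1 s.2.1)]⟩
    left_inv := by
      rintro ⟨w, hw⟩
      apply Subtype.ext
      show t * (t * w * t) * t = w
      have : t * (t * w * t) * t = (t * t) * w * (t * t) := by group
      rw [this, hS.mul_self, one_mul, mul_one]
    right_inv := by
      rintro ⟨s, hs⟩
      apply Subtype.ext
      show t * (t * s * t) * t = s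
      have : t * (t * s * t) * t = (t * t) * s * (t * t) := by group
      rw [this, hS.mul_self, one_mul, mul_one] }

/-- `|K|` is the number of involutions of `G_a`. -/
theorem card_K [Finite G] (hS : IsRankOneSetup G Ω a t Q) :
    Nat.card (Cfsg.invertedBy (stabilizer G a ⊓ stabilizer G (t • a)) t) =
      Nat.card (Cfsg.involutionsIn (stabilizer G a : Set G)) := by
  have h1 := card_T_J hS
  rw [card_T_I hS, card_J_K hS, card_Ib_Ia hS] at h1
  exact (Nat.eq_of_mul_eq_mul_left Nat.card_pos h1).symm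

/-- The action of `K` on the involutions of `G_a` is free. -/
theorem K_inj [Finite G] (hS : IsRankOneSetup G Ω a t Q) {s k k' : G}
    (hs : s ∈ Cfsg.involutionsIn (stabilizer G a : Set G))
    (hk : k ∈ Cfsg.invertedBy (stabilizer G a ⊓ stabilizer G (t • a)) t)
    (hk' : k' ∈ Cfsg.invertedBy (stabilizer G a ⊓ stabilizer G (t • a)) t)
    (h : k⁻¹ * s * k = k'⁻¹ * s * k') : k = k' := by
  let f : Cfsg.invertedBy (stabilizer G a ⊓ stabilizer G (t • a)) t →
      Cfsg.involutionsIn (stabilizer G a : Set G) := fun k =>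
    ⟨(k : G)⁻¹ * s * k, by
      have hk1 : (k : G)⁻¹ ∈ stabilizer G a := (stabilizer G a).inv_mem k.2.1.1
      refine ⟨?_, ?_, ?_⟩
      · have := (stabilizer G a).mul_mem ((stabilizer G a).mul_mem hk1 (SetLike.mem_coe.1 hs.1))
          k.2.1.1
        exact this
      · have := conj_ne_one (x := (k : G)⁻¹) hs.2.1
        rwa [inv_inv] at this
      · have := conj_mul_self (x := (k : G)⁻¹) hs.2.2
        rwa [inv_inv] at this⟩
  have hsurj : Function.Surjective f := by
    rintro ⟨s', hs'⟩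
    obtain ⟨k, hk, hks⟩ := K_trans hS hs hs'
    exact ⟨⟨k, hk⟩, Subtype.ext hks⟩
  have hfin : Finite (Cfsg.invertedBy (stabilizer G a ⊓ stabilizer G (t • a)) t) :=
    Finite.of_injective (fun k => (k : G)) Subtype.val_injective
  have hbij : Function.Bijective f :=
    (Nat.bijective_iff_surjective_and_card f).2 ⟨hsurj, card_K hS⟩
  have := hbij.1 (a₁ := ⟨k, hk⟩) (a₂ := ⟨k', hk'⟩) (Subtype.ext h)
  exact congrArg Subtype.val this

end Setup2

end Cfsg.Agent.Lib.Helper26
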