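import Mathlib
import Cfsg.Prelude.Def_LieRecognition
import Cfsg.Agent.Lib.Helper26.RankOne2

set_option autoImplicit false

namespace Cfsg.Agent.Lib.Helper26

open MulAction

section Setup3

variable {G Ω : Type*} [Group G] [MulAction G Ω] {a : Ω} {t : G} {Q : Subgroup G}

theorem fix_of_centralizer {X : Set G} {g : G} (hg : g ∈ Subgroup.centralizer X) {c : Ω}
    (hXc : ∀ x ∈ X, x • c = c) : ∀ x ∈ X, x • (g • c) = g • c := by
  intro x hx
  rw [← mul_smul, Subgroup.mem_centralizer_iff.1 hg x hx, mul_smul, hXc x hx]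

theorem t_norm_D (hS : IsRankOneSetup G Ω a t Q) {d : G}
    (hd : d ∈ stabilizer G a ⊓ stabilizer G (t • a)) :
    t * d * t⁻¹ ∈ stabilizer G a ⊓ stabilizer G (t • a) := by
  rw [t_inv hS]
  refine Subgroup.mem_inf.2 ⟨?_, ?_⟩
  · rw [mem_stabilizer_iff, mul_smul, mul_smul, mem_stabilizer_iff.1 hd.2, tta hS]
  · rw [mem_stabilizer_iff, mul_smul, mul_smul, tta hS, mem_stabilizer_iff.1 hd.1]

/-- `C_Q(X)` is transitive on the fixed points of `X` other than `a`. -/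
theorem CQ_trans (hS : IsRankOneSetup G Ω a t Q) {X : Set G} (hX : ∀ x ∈ X, x • a = a)
    {c d : Ω} (hc : c ≠ a) (hd : d ≠ a) (hXc : ∀ x ∈ X, x • c = c)
    (hXd : ∀ x ∈ X, x • d = d) :
    ∃ y ∈ Q, y ∈ Subgroup.centralizer X ∧ y • c = d := by
  obtain ⟨y, hy, hyc⟩ := Q_trans' hS hc hd
  refine ⟨y, hy, ?_, hyc⟩
  rw [Subgroup.mem_centralizer_iff]
  intro x hx
  have h1 : x * y * x⁻¹ ∈ Q := hS.conj_mem x (mem_stabilizer_iff.2 (hX x hx)) y hy
  have hxc' : x⁻¹ • c = c := by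
    have := congrArg (fun e => x⁻¹ • e) (hXc x hx)
    simp only [inv_smul_smul] at this
    exact this.symm
  have h2 : (x * y * x⁻¹) • c = y • c := by
    rw [mul_smul, mul_smul, hxc', hyc, hXd x hx]
  have h3 := Q_inj hS h1 hy hc h2
  calc x * y = (x * y * x⁻¹) * x := by group
    _ = y * x := by rw [h3]

theorem C_trans_b (hS : IsRankOneSetup G Ω a t Q) {X : Set G}
    (hX : ∀ x ∈ X, x • (t • a) = t • a) {c d : Ω} (hc : c ≠ t • a) (hd : d ≠ t • a)
    (hXc : ∀ x ∈ X, x • c = c) (hXd : ∀ x ∈ X, x • d = d) :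
    ∃ y ∈ Subgroup.centralizer X, y • c = d := by
  obtain ⟨y, -, hy, hyc⟩ := CQ_trans (setup_conj hS t) hX hc hd hXc hXd
  exact ⟨y, hy, hyc⟩

theorem C_trans_a (hS : IsRankOneSetup G Ω a t Q) {X : Set G} (hXa : ∀ x ∈ X, x • a = a)
    (hXb : ∀ x ∈ X, x • (t • a) = t • a) {e : Ω} (hea : e ≠ a) (heb : e ≠ t • a)
    (hXe : ∀ x ∈ X, x • e = e) {c : Ω} (hXc : ∀ x ∈ X, x • c = c) :
    ∃ g ∈ Subgroup.centralizer X, g • c = a := by
  by_cases hca : c = a
  · exact ⟨1, Subgroup.one_mem _, by rw [one_smul, hca]⟩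
  by_cases hcb : c = t • a
  · obtain ⟨y₁, -, hy₁, h1⟩ := CQ_trans hS hXa hca hea hXc hXe
    obtain ⟨y₂, hy₂, h2⟩ := C_trans_b hS hXb heb (b_ne hS).symm hXe hXa
    exact ⟨y₂ * y₁, Subgroup.mul_mem _ hy₂ hy₁, by rw [mul_smul, h1, h2]⟩
  · obtain ⟨y, hy, h⟩ := C_trans_b hS hXb hcb (b_ne hS).symm hXc hXa
    exact ⟨y, hy, h⟩

theorem exists_third (_hS : IsRankOneSetup G Ω a t Q) {X : Set G}
    (h3 : ∃ b c d : Ω, b ≠ c ∧ b ≠ d ∧ c ≠ d ∧ ∀ x ∈ X, x • b = b ∧ x • c = c ∧ x • d = d) :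
    ∃ e : Ω, e ≠ a ∧ e ≠ t • a ∧ ∀ x ∈ X, x • e = e := by
  obtain ⟨b, c, d, hbc, hbd, hcd, hX⟩ := h3
  by_cases h1 : b ≠ a ∧ b ≠ t • a
  · exact ⟨b, h1.1, h1.2, fun x hx => (hX x hx).1⟩
  by_cases h2 : c ≠ a ∧ c ≠ t • a
  · exact ⟨c, h2.1, h2.2, fun x hx => (hX x hx).2.1⟩
  have hb : b = a ∨ b = t • a := by
    by_contra h
    push Not at h
    exact h1 h
  have hc : c = a ∨ c = t • a := by
    by_contra h
    push Not at h
    exact h2 h
  refine ⟨d, ?_, ?_, fun x hx => (hX x hx).2.2⟩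
  · intro hd
    rcases hb with hb | hb
    · exact hbd (hb.trans hd.symm)
    · rcases hc with hc | hc
      · exact hcd (hc.trans hd.symm)
      · exact hbc (hb.trans hc.symm)
  · intro hd
    rcases hb with hb | hb
    · rcases hc with hc | hc
      · exact hbc (hb.trans hc.symm)
      · exact hcd (hc.trans hd.symm)
    · exact hbd (hb.trans hd.symm)

/-- `C_G(X)` is doubly transitive on the fixed points of `X`. -/
theorem C_two_trans (hS : IsRankOneSetup G Ω a t Q) {X : Set G}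
    (hX : X ⊆ ((stabilizer G a ⊓ stabilizer G (t • a) : Subgroup G) : Set G))
    (h3 : ∃ b c d : Ω, b ≠ c ∧ b ≠ d ∧ c ≠ d ∧ ∀ x ∈ X, x • b = b ∧ x • c = c ∧ x • d = d)
    {b₁ b₂ c₁ c₂ : Ω} (hXb₁ : ∀ x ∈ X, x • b₁ = b₁) (hXb₂ : ∀ x ∈ X, x • b₂ = b₂)
    (hXc₁ : ∀ x ∈ X, x • c₁ = c₁) (hXc₂ : ∀ x ∈ X, x • c₂ = c₂) (hb : b₁ ≠ b₂)
    (hc : c₁ ≠ c₂) : ∃ g ∈ Subgroup.centralizer X, g • b₁ = c₁ ∧ g • b₂ = c₂ := by
  have hXa : ∀ x ∈ X, x • a = a := fun x hx => mem_stabilizer_iff.1 (hX hx).1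
  have hXb : ∀ x ∈ X, x • (t • a) = t • a := fun x hx => mem_stabilizer_iff.1 (hX hx).2
  obtain ⟨e, hea, heb, hXe⟩ := exists_third hS h3
  obtain ⟨g₁, hg₁, h1⟩ := C_trans_a hS hXa hXb hea heb hXe hXb₁
  obtain ⟨g₂, hg₂, h2⟩ := C_trans_a hS hXa hXb hea heb hXe hXc₁
  have h3' : g₁ • b₂ ≠ a := by
    intro h
    rw [← h1] at h
    exact hb (smul_left_cancel g₁ h).symm
  have h4 : g₂ • c₂ ≠ a := by
    intro h
    rw [← h2] at h
    exact hc (smul_left_cancel g₂ h).symm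
  obtain ⟨y, hyQ, hy, hy2⟩ := CQ_trans hS hXa h3' h4 (fix_of_centralizer hg₁ hXb₂)
    (fix_of_centralizer hg₂ hXc₂)
  refine ⟨g₂⁻¹ * y * g₁, Subgroup.mul_mem _ (Subgroup.mul_mem _ (Subgroup.inv_mem _ hg₂) hy) hg₁,
    ?_, ?_⟩
  · rw [mul_smul, mul_smul, h1, Q_fix hS hyQ, ← h2, inv_smul_smul]
  · rw [mul_smul, mul_smul, hy2, inv_smul_smul]

/-- An involution of `C_G(X)` interchanging `a` and `t • a`. -/
theorem exists_swap_invol [Finite G] (hS : IsRankOneSetup G Ω a t Q) {X : Set G}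
    (hX : X ⊆ ((stabilizer G a ⊓ stabilizer G (t • a) : Subgroup G) : Set G))
    (h3 : ∃ b c d : Ω, b ≠ c ∧ b ≠ d ∧ c ≠ d ∧ ∀ x ∈ X, x • b = b ∧ x • c = c ∧ x • d = d) :
    ∃ u ∈ Subgroup.centralizer X, u * u = 1 ∧ u • a = t • a := by
  have hXa : ∀ x ∈ X, x • a = a := fun x hx => mem_stabilizer_iff.1 (hX hx).1
  have hXb : ∀ x ∈ X, x • (t • a) = t • a := fun x hx => mem_stabilizer_iff.1 (hX hx).2
  obtain ⟨g, hg, hga, hgb⟩ := C_two_trans hS hX h3 hXa hXb hXb hXa (b_ne hS).symm (b_ne hS)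
  have hgg : g * g ∈ stabilizer G a ⊓ stabilizer G (t • a) :=
    Subgroup.mem_inf.2 ⟨by rw [mem_stabilizer_iff, mul_smul, hga, hgb],
      by rw [mem_stabilizer_iff, mul_smul, hgb, hga]⟩
  have hodd : Odd (orderOf (g * g)) := odd_orderOf_of_mem _ hS.odd_card hgg
  obtain ⟨m, hm⟩ := hodd
  refine ⟨g ^ (2 * m + 1), Subgroup.pow_mem _ hg _, ?_, ?_⟩
  · rw [← pow_add]
    have : 2 * m + 1 + (2 * m + 1) = 2 * (2 * m + 1) := by ring
    rw [this, pow_mul, pow_two, ← hm, pow_orderOf_eq_one]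
  · have key : ∀ n : ℕ, g ^ (2 * n) • a = a ∧ g ^ (2 * n + 1) • a = t • a := by
      intro n
      induction n with
      | zero => simp [hga]
      | succ n ih =>
        have e1 : 2 * (n + 1) = (2 * n + 1) + 1 := by ring
        have e2 : 2 * (n + 1) + 1 = (2 * n + 1) + 1 + 1 := by ring
        constructor
        · rw [e1, pow_succ', mul_smul, ih.2, hgb]
        · rw [e2, pow_succ', mul_smul, pow_succ', mul_smul, ih.2, hgb, hga]
    exact (key m).2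

theorem even_card_CQ [Finite G] (hS : IsRankOneSetup G Ω a t Q) {X : Set G}
    (hX : X ⊆ ((stabilizer G a ⊓ stabilizer G (t • a) : Subgroup G) : Set G))
    (h3 : ∃ b c d : Ω, b ≠ c ∧ b ≠ d ∧ c ≠ d ∧ ∀ x ∈ X, x • b = b ∧ x • c = c ∧ x • d = d) :
    Even (Nat.card ↥(Subgroup.centralizer X ⊓ Q)) := by
  have hXa : ∀ x ∈ X, x • a = a := fun x hx => mem_stabilizer_iff.1 (hX hx).1
  have hXb : ∀ x ∈ X, x • (t • a) = t • a := fun x hx => mem_stabilizer_iff.1 (hX hx).2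
  obtain ⟨u, hu, hu2, hua⟩ := exists_swap_invol hS hX h3
  have hu1 : u ≠ 1 := by
    intro h
    rw [h, one_smul] at hua
    exact b_ne hS hua.symm
  obtain ⟨c, hc⟩ := invol_fix_exists hS hu2
  have hXc : ∀ x ∈ X, x • c = c := by
    intro x hx
    apply invol_fix_unique hS hu1 hu2 _ hc
    rw [← mul_smul, ← Subgroup.mem_centralizer_iff.1 hu x hx, mul_smul, hc]
  obtain ⟨e, hea, heb, hXe⟩ := exists_third hS h3
  obtain ⟨g, hg, hgc⟩ := C_trans_a hS hXa hXb hea heb hXe hXc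
  have hw : g * u * g⁻¹ ∈ Subgroup.centralizer X ⊓ Q := by
    refine Subgroup.mem_inf.2
      ⟨Subgroup.mul_mem _ (Subgroup.mul_mem _ hg hu) (Subgroup.inv_mem _ hg), ?_⟩
    apply invol_mem_Q hS _ (conj_mul_self hu2)
    rw [mem_stabilizer_iff, mul_smul, mul_smul, ← hgc, inv_smul_smul, hc]
  have h2 : orderOf (g * u * g⁻¹) = 2 :=
    orderOf_eq_prime (by rw [pow_two]; exact conj_mul_self hu2) (conj_ne_one hu1)
  have := orderOf_dvd_card_of_mem _ hw
  rw [h2] at this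
  exact even_iff_two_dvd.2 this

theorem C_stab_decomp (hS : IsRankOneSetup G Ω a t Q) {X : Set G}
    (hX : X ⊆ ((stabilizer G a ⊓ stabilizer G (t • a) : Subgroup G) : Set G)) :
    (Subgroup.centralizer X ⊓ Q) ⊔
        (Subgroup.centralizer X ⊓ (stabilizer G a ⊓ stabilizer G (t • a))) =
      Subgroup.centralizer X ⊓ stabilizer G a := by
  have hXa : ∀ x ∈ X, x • a = a := fun x hx => mem_stabilizer_iff.1 (hX hx).1
  have hXb : ∀ x ∈ X, x • (t • a) = t • a := fun x hx => mem_stabilizer_iff.1 (hX hx).2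
  apply le_antisymm
  · exact sup_le (inf_le_inf_left _ hS.le) (inf_le_inf_left _ inf_le_left)
  · intro g hg
    obtain ⟨hgC, hga⟩ := hg
    have h1 : g • (t • a) ≠ a := smul_ne_of_mem_stab hga (b_ne hS)
    obtain ⟨y, hy, hyC, hyb⟩ := CQ_trans hS hXa (b_ne hS) h1 hXb (fix_of_centralizer hgC hXb)
    have : g = y * (y⁻¹ * g) := by group
    rw [this]
    apply Subgroup.mul_mem_sup (Subgroup.mem_inf.2 ⟨hyC, hy⟩)
    refine Subgroup.mem_inf.2 ⟨Subgroup.mul_mem _ (Subgroup.inv_mem _ hyC) hgC,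
      Subgroup.mem_inf.2 ⟨?_, ?_⟩⟩
    · rw [mem_stabilizer_iff, mul_smul, mem_stabilizer_iff.1 hga, Q_fix hS (Q.inv_mem hy)]
    · rw [mem_stabilizer_iff, mul_smul, ← hyb, inv_smul_smul]

/-- A subset of `D` fixing three points is conjugate in `D` into `C_D(t)`. -/
theorem conj_into_CDt [Finite G] (hS : IsRankOneSetup G Ω a t Q) {X : Set G}
    (hX : X ⊆ ((stabilizer G a ⊓ stabilizer G (t • a) : Subgroup G) : Set G))
    (h3 : ∃ b c d : Ω, b ≠ c ∧ b ≠ d ∧ c ≠ d ∧ ∀ x ∈ X, x • b = b ∧ x • c = c ∧ x • d = d) :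
    ∃ k ∈ stabilizer G a ⊓ stabilizer G (t • a),
      ∀ x ∈ X, (k * x * k⁻¹) * t = t * (k * x * k⁻¹) := by
  obtain ⟨u, hu, hu2, hua⟩ := exists_swap_invol hS hX h3
  have hk := K_of_J hS hu2 hua
  obtain ⟨l, hl, hll⟩ := invertedBy_sqrt hS.odd_card hk
  refine ⟨l, hl.1, ?_⟩
  intro x hx
  have h1 : l⁻¹ * t * l = u := by
    have h2 : l⁻¹ * t = t * l := by
      rw [← hl.2, t_inv hS]
      have : t * l * t * t = t * l * (t * t) := by group
      rw [this, hS.mul_self, mul_one]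
    rw [h2, mul_assoc, hll, ← mul_assoc, hS.mul_self, one_mul]
  have h3' : x * u = u * x := Subgroup.mem_centralizer_iff.1 hu x hx
  rw [← h1] at h3'
  calc l * x * l⁻¹ * t = l * (x * (l⁻¹ * t * l)) * l⁻¹ := by group
    _ = l * ((l⁻¹ * t * l) * x) * l⁻¹ := by rw [h3']
    _ = t * (l * x * l⁻¹) := by group

/-- `C_D(t) ≤ C_D(s)` for the pair `(s, r)` of the structure equation. -/
theorem CD_t_le_CD_s [Finite G] (hS : IsRankOneSetup G Ω a t Q) {s r : G}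
    (hs : s ∈ Cfsg.involutionsIn (stabilizer G a : Set G)) (hr : r ∈ Q)
    (h : t * s * t = r⁻¹ * t * r) {d : G}
    (hd : d ∈ stabilizer G a ⊓ stabilizer G (t • a)) (hdt : t * d = d * t) :
    s * d = d * s := by
  have hdt' : d⁻¹ * t = t * d⁻¹ := by
    calc d⁻¹ * t = d⁻¹ * (t * d) * d⁻¹ := by group
      _ = d⁻¹ * (d * t) * d⁻¹ := by rw [hdt]
      _ = t * d⁻¹ := by group
  have hs' : d * s * d⁻¹ ∈ Cfsg.involutionsIn (stabilizer G a : Set G) :=
    ⟨(stabilizer G a).mul_mem ((stabilizer G a).mul_mem hd.1 (SetLike.mem_coe.1 hs.1))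
      ((stabilizer G a).inv_mem hd.1), conj_ne_one hs.2.1, conj_mul_self hs.2.2⟩
  have hr' : d * r * d⁻¹ ∈ Q := hS.conj_mem d hd.1 r hr
  have e1 : t * (d * s * d⁻¹) * t = (d * r * d⁻¹)⁻¹ * t * (d * r * d⁻¹) := by
    calc t * (d * s * d⁻¹) * t = (t * d) * s * (d⁻¹ * t) := by group
      _ = (d * t) * s * (t * d⁻¹) := by rw [hdt, hdt']
      _ = d * (t * s * t) * d⁻¹ := by group
      _ = d * (r⁻¹ * t * r) * d⁻¹ := by rw [h]
      _ = d * r⁻¹ * (t * d⁻¹) * d * r * d⁻¹ := by group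
      _ = d * r⁻¹ * (d⁻¹ * t) * d * r * d⁻¹ := by rw [hdt']
      _ = (d * r * d⁻¹)⁻¹ * t * (d * r * d⁻¹) := by group
  have h2 := (struct_unique hS hs' hs hr' hr e1 h).1
  calc s * d = (d * s * d⁻¹) * d := by rw [h2]
    _ = d * s := by group

/-- `C_D(t) = C_D(s)` for the pair `(s, r)` of the structure equation. -/
theorem CD_t_eq_CD_s [Finite G] (hS : IsRankOneSetup G Ω a t Q) {s r : G}
    (hs : s ∈ Cfsg.involutionsIn (stabilizer G a : Set G)) (hr : r ∈ Q)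
    (h : t * s * t = r⁻¹ * t * r) :
    (stabilizer G a ⊓ stabilizer G (t • a)) ⊓ Subgroup.centralizer {t} =
      (stabilizer G a ⊓ stabilizer G (t • a)) ⊓ Subgroup.centralizer {s} := by
  apply le_antisymm
  · intro d hd
    refine Subgroup.mem_inf.2 ⟨hd.1, ?_⟩
    rw [mem_centralizer_singleton]
    exact CD_t_le_CD_s hS hs hr h hd.1 (mem_centralizer_singleton.1 hd.2)
  · intro d hd
    refine Subgroup.mem_inf.2 ⟨hd.1, ?_⟩
    have hds : s * d = d * s := mem_centralizer_singleton.1 hd.2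
    have hdD := hd.1
    rw [mem_centralizer_singleton]
    have ht'2 : d * t * d⁻¹ * (d * t * d⁻¹) = 1 := conj_mul_self hS.mul_self
    have ht'a : (d * t * d⁻¹) • a = t • a := by
      rw [mul_smul, mul_smul, mem_stabilizer_iff.1 ((stabilizer G a).inv_mem hdD.1),
        mem_stabilizer_iff.1 hdD.2]
    have hk := K_of_J hS ht'2 ht'a
    obtain ⟨l, hl, hll⟩ := invertedBy_sqrt hS.odd_card hk
    have h1 : l⁻¹ * t * l = d * t * d⁻¹ := by
      have h2 : l⁻¹ * t = t * l := by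
        rw [← hl.2, t_inv hS]
        have : t * l * t * t = t * l * (t * t) := by group
        rw [this, hS.mul_self, mul_one]
      rw [h2, mul_assoc, hll, ← mul_assoc, hS.mul_self, one_mul]
    have hld : l * d ∈ stabilizer G a ⊓ stabilizer G (t • a) := Subgroup.mul_mem _ hl.1 hdD
    have hldt : t * (l * d) = (l * d) * t := by
      calc t * (l * d) = l * (l⁻¹ * t * l) * d := by group
        _ = l * (d * t * d⁻¹) * d := by rw [h1]
        _ = (l * d) * t := by group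
    have h3 := CD_t_le_CD_s hS hs hr h hld hldt
    have h4 : s * l = l * s := by
      calc s * l = (s * (l * d)) * d⁻¹ := by group
        _ = (l * d * s) * d⁻¹ := by rw [h3]
        _ = l * (d * s) * d⁻¹ := by group
        _ = l * (s * d) * d⁻¹ := by rw [hds]
        _ = l * s := by group
    have h5 : l⁻¹ * s * l = (1 : G)⁻¹ * s * 1 := by
      rw [mul_assoc, h4]; group
    have h6 : l = 1 := K_inj hS hs hl one_mem_invertedBy h5
    rw [h6] at h1
    have h7 : d * t * d⁻¹ = t := by rw [← h1]; group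
    calc t * d = (d * t * d⁻¹) * d := by rw [h7]
      _ = d * t := by group

/-- `C_D(t) ⊓ C_D(K) = C_D(I ∩ G_a)`. -/
theorem W_eq [Finite G] (hS : IsRankOneSetup G Ω a t Q) :
    (stabilizer G a ⊓ stabilizer G (t • a)) ⊓ Subgroup.centralizer {t} ⊓
        Subgroup.centralizer (Cfsg.invertedBy (stabilizer G a ⊓ stabilizer G (t • a)) t) =
      (stabilizer G a ⊓ stabilizer G (t • a)) ⊓
        Subgroup.centralizer (Cfsg.involutionsIn (stabilizer G a : Set G)) := by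
  obtain ⟨s₀, r₀, hs₀, hr₀, h₀⟩ := struct_exists hS
  have hEq := CD_t_eq_CD_s hS hs₀ hr₀ h₀
  apply le_antisymm
  · intro d hd
    have hdD := hd.1.1
    have hdK := Subgroup.mem_centralizer_iff.1 hd.2
    have hds₀ : s₀ * d = d * s₀ := by
      have : d ∈ (stabilizer G a ⊓ stabilizer G (t • a)) ⊓ Subgroup.centralizer {s₀} := by
        rw [← hEq]; exact hd.1
      exact mem_centralizer_singleton.1 this.2
    refine Subgroup.mem_inf.2 ⟨hdD, ?_⟩
    rw [Subgroup.mem_centralizer_iff]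
    intro s' hs'
    obtain ⟨k, hk, hks⟩ := K_trans hS hs₀ hs'
    have hkd : k * d = d * k := hdK k hk
    have hkd' : k⁻¹ * d = d * k⁻¹ := by
      calc k⁻¹ * d = k⁻¹ * (d * k) * k⁻¹ := by group
        _ = k⁻¹ * (k * d) * k⁻¹ := by rw [hkd]
        _ = d * k⁻¹ := by group
    rw [← hks]
    calc k⁻¹ * s₀ * k * d = k⁻¹ * s₀ * (k * d) := by group
      _ = k⁻¹ * s₀ * (d * k) := by rw [hkd]
      _ = k⁻¹ * (s₀ * d) * k := by group
      _ = k⁻¹ * (d * s₀) * k := by rw [hds₀]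
      _ = (k⁻¹ * d) * s₀ * k := by group
      _ = (d * k⁻¹) * s₀ * k := by rw [hkd']
      _ = d * (k⁻¹ * s₀ * k) := by group
  · intro d hd
    have hdD := hd.1
    have hdI := Subgroup.mem_centralizer_iff.1 hd.2
    have hdt : d ∈ (stabilizer G a ⊓ stabilizer G (t • a)) ⊓ Subgroup.centralizer {t} := by
      rw [hEq]
      exact Subgroup.mem_inf.2 ⟨hdD, mem_centralizer_singleton.2 (hdI s₀ hs₀)⟩
    refine Subgroup.mem_inf.2 ⟨hdt, ?_⟩
    rw [Subgroup.mem_centralizer_iff]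
    intro k hk
    obtain ⟨hv2, hva⟩ := J_of_K hS hk
    have hS' := setup_swap hS hv2 hva
    obtain ⟨s₁, r₁, hs₁, hr₁, h₁⟩ := struct_exists hS'
    have hEq' := CD_t_eq_CD_s hS' hs₁ hr₁ h₁
    have hdD' : d ∈ stabilizer G a ⊓ stabilizer G ((t * k) • a) := by
      rw [hva]; exact hdD
    have hdv : d ∈ (stabilizer G a ⊓ stabilizer G ((t * k) • a)) ⊓
        Subgroup.centralizer {t * k} := by
      rw [hEq']
      exact Subgroup.mem_inf.2 ⟨hdD', mem_centralizer_singleton.2 (hdI s₁ hs₁)⟩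
    have h1 : t * k * d = d * (t * k) := mem_centralizer_singleton.1 hdv.2
    have h2 : t * d = d * t := mem_centralizer_singleton.1 hdt.2
    calc k * d = t⁻¹ * (t * k * d) := by group
      _ = t⁻¹ * (d * (t * k)) := by rw [h1]
      _ = t⁻¹ * (d * t) * k := by group
      _ = t⁻¹ * (t * d) * k := by rw [h2]
      _ = d * k := by group

/-- Non-identity elements of `K` act fixed-point-freely on `Q`. -/
theorem K_fpf [Finite G] (hS : IsRankOneSetup G Ω a t Q) {x : G}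
    (hx : x ∈ Cfsg.invertedBy (stabilizer G a ⊓ stabilizer G (t • a)) t) (hx1 : x ≠ 1) :
    Q ⊓ Subgroup.centralizer {x} = ⊥ := by
  rw [Subgroup.eq_bot_iff_forall]
  intro y hy
  obtain ⟨hyQ, hyC⟩ := hy
  by_contra hy1
  have hxy : x * y = y * x := mem_centralizer_singleton.1 hyC
  have hX : ({x} : Set G) ⊆ ((stabilizer G a ⊓ stabilizer G (t • a) : Subgroup G) : Set G) :=
    Set.singleton_subset_iff.2 hx.1
  have h3 : ∃ b c d : Ω, b ≠ c ∧ b ≠ d ∧ c ≠ d ∧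
      ∀ z ∈ ({x} : Set G), z • b = b ∧ z • c = c ∧ z • d = d := by
    refine ⟨a, t • a, y • (t • a), (b_ne hS).symm,
      (smul_ne_of_mem_stab (hS.le hyQ) (b_ne hS)).symm, ?_, ?_⟩
    · intro h
      exact hy1 (Q_free hS hyQ (b_ne hS) h.symm)
    · intro z hz
      rw [Set.mem_singleton_iff] at hz
      subst hz
      refine ⟨mem_stabilizer_iff.1 hx.1.1, mem_stabilizer_iff.1 hx.1.2, ?_⟩
      rw [← mul_smul, hxy, mul_smul, mem_stabilizer_iff.1 hx.1.2]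
  obtain ⟨l, hl, hlx⟩ := conj_into_CDt hS hX h3
  have hcomm := hlx x rfl
  have hx' : l * x * l⁻¹ ∈ stabilizer G a ⊓ stabilizer G (t • a) :=
    Subgroup.mul_mem _ (Subgroup.mul_mem _ hl hx.1) (Subgroup.inv_mem _ hl)
  have hk₁ : t * l * t⁻¹ * l⁻¹ ∈ stabilizer G a ⊓ stabilizer G (t • a) :=
    Subgroup.mul_mem _ (t_norm_D hS hl) (Subgroup.inv_mem _ hl)
  have hinv : (t * l * t⁻¹ * l⁻¹) * (l * x * l⁻¹) * (t * l * t⁻¹ * l⁻¹)⁻¹ =
      (l * x * l⁻¹)⁻¹ := by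
    have e1 : (t * l * t⁻¹ * l⁻¹) * (l * x * l⁻¹) * (t * l * t⁻¹ * l⁻¹)⁻¹ =
        t * (l * (t⁻¹ * x * t) * l⁻¹) * t⁻¹ := by group
    have e2 : t⁻¹ * x * t = x⁻¹ := by
      have h := hx.2
      rw [t_inv hS] at h ⊢
      exact h
    rw [e1, e2]
    have e3 : l * x⁻¹ * l⁻¹ = (l * x * l⁻¹)⁻¹ := by group
    rw [e3]
    have e4 : t * (l * x * l⁻¹)⁻¹ * t⁻¹ = (t * (l * x * l⁻¹) * t⁻¹)⁻¹ := by group
    rw [e4, ← hcomm]; group
  have h4 := eq_one_of_inverted_of_odd _ hS.odd_card hk₁ hx' hinv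
  apply hx1
  have : x = l⁻¹ * (l * x * l⁻¹) * l := by group
  rw [this, h4]; group

/-- Involutions of `G_a` are central in `Q`. -/
theorem invol_central [Finite G] (hS : IsRankOneSetup G Ω a t Q) {s : G}
    (hs : s ∈ Cfsg.involutionsIn (stabilizer G a : Set G)) {y : G} (hy : y ∈ Q) :
    s * y = y * s := by
  have hsQ : s ∈ Q := invol_mem_Q hS (SetLike.mem_coe.1 hs.1) hs.2.2
  have hs' : y * s * y⁻¹ ∈ Cfsg.involutionsIn (stabilizer G a : Set G) :=
    ⟨hS.le (Q.mul_mem (Q.mul_mem hy hsQ) (Q.inv_mem hy)), conj_ne_one hs.2.1,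
      conj_mul_self hs.2.2⟩
  obtain ⟨k, hk, hks⟩ := K_trans hS hs hs'
  by_cases hk1 : k = 1
  · rw [hk1] at hks
    have : y * s * y⁻¹ = s := by rw [← hks]; group
    calc s * y = (y * s * y⁻¹) * y := by rw [this]
      _ = y * s := by group
  · exfalso
    have hfpf := K_fpf hS hk hk1
    have hkinv : k⁻¹ ∈ stabilizer G a := (stabilizer G a).inv_mem hk.1.1
    let φ : Q → Q := fun z => ⟨k⁻¹ * (z : G)⁻¹ * k * z, by
      have h1 := hS.conj_mem k⁻¹ hkinv _ (Q.inv_mem z.2)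
      rw [inv_inv] at h1
      exact Q.mul_mem h1 z.2⟩
    have hinj : Function.Injective φ := by
      rintro ⟨z, hz⟩ ⟨z', hz'⟩ h
      have h1 : k⁻¹ * z⁻¹ * k * z = k⁻¹ * z'⁻¹ * k * z' := congrArg Subtype.val h
      have h2 : k * (z' * z⁻¹) = (z' * z⁻¹) * k := by
        calc k * (z' * z⁻¹) = z' * (k * (k⁻¹ * z'⁻¹ * k * z')) * z⁻¹ := by group
          _ = z' * (k * (k⁻¹ * z⁻¹ * k * z)) * z⁻¹ := by rw [h1]
          _ = (z' * z⁻¹) * k := by group
      have h3 : z' * z⁻¹ ∈ Q ⊓ Subgroup.centralizer {k} :=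
        Subgroup.mem_inf.2 ⟨Q.mul_mem hz' (Q.inv_mem hz), mem_centralizer_singleton.2 h2⟩
      rw [hfpf, Subgroup.mem_bot] at h3
      exact Subtype.ext (mul_inv_eq_one.1 h3).symm
    obtain ⟨⟨z, hz⟩, hzy⟩ := Finite.injective_iff_surjective.1 hinj ⟨y, hy⟩
    have hzy' : k⁻¹ * z⁻¹ * k * z = y := congrArg Subtype.val hzy
    have h1 : k * (z * s * z⁻¹) = (z * s * z⁻¹) * k := by
      have e1 : y⁻¹ * (k⁻¹ * s * k) * y = s := by rw [hks]; group
      have e2 : k * y = z⁻¹ * k * z := by rw [← hzy']; group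
      have e3 : (k * y)⁻¹ * s * (k * y) = s := by
        have : (k * y)⁻¹ * s * (k * y) = y⁻¹ * (k⁻¹ * s * k) * y := by group
        rw [this, e1]
      rw [e2] at e3
      calc k * (z * s * z⁻¹) = z * (z⁻¹ * k * z) * s * z⁻¹ := by group
        _ = z * (z⁻¹ * k * z) * ((z⁻¹ * k * z)⁻¹ * s * (z⁻¹ * k * z)) * z⁻¹ := by rw [e3]
        _ = (z * s * z⁻¹) * k := by group
    have h2 : z * s * z⁻¹ ∈ Q ⊓ Subgroup.centralizer {k} :=
      Subgroup.mem_inf.2 ⟨Q.mul_mem (Q.mul_mem hz hsQ) (Q.inv_mem hz),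
        mem_centralizer_singleton.2 h1⟩
    rw [hfpf, Subgroup.mem_bot] at h2
    exact conj_ne_one hs.2.1 h2

end Setup3

end Cfsg.Agent.Lib.Helper26
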