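import Mathlib
import Cfsg.Prelude.Def_LieRecognition
import Cfsg.Prelude.Def_Solvable
import Cfsg.Agent.Lib.Helper26.RankOne3

set_option autoImplicit false

namespace Cfsg.Agent.Lib.Helper26

open MulAction

section FourGroup

variable {G : Type*} [Group G]

theorem conj_eq_of_mem_centralizer {t y : G} (h : y ∈ Subgroup.centralizer ({t} : Set G)) :
    t * y * t⁻¹ = y := by
  rw [mul_inv_eq_iff_eq_mul]
  exact mem_centralizer_singleton.1 h

theorem mem_centralizer_of_conj_eq {t y : G} (h : t * y * t⁻¹ = y) :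
    y ∈ Subgroup.centralizer ({t} : Set G) := by
  rw [mem_centralizer_singleton]
  exact mul_inv_eq_iff_eq_mul.1 h

/-- A group of odd order acted on by a four-group is generated by the centralisers of the
three involutions. -/
theorem four_group_gen [Finite G] (M F : Subgroup G) (hodd : Odd (Nat.card M)) {x y : G}
    (hx2 : x * x = 1) (hy2 : y * y = 1) (hxy : x * y = y * x)
    (hnx : ∀ m ∈ M, x * m * x⁻¹ ∈ M) (hny : ∀ m ∈ M, y * m * y⁻¹ ∈ M)
    (h1 : M ⊓ Subgroup.centralizer {x} ≤ F) (h2 : M ⊓ Subgroup.centralizer {y} ≤ F)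
    (h3 : M ⊓ Subgroup.centralizer {x * y} ≤ F) : M ≤ F := by
  intro m hm
  obtain ⟨c, hc, i, hi, rfl⟩ := odd_decomp_exists x hx2 M hodd hnx hm
  obtain ⟨c', hc', i', hi', rfl⟩ := odd_decomp_exists y hy2 M hodd hny hi.1
  have hσ : ∀ g h : G, x * (g * h) * x⁻¹ = (x * g * x⁻¹) * (x * h * x⁻¹) := fun g h => by group
  have hσi : ∀ g : G, x * g⁻¹ * x⁻¹ = (x * g * x⁻¹)⁻¹ := fun g => by group
  have hστ : ∀ g : G, y * (x * g * x⁻¹) * y⁻¹ = x * (y * g * y⁻¹) * x⁻¹ := by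
    intro g
    have e : y * x = x * y := hxy.symm
    calc y * (x * g * x⁻¹) * y⁻¹ = (y * x) * g * (y * x)⁻¹ := by group
      _ = (x * y) * g * (x * y)⁻¹ := by rw [e]
      _ = x * (y * g * y⁻¹) * x⁻¹ := by group
  have hτc' : y * c' * y⁻¹ = c' := conj_eq_of_mem_centralizer hc'.2
  have h4 : x * c' * x⁻¹ ∈ M ⊓ Subgroup.centralizer {y} :=
    Subgroup.mem_inf.2 ⟨hnx c' hc'.1, mem_centralizer_of_conj_eq (by rw [hστ, hτc'])⟩
  have h5 : x * i' * x⁻¹ ∈ Cfsg.invertedBy M y :=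
    ⟨hnx i' hi'.1, by rw [hστ, hi'.2, hσi]⟩
  have h6 : c'⁻¹ ∈ M ⊓ Subgroup.centralizer {y} := Subgroup.inv_mem _ hc'
  have h7 : c' * i'⁻¹ * c'⁻¹ ∈ Cfsg.invertedBy M y := by
    refine ⟨M.mul_mem (M.mul_mem hc'.1 (M.inv_mem hi'.1)) (M.inv_mem hc'.1), ?_⟩
    calc y * (c' * i'⁻¹ * c'⁻¹) * y⁻¹
        = (y * c' * y⁻¹) * (y * i' * y⁻¹)⁻¹ * (y * c' * y⁻¹)⁻¹ := by group
      _ = c' * i'⁻¹⁻¹ * c'⁻¹ := by rw [hτc', hi'.2]
      _ = (c' * i'⁻¹ * c'⁻¹)⁻¹ := by group
  have h8 : (x * c' * x⁻¹) * (x * i' * x⁻¹) = c'⁻¹ * (c' * i'⁻¹ * c'⁻¹) := by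
    rw [← hσ, hi.2]; group
  obtain ⟨h9, h10⟩ := odd_decomp_unique y M hodd h4 h6 h5 h7 h8
  obtain ⟨d, hdM, hdx, hdd⟩ : ∃ d, d ∈ M ⊓ Subgroup.centralizer {y} ∧ x * d * x⁻¹ = d⁻¹ ∧
      d * d = c' := by
    obtain ⟨k, hk⟩ := exists_sqrt_pow (odd_orderOf_of_mem M hodd hc'.1)
    exact ⟨c' ^ k, Subgroup.pow_mem _ hc' k, by rw [← conj_pow, h9, inv_pow], hk⟩
  have hτd : y * d * y⁻¹ = d := conj_eq_of_mem_centralizer hdM.2
  have hc'd : c' = d * d := hdd.symm
  have hj : d * i' * d⁻¹ ∈ M ⊓ Subgroup.centralizer {x * y} := by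
    refine Subgroup.mem_inf.2 ⟨M.mul_mem (M.mul_mem hdM.1 hi'.1) (M.inv_mem hdM.1),
      mem_centralizer_of_conj_eq ?_⟩
    calc (x * y) * (d * i' * d⁻¹) * (x * y)⁻¹
        = x * ((y * d * y⁻¹) * (y * i' * y⁻¹) * (y * d * y⁻¹)⁻¹) * x⁻¹ := by group
      _ = x * (d * i'⁻¹ * d⁻¹) * x⁻¹ := by rw [hτd, hi'.2]
      _ = (x * d * x⁻¹) * (x * i' * x⁻¹)⁻¹ * (x * d * x⁻¹)⁻¹ := by group
      _ = d⁻¹ * (c' * i'⁻¹ * c'⁻¹)⁻¹ * d⁻¹⁻¹ := by rw [hdx, h10]
      _ = d * i' * d⁻¹ := by rw [hc'd]; group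
  have e : c * (c' * i') = c * d * (d * i' * d⁻¹) * d := by rw [hc'd]; group
  rw [e]
  exact F.mul_mem (F.mul_mem (F.mul_mem (h1 hc) (h2 hdM)) (h3 hj)) (h2 hdM)

end FourGroup

section Setup4

variable {G Ω : Type*} [Group G] [MulAction G Ω] {a : Ω} {t : G} {Q : Subgroup G}

/-- With 2-rank at least 2, a normal subgroup of odd order fixes `a`. -/
theorem odd_normal_le_stab [Finite G] (hS : IsRankOneSetup G Ω a t Q)
    (h2 : ∃ x y : G, x ≠ 1 ∧ y ≠ 1 ∧ x ≠ y ∧ x * x = 1 ∧ y * y = 1 ∧ x * y = y * x)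
    (M : Subgroup G) [hM : M.Normal] (hodd : Odd (Nat.card M)) : M ≤ stabilizer G a := by
  obtain ⟨x, y, hx1, hy1, hxy, hx2, hy2, hcomm⟩ := h2
  obtain ⟨c, hc⟩ := invol_fix_exists hS hx2
  have hyc : y • c = c := by
    apply invol_fix_unique hS hx1 hx2 _ hc
    rw [← mul_smul, hcomm, mul_smul, hc]
  have hxy1 : x * y ≠ 1 := by
    intro h
    apply hxy
    have hxinv : x⁻¹ = x := inv_eq_of_mul_eq_one_left hx2
    rw [← hxinv]
    exact (inv_eq_of_mul_eq_one_right h).symm ▸ rfl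
  have hxy2 : x * y * (x * y) = 1 := by
    calc x * y * (x * y) = x * (y * x) * y := by group
      _ = x * (x * y) * y := by rw [hcomm]
      _ = (x * x) * (y * y) := by group
      _ = 1 := by rw [hx2, hy2, one_mul]
  have hxyc : (x * y) • c = c := by rw [mul_smul, hyc, hc]
  have key : ∀ {v : G}, v ≠ 1 → v * v = 1 → v • c = c →
      M ⊓ Subgroup.centralizer {v} ≤ stabilizer G c := by
    intro v hv1 hv2 hvc m hm
    rw [mem_stabilizer_iff]
    apply invol_fix_unique hS hv1 hv2 _ hvc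
    rw [← mul_smul, mem_centralizer_singleton.1 hm.2, mul_smul, hvc]
  have h4 : M ≤ stabilizer G c :=
    four_group_gen M (stabilizer G c) hodd hx2 hy2 hcomm (fun m hm => hM.conj_mem m hm x)
      (fun m hm => hM.conj_mem m hm y) (key hx1 hx2 hc) (key hy1 hy2 hyc) (key hxy1 hxy2 hxyc)
  have := pretrans hS
  obtain ⟨g, hg⟩ := exists_smul_eq G c a
  intro m hm
  have h5 : g⁻¹ * m * g⁻¹⁻¹ ∈ stabilizer G c := h4 (hM.conj_mem m hm g⁻¹)
  rw [mem_stabilizer_iff, inv_inv, mul_smul, mul_smul, hg] at h5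
  rw [mem_stabilizer_iff]
  have h6 := congrArg (fun e => g • e) h5
  simp only [smul_inv_smul] at h6
  rw [h6, hg]

/-- With 2-rank at least 2, `O_{2'}(G)` is the normal core of `G_a`. -/
theorem pPrimeCore_eq [Finite G] (hS : IsRankOneSetup G Ω a t Q)
    (h2 : ∃ x y : G, x ≠ 1 ∧ y ≠ 1 ∧ x ≠ y ∧ x * x = 1 ∧ y * y = 1 ∧ x * y = y * x) :
    Cfsg.pPrimeCore 2 G = (stabilizer G a).normalCore := by
  apply le_antisymm
  · apply sSup_le
    rintro N ⟨hN, hcop⟩
    have hodd : Odd (Nat.card N) := Nat.coprime_two_right.1 hcop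
    rw [Subgroup.normal_le_normalCore]
    exact odd_normal_le_stab hS h2 N hodd
  · apply le_sSup
    have hN : ((stabilizer G a).normalCore).Normal := Subgroup.normalCore_normal _
    refine ⟨hN, ?_⟩
    have hle : (stabilizer G a).normalCore ≤ stabilizer G a ⊓ stabilizer G (t • a) := by
      intro x hx
      refine Subgroup.mem_inf.2 ⟨Subgroup.normalCore_le _ hx, ?_⟩
      have h1 : t⁻¹ * x * t⁻¹⁻¹ ∈ stabilizer G a :=
        Subgroup.normalCore_le _ (hN.conj_mem x hx t⁻¹)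
      rw [mem_stabilizer_iff, inv_inv, mul_smul, mul_smul] at h1
      rw [mem_stabilizer_iff]
      have h2 := congrArg (fun e => t • e) h1
      simp only [smul_inv_smul] at h2
      exact h2
    exact Nat.coprime_two_right.2 (Odd.of_dvd_nat hS.odd_card (Subgroup.card_dvd_of_le hle))

/-- Products of two involutions that are not of order at most two: conjugate to `u' * t`, and
with centraliser of odd order. -/
theorem strongly_real [Finite G] (hS : IsRankOneSetup G Ω a t Q) {u v : G}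
    (hu1 : u ≠ 1) (hu2 : u * u = 1) (hv1 : v ≠ 1) (hv2 : v * v = 1)
    (hx : (u * v) * (u * v) ≠ 1) :
    (∃ g : G, ∃ u' ∈ Cfsg.involutionsIn (stabilizer G a : Set G),
        g * (u * v) * g⁻¹ = u' * t) ∧
      Odd (Nat.card ↥(Subgroup.centralizer {u * v})) := by
  have := pretrans hS
  obtain ⟨c, hc⟩ := invol_fix_exists hS hu2
  obtain ⟨d, hd⟩ := invol_fix_exists hS hv2
  have hcd : c ≠ d := by
    intro h
    subst h
    obtain ⟨g, hg⟩ := exists_smul_eq G c a
    have hu' : g * u * g⁻¹ ∈ Cfsg.involutionsIn (stabilizer G a : Set G) :=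
      ⟨by rw [SetLike.mem_coe, mem_stabilizer_iff, mul_smul, mul_smul, ← hg, inv_smul_smul, hc],
        conj_ne_one hu1, conj_mul_self hu2⟩
    have hv' : g * v * g⁻¹ ∈ Cfsg.involutionsIn (stabilizer G a : Set G) :=
      ⟨by rw [SetLike.mem_coe, mem_stabilizer_iff, mul_smul, mul_smul, ← hg, inv_smul_smul, hd],
        conj_ne_one hv1, conj_mul_self hv2⟩
    have hcomm := invol_central hS hu' (invol_mem_Q hS (SetLike.mem_coe.1 hv'.1) hv'.2.2)
    have huv : u * v = v * u := by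
      calc u * v = g⁻¹ * ((g * u * g⁻¹) * (g * v * g⁻¹)) * g := by group
        _ = g⁻¹ * ((g * v * g⁻¹) * (g * u * g⁻¹)) * g := by rw [hcomm]
        _ = v * u := by group
    apply hx
    calc u * v * (u * v) = u * (v * u) * v := by group
      _ = u * (u * v) * v := by rw [huv]
      _ = (u * u) * (v * v) := by group
      _ = 1 := by rw [hu2, hv2, one_mul]
  constructor
  · obtain ⟨e, he⟩ := invol_fix_exists hS hS.mul_self
    have hea : e ≠ a := fun h => b_ne hS (by rw [← h]; exact he)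
    obtain ⟨g, hgc, hgd⟩ := two_trans hS hcd hea.symm
    obtain ⟨g', hg'a, hg'b⟩ := two_trans hS (b_ne hS).symm hea
    have hS' := setup_conj hS g'
    have hsec : (g' * t * g'⁻¹) • (g' • a) = a := by
      rw [mul_smul, mul_smul, inv_smul_smul, hg'b]
    have hv₁ : g * v * g⁻¹ ∈ Cfsg.involutionsIn (stabilizer G (g' • a) : Set G) :=
      ⟨by rw [SetLike.mem_coe, mem_stabilizer_iff, hg'a, mul_smul, mul_smul, ← hgd,
          inv_smul_smul, hd], conj_ne_one hv1, conj_mul_self hv2⟩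
    have ht : t ∈ Cfsg.involutionsIn (stabilizer G (g' • a) : Set G) :=
      ⟨by rw [SetLike.mem_coe, mem_stabilizer_iff, hg'a]; exact he, hS.ne_one, hS.mul_self⟩
    obtain ⟨k, hk, hkv⟩ := K_trans hS' hv₁ ht
    have hka : k ∈ stabilizer G a := by
      have := hk.1.2
      rwa [hsec] at this
    have hu₁ : g * u * g⁻¹ ∈ stabilizer G a := by
      rw [mem_stabilizer_iff, mul_smul, mul_smul, ← hgc, inv_smul_smul, hc]
    refine ⟨k⁻¹ * g, k⁻¹ * (g * u * g⁻¹) * k, ⟨?_, ?_, ?_⟩, ?_⟩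
    · exact (stabilizer G a).mul_mem ((stabilizer G a).mul_mem ((stabilizer G a).inv_mem hka) hu₁)
        hka
    · have := conj_ne_one (x := k⁻¹) (conj_ne_one (x := g) hu1)
      rwa [inv_inv] at this
    · have := conj_mul_self (x := k⁻¹) (conj_mul_self (x := g) hu2)
      rwa [inv_inv] at this
    · rw [← hkv]; group
  · by_contra hodd
    rw [Nat.not_odd_iff_even] at hodd
    have : Fact (Nat.Prime 2) := ⟨Nat.prime_two⟩
    obtain ⟨⟨w, hwC⟩, hw⟩ := exists_prime_orderOf_dvd_card' 2 (even_iff_two_dvd.1 hodd)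
    have hw2' : orderOf w = 2 := by rwa [Subgroup.orderOf_mk] at hw
    have hw1 : w ≠ 1 := by
      intro h
      rw [h, orderOf_one] at hw2'
      omega
    have hw2 : w * w = 1 := by rw [← pow_two, ← hw2', pow_orderOf_eq_one]
    have hwx : (u * v) * w = w * (u * v) := mem_centralizer_singleton.1 hwC
    obtain ⟨e, he⟩ := invol_fix_exists hS hw2
    have hxe : (u * v) • e = e := by
      apply invol_fix_unique hS hw1 hw2 _ he
      rw [← mul_smul, ← hwx, mul_smul, he]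
    have hue : u • e ≠ e := by
      intro h
      have hve : v • e = e := by
        have : v = u * (u * v) := by rw [← mul_assoc, hu2, one_mul]
        rw [this, mul_smul, hxe, h]
      exact hcd ((invol_fix_unique hS hu1 hu2 hc h).trans (invol_fix_unique hS hv1 hv2 hve hd))
    obtain ⟨Q', hS'⟩ := setup_at hS hu2 hue
    have huinv : u⁻¹ = u := inv_eq_of_mul_eq_one_left hu2
    have hvinv : v⁻¹ = v := inv_eq_of_mul_eq_one_left hv2
    have hxinv : u * (u * v) * u⁻¹ = (u * v)⁻¹ := by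
      rw [mul_inv_rev, huinv, hvinv, ← mul_assoc, hu2, one_mul]
    have hxe' : (u * v)⁻¹ • e = e := by rw [inv_smul_eq_iff, hxe]
    have hxK : u * v ∈ Cfsg.invertedBy (stabilizer G e ⊓ stabilizer G (u • e)) u := by
      refine ⟨Subgroup.mem_inf.2 ⟨mem_stabilizer_iff.2 hxe, ?_⟩, hxinv⟩
      rw [mem_stabilizer_iff, ← mul_smul]
      have : u * v * u = u * (u * v)⁻¹ := by rw [mul_inv_rev, huinv, hvinv]; group
      rw [this, mul_smul, hxe']
    have hx1 : u * v ≠ 1 := by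
      intro h
      apply hx
      rw [h, one_mul]
    have hfpf := K_fpf hS' hxK hx1
    have hwQ : w ∈ Q' := invol_mem_Q hS' (mem_stabilizer_iff.2 he) hw2
    have hmem : w ∈ Q' ⊓ Subgroup.centralizer {u * v} := Subgroup.mem_inf.2 ⟨hwQ, hwC⟩
    rw [hfpf, Subgroup.mem_bot] at hmem
    exact hw1 hmem

end Setup4

end Cfsg.Agent.Lib.Helper26
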