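import Mathlib
import Cfsg.Prelude.Def_LieRecognition
import Cfsg.Agent.Lib.Helper26.RankOne4

set_option autoImplicit false

namespace Cfsg.Agent.Lib.Helper26

open MulAction

section Setup5

variable {G Ω : Type*} [Group G] [MulAction G Ω] {a : Ω} {t : G} {Q : Subgroup G}

theorem comm_of_conj_eq {G : Type*} [Group G] {d l t : G}
    (h : l⁻¹ * t * l = d⁻¹ * t * d) : t * (d * l⁻¹) = (d * l⁻¹) * t := by
  have e : d * (l⁻¹ * t * l) * d⁻¹ = t := by rw [h]; group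
  calc t * (d * l⁻¹) = (d * (l⁻¹ * t * l) * d⁻¹) * (d * l⁻¹) := by rw [e]
    _ = d * l⁻¹ * t := by group

theorem conj_mul_inv_of_commute {G : Type*} [Group G] {d l x : G} (h : Commute l x) :
    (d * l⁻¹) * x * (d * l⁻¹)⁻¹ = d * x * d⁻¹ := by
  calc (d * l⁻¹) * x * (d * l⁻¹)⁻¹ = d * (l⁻¹ * (x * l)) * d⁻¹ := by group
    _ = d * (l⁻¹ * (l * x)) * d⁻¹ := by rw [h.eq]
    _ = d * x * d⁻¹ := by group

theorem inv_conj_of_inverted {G : Type*} [Group G] {t l : G} (ht : t * t = 1)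
    (hl : t * l * t⁻¹ = l⁻¹) : l⁻¹ * t * l = t * (l * l) := by
  have htinv : t⁻¹ = t := inv_eq_of_mul_eq_one_left ht
  have h2 : l⁻¹ * t = t * l := by
    rw [← hl, htinv]
    have : t * l * t * t = t * l * (t * t) := by group
    rw [this, ht, mul_one]
  rw [h2, mul_assoc]

/-- Fusion of subsets of `V = C_D(t)` under `D` is induced by `V`. -/
theorem fusion_D [Finite G] (hS : IsRankOneSetup G Ω a t Q) {X : Set G}
    (hXt : ∀ x ∈ X, t * x = x * t) {d : G}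
    (hdD : d ∈ stabilizer G a ⊓ stabilizer G (t • a))
    (hYt : ∀ x ∈ X, t * (d * x * d⁻¹) = (d * x * d⁻¹) * t) :
    ∃ v ∈ (stabilizer G a ⊓ stabilizer G (t • a)) ⊓ Subgroup.centralizer {t},
      ∀ x ∈ X, v * x * v⁻¹ = d * x * d⁻¹ := by
  obtain ⟨t', ht'⟩ : ∃ t', t' = d⁻¹ * t * d := ⟨_, rfl⟩
  have ht'2 : t' * t' = 1 := by
    have := conj_mul_self (x := d⁻¹) hS.mul_self
    rw [inv_inv] at this
    rw [ht']; exact this
  have ht'a : t' • a = t • a := by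
    rw [ht', mul_smul, mul_smul, mem_stabilizer_iff.1 hdD.1,
      mem_stabilizer_iff.1 ((stabilizer G (t • a)).inv_mem hdD.2)]
  have hk := K_of_J hS ht'2 ht'a
  have hkX : ∀ x ∈ X, Commute (t * t') x := by
    intro x hx
    have e1 := hYt x hx
    have e2 : t' * x = x * t' := by
      rw [ht']
      calc (d⁻¹ * t * d) * x = d⁻¹ * (t * (d * x * d⁻¹)) * d := by group
        _ = d⁻¹ * ((d * x * d⁻¹) * t) * d := by rw [e1]
        _ = x * (d⁻¹ * t * d) := by group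
    exact Commute.mul_left (hXt x hx) e2
  obtain ⟨l, hl, hll, hlX⟩ : ∃ l, l ∈ Cfsg.invertedBy (stabilizer G a ⊓ stabilizer G (t • a)) t ∧
      l * l = t * t' ∧ ∀ x ∈ X, Commute l x := by
    obtain ⟨m, hm⟩ := exists_sqrt_pow (odd_orderOf_of_mem _ hS.odd_card hk.1)
    exact ⟨(t * t') ^ m, invertedBy_pow hk m, hm, fun x hx => (hkX x hx).pow_left m⟩
  have h1 : l⁻¹ * t * l = d⁻¹ * t * d := by
    rw [inv_conj_of_inverted hS.mul_self hl.2, hll, ← mul_assoc, hS.mul_self, one_mul, ht']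
  refine ⟨d * l⁻¹, Subgroup.mem_inf.2 ⟨Subgroup.mul_mem _ hdD (Subgroup.inv_mem _ hl.1),
    mem_centralizer_singleton.2 (comm_of_conj_eq h1)⟩, ?_⟩
  intro x hx
  exact conj_mul_inv_of_commute (hlX x hx)

/-- Subsets of `V = C_D(t)` conjugate in `G` are conjugate in `V` (elementwise). -/
theorem fusion_V [Finite G] (hS : IsRankOneSetup G Ω a t Q) {X : Set G}
    (hXD : ∀ x ∈ X, x ∈ stabilizer G a ⊓ stabilizer G (t • a))
    (hXt : ∀ x ∈ X, t * x = x * t) {g : G}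
    (hYD : ∀ x ∈ X, g * x * g⁻¹ ∈ stabilizer G a ⊓ stabilizer G (t • a))
    (hYt : ∀ x ∈ X, t * (g * x * g⁻¹) = (g * x * g⁻¹) * t) :
    ∃ v ∈ (stabilizer G a ⊓ stabilizer G (t • a)) ⊓ Subgroup.centralizer {t},
      ∀ x ∈ X, v * x * v⁻¹ = g * x * g⁻¹ := by
  have hX : X ⊆ ((stabilizer G a ⊓ stabilizer G (t • a) : Subgroup G) : Set G) := hXD
  have hXa : ∀ x ∈ X, x • a = a := fun x hx => mem_stabilizer_iff.1 (hXD x hx).1
  have hXb : ∀ x ∈ X, x • (t • a) = t • a := fun x hx => mem_stabilizer_iff.1 (hXD x hx).2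
  obtain ⟨c, hc⟩ := invol_fix_exists hS hS.mul_self
  have hca : c ≠ a := fun h => b_ne hS (by rw [← h]; exact hc)
  have hcb : c ≠ t • a := by
    intro h
    rw [h] at hc
    exact b_ne hS (smul_left_cancel t hc)
  have hXc : ∀ x ∈ X, x • c = c := by
    intro x hx
    apply invol_fix_unique hS hS.ne_one hS.mul_self _ hc
    rw [← mul_smul, hXt x hx, mul_smul, hc]
  have h3 : ∃ b c d : Ω, b ≠ c ∧ b ≠ d ∧ c ≠ d ∧
      ∀ x ∈ X, x • b = b ∧ x • c = c ∧ x • d = d :=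
    ⟨a, t • a, c, (b_ne hS).symm, hca.symm, hcb.symm,
      fun x hx => ⟨hXa x hx, hXb x hx, hXc x hx⟩⟩
  have hfix : ∀ {e : Ω}, (∀ x ∈ X, (g * x * g⁻¹) • e = e) → ∀ x ∈ X, x • (g⁻¹ • e) = g⁻¹ • e := by
    intro e he x hx
    have := congrArg (fun f => g⁻¹ • f) (he x hx)
    simp only [mul_smul, inv_smul_smul] at this
    exact this
  have hYa : ∀ x ∈ X, x • (g⁻¹ • a) = g⁻¹ • a :=
    hfix (fun x hx => mem_stabilizer_iff.1 (hYD x hx).1)
  have hYb : ∀ x ∈ X, x • (g⁻¹ • (t • a)) = g⁻¹ • (t • a) :=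
    hfix (fun x hx => mem_stabilizer_iff.1 (hYD x hx).2)
  have hne : g⁻¹ • a ≠ g⁻¹ • (t • a) := fun h => b_ne hS (smul_left_cancel g⁻¹ h).symm
  obtain ⟨h, hh, hha, hhb⟩ := C_two_trans hS hX h3 hXa hXb hYa hYb (b_ne hS).symm hne
  have hdD : g * h ∈ stabilizer G a ⊓ stabilizer G (t • a) :=
    Subgroup.mem_inf.2 ⟨by rw [mem_stabilizer_iff, mul_smul, hha, smul_inv_smul],
      by rw [mem_stabilizer_iff, mul_smul, hhb, smul_inv_smul]⟩
  have hdx : ∀ x ∈ X, (g * h) * x * (g * h)⁻¹ = g * x * g⁻¹ := by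
    intro x hx
    have e := Subgroup.mem_centralizer_iff.1 hh x hx
    calc (g * h) * x * (g * h)⁻¹ = g * (h * x) * h⁻¹ * g⁻¹ := by group
      _ = g * (x * h) * h⁻¹ * g⁻¹ := by rw [e]
      _ = g * x * g⁻¹ := by group
  have hYt' : ∀ x ∈ X, t * ((g * h) * x * (g * h)⁻¹) = ((g * h) * x * (g * h)⁻¹) * t := by
    intro x hx
    rw [hdx x hx]; exact hYt x hx
  obtain ⟨v, hv, hvx⟩ := fusion_D hS hXt hdD hYt'
  exact ⟨v, hv, fun x hx => (hvx x hx).trans (hdx x hx)⟩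

end Setup5

end Cfsg.Agent.Lib.Helper26
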