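import Mathlib
import Cfsg.Prelude.Def_GeometricClasses
import Cfsg.Agent.Lib.Helper97.Transv
import Cfsg.Agent.Lib.Helper97.TransvM
import Cfsg.Agent.Lib.Helper71.TP0
import Cfsg.Agent.Lib.Helper71.TP1

/-! S5637 piece R1I: extraction of a rank one nilpotent matrix, characteristic not two. -/

set_option autoImplicit false

namespace Cfsg.Agent.Lib.Helper26.TPR1I

open Matrix Cfsg.Agent.Lib.Helper71.TP Cfsg.Agent.Lib.Helper97
open scoped Kronecker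

variable {a b : ℕ} {F : Type*} [Field F]

/-- the inverse of a transvection -/
theorem h26_tvG_inv_val (u φ : Fin a → F) (h : φ ⬝ᵥ u = 0) :
    ((tvG u φ h)⁻¹ : GL (Fin a) F).1 = 1 - vecMulVec u φ := by
  have h' : (-φ) ⬝ᵥ u = 0 := by rw [neg_dotProduct, h, neg_zero]
  have h1 : (tvG u φ h)⁻¹ = tvG u (-φ) h' := by
    apply inv_eq_of_mul_eq_one_right
    apply Units.ext
    rw [Units.val_mul, tvG_val, tvG_val, tv_mul_tv_same u φ (-φ) h, add_neg_cancel,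
      tv_zero_right]
    rfl
  rw [h1, tvG_val, tv, Matrix.vecMulVec_neg, sub_eq_add_neg]

/-- the conjugation identity -/
theorem h26_conj_identity (u φ : Fin a → F) (X : Matrix (Fin a) (Fin a) F) :
    (1 + vecMulVec u φ) * X * (1 - vecMulVec u φ) - X =
      vecMulVec u (φ ᵥ* X) - vecMulVec (X *ᵥ u) φ - (φ ⬝ᵥ X *ᵥ u) • vecMulVec u φ := by
  rw [Matrix.add_mul, Matrix.one_mul, Matrix.mul_sub, Matrix.mul_one, Matrix.add_mul,
    Matrix.vecMulVec_mul, Matrix.mul_vecMulVec, Matrix.vecMulVec_mul_vecMulVec,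
    Matrix.vecMulVec_smul, Matrix.dotProduct_mulVec]
  abel

/-- conjugating by a transvection and subtracting stays in `S` -/
theorem h26_key (S : Submodule F (Matrix (Fin a) (Fin a) F))
    (hconj : ∀ A : GL (Fin a) F, A.1.det = 1 → ∀ α ∈ S, A.1 * α * (A⁻¹ : GL (Fin a) F).1 ∈ S)
    (u φ : Fin a → F) (hφu : φ ⬝ᵥ u = 0) (X : Matrix (Fin a) (Fin a) F) (hX : X ∈ S) :
    vecMulVec u (φ ᵥ* X) - vecMulVec (X *ᵥ u) φ - (φ ⬝ᵥ X *ᵥ u) • vecMulVec u φ ∈ S := by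
  have h1 := hconj (tvG u φ hφu) (by rw [tvG_val, tv_det hφu]) X hX
  rw [tvG_val, h26_tvG_inv_val, tv] at h1
  have h3 := S.sub_mem h1 hX
  rwa [h26_conj_identity] at h3

/-- the first commutator `δ₁` and its two properties -/
theorem h26_delta (α : Matrix (Fin a) (Fin a) F) (u φ : Fin a → F) (hφu : φ ⬝ᵥ u = 0)
    (hφ1 : φ ⬝ᵥ α *ᵥ u = 1) :
    (vecMulVec u (φ ᵥ* α) - vecMulVec (α *ᵥ u) φ - (φ ⬝ᵥ α *ᵥ u) • vecMulVec u φ) *ᵥ u = u ∧
    ∀ φ' : Fin a → F, φ' ⬝ᵥ u = 0 →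
      φ' ᵥ* (vecMulVec u (φ ᵥ* α) - vecMulVec (α *ᵥ u) φ - (φ ⬝ᵥ α *ᵥ u) • vecMulVec u φ)
        = -((φ' ⬝ᵥ α *ᵥ u) • φ) := by
  constructor
  · simp only [Matrix.sub_mulVec, Matrix.smul_mulVec, Matrix.vecMulVec_mulVec, hφu,
      ← Matrix.dotProduct_mulVec, hφ1]
    simp
  · intro φ' h'
    simp only [Matrix.vecMul_sub, Matrix.vecMul_smul, Matrix.vecMul_vecMulVec, h', hφ1]
    simp

/-- R1I -/
theorem rank_one_of_two_ne (h2 : (2 : F) ≠ 0) (S : Submodule F (Matrix (Fin a) (Fin a) F))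
    (hconj : ∀ A : GL (Fin a) F, A.1.det = 1 → ∀ α ∈ S, A.1 * α * (A⁻¹ : GL (Fin a) F).1 ∈ S)
    (α : Matrix (Fin a) (Fin a) F) (hα : α ∈ S) (u : Fin a → F) (hu : ∀ c : F, α *ᵥ u ≠ c • u) :
    ∃ u' φ : Fin a → F, u' ≠ 0 ∧ φ ≠ 0 ∧ φ ⬝ᵥ u' = 0 ∧ vecMulVec u' φ ∈ S := by
  have hu0 : u ≠ 0 := by
    rintro rfl
    exact hu 0 (by simp)
  have hnot : α *ᵥ u ∉ Submodule.span F {u} := by
    intro h
    obtain ⟨c, hc⟩ := Submodule.mem_span_singleton.mp h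
    exact hu c hc.symm
  obtain ⟨φ, hφP, hφ1⟩ := exists_dot (Submodule.span F {u}) (α *ᵥ u) hnot
  have hφu : φ ⬝ᵥ u = 0 := hφP u (Submodule.mem_span_singleton_self u)
  have hφ0 : φ ≠ 0 := by
    rintro rfl
    simp at hφ1
  have hδ₁ := h26_key S hconj u φ hφu α hα
  obtain ⟨hd1, hd2⟩ := h26_delta α u φ hφu hφ1
  have hδ₂ := h26_key S hconj u φ hφu _ hδ₁
  rw [hd1, hd2 φ hφu, hφu, hφ1] at hδ₂
  have h5 : vecMulVec u (-((1 : F) • φ)) - vecMulVec u φ - (0 : F) • vecMulVec u φ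
      = (-2 : F) • vecMulVec u φ := by
    rw [one_smul, Matrix.vecMulVec_neg, zero_smul, sub_zero, neg_smul, two_smul]
    abel
  rw [h5] at hδ₂
  refine ⟨u, φ, hu0, hφ0, hφu, ?_⟩
  have h6 := S.smul_mem ((-2 : F)⁻¹) hδ₂
  rwa [smul_smul, inv_mul_cancel₀ (neg_ne_zero.mpr h2), one_smul] at h6

end Cfsg.Agent.Lib.Helper26.TPR1I
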