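import Mathlib
import Cfsg.Prelude.Def_GeometricClasses
import Cfsg.Agent.Lib.Helper97.Transv
import Cfsg.Agent.Lib.Helper97.TransvM
import Cfsg.Agent.Lib.Helper71.TP0
import Cfsg.Agent.Lib.Helper71.TP1
import Cfsg.Agent.Lib.Helper26.TPR1I

/-! S5637 piece R1II: extraction of a rank one nilpotent matrix, `a ≥ 3`. -/

set_option autoImplicit false

namespace Cfsg.Agent.Lib.Helper26.TPR1II

open Matrix Cfsg.Agent.Lib.Helper71.TP Cfsg.Agent.Lib.Helper97 Cfsg.Agent.Lib.Helper26.TPR1I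
open scoped Kronecker

variable {a b : ℕ} {F : Type*} [Field F]

/-- R1II -/
theorem rank_one_of_three_le (ha : 3 ≤ a) (S : Submodule F (Matrix (Fin a) (Fin a) F))
    (hconj : ∀ A : GL (Fin a) F, A.1.det = 1 → ∀ α ∈ S, A.1 * α * (A⁻¹ : GL (Fin a) F).1 ∈ S)
    (α : Matrix (Fin a) (Fin a) F) (hα : α ∈ S) (u : Fin a → F) (hu : ∀ c : F, α *ᵥ u ≠ c • u) :
    ∃ u' φ : Fin a → F, u' ≠ 0 ∧ φ ≠ 0 ∧ φ ⬝ᵥ u' = 0 ∧ vecMulVec u' φ ∈ S := by
  have hu0 : u ≠ 0 := by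
    rintro rfl
    exact hu 0 (by simp)
  have hnot : α *ᵥ u ∉ Submodule.span F {u} := by
    intro h
    obtain ⟨c, hc⟩ := Submodule.mem_span_singleton.mp h
    exact hu c hc.symm
  obtain ⟨φ, hφP, hφ1⟩ := exists_dot (Submodule.span F {u}) (α *ᵥ u) hnot
  have hφu : φ ⬝ᵥ u = 0 := hφP u (Submodule.mem_span_singleton_self u)
  obtain ⟨φ', hφ'0, h1', h2'⟩ :
      ∃ φ' : Fin a → F, φ' ≠ 0 ∧ φ' ⬝ᵥ u = 0 ∧ φ' ⬝ᵥ α *ᵥ u = 0 := by
    have hlt : Module.finrank F (Fin 2 → F) < Module.finrank F (Fin a → F) := by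
      rw [Module.finrank_fin_fun, Module.finrank_fin_fun]
      omega
    have hker := LinearMap.ker_ne_bot_of_finrank_lt
      (f := (Matrix.of ![u, α *ᵥ u] : Matrix (Fin 2) (Fin a) F).mulVecLin) hlt
    obtain ⟨x, hx, hx0⟩ := Submodule.exists_mem_ne_zero_of_ne_bot hker
    rw [LinearMap.mem_ker, Matrix.mulVecLin_apply] at hx
    refine ⟨x, hx0, ?_, ?_⟩
    · have h : u ⬝ᵥ x = 0 := congrFun hx 0
      rw [dotProduct_comm]
      exact h
    · have h : α *ᵥ u ⬝ᵥ x = 0 := congrFun hx 1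
      rw [dotProduct_comm]
      exact h
  have hδ₁ := h26_key S hconj u φ hφu α hα
  obtain ⟨hd1, hd2⟩ := h26_delta α u φ hφu hφ1
  have hδ₂ := h26_key S hconj u φ' h1' _ hδ₁
  rw [hd1, hd2 φ' h1', h2', h1'] at hδ₂
  have h5 : vecMulVec u (-((0 : F) • φ)) - vecMulVec u φ' - (0 : F) • vecMulVec u φ'
      = -vecMulVec u φ' := by
    rw [zero_smul, neg_zero, Matrix.vecMulVec_zero, zero_smul, sub_zero, zero_sub]
  rw [h5] at hδ₂
  exact ⟨u, φ', hu0, hφ'0, h1', by simpa using S.neg_mem hδ₂⟩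

end Cfsg.Agent.Lib.Helper26.TPR1II
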