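import Cfsg.Agent.Lib.Helper26.TwF4Defs

set_option autoImplicit false

/-! Generic filtration steps for a
"word-fixed" subgroup, the level data of `F₄`, and the chain `|G1 ∩ U| = q^12`. -/

namespace Cfsg.Agent.Lib.Helper26.TF4

open Cfsg.Lie Matrix Cfsg.Agent.Lib.Helper24

section

variable {F : Type*} [Field F]
variable (D : ChevalleyDatum) (hD : D ∈ chevList) (lv : ℕ → ℕ) (N : ℕ) (hL : LevData D lv N)
  (ia : ℕ → ℕ) (hP : PosData D lv N ia)

include hL hP in
/-- If `u ∈ G1` lies in the `c`-th step of the filtration, every letter `x_{ρ r}(g_r(t_r))` of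
its image word of level below `N + c` is trivial. -/
theorem wordfix_zero (ρ : ℕ → ℕ) (g : ℕ → F → F) (G1 : Subgroup (GL D.Idx F))
    (hρpos : ∀ r, D.IsPosRoot r → D.IsPosRoot (ρ r))
    (hρinj : ∀ r r', D.IsPosRoot r → D.IsPosRoot r' → ρ r = ρ r' → r = r')
    (hg0 : ∀ r, g r 0 = 0) (hg : ∀ r y, g r y = 0 → y = 0)
    (hfix : WordFix D hD ρ g G1) (u : GL D.Idx F) (huG : u ∈ G1) (t : ℕ → F)
    (hco : IsCoord D hD u t) (c : ℕ) (hc1 : 1 ≤ c)
    (hu : u ∈ utSubgroup (R := F) (wLev D lv N) c hc1) :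
    ∀ l, 1 ≤ l → l ≤ c → ∀ r, D.IsPosRoot r → lv (ρ r) < N + l → t r = 0 := by
  intro l hl1
  induction l, hl1 using Nat.le_induction with
  | base =>
    intro _ r hr hlt
    have := hP.pos (ρ r) (hρpos r hr)
    omega
  | succ l hl1 ih =>
    intro hlc r hr hlt
    have ih' := ih (by omega)
    by_cases hlt' : lv (ρ r) < N + l
    · exact ih' r hr hlt'
    · have hlv : lv (ρ r) = N + l := by omega
      have hρr := hρpos r hr
      have hW : ∀ p ∈ D.posRoots.map (fun r => (ρ r, g r (t r))),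
          p.2 = 0 ∨ (p.1 < D.nroots ∧ N + l ≤ lv p.1) := by
        intro p hp
        obtain ⟨r', hr', rfl⟩ := List.mem_map.1 hp
        have hr'' := (mem_posRoots D r').1 hr'
        by_cases h : lv (ρ r') < N + l
        · left
          show g r' (t r') = 0
          rw [ih' r' hr'' h, hg0]
        · right
          exact ⟨(hρpos r' hr'').1, by show N + l ≤ lv (ρ r'); omega⟩
      have e2 := wGL_ent D hD lv N hL _ l hl1 hW (ρ r) (ia (ρ r)) hρr.1 (by omega)
        (hP.ia_lt _ hρr)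
      rw [← hfix u huG t hco] at e2
      have hz : ent D u (ρ r) (ia (ρ r)) = 0 := by
        rw [ent_eq D u (ρ r) (ia (ρ r)) hρr.1 (hP.ia_lt _ hρr)]
        exact ut_apply_eq_zero (wLev D lv N) c hc1 u hu _ _
          (by show lv (ρ r) < N + c; omega) (by simp)
      have e3 : (List.map (fun p : ℕ × F => if p.1 = ρ r then p.2 else 0)
          (List.map (fun r => (ρ r, g r (t r))) D.posRoots)).sum = g r (t r) := by
        rw [List.map_map,
          ← sum_ite_nodup D.posRoots (posRoots_nodup D) r ((mem_posRoots D r).2 hr)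
            (fun r => g r (t r))]
        congr 1
        apply List.map_congr_left
        intro r' hr'
        have hr'' := (mem_posRoots D r').1 hr'
        show (if ρ r' = ρ r then g r' (t r') else 0) = _
        by_cases h : r' = r
        · rw [if_pos h, if_pos (by rw [h])]
        · rw [if_neg h, if_neg (fun hh => h (hρinj r' r hr'' hr hh))]
      rw [e3, hz] at e2
      rcases mul_eq_zero.1 e2.symm with h | h
      · exact absurd (neg_eq_zero.1 h) (cartan_ne_zero D lv N ia hP (ρ r) hρr)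
      · exact hg r _ h

include hL hP in
/-- A level all of whose roots have a partner of smaller level gives no new elements. -/
theorem long_step (ρ : ℕ → ℕ) (g : ℕ → F → F) (G1 : Subgroup (GL D.Idx F))
    (hρpos : ∀ r, D.IsPosRoot r → D.IsPosRoot (ρ r))
    (hρinj : ∀ r r', D.IsPosRoot r → D.IsPosRoot r' → ρ r = ρ r' → r = r')
    (hg0 : ∀ r, g r 0 = 0) (hg : ∀ r y, g r y = 0 → y = 0)
    (hfix : WordFix D hD ρ g G1) (c : ℕ) (hc1 : 1 ≤ c)
    (hlong : ∀ r, D.IsPosRoot r → lv r = N + c → lv (ρ r) < N + c) :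
    G1 ⊓ D.posUnipotent F ⊓ utSubgroup (R := F) (wLev D lv N) c hc1 =
      G1 ⊓ D.posUnipotent F ⊓ utSubgroup (R := F) (wLev D lv N) (c + 1) (Nat.le_add_left 1 c) := by
  apply le_antisymm
  · rintro u ⟨⟨huG, huU⟩, huF⟩
    refine ⟨⟨huG, huU⟩, ?_⟩
    obtain ⟨t, hco⟩ := exists_coord D hD u huU
    have h0 := coord_zero_of_fil D hD lv N hL ia hP u t hco c hc1 huF
    have hz := wordfix_zero D hD lv N hL ia hP ρ g G1 hρpos hρinj hg0 hg hfix u huG t hco c hc1
      huF c hc1 le_rfl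
    apply fil_of_coord_zero D hD lv N hL u t hco (c + 1)
    intro r hr hlt
    by_cases hlt' : lv r < N + c
    · exact h0 r hr hlt'
    · exact hz r hr (hlong r hr (by omega))
  · exact inf_le_inf_left _ (utSubgroup_mono (wLev D lv N) c (c + 1) hc1 (Nat.le_succ c))

/-- The trivial twisting datum. -/
def trivSig (F : Type*) [Field F] (D : ChevalleyDatum) : SigData F D where
  M := 1
  M' := 1
  hM := Matrix.mul_one 1
  hM' := Matrix.mul_one 1
  f := RingHom.id F
  π := id
  ε := fun _ => 1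
  hπ := fun _ hs => hs
  hε := fun _ => Or.inl rfl
  hc := fun s _ t => by simp

theorem trivSig_sig (g : GL D.Idx F) : (trivSig F D).sig g = g := by
  apply Units.ext
  rw [SigData.sig_val]
  show (1 : Matrix D.Idx D.Idx F) * (g : Matrix D.Idx D.Idx F).map (RingHom.id F) * 1 = _
  rw [Matrix.one_mul, Matrix.mul_one]
  ext i j
  rfl

include hD hL hP in
/-- A level with exactly one root `a` and a family with arbitrary coordinate at `a` multiplies
the order by `|F|`. -/
theorem short_step (G1 : Subgroup (GL D.Idx F)) (c : ℕ) (hc1 : 1 ≤ c) (a : ℕ)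
    (ha : D.IsPosRoot a) (hlva : lv a = N + c)
    (huniq : ∀ r, D.IsPosRoot r → lv r = N + c → r = a)
    (X : F → GL D.Idx F)
    (hX : ∀ y, X y ∈ G1 ∧ X y ∈ D.posUnipotent F ∧
      X y ∈ utSubgroup (R := F) (wLev D lv N) c hc1 ∧
      ent D (X y) a (ia a) = -((D.cartan (ia a) a : ℤ) : F) * y) :
    Nat.card ↥(G1 ⊓ D.posUnipotent F ⊓ utSubgroup (R := F) (wLev D lv N) c hc1) =
      Nat.card F * Nat.card ↥(G1 ⊓ D.posUnipotent F ⊓
          utSubgroup (R := F) (wLev D lv N) (c + 1) (Nat.le_add_left 1 c)) := by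
  have h := orbit_step D hD lv N hL ia hP (trivSig F D) (fun r hr => ⟨hr, rfl⟩)
    (fun r r' _ _ h => h) G1 (fun g _ => trivSig_sig D g) c (c + 1) hc1 (Nat.lt_succ_self c) a ha
    hlva (fun r hr h1 h2 => ⟨0, huniq r hr (by omega)⟩) (fun _ => True) X (fun _ _ => trivial)
    trivial (fun y _ => hX y)
  rw [h]
  congr 1
  exact Nat.card_congr (Equiv.subtypeUnivEquiv (fun _ => trivial))

end

/-! ### The level data of `F₄` -/

set_option maxRecDepth 1000000 in
theorem levF4_chk : (∀ r < chevF4.nroots, lvF4 (chevF4.neg r) + lvF4 r = 2 * 41) ∧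
    (∀ r < chevF4.nroots, ∀ s < chevF4.nroots, ∀ e ∈ cent chevF4 r s,
      lvF4 e.1 + e.2.1 * 41 = lvF4 s + e.2.1 * lvF4 r) := by decide +kernel

theorem levF4 : LevData chevF4 lvF4 41 := ⟨levF4_chk.1, levF4_chk.2⟩

set_option maxRecDepth 1000000 in
theorem posF4_chk : ∀ r < chevF4.nroots, chevF4.IsPosRoot r →
    41 + 1 ≤ lvF4 r ∧ iaF4 r < chevF4.rank ∧
      (chevF4.cartan (iaF4 r) r = 1 ∨ chevF4.cartan (iaF4 r) r = -1) := by decide +kernel

theorem posF4 : PosData chevF4 lvF4 41 iaF4 :=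
  ⟨fun r hr => (posF4_chk r hr.1 hr).1, fun r hr => (posF4_chk r hr.1 hr).2.1,
    fun r hr => (posF4_chk r hr.1 hr).2.2⟩

set_option maxRecDepth 1000000 in
theorem rho_chk : (∀ r < chevF4.nroots, chevF4.IsPosRoot r → chevF4.IsPosRoot (rho r)) ∧
    (∀ r < chevF4.nroots, ∀ r' < chevF4.nroots, rho r = rho r' → r = r') := by decide +kernel

theorem rho_pos (r : ℕ) (hr : chevF4.IsPosRoot r) : chevF4.IsPosRoot (rho r) :=
  rho_chk.1 r hr.1 hr

theorem rho_inj (r r' : ℕ) (hr : chevF4.IsPosRoot r) (hr' : chevF4.IsPosRoot r')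
    (h : rho r = rho r') : r = r' := rho_chk.2 r hr.1 r' hr'.1 h

/-- `a` is the only positive root of level `41 + c`. -/
def onlyF4 (c a : ℕ) : Prop :=
  ∀ r < chevF4.nroots, chevF4.IsPosRoot r → lvF4 r = 41 + c → r = a

instance (c a : ℕ) : Decidable (onlyF4 c a) := by
  unfold onlyF4
  infer_instance

/-- The positive roots of level `41 + c` have a partner of smaller level. -/
def lowF4 (c : ℕ) : Prop :=
  ∀ r < chevF4.nroots, chevF4.IsPosRoot r → lvF4 r = 41 + c → lvF4 (rho r) < 41 + c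

instance (c : ℕ) : Decidable (lowF4 c) := by
  unfold lowF4
  infer_instance

set_option maxRecDepth 1000000 in
theorem shTab_chk : ∀ p ∈ shTab, chevF4.IsPosRoot p.1 ∧ lvF4 p.1 = 41 + p.2 ∧ onlyF4 p.2 p.1 := by
  decide +kernel

set_option maxRecDepth 1000000 in
theorem low_chk : ∀ c < 42, (∀ p ∈ shTab, p.2 ≠ c) → lowF4 c := by decide +kernel

set_option maxRecDepth 1000000 in
theorem topF4 : ∀ r < chevF4.nroots, chevF4.IsPosRoot r → lvF4 r < 41 + 42 := by decide +kernel

/-- The number of short positive roots of level at least `41 + c`. -/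
def cnt (c : ℕ) : ℕ := (shTab.filter fun p => decide (c ≤ p.2)).length

theorem cnt_chk : cnt 1 = 12 ∧ cnt 42 = 0 ∧
    (∀ c < 42, (∀ p ∈ shTab, p.2 ≠ c) → cnt c = cnt (c + 1)) ∧
    (∀ p ∈ shTab, cnt p.2 = cnt (p.2 + 1) + 1) := by decide +kernel

/-! ### The chain -/

section

variable {K : Type*} [Field K]

/-- The order of `G1 ∩ U` for a word-fixed subgroup `G1` with families at the 12 short roots. -/
theorem card_fil (e : ℕ) (he : e ≠ 0) (G1 : Subgroup (GL chevF4.Idx K))
    (hfix : WordFix chevF4 hF4 rho (fun r y => y ^ pw e r) G1)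
    (hfam : ∀ p ∈ shTab, Fam G1 p.1 p.2) :
    ∀ d c : ℕ, c + d = 42 → ∀ hc1 : 1 ≤ c,
      Nat.card ↥(G1 ⊓ chevF4.posUnipotent K ⊓ utSubgroup (R := K) (wLev chevF4 lvF4 41) c hc1) =
        Nat.card K ^ cnt c := by
  have hpw : ∀ r, pw e r ≠ 0 := by
    intro r
    unfold pw
    split_ifs <;> omega
  intro d
  induction d with
  | zero =>
    intro c hc hc1
    have hc' : c = 42 := by omega
    subst hc'
    rw [cnt_chk.2.1, pow_zero]
    exact card_top chevF4 hF4 lvF4 41 levF4 iaF4 posF4 G1 42 hc1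
      (fun r hr => topF4 r hr.1 hr)
  | succ d ih =>
    intro c hc hc1
    have ih' := ih (c + 1) (by omega) (Nat.le_add_left 1 c)
    by_cases hsh : ∀ p ∈ shTab, p.2 ≠ c
    · rw [long_step chevF4 hF4 lvF4 41 levF4 iaF4 posF4 rho (fun r y => y ^ pw e r) G1 rho_pos
        rho_inj (fun r => zero_pow (hpw r)) (fun r y h => pow_eq_zero_iff (hpw r) |>.1 h) hfix c hc1
        (fun r hr => low_chk c (by omega) hsh r hr.1 hr), ih',
        cnt_chk.2.2.1 c (by omega) hsh]
    · push Not at hsh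
      obtain ⟨p, hp, rfl⟩ := hsh
      obtain ⟨hpos, hlv, honly⟩ := shTab_chk p hp
      obtain ⟨hc1', X, hX⟩ := hfam p hp
      rw [short_step chevF4 hF4 lvF4 41 levF4 iaF4 posF4 G1 p.2 hc1 p.1 hpos hlv
        (fun r hr h => honly r hr.1 hr h) X hX, ih', cnt_chk.2.2.2 p hp, pow_succ, mul_comm]

/-- `|G1 ∩ U| = q^12`. -/
theorem card_U (e : ℕ) (he : e ≠ 0) (G1 : Subgroup (GL chevF4.Idx K))
    (hfix : WordFix chevF4 hF4 rho (fun r y => y ^ pw e r) G1)
    (hfam : ∀ p ∈ shTab, Fam G1 p.1 p.2) :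
    Nat.card ↥(G1 ⊓ chevF4.posUnipotent K) = Nat.card K ^ 12 := by
  have h := card_fil e he G1 hfix hfam 41 1 rfl le_rfl
  rw [inf_fil_one chevF4 hF4 lvF4 41 levF4 iaF4 posF4 G1, cnt_chk.1] at h
  exact h

end

end Cfsg.Agent.Lib.Helper26.TF4
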