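import Cfsg.Agent.Lib.Helper26.TwF4H

set_option autoImplicit false

/-! The fixed points of the twisting endomorphism in the torus: `H ∩ Fix σ = H ∩ ²F₄`. -/

namespace Cfsg.Agent.Lib.Helper26.TF4

open Cfsg.Lie Matrix Cfsg.Agent.Lib.Helper24
open Cfsg.Agent.Lib.Helper25 (wPi wEta)

section

variable {K : Type*} [Field K]

/-- the character of a `σ`-fixed element of `H` -/
theorem h1_char_fix {e : ℕ} {σ : ↥(chevF4.group K) →* ↥(chevF4.group K)} (hσ : IsSig K e σ)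
    (x : GL chevF4.Idx K) (hxH : x ∈ chevF4.diagonalSubgroup K) (hxS : x ∈ sigFix σ) :
    ∃ d : ℕ → K, MulGraded chevF4 d ∧
      (x : Matrix chevF4.Idx chevF4.Idx K) = torus K chevF4 d ∧
      d 33 = d 24 ^ e ∧ d 27 = d 25 ^ e := by
  obtain ⟨d, hd, hx⟩ := diagonalSubgroup_le_gradedTorus chevF4 hF4 hxH
  obtain ⟨h, hfix⟩ := (mem_sigFix σ x).1 hxS
  obtain ⟨l24, l25, l27, l33, -, -, r24, r25, s24, s25, -⟩ := h1_tab
  have p24 : pw e 24 = e := by unfold pw; rw [s24]; rfl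
  have p25 : pw e 25 = e := by unfold pw; rw [s25]; rfl
  have key : ∀ r < chevF4.nroots, ∀ t : K,
      (⟨x, h⟩ : ↥(chevF4.group K)) * xG chevF4 hF4 r t =
        xG chevF4 hF4 r (d r * t) * ⟨x, h⟩ := by
    intro r hr t
    apply Subtype.ext
    apply Units.ext
    show (x : Matrix chevF4.Idx chevF4.Idx K) * chevF4.x K r t =
      chevF4.x K r (d r * t) * (x : Matrix chevF4.Idx chevF4.Idx K)
    rw [hx]
    exact torus_mul_x chevF4 d hd r hr t
  have aux : ∀ a b : ℕ, a < chevF4.nroots → b < chevF4.nroots → rho a = b → pw e a = e →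
      d b = d a ^ e := by
    intro a b ha hb hab hpa
    have e2 := congrArg σ (key a ha 1)
    rw [map_mul, map_mul, hfix, hσ a ha, hσ a ha, hab, hpa, key b hb] at e2
    have e3 := congrArg (fun g : ↥(chevF4.group K) =>
      ((g : GL chevF4.Idx K) : Matrix chevF4.Idx chevF4.Idx K)) (mul_right_cancel e2)
    have e4 : chevF4.x K b (d b * 1 ^ e) = chevF4.x K b ((d a * 1) ^ e) := e3
    have e5 := Cfsg.Agent.Lib.Helper24.x_inj chevF4 hF4 b hb _ _ e4
    rw [one_pow, mul_one, mul_one] at e5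
    exact e5
  exact ⟨d, hd, hx, aux 24 33 l24 l33 r24 p24, aux 25 27 l25 l27 r25 p25⟩

/-- a `σ`-fixed element of `H` is determined by its diagonal entries at the roots `24`, `25` -/
theorem h1_inj_fix {e : ℕ} {σ : ↥(chevF4.group K) →* ↥(chevF4.group K)} (hσ : IsSig K e σ)
    (x y : GL chevF4.Idx K)
    (hxH : x ∈ chevF4.diagonalSubgroup K) (hxS : x ∈ sigFix σ)
    (hyH : y ∈ chevF4.diagonalSubgroup K) (hyS : y ∈ sigFix σ)
    (h24 : (x : Matrix chevF4.Idx chevF4.Idx K) (Sum.inr ⟨24, h1_tab.1⟩) (Sum.inr ⟨24, h1_tab.1⟩) =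
      (y : Matrix chevF4.Idx chevF4.Idx K) (Sum.inr ⟨24, h1_tab.1⟩) (Sum.inr ⟨24, h1_tab.1⟩))
    (h25 : (x : Matrix chevF4.Idx chevF4.Idx K) (Sum.inr ⟨25, h1_tab.2.1⟩)
        (Sum.inr ⟨25, h1_tab.2.1⟩) =
      (y : Matrix chevF4.Idx chevF4.Idx K) (Sum.inr ⟨25, h1_tab.2.1⟩)
        (Sum.inr ⟨25, h1_tab.2.1⟩)) : x = y := by
  obtain ⟨dx, hdx, hx, x33, x27⟩ := h1_char_fix hσ x hxH hxS
  obtain ⟨dy, hdy, hy, y33, y27⟩ := h1_char_fix hσ y hyH hyS
  obtain ⟨l24, l25, l27, l33, -⟩ := h1_tab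
  rw [hx, hy, torus_apply_rv, torus_apply_rv] at h24 h25
  have h33 : dx 33 = dy 33 := by rw [x33, y33, h24]
  have h27 : dx 27 = dy 27 := by rw [x27, y27, h25]
  have hzH : x⁻¹ * y ∈ chevF4.diagonalSubgroup K :=
    Subgroup.mul_mem _ (Subgroup.inv_mem _ hxH) hyH
  obtain ⟨dz, hdz, hz⟩ := diagonalSubgroup_le_gradedTorus chevF4 hF4 hzH
  have hmul : torus K chevF4 dy = torus K chevF4 (fun s => dx s * dz s) := by
    rw [← torus_mul_torus, ← hx, ← hz, ← hy, ← Units.val_mul, mul_inv_cancel_left]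
  have hent : ∀ r < chevF4.nroots, dy r = dx r * dz r := by
    intro r hr
    have := congrFun (congrFun hmul (Sum.inr ⟨r, hr⟩)) (Sum.inr ⟨r, hr⟩)
    rwa [torus_apply_rv, torus_apply_rv] at this
  have hone : ∀ r < chevF4.nroots, dx r = dy r → dz r = 1 := by
    intro r hr h
    have e := hent r hr
    rw [← h] at e
    have h0 : dx r ≠ 0 := right_ne_zero_of_mul_eq_one (hdx.neg r hr)
    have : dx r * 1 = dx r * dz r := by rw [mul_one]; exact e
    exact (mul_left_cancel₀ h0 this).symm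
  have hz1 : x⁻¹ * y = 1 := by
    apply torus_eq_one_of_simple chevF4 hF4 _ dz hdz hz
    intro i hi
    rw [TwF4C.f4_rank] at hi
    obtain ⟨s0, s1, s2, s3⟩ := TwF4C.f4_simple
    interval_cases i
    · rw [s0]; exact hone 33 l33 h33
    · rw [s1]; exact hone 27 l27 h27
    · rw [s2]; exact hone 25 l25 h25
    · rw [s3]; exact hone 24 l24 h24
  exact inv_mul_eq_one.1 hz1

end

/-- `H ∩ Fix σ = H ∩ ²F₄(q)`. -/
theorem diag_inf_sigFix (K : Type*) [Field K] [Fintype K] (m : ℕ)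
    (hK : Fintype.card K = 2 ^ (2 * m + 1)) {σ : ↥(chevF4.group K) →* ↥(chevF4.group K)}
    (hσ : IsSig K (2 ^ m) σ) :
    chevF4.diagonalSubgroup K ⊓ sigFix σ = chevF4.diagonalSubgroup K ⊓ twistedF4 K (2 ^ m) := by
  have := charP_two K (2 * m + 1) hK
  obtain ⟨hF, hadd⟩ := field_facts K m hK
  have hle := tw_le_sigFix hσ hF hadd
  have hsub : chevF4.diagonalSubgroup K ⊓ twistedF4 K (2 ^ m) ≤
      chevF4.diagonalSubgroup K ⊓ sigFix σ := inf_le_inf_left _ hle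
  have hcard : Nat.card (Kˣ × Kˣ) = (2 ^ (2 * m + 1) - 1) ^ 2 := by
    rw [Nat.card_prod, Nat.card_units, Nat.card_eq_fintype_card, hK, sq]
  have hne : ∀ (x : ↥(chevF4.diagonalSubgroup K ⊓ sigFix σ)) (r : ℕ)
      (hr : r < chevF4.nroots),
      ((x : GL chevF4.Idx K) : Matrix chevF4.Idx chevF4.Idx K) (Sum.inr ⟨r, hr⟩)
        (Sum.inr ⟨r, hr⟩) ≠ 0 := by
    intro x r hr
    obtain ⟨d, hd, hx⟩ := diagonalSubgroup_le_gradedTorus chevF4 hF4 x.2.1
    rw [hx, torus_apply_rv]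
    exact right_ne_zero_of_mul_eq_one (hd.neg r hr)
  have hub : Nat.card ↥(chevF4.diagonalSubgroup K ⊓ sigFix σ) ≤
      Nat.card ↥(chevF4.diagonalSubgroup K ⊓ twistedF4 K (2 ^ m)) := by
    rw [card_H1 K m hK, ← hcard]
    let f : ↥(chevF4.diagonalSubgroup K ⊓ sigFix σ) → Kˣ × Kˣ := fun x =>
      (Units.mk0 _ (hne x 24 h1_tab.1), Units.mk0 _ (hne x 25 h1_tab.2.1))
    apply Nat.card_le_card_of_injective f
    intro x y hxy
    have h24 := congrArg (fun p : Kˣ × Kˣ => (p.1 : K)) hxy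
    have h25 := congrArg (fun p : Kˣ × Kˣ => (p.2 : K)) hxy
    exact Subtype.ext (h1_inj_fix hσ _ _ x.2.1 x.2.2 y.2.1 y.2.2 h24 h25)
  exact (Subgroup.eq_of_le_of_card_ge hsub hub).symm

end Cfsg.Agent.Lib.Helper26.TF4
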