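import Cfsg.Agent.Lib.Helper26.TwF4J1
import Cfsg.Agent.Lib.Helper25.ChevOrder

set_option autoImplicit false

/-! The fixed points of the twisting endomorphism in the `B₂` unipotent group
`X₂₇ X₂₅ X₂₈ X₃₀ = U_{n₂}⁻`: there are at most `|K|²`. -/

namespace Cfsg.Agent.Lib.Helper26.TF4

open Cfsg.Lie Matrix Cfsg.Agent.Lib.Helper24
open Cfsg.Agent.Lib.Helper25 (wPi wEta uMinus)

set_option maxRecDepth 1000000 in
theorem j2_tab : (∀ r < 48, chevF4.IsPosRoot r → chevF4.IsNegRoot (wPi chevF4 [1, 2, 1, 2] r) →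
      r = 27 ∨ r = 25 ∨ r = 28 ∨ r = 30) ∧
    chevF4.IsPosRoot 27 ∧ chevF4.IsPosRoot 25 ∧ chevF4.IsPosRoot 28 ∧ chevF4.IsPosRoot 30 ∧
    rho 27 = 25 ∧ rho 25 = 27 ∧ rho 28 = 30 ∧ rho 30 = 28 ∧
    Gr.shF4.contains 27 = true ∧ Gr.shF4.contains 25 = false ∧
    Gr.shF4.contains 28 = true ∧ Gr.shF4.contains 30 = false ∧
    lvF4 27 = 41 + 4 ∧ lvF4 25 = 41 + 5 ∧ lvF4 28 = 41 + 9 ∧ lvF4 30 = 41 + 13 ∧
    iaF4 27 < chevF4.rank ∧ iaF4 25 < chevF4.rank ∧ iaF4 28 < chevF4.rank ∧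
    iaF4 30 < chevF4.rank := by decide +kernel

section

variable {K : Type*} [Field K]

local notation "X" => xGL chevF4 hF4

/-- the normal form in the `B₂` unipotent group -/
noncomputable def nfB (a t A B : K) : GL chevF4.Idx K := X 27 a * (X 25 t * (X 28 A * X 30 B))

theorem nfB_eq_wGL (a t A B : K) :
    nfB a t A B = wGL chevF4 hF4 [(27, a), (25, t), (28, A), (30, B)] := by
  unfold nfB
  simp only [wGL_cons, wGL_nil, mul_one]

theorem nfB_mul [CharP K 2] (a t A B c t' A' B' : K) :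
    nfB a t A B * nfB c t' A' B' = nfB (a + c) (t + t') (c * t + A + A') (c ^ 2 * t + B + B') := by
  have h := TwF4P.bw_mul_tail a t A B c t' A' B' (1 : GL chevF4.Idx K)
  simp only [mul_one] at h
  unfold nfB
  simp only [mul_assoc]
  exact h

theorem nfB_zero : nfB (0 : K) 0 0 0 = 1 := by
  unfold nfB
  simp only [xGL_zero, mul_one]

theorem nfB_inv [CharP K 2] (a t A B : K) :
    (nfB a t A B)⁻¹ = nfB a t (a * t + A) (a ^ 2 * t + B) := by
  apply inv_eq_of_mul_eq_one_right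
  rw [nfB_mul]
  have e1 : a + a = 0 := CharTwo.add_self_eq_zero a
  have e2 : t + t = 0 := CharTwo.add_self_eq_zero t
  have e3 : a * t + A + (a * t + A) = 0 := CharTwo.add_self_eq_zero _
  have e4 : a ^ 2 * t + B + (a ^ 2 * t + B) = 0 := CharTwo.add_self_eq_zero _
  rw [e1, e2, e3, e4, nfB_zero]

/-- the elements of `U_{n₂}⁻` -/
theorem j2_form [CharP K 2] (u : GL chevF4.Idx K) (hu : u ∈ uMinus K chevF4 [1, 2, 1, 2]) :
    ∃ a t A B : K, u = nfB a t A B := by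
  obtain ⟨htab, -⟩ := j2_tab
  have hn := j1_tab.2.2.2.2.2.1
  unfold uMinus at hu
  induction hu using Subgroup.closure_induction with
  | mem g hg =>
    obtain ⟨r, s, hr, hneg, hx⟩ := hg
    have hr48 : r < 48 := by rw [← hn]; exact hr.1
    have hg' : g = X r s := rk_eq_xGL chevF4 hF4 g r s hx
    rcases htab r hr48 hr hneg with rfl | rfl | rfl | rfl
    · exact ⟨s, 0, 0, 0, by rw [hg']; unfold nfB; simp only [xGL_zero, mul_one]⟩
    · exact ⟨0, s, 0, 0, by rw [hg']; unfold nfB; simp only [xGL_zero, mul_one, one_mul]⟩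
    · exact ⟨0, 0, s, 0, by rw [hg']; unfold nfB; simp only [xGL_zero, mul_one, one_mul]⟩
    · exact ⟨0, 0, 0, s, by rw [hg']; unfold nfB; simp only [xGL_zero, one_mul]⟩
  | one => exact ⟨0, 0, 0, 0, nfB_zero.symm⟩
  | mul x y _ _ hx hy =>
    obtain ⟨a, t, A, B, rfl⟩ := hx
    obtain ⟨a', t', A', B', rfl⟩ := hy
    exact ⟨_, _, _, _, nfB_mul a t A B a' t' A' B'⟩
  | inv x _ hx =>
    obtain ⟨a, t, A, B, rfl⟩ := hx
    exact ⟨_, _, _, _, nfB_inv a t A B⟩

/-- the coordinates of the normal form are unique -/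
theorem j2_inj [CharP K 2] (a t A B a' t' A' B' : K) (h : nfB a t A B = nfB a' t' A' B') :
    a = a' ∧ t = t' ∧ A = A' ∧ B = B' := by
  obtain ⟨-, p27, p25, p28, p30, -, -, -, -, -, -, -, -, v27, v25, v28, v30, i27, i25, i28, i30⟩ :=
    j2_tab
  have hc : ∀ r, chevF4.IsPosRoot r → ((chevF4.cartan (iaF4 r) r : ℤ) : K) ≠ 0 :=
    fun r hr => cartan_ne_zero chevF4 lvF4 41 iaF4 posF4 r hr
  -- the first two coordinates
  have key1 : ∀ (a t A B : K) (r : ℕ), r < chevF4.nroots → iaF4 r < chevF4.rank →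
      lvF4 r < 41 + 2 * 4 →
      ent chevF4 (nfB a t A B) r (iaF4 r) = -((chevF4.cartan (iaF4 r) r : ℤ) : K) *
        (([(27, a), (25, t), (28, A), (30, B)] : List (ℕ × K)).map
          fun p => if p.1 = r then p.2 else 0).sum := by
    intro a t A B r hr hi hlv
    rw [nfB_eq_wGL]
    refine wGL_ent chevF4 hF4 lvF4 41 levF4 _ 4 (by norm_num) ?_ r (iaF4 r) hr hlv hi
    intro p hp
    simp only [List.mem_cons, List.not_mem_nil, or_false] at hp
    rcases hp with rfl | rfl | rfl | rfl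
    · exact Or.inr ⟨p27.1, by rw [v27]⟩
    · exact Or.inr ⟨p25.1, by rw [v25]; norm_num⟩
    · exact Or.inr ⟨p28.1, by rw [v28]; norm_num⟩
    · exact Or.inr ⟨p30.1, by rw [v30]; norm_num⟩
  have ha : a = a' := by
    have h1 := key1 a t A B 27 p27.1 i27 (by rw [v27]; norm_num)
    have h2 := key1 a' t' A' B' 27 p27.1 i27 (by rw [v27]; norm_num)
    rw [h] at h1
    rw [h1] at h2
    have h3 := mul_left_cancel₀ (neg_ne_zero.2 (hc 27 p27)) h2
    simpa using h3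
  have ht : t = t' := by
    have h1 := key1 a t A B 25 p25.1 i25 (by rw [v25]; norm_num)
    have h2 := key1 a' t' A' B' 25 p25.1 i25 (by rw [v25]; norm_num)
    rw [h] at h1
    rw [h1] at h2
    have h3 := mul_left_cancel₀ (neg_ne_zero.2 (hc 25 p25)) h2
    simpa using h3
  subst ha
  subst ht
  -- the last two coordinates
  have h' : wGL chevF4 hF4 [(28, A), (30, B)] = wGL chevF4 hF4 [(28, A'), (30, B')] := by
    unfold nfB at h
    have h1 := mul_left_cancel (mul_left_cancel h)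
    simp only [wGL_cons, wGL_nil, mul_one]
    exact h1
  have key2 : ∀ (A B : K) (r : ℕ), r < chevF4.nroots → iaF4 r < chevF4.rank →
      lvF4 r < 41 + 2 * 9 →
      ent chevF4 (wGL chevF4 hF4 [(28, A), (30, B)]) r (iaF4 r) =
        -((chevF4.cartan (iaF4 r) r : ℤ) : K) *
        (([(28, A), (30, B)] : List (ℕ × K)).map fun p => if p.1 = r then p.2 else 0).sum := by
    intro A B r hr hi hlv
    refine wGL_ent chevF4 hF4 lvF4 41 levF4 _ 9 (by norm_num) ?_ r (iaF4 r) hr hlv hi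
    intro p hp
    simp only [List.mem_cons, List.not_mem_nil, or_false] at hp
    rcases hp with rfl | rfl
    · exact Or.inr ⟨p28.1, by rw [v28]⟩
    · exact Or.inr ⟨p30.1, by rw [v30]; norm_num⟩
  have hA : A = A' := by
    have h1 := key2 A B 28 p28.1 i28 (by rw [v28]; norm_num)
    have h2 := key2 A' B' 28 p28.1 i28 (by rw [v28]; norm_num)
    rw [h'] at h1
    rw [h1] at h2
    have h3 := mul_left_cancel₀ (neg_ne_zero.2 (hc 28 p28)) h2
    simpa using h3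
  have hB : B = B' := by
    have h1 := key2 A B 30 p30.1 i30 (by rw [v30]; norm_num)
    have h2 := key2 A' B' 30 p30.1 i30 (by rw [v30]; norm_num)
    rw [h'] at h1
    rw [h1] at h2
    have h3 := mul_left_cancel₀ (neg_ne_zero.2 (hc 30 p30)) h2
    simpa using h3
  exact ⟨rfl, rfl, hA, hB⟩

/-- the coordinates of a fixed element -/
theorem j2_fix [CharP K 2] {e : ℕ} {σ : ↥(chevF4.group K) →* ↥(chevF4.group K)}
    (hσ : IsSig K e σ) (a t A B : K) (hfix : nfB a t A B ∈ sigFix σ) :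
    a = t ^ e ∧ A = t ^ e * t + B ^ e := by
  obtain ⟨-, p27, p25, p28, p30, r27, r25, r28, r30, s27, s25, s28, s30, -⟩ := j2_tab
  have pw27 : pw e 27 = 2 * e := by unfold pw; rw [s27]; rfl
  have pw25 : pw e 25 = e := by unfold pw; rw [s25]; rfl
  have pw28 : pw e 28 = 2 * e := by unfold pw; rw [s28]; rfl
  have pw30 : pw e 30 = e := by unfold pw; rw [s30]; rfl
  obtain ⟨h, hf⟩ := (mem_sigFix σ _).1 hfix
  have e1 : (⟨nfB a t A B, h⟩ : ↥(chevF4.group K)) =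
      xG chevF4 hF4 27 a * (xG chevF4 hF4 25 t * (xG chevF4 hF4 28 A * xG chevF4 hF4 30 B)) :=
    Subtype.ext rfl
  have e2 : ((σ ⟨nfB a t A B, h⟩ : ↥(chevF4.group K)) : GL chevF4.Idx K) =
      X 25 (a ^ (2 * e)) * (X 27 (t ^ e) * (X 30 (A ^ (2 * e)) * X 28 (B ^ e))) := by
    rw [e1, map_mul, map_mul, map_mul, hσ 27 p27.1, hσ 25 p25.1, hσ 28 p28.1, hσ 30 p30.1,
      r27, r25, r28, r30, pw27, pw25, pw28, pw30]
    rfl
  have e3 : X 25 (a ^ (2 * e)) * (X 27 (t ^ e) * (X 30 (A ^ (2 * e)) * X 28 (B ^ e))) =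
      nfB 0 (a ^ (2 * e)) 0 0 * nfB (t ^ e) 0 (B ^ e) (A ^ (2 * e)) := by
    have hc := (commute_of_chk (F := K) chevF4 hF4 30 28 TwF4P.f4_cc.2.2.2.1
      (A ^ (2 * e)) (B ^ e)).eq
    unfold nfB
    simp only [xGL_zero, mul_one, one_mul]
    rw [hc]
  have e4 : nfB a t A B =
      nfB (0 + t ^ e) (a ^ (2 * e) + 0) (t ^ e * a ^ (2 * e) + 0 + B ^ e)
        ((t ^ e) ^ 2 * a ^ (2 * e) + 0 + A ^ (2 * e)) := by
    rw [← nfB_mul, ← e3, ← e2, hf]
  obtain ⟨h1, h2, h3, -⟩ := j2_inj _ _ _ _ _ _ _ _ e4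
  rw [zero_add] at h1
  rw [add_zero] at h2 h3
  refine ⟨h1, ?_⟩
  rw [h3, ← h2]

/-- `|(U_{n₂}⁻)^σ| ≤ |K|²`. -/
theorem card_J2_le [Finite K] [CharP K 2] {e : ℕ} {σ : ↥(chevF4.group K) →* ↥(chevF4.group K)}
    (hσ : IsSig K e σ) :
    Nat.card ↥(uMinus K chevF4 [1, 2, 1, 2] ⊓ sigFix σ) ≤ Nat.card K ^ 2 := by
  have hex : ∀ u : ↥(uMinus K chevF4 [1, 2, 1, 2] ⊓ sigFix σ),
      ∃ p : K × K, (u : GL chevF4.Idx K) = nfB (p.1 ^ e) p.1 (p.1 ^ e * p.1 + p.2 ^ e) p.2 := by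
    intro u
    obtain ⟨a, t, A, B, hu⟩ := j2_form (u : GL chevF4.Idx K) u.2.1
    have hfix : nfB a t A B ∈ sigFix σ := by rw [← hu]; exact u.2.2
    obtain ⟨h1, h2⟩ := j2_fix hσ a t A B hfix
    exact ⟨(t, B), by rw [hu, h1, h2]⟩
  choose f hf using hex
  have hinj : Function.Injective f := by
    intro u u' h
    apply Subtype.ext
    rw [hf u, hf u', h]
  have := Nat.card_le_card_of_injective f hinj
  rwa [Nat.card_prod, ← sq] at this

end

end Cfsg.Agent.Lib.Helper26.TF4
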