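import Mathlib
import Cfsg.Agent.Lib.Helper26.TwF4J2
import Cfsg.Agent.Lib.Helper24.TwF4BN

set_option autoImplicit false

/-! Words in the two generators of the Weyl group of `²F₄` (for the order of `²F₄(q)`). -/

namespace Cfsg.Agent.Lib.Helper26.TF4Ord

open Cfsg.Lie Cfsg.Agent.Lib.Helper24
open Cfsg.Agent.Lib.Helper25 (wPi)

/-- the two letters, as words in the fundamental reflections of `F₄` -/
def lw (l : Bool) : List ℕ := cond l [1, 2, 1, 2] [0, 3]

/-- the word in the fundamental reflections of `F₄` of a word in the two letters -/
def wordOf (L : List Bool) : List ℕ := (L.map lw).flatten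

/-- the two reduced words of the longest element -/
def W1 : List Bool := [false, true, false, true, false, true, false, true]

/-- the two reduced words of the longest element -/
def W2 : List Bool := [true, false, true, false, true, false, true, false]

theorem lw_lt (l : Bool) : ∀ i ∈ lw l, i < chevF4.rank := by
  cases l <;> decide

theorem wordOf_lt (L : List Bool) : ∀ i ∈ wordOf L, i < chevF4.rank := by
  intro i hi
  unfold wordOf at hi
  rw [List.mem_flatten] at hi
  obtain ⟨l, hl, hil⟩ := hi
  rw [List.mem_map] at hl
  obtain ⟨b, -, rfl⟩ := hl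
  exact lw_lt b i hil

/-- the longest element sends every positive root to a negative one -/
theorem w0_neg : (∀ s < 48, chevF4.IsPosRoot s → chevF4.IsNegRoot (wPi chevF4 (wordOf W1).reverse s)) ∧
    (∀ s < 48, chevF4.IsPosRoot s → chevF4.IsNegRoot (wPi chevF4 (wordOf W2).reverse s)) := by
  decide +kernel

theorem nroots_F4 : chevF4.nroots = 48 := by decide

end Cfsg.Agent.Lib.Helper26.TF4Ord
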