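import Cfsg.Agent.Lib.Helper47.UniDefs

/-!
# S2676 piece UNI-SYMCLASS: nondegenerate symmetric forms over a finite field of odd order
of the same dimension and the same standardness are isometric.
-/

set_option autoImplicit false

namespace Cfsg.Agent.Lib.Helper26.Uni

open Cfsg.Agent.Lib.Helper47 Module

universe u

section Pieces

variable {F : Type u} [Field F]

/-- dimension one: the self-pairing of a nonzero vector is nonzero, and the form is standard iff
it is a square. -/
theorem h26_isStd_iff_one {L : Type*} [AddCommGroup L] [Module F L] {s : L → L → F}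
    (hs : IsSForm (RingHom.id F) 1 s) (hnd : Nondeg s) (h1 : finrank F L = 1) (w : L)
    (hw : w ≠ 0) : s w w ≠ 0 ∧ (IsStd s ↔ IsSquare (s w w)) := by
  have hsp := (finrank_eq_one_iff_of_nonzero' w hw).mp h1
  have hc : s w w ≠ 0 := by
    intro h0
    apply hw
    apply hnd
    intro y
    obtain ⟨a, rfl⟩ := hsp y
    rw [sym_smul_right hs, h0, mul_zero]
  refine ⟨hc, ?_, ?_⟩
  · rintro ⟨v, hv⟩
    have hv0 := hv ⟨0, by omega⟩ ⟨0, by omega⟩
    rw [if_pos rfl] at hv0
    obtain ⟨t, ht⟩ := hsp (v ⟨0, by omega⟩)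
    rw [← ht, hs.smul_left, sym_smul_right hs] at hv0
    have ht0 : t ≠ 0 := by
      rintro rfl
      simp at hv0
    refine ⟨t⁻¹, ?_⟩
    field_simp
    linear_combination hv0
  · rintro ⟨r, hr⟩
    have hr0 : r ≠ 0 := by
      rintro rfl
      rw [mul_zero] at hr
      exact hc hr
    refine ⟨fun _ => r⁻¹ • w, fun a c => ?_⟩
    have hac : a = c := by
      apply Fin.ext
      have := a.2
      have := c.2
      omega
    rw [if_pos hac, hs.smul_left, sym_smul_right hs, hr]
    field_simp

/-- in a finite field of odd characteristic, two nonzero elements of the same square class have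
a square quotient. -/
theorem h26_isSquare_div [Fintype F] (h2 : (2 : F) ≠ 0) {a b : F} (ha : a ≠ 0) (hb : b ≠ 0)
    (h : IsSquare a ↔ IsSquare b) : IsSquare (a / b) := by
  have hF : ringChar F ≠ 2 := by
    intro h'
    apply h2
    have := ringChar.Nat.cast_ringChar (R := F)
    rw [h'] at this
    exact_mod_cast this
  by_cases hsa : IsSquare a
  · exact hsa.div (h.mp hsa)
  · have hsb : ¬ IsSquare b := fun hb' => hsa (h.mpr hb')
    rw [FiniteField.isSquare_iff hF ha] at hsa
    rw [FiniteField.isSquare_iff hF hb] at hsb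
    have h1 := (FiniteField.pow_dichotomy hF ha).resolve_left hsa
    have h2' := (FiniteField.pow_dichotomy hF hb).resolve_left hsb
    rw [FiniteField.isSquare_iff hF (div_ne_zero ha hb), div_pow, h1, h2']
    simp

/-- the one-dimensional case. -/
theorem h26_formIso_one [Fintype F] (h2 : (2 : F) ≠ 0)
    {L L' : Type u} [AddCommGroup L] [Module F L] [FiniteDimensional F L]
    [AddCommGroup L'] [Module F L'] [FiniteDimensional F L'] {s : L → L → F}
    {s' : L' → L' → F} (hs : IsSForm (RingHom.id F) 1 s) (hs' : IsSForm (RingHom.id F) 1 s')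
    (hnd : Nondeg s) (hnd' : Nondeg s') (h1 : finrank F L = 1) (h1' : finrank F L' = 1)
    (hstd : IsStd s ↔ IsStd s') : FormIso s s' := by
  obtain ⟨ψ₀⟩ : Nonempty (L ≃ₗ[F] L') := ⟨LinearEquiv.ofFinrankEq L L' (h1.trans h1'.symm)⟩
  have : Nontrivial L := Module.finrank_pos_iff.mp (show 0 < finrank F L by omega)
  obtain ⟨w, hw⟩ := exists_ne (0 : L)
  have hw' : ψ₀ w ≠ 0 := by
    intro h
    exact hw (by simpa using h)
  obtain ⟨hc, hi⟩ := h26_isStd_iff_one hs hnd h1 w hw
  obtain ⟨hc', hi'⟩ := h26_isStd_iff_one hs' hnd' h1' (ψ₀ w) hw'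
  obtain ⟨e, he⟩ := h26_isSquare_div h2 hc hc' (by rw [← hi, ← hi']; exact hstd)
  have he0 : e ≠ 0 := by
    rintro rfl
    rw [mul_zero] at he
    exact (div_ne_zero hc hc') he
  have hce : s w w = e * e * s' (ψ₀ w) (ψ₀ w) := by
    rw [← he]
    field_simp
  refine ⟨ψ₀.trans (LinearEquiv.smulOfNeZero F L' e he0), fun x y => ?_⟩
  have hsp := (finrank_eq_one_iff_of_nonzero' w hw).mp h1
  obtain ⟨a, rfl⟩ := hsp x
  obtain ⟨b, rfl⟩ := hsp y
  simp only [LinearEquiv.trans_apply, LinearEquiv.smulOfNeZero_apply, map_smul]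
  rw [hs'.smul_left, sym_smul_right hs', hs'.smul_left, sym_smul_right hs', hs.smul_left,
    sym_smul_right hs, hce]
  ring

/-- splitting off a vector of norm one does not change standardness. -/
theorem h26_isStd_ker {L : Type*} [AddCommGroup L] [Module F L] [FiniteDimensional F L]
    {s : L → L → F} (hs : IsSForm (RingHom.id F) 1 s) (h2 : (2 : F) ≠ 0) (v : L)
    (hv : s v v = 1) : IsStd s ↔ IsStd (resForm s (LinearMap.ker (hs.lin v))) := by
  have hv0 : s v v ≠ 0 := by rw [hv]; exact one_ne_zero
  have hfr := finrank_ker_lin_add_one hs v hv0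
  constructor
  · rintro ⟨e, he⟩
    have h0 : s (e ⟨0, by omega⟩) (e ⟨0, by omega⟩) = s v v := by rw [he, if_pos rfl, hv]
    obtain ⟨R, hR, hR0, -⟩ := exists_isometry_map hs h2 (e ⟨0, by omega⟩) v h0
      (by rw [h0]; exact hv0)
    have hmem : ∀ j : Fin (finrank F (LinearMap.ker (hs.lin v))),
        R (e ⟨j.val + 1, by have := j.2; omega⟩) ∈ LinearMap.ker (hs.lin v) := by
      intro j
      rw [LinearMap.mem_ker, IsSForm.lin_apply]
      have h1 : s (R (e ⟨j.val + 1, by have := j.2; omega⟩)) (R (e ⟨0, by omega⟩)) = 0 := by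
        rw [hR, he, if_neg]
        intro h
        have := congrArg Fin.val h
        simp at this
      rwa [hR0] at h1
    refine ⟨fun j => ⟨R (e ⟨j.val + 1, by have := j.2; omega⟩), hmem j⟩, fun a c => ?_⟩
    rw [resForm_apply]
    show s (R _) (R _) = _
    rw [hR, he]
    by_cases hac : a = c
    · subst hac
      simp
    · rw [if_neg hac, if_neg]
      intro h
      apply hac
      apply Fin.ext
      have := congrArg Fin.val h
      simpa using this
  · rintro ⟨u, hu⟩
    refine ⟨fun a => if h : a.val < finrank F (LinearMap.ker (hs.lin v)) then (u ⟨a.val, h⟩ : L)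
      else v, fun a c => ?_⟩
    have hu' : ∀ i j, s (u i : L) (u j : L) = if i = j then 1 else 0 := hu
    have huv : ∀ i, s (u i : L) v = 0 := fun i => LinearMap.mem_ker.mp (u i).2
    have hvu : ∀ i, s v (u i : L) = 0 := fun i => by
      rw [sym_comm hs (u i : L) v]
      exact huv i
    by_cases ha : a.val < finrank F (LinearMap.ker (hs.lin v)) <;>
      by_cases hc : c.val < finrank F (LinearMap.ker (hs.lin v))
    · simp only [dif_pos ha, dif_pos hc]
      rw [hu']
      by_cases hac : a = c
      · subst hac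
        simp
      · rw [if_neg hac, if_neg]
        intro h
        apply hac
        apply Fin.ext
        have := congrArg Fin.val h
        simpa using this
    · simp only [dif_pos ha, dif_neg hc]
      rw [huv, if_neg]
      intro h
      subst h
      exact hc ha
    · simp only [dif_neg ha, dif_pos hc]
      rw [hvu, if_neg]
      intro h
      subst h
      exact ha hc
    · simp only [dif_neg ha, dif_neg hc]
      rw [hv, if_pos]
      apply Fin.ext
      have := a.2
      have := c.2
      omega

theorem h26_sym_formIso_aux [Fintype F] (h2 : (2 : F) ≠ 0) (hodd : Fintype.card F % 2 = 1) :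
    ∀ (n : ℕ) (L L' : Type u) [AddCommGroup L] [Module F L] [FiniteDimensional F L]
      [AddCommGroup L'] [Module F L'] [FiniteDimensional F L'] (s : L → L → F)
      (s' : L' → L' → F), IsSForm (RingHom.id F) 1 s → IsSForm (RingHom.id F) 1 s' →
      Nondeg s → Nondeg s' → finrank F L = n → finrank F L' = n →
      (IsStd s ↔ IsStd s') → FormIso s s' := by
  intro n
  induction n with
  | zero =>
    intro L L' _ _ _ _ _ _ s s' hs hs' hnd hnd' hn hn' hstd
    have : Subsingleton L := Module.finrank_zero_iff.mp hn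
    refine ⟨LinearEquiv.ofFinrankEq L L' (hn.trans hn'.symm), fun v w => ?_⟩
    rw [Subsingleton.elim v 0, map_zero, hs.zero_left, hs'.zero_left]
  | succ n ih =>
    intro L L' _ _ _ _ _ _ s s' hs hs' hnd hnd' hn hn' hstd
    rcases Nat.eq_zero_or_pos n with rfl | hpos
    · exact h26_formIso_one h2 hs hs' hnd hnd' hn hn' hstd
    · obtain ⟨v, hv⟩ := exists_norm_eq_sym hs h2 hodd hnd (by omega) 1
      obtain ⟨v', hv'⟩ := exists_norm_eq_sym hs' h2 hodd hnd' (by omega) 1
      have hv0 : s v v ≠ 0 := by rw [hv]; exact one_ne_zero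
      have hv0' : s' v' v' ≠ 0 := by rw [hv']; exact one_ne_zero
      have hfr := finrank_ker_lin_add_one hs v hv0
      have hfr' := finrank_ker_lin_add_one hs' v' hv0'
      obtain ⟨ψ₀, hψ₀⟩ := ih (LinearMap.ker (hs.lin v)) (LinearMap.ker (hs'.lin v'))
        (resForm s _) (resForm s' _) (hs.res _) (hs'.res _) (nondeg_res_ker hs hnd v hv0)
        (nondeg_res_ker hs' hnd' v' hv0') (by omega) (by omega)
        (by rw [← h26_isStd_ker hs h2 v hv, ← h26_isStd_ker hs' h2 v' hv']; exact hstd)
      have hmem : ∀ x : L, (LinearMap.id - (hs.lin v).smulRight v : L →ₗ[F] L) x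
          ∈ LinearMap.ker (hs.lin v) := by
        intro x
        rw [LinearMap.mem_ker, IsSForm.lin_apply]
        simp only [LinearMap.sub_apply, LinearMap.id_apply, LinearMap.smulRight_apply,
          IsSForm.lin_apply]
        rw [hs.sub_left, hs.smul_left, hv, mul_one, sub_self]
      obtain ⟨proj, hproj⟩ : ∃ proj : L →ₗ[F] LinearMap.ker (hs.lin v),
          ∀ x, (proj x : L) = x - s x v • v :=
        ⟨LinearMap.codRestrict _ _ hmem, fun x => by
          simp [LinearMap.codRestrict_apply, IsSForm.lin_apply]⟩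
      obtain ⟨ψ, hψ⟩ : ∃ ψ : L →ₗ[F] L', ∀ x, ψ x = (ψ₀ (proj x) : L') + s x v • v' :=
        ⟨(LinearMap.ker (hs'.lin v')).subtype ∘ₗ ψ₀.toLinearMap ∘ₗ proj
          + (hs.lin v).smulRight v', fun x => by
          simp [IsSForm.lin_apply]⟩
      have hiso : ∀ x y, s' (ψ x) (ψ y) = s x y := by
        intro x y
        have e1 : s' (ψ₀ (proj x) : L') (ψ₀ (proj y) : L') = s (proj x : L) (proj y : L) :=
          hψ₀ (proj x) (proj y)
        have e2 : ∀ z : LinearMap.ker (hs'.lin v'), s' (z : L') v' = 0 :=
          fun z => LinearMap.mem_ker.mp z.2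
        have e3 : ∀ z : LinearMap.ker (hs'.lin v'), s' v' (z : L') = 0 := fun z => by
          rw [sym_comm hs' (z : L') v']
          exact e2 z
        rw [hψ, hψ, hs'.add_left, hs'.add_right, hs'.add_right, hs'.smul_left, hs'.smul_left,
          sym_smul_right hs', sym_smul_right hs', e1, e2, e3, hv', hproj, hproj]
        rw [hs.sub_left, hs.sub_right, hs.sub_right, hs.smul_left, hs.smul_left,
          sym_smul_right hs, sym_smul_right hs, hv, sym_comm hs y v]
        ring
      have hinj : Function.Injective ψ := by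
        rw [← LinearMap.ker_eq_bot, LinearMap.ker_eq_bot']
        intro x hx
        apply hnd
        intro y
        rw [← hiso, hx, hs'.zero_left]
      refine ⟨LinearMap.linearEquivOfInjective ψ hinj (hn.trans hn'.symm), fun x y => ?_⟩
      rw [LinearMap.linearEquivOfInjective_apply, LinearMap.linearEquivOfInjective_apply]
      exact hiso x y

-- PIECE SYMCLASS
theorem sym_formIso [Fintype F] (h2 : (2 : F) ≠ 0) (hodd : Fintype.card F % 2 = 1)
    {L L' : Type u} [AddCommGroup L] [Module F L] [FiniteDimensional F L]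
    [AddCommGroup L'] [Module F L'] [FiniteDimensional F L'] {s : L → L → F}
    {s' : L' → L' → F} (hs : IsSForm (RingHom.id F) 1 s) (hs' : IsSForm (RingHom.id F) 1 s')
    (hnd : Nondeg s) (hnd' : Nondeg s') (hdim : finrank F L = finrank F L')
    (hstd : IsStd s ↔ IsStd s') : FormIso s s' :=
  h26_sym_formIso_aux h2 hodd (finrank F L) L L' s s' hs hs' hnd hnd' rfl hdim.symm hstd

end Pieces

end Cfsg.Agent.Lib.Helper26.Uni
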