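import Cfsg.Agent.Lib.Helper47.UniDefs

/-!
# S2676 piece UNI-SYMEX: symmetric nondegenerate Gram matrices of prescribed standardness.
-/

set_option autoImplicit false

namespace Cfsg.Agent.Lib.Helper26.Uni

open Cfsg.Agent.Lib.Helper47 Module

universe u

section Pieces

variable {F : Type u} [Field F]

theorem h26_gForm_diag {k : ℕ} (d : Fin k → F) (v w : Fin k → F) :
    gForm (fun a c : Fin k => if a = c then d a else 0) v w = ∑ a, v a * d a * w a := by
  unfold gForm
  refine Finset.sum_congr rfl fun a _ => ?_
  rw [Finset.sum_eq_single a]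
  · simp only [if_pos]
  · intro c _ hc
    simp only [if_neg (Ne.symm hc)]
    ring
  · intro h
    exact absurd (Finset.mem_univ a) h

theorem h26_diag_symm_nondeg {k : ℕ} (d : Fin k → F) (hd : ∀ i, d i ≠ 0) :
    (∀ a c : Fin k, (if c = a then d c else 0) = if a = c then d a else 0) ∧
      Nondeg (gForm (fun a c : Fin k => if a = c then d a else 0)) := by
  classical
  refine ⟨fun a c => ?_, fun v hv => ?_⟩
  · by_cases h : a = c
    · subst h
      rfl
    · rw [if_neg h, if_neg (Ne.symm h)]
  · funext c
    have := hv (Pi.single c 1)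
    rw [h26_gForm_diag, Finset.sum_eq_single c] at this
    · simpa [hd c] using this
    · intro x _ hx
      simp [Pi.single_eq_of_ne hx]
    · intro h
      exact absurd (Finset.mem_univ c) h

theorem h26_not_isStd_diag {k : ℕ} (d : Fin k → F) (hd : ¬ IsSquare (∏ i, d i)) :
    ¬ IsStd (gForm (fun a c : Fin k => if a = c then d a else 0)) := by
  classical
  rintro ⟨v, hv⟩
  have hfr : finrank F (Fin k → F) = k := Module.finrank_fin_fun F
  have hP : (Matrix.of fun a c : Fin k => v (Fin.cast hfr.symm a) c) * Matrix.diagonal d *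
      (Matrix.of fun a c : Fin k => v (Fin.cast hfr.symm a) c).transpose = 1 := by
    ext a c
    rw [Matrix.mul_apply]
    simp only [Matrix.mul_diagonal, Matrix.transpose_apply, Matrix.of_apply]
    have h := hv (Fin.cast hfr.symm a) (Fin.cast hfr.symm c)
    rw [h26_gForm_diag] at h
    rw [h, Matrix.one_apply]
    by_cases hac : a = c
    · subst hac
      simp
    · rw [if_neg hac, if_neg]
      intro h'
      exact hac (Fin.cast_injective _ h')
  have hdet := congrArg Matrix.det hP
  rw [Matrix.det_mul, Matrix.det_mul, Matrix.det_transpose, Matrix.det_diagonal,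
    Matrix.det_one] at hdet
  apply hd
  have hP0 : (Matrix.of fun a c : Fin k => v (Fin.cast hfr.symm a) c).det ≠ 0 := by
    intro h
    rw [h] at hdet
    simp at hdet
  refine ⟨(Matrix.of fun a c : Fin k => v (Fin.cast hfr.symm a) c).det⁻¹, ?_⟩
  field_simp
  linear_combination hdet

-- PIECE SYMEX
theorem exists_gram_sym [Fintype F] (h2 : (2 : F) ≠ 0) (k : ℕ) (hk : 0 < k) (b : Prop) :
    ∃ G : Fin k → Fin k → F, (∀ a c, G c a = G a c) ∧ Nondeg (gForm G) ∧
      (IsStd (gForm G) ↔ b) := by
  classical
  have hF : ringChar F ≠ 2 := by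
    intro h'
    apply h2
    have := ringChar.Nat.cast_ringChar (R := F)
    rw [h'] at this
    exact_mod_cast this
  obtain ⟨η, hη⟩ := FiniteField.exists_nonsquare hF
  have hη0 : η ≠ 0 := by
    rintro rfl
    exact hη IsSquare.zero
  by_cases hb : b
  · have hd : ∀ i : Fin k, (fun _ : Fin k => (1 : F)) i ≠ 0 := fun _ => one_ne_zero
    refine ⟨fun a c => if a = c then (1 : F) else 0, (h26_diag_symm_nondeg _ hd).1,
      (h26_diag_symm_nondeg _ hd).2, fun _ => hb, fun _ => ?_⟩
    have hfr : finrank F (Fin k → F) = k := Module.finrank_fin_fun F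
    refine ⟨fun a => Pi.single (Fin.cast hfr a) 1, fun a c => ?_⟩
    rw [h26_gForm_diag (fun _ => (1 : F))]
    by_cases hac : a = c
    · subst hac
      rw [if_pos rfl, Finset.sum_eq_single (Fin.cast hfr a)]
      · simp
      · intro x _ hx
        simp [Pi.single_eq_of_ne hx]
      · intro h
        exact absurd (Finset.mem_univ _) h
    · rw [if_neg hac]
      apply Finset.sum_eq_zero
      intro x _
      by_cases hx : x = Fin.cast hfr a
      · have hx' : x ≠ Fin.cast hfr c := by
          rw [hx]
          intro h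
          exact hac (Fin.cast_injective _ h)
        simp [Pi.single_eq_of_ne hx']
      · simp [Pi.single_eq_of_ne hx]
  · have hd : ∀ i : Fin k, (fun i : Fin k => if i = ⟨0, hk⟩ then η else 1) i ≠ 0 := by
      intro i
      by_cases hi : i = ⟨0, hk⟩
      · simp only [if_pos hi]
        exact hη0
      · simp only [if_neg hi]
        exact one_ne_zero
    refine ⟨fun a c => if a = c then (if a = ⟨0, hk⟩ then η else 1) else 0,
      (h26_diag_symm_nondeg _ hd).1, (h26_diag_symm_nondeg _ hd).2,
      fun h => absurd h ?_, fun h => absurd h hb⟩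
    apply h26_not_isStd_diag (fun i : Fin k => if i = ⟨0, hk⟩ then η else 1)
    rw [Finset.prod_ite_eq' Finset.univ (⟨0, hk⟩ : Fin k) (fun _ => η), if_pos (Finset.mem_univ _)]
    exact hη

end Pieces

end Cfsg.Agent.Lib.Helper26.Uni
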